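import Cfsg.Statements.S0050
import Cfsg.Agent.H2.Hall

set_option autoImplicit false
open Cfsg

open Pointwise

namespace Cfsg.Agent.S0050

/-- Frattini argument for Hall subgroups: if L is a solvable normal subgroup and H a subgroup of L of order coprime to its index in L, then L together with the normaliser of H generates the whole group. -/
theorem result {G : Type*} [Group G] [Finite G] (L : Subgroup G) [L.Normal] (hL : Group.IsSolvable L)
    (H : Subgroup G) (hHL : H ≤ L) (hHall : (Nat.card H).Coprime (H.relIndex L)) :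
    L ⊔ Subgroup.normalizer (H : Set G) = ⊤ := by
  rw [eq_top_iff]
  intro g _
  have hgL : MulAut.conj g • H ≤ L := by
    rw [← Subgroup.Normal.conj_smul_eq_self g L]
    exact Subgroup.pointwise_smul_le_pointwise_smul_iff.mpr hHL
  obtain ⟨x, hx⟩ := H2.hall_conj_of_card_eq (G := L) (H := H.subgroupOf L)
    (K := (MulAut.conj g • H).subgroupOf L) (by rwa [H2.card_subgroupOf_of_le hHL])
    (by rw [H2.card_subgroupOf_of_le hHL, H2.card_subgroupOf_of_le hgL, H2.card_conj_smul])
  have h1 := H2.conj_smul_eq_of_subgroupOf hHL hgL x hx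
  have h2 : (x : G)⁻¹ * g ∈ Subgroup.normalizer (H : Set G) := by
    rw [← H2.conj_smul_eq_iff_mem_normalizer, ← H2.conj_smul_conj_smul, ← h1,
      H2.conj_smul_conj_smul, inv_mul_cancel, map_one, one_smul]
  have : g = x * ((x : G)⁻¹ * g) := by simp
  rw [this]
  exact Subgroup.mul_mem_sup x.2 h2

end Cfsg.Agent.S0050
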