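import Cfsg.Statements.S2697
import Mathlib
import Cfsg.Agent.H73.FieldPSL

set_option autoImplicit false
open Cfsg

namespace Cfsg.Agent.S2697

/-- Let T = PSL_n(F) be simple over a finite field (n ≥ 2; |F| ≥ 4 when n = 2) and let x be a field automorphism or a graph-field automorphism of T of prime order r. Then an element y of the coset Inndiag(T)·x (that is, y = δ x with δ in the inner-diagonal group, the image of PGL_n(F)) has order r if and only if y is conjugate to x by an element of Inndiag(T). -/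
theorem result {F : Type*} [Field F] [Fintype F] {p f : ℕ} [Fact p.Prime] (hF : Fintype.card F = p ^ f) (hf : 1 ≤ f) {n : ℕ} (hn : 2 ≤ n) (hs : n = 2 → 4 ≤ Fintype.card F) (x δ : MulAut (Matrix.ProjectiveSpecialLinearGroup (Fin n) F)) (hx : Cfsg.IsFieldAutClassPSL x ∨ Cfsg.IsGraphFieldAutClassPSL x) {r : ℕ} (hr : r.Prime) (hxr : orderOf x = r) (hδ : δ ∈ Cfsg.inndiagPSL n F) :
    orderOf (δ * x) = r ↔ Cfsg.IsConjUnder (Cfsg.inndiagPSL n F) x (δ * x) := by
  have : Nontrivial (Fin n) := Fin.nontrivial_iff_two_le.2 hn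
  have hN := H73.normal_inndiagPSL (F := F) hn
  refine ⟨fun h => ?_, fun h => (H73.orderOf_eq_of_isConjUnder h).trans hxr⟩
  have key : ∀ α x₀ : MulAut (Matrix.ProjectiveSpecialLinearGroup (Fin n) F), α * x * α⁻¹ = x₀ →
      (∀ g, (H73.diagPSL (Fin n) F g * x₀) ^ r = 1 → Cfsg.IsConjUnder (H73.diagPSL (Fin n) F).range
        x₀ (H73.diagPSL (Fin n) F g * x₀)) → Cfsg.IsConjUnder (Cfsg.inndiagPSL n F) x (δ * x) := by
    intro α x₀ e k
    have hm := hN.conj_mem δ hδ α
    rw [H73.inndiagPSL_eq_range] at hm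
    obtain ⟨g, hg⟩ := hm
    have e2 : α * (δ * x) * α⁻¹ = H73.diagPSL (Fin n) F g * x₀ := by rw [hg, ← e]; group
    rw [← H73.isConjUnder_conj α, e, e2, H73.inndiagPSL_eq_range]
    refine k g ?_
    rw [← e2, ← h, ← H73.orderOf_conj' α, pow_orderOf_eq_one]
  rcases hx with ⟨α, σ, -, hσ⟩ | ⟨h3, α, φ, γ, σ, h1, hφ, hγ, e⟩
  · rw [H73.isStdFieldAutPSL_iff] at hσ
    have ho : orderOf σ = r := by
      rw [← H73.orderOf_fieldPSL (ι := Fin n), ← hσ, H73.orderOf_conj', hxr]
    exact key α _ hσ fun g hg => H73.lang_field_psl σ g (ho ▸ hg)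
  · rw [H73.isStdFieldAutPSL_iff.1 hφ, H73.isInverseTransposeAutPSL_iff.1 hγ] at e
    obtain ⟨rfl, hσ⟩ := H73.graphField_order (ι := Fin n) (by simpa using h3) h1 hr
      (by rw [← e, H73.orderOf_conj', hxr])
    exact key α _ e fun g hg => H73.lang_graphField_psl hσ g hg

end Cfsg.Agent.S2697
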