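import Cfsg.Statements.S4300

set_option autoImplicit false
open Cfsg

namespace Cfsg.Agent.S4300

/-- Let G act faithfully and primitively on a set X, and suppose the stabilizer of some point is a simple group. Then either G is simple, or G has a normal subgroup, neither trivial nor the whole group, that acts regularly on X (transitively with trivial point stabilizers). -/
theorem result {G : Type*} [Group G] {X : Type*} [MulAction G X] [FaithfulSMul G X]
    (hprim : MulAction.IsPreprimitive G X) (x : X) (hsimple : IsSimpleGroup (MulAction.stabilizer G x)) :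
    IsSimpleGroup G ∨ ∃ N : Subgroup G, N.Normal ∧ N ≠ ⊥ ∧ N ≠ ⊤ ∧
      MulAction.IsPretransitive N X ∧ ∀ y : X, MulAction.stabilizer N y = ⊥ := by
  by_cases hs : IsSimpleGroup G
  · exact Or.inl hs
  right
  haveI : Nontrivial G := (MulAction.stabilizer G x).subtype_injective.nontrivial
  have : ∃ N : Subgroup G, N.Normal ∧ N ≠ ⊥ ∧ N ≠ ⊤ := by
    by_contra hcon
    push Not at hcon
    apply hs
    refine ⟨fun N hN => ?_⟩
    by_cases h : N = ⊥
    · exact Or.inl h
    · exact Or.inr (hcon N hN h)
  obtain ⟨N, hN, h1, h2⟩ := this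
  have htr : MulAction.IsPretransitive N X := by
    apply MulAction.IsQuasiPreprimitive.isPretransitive_of_normal
    intro h
    apply h1
    rw [eq_bot_iff]
    intro n hn
    rw [Subgroup.mem_bot]
    apply eq_of_smul_eq_smul (α := X)
    intro a
    have : a ∈ MulAction.fixedPoints N X := h ▸ Set.mem_univ a
    rw [one_smul]
    exact this ⟨n, hn⟩
  have hx : ∀ n ∈ N, n • x = x → n = 1 := by
    rcases hsimple.eq_bot_or_eq_top_of_normal (N.subgroupOf (MulAction.stabilizer G x))
      inferInstance with h | h
    · intro n hn hnx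
      have : (⟨n, hnx⟩ : MulAction.stabilizer G x) ∈ N.subgroupOf (MulAction.stabilizer G x) := hn
      rw [h, Subgroup.mem_bot] at this
      exact congrArg Subtype.val this
    · exfalso
      apply h2
      rw [eq_top_iff]
      intro g _
      obtain ⟨n, hn⟩ := htr.exists_smul_eq x (g • x)
      have hn' : (n : G) • x = g • x := hn
      have h3 : (n : G)⁻¹ * g ∈ MulAction.stabilizer G x := by
        rw [MulAction.mem_stabilizer_iff, mul_smul, ← hn', inv_smul_smul]
      have h4 : (⟨_, h3⟩ : MulAction.stabilizer G x) ∈ N.subgroupOf (MulAction.stabilizer G x) :=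
        h ▸ Subgroup.mem_top _
      have h5 : (n : G)⁻¹ * g ∈ N := h4
      simpa using mul_mem n.2 h5
  refine ⟨N, hN, h1, h2, htr, fun y => ?_⟩
  rw [eq_bot_iff]
  intro n hn
  rw [Subgroup.mem_bot]
  obtain ⟨m, hm⟩ := htr.exists_smul_eq x y
  have h3 : m⁻¹ * n * m = 1 := by
    apply Subtype.ext
    apply hx _ (m⁻¹ * n * m).2
    change (m⁻¹ * n * m) • x = x
    rw [mul_smul, mul_smul, hm, MulAction.mem_stabilizer_iff.mp hn, ← hm, inv_smul_smul]
  calc n = m * (m⁻¹ * n * m) * m⁻¹ := by group
    _ = 1 := by rw [h3]; group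

end Cfsg.Agent.S4300
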