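import Cfsg.Statements.S0375
import Cfsg.Agent.H45.Code
import Cfsg.Agent.H45.U24
import Cfsg.Agent.S0358
import Cfsg.Agent.S0359
import Cfsg.Agent.S0362

set_option autoImplicit false
open Cfsg

namespace Cfsg.Agent.S0375

/-- A doubly even self-dual binary code of length 24 with no words of weight 4 is equivalent to the length-24 code built from the squares modulo 23. -/
theorem result (C : Submodule (ZMod 2) (Fin 24 → ZMod 2)) (hdim : Module.finrank (ZMod 2) C = 12) (horth : ∀ v ∈ C, ∀ w ∈ C, ∑ i, v i * w i = 0) (h4 : ∀ w ∈ C, 4 ∣ hammingNorm w) (hno4 : ∀ w ∈ C, hammingNorm w ≠ 4) : ∃ e : Fin 24 ≃ Cfsg.GolayPt, ∀ w : Cfsg.GolayPt → ZMod 2, w ∈ Cfsg.golayCode ↔ (fun i => w (e i)) ∈ C := by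
  have hD := H45.golayLike_of_code (Fintype.card_fin 24) C hdim horth (fun w hw h0 => by
    have h1 := h4 w hw
    have h2 := hno4 w hw
    have h3 : hammingNorm w ≠ 0 := fun h => h0 (hammingNorm_eq_zero.1 h)
    omega)
  have hG := H45.golayLike_of_code H42.card_pt golayCode S0358.result
    (fun v hv w hw => S0362.result v w hv hw) (fun w hw h0 => by
      have h1 := S0359.result w hw
      have h3 : hammingNorm w ≠ 0 := fun h => h0 (hammingNorm_eq_zero.1 h)
      omega)
  obtain ⟨e, he⟩ := H45.iso24 (Fintype.card_fin 24) H42.card_pt hD.steiner hG.steiner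
  have he' : H45.mapB e {b | b ∈ supports (C : Set (Fin 24 → ZMod 2)) ∧ b.card = 8} =
    {b | b ∈ supports (golayCode : Set (GolayPt → ZMod 2)) ∧ b.card = 8} := he
  have h1 := hD.image_mem hG e (fun o ho ho8 => by
    have : o.image e ∈ H45.mapB e {b | b ∈ supports (C : Set (Fin 24 → ZMod 2)) ∧ b.card = 8} :=
      H45.image_mem_mapB.2 ⟨ho, ho8⟩
    rw [he'] at this
    exact this.1)
  have h2 := hG.image_mem hD e.symm (fun o ho ho8 => by
    have : o ∈ H45.mapB e {b | b ∈ supports (C : Set (Fin 24 → ZMod 2)) ∧ b.card = 8} := by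
      rw [he']; exact ⟨ho, ho8⟩
    exact (H45.mem_mapB.1 this).1)
  refine ⟨e, fun w => ?_⟩
  have h3 : support₂ (fun i => w (e i)) = (support₂ w).image e.symm := by
    ext i
    simp only [H45.mem_support₂, Finset.mem_image]
    constructor
    · intro h; exact ⟨e i, h, by simp⟩
    · rintro ⟨p, hp, rfl⟩; simpa using hp
  constructor
  · intro hw
    have := h2 _ (H45.support_mem_supports_iff.2 hw)
    rw [← h3] at this
    exact H45.support_mem_supports_iff.1 this
  · intro hw
    have := h1 _ (H45.support_mem_supports_iff.2 hw)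
    rw [h3, H45.image_image_symm] at this
    exact H45.support_mem_supports_iff.1 this

end Cfsg.Agent.S0375
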