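import Cfsg.Statements.S3704
import Cfsg.Agent.H11.PermChar

set_option autoImplicit false
open Cfsg

namespace Cfsg.Agent.S3704

open MulAction

theorem card_orbits_quot_prod {G Ω : Type*} [Group G] [MulAction G Ω] (H : Subgroup G) :
    Nat.card (orbitRel.Quotient G ((G ⧸ H) × Ω)) = Nat.card (orbitRel.Quotient H Ω) := by
  symm
  let f : orbitRel.Quotient H Ω → orbitRel.Quotient G ((G ⧸ H) × Ω) :=
    Quotient.map (fun a => (((1 : G) : G ⧸ H), a)) (fun a b hab => by
      obtain ⟨h, rfl⟩ := hab
      refine ⟨(h : G), Prod.ext ?_ rfl⟩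
      show (((h : G) * 1 : G) : G ⧸ H) = ((1 : G) : G ⧸ H)
      rw [QuotientGroup.eq]
      simp)
  refine Nat.card_congr (Equiv.ofBijective f ⟨fun a b => ?_, fun c => ?_⟩)
  · induction a using Quotient.inductionOn with | _ a =>
    induction b using Quotient.inductionOn with | _ b =>
    intro hab
    obtain ⟨g, hg⟩ := Quotient.exact hab
    have h1 : ((g * 1 : G) : G ⧸ H) = ((1 : G) : G ⧸ H) := congrArg Prod.fst hg
    have h2 : g • b = a := congrArg Prod.snd hg
    rw [QuotientGroup.eq] at h1
    refine Quotient.sound ⟨⟨g, by simpa using h1⟩, h2⟩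
  · induction c using Quotient.inductionOn with | _ c =>
    obtain ⟨x, a⟩ := c
    induction x using QuotientGroup.induction_on with | _ g =>
    refine ⟨Quotient.mk _ (g⁻¹ • a), Quotient.sound ⟨g⁻¹, Prod.ext ?_ rfl⟩⟩
    show ((g⁻¹ * g : G) : G ⧸ H) = ((1 : G) : G ⧸ H)
    rw [inv_mul_cancel]

/-- Let G be a finite group acting faithfully and 2-transitively on a finite set Ω of size n, and let H be a subgroup of index n in G which is not transitive on Ω and fixes no point of Ω. Then H has exactly two orbits on Ω. -/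
theorem result {G Ω : Type*} [Group G] [Finite G] [MulAction G Ω] [FaithfulSMul G Ω] [Finite Ω] (h2 : MulAction.IsMultiplyPretransitive G Ω 2) (H : Subgroup G) (hidx : H.index = Nat.card Ω) (hnt : ¬ MulAction.IsPretransitive H Ω) (hfix : ∀ a : Ω, ∃ h : H, h • a ≠ a) : Nat.card (MulAction.orbitRel.Quotient H Ω) = 2 := by
  classical
  have := Fintype.ofFinite G
  have hne : Nonempty Ω := by
    by_contra h
    rw [not_nonempty_iff] at h
    exact hnt ⟨fun a => (h.false a).elim⟩
  have hnt' : Nontrivial Ω := by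
    obtain ⟨a⟩ := hne
    obtain ⟨h, hh⟩ := hfix a
    exact ⟨⟨_, _, hh⟩⟩
  have hcard : 2 ≤ Nat.card Ω := Finite.one_lt_card
  have htr : IsPretransitive G Ω := by
    have := isMultiplyPretransitive_of_le (G := G) (α := Ω) (n := 2) (m := 1) (by norm_num) hcard
    exact is_one_pretransitive_iff.1 this
  have hirr := (H11.isIrrCharacter_permChar_sub_one_iff (G := G) Ω).2 h2
  set χ : G → ℂ := H11.permChar G Ω - fun _ => 1 with hχ
  set t := Nat.card (orbitRel.Quotient H Ω) with ht
  have ht1 : t ≠ 1 := by
    intro h1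
    obtain ⟨hs, -⟩ := Nat.card_eq_one_iff_unique.1 h1
    refine hnt ⟨fun a b => ?_⟩
    have : (Quotient.mk _ b : orbitRel.Quotient H Ω) = Quotient.mk _ a := hs.elim _ _
    exact Quotient.exact this
  have ht0 : t ≠ 0 := by
    have : Nonempty (orbitRel.Quotient H Ω) := ⟨Quotient.mk _ (Classical.arbitrary Ω)⟩
    exact Nat.card_pos.ne'
  by_contra ht2
  have ht3 : 3 ≤ t := by omega
  have hθ := H11.isCharacter_permChar_sub_one (G := G) (G ⧸ H)
  set θ : G → ℂ := H11.permChar G (G ⧸ H) - fun _ => 1 with hθdef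
  have hin : classInner θ χ = (t : ℂ) - 1 := by
    rw [hθdef, hχ, H11.classInner_sub_left, H11.classInner_sub_right, H11.classInner_sub_right,
      H11.classInner_permChar_permChar, H11.classInner_permChar_one_of_isPretransitive,
      H11.classInner_one_one,
      H11.classInner_comm_of_isCharacter H11.isCharacter_one (H11.isCharacter_permChar Ω),
      H11.classInner_permChar_one_of_isPretransitive, card_orbits_quot_prod]
    ring
  have h1 : IsCharacter G (θ - χ) := by
    refine H11.isCharacter_sub_irr hθ hirr ?_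
    rw [hin, sub_ne_zero]
    exact_mod_cast ht1
  have h3 : IsCharacter G (θ - χ - χ) := by
    refine H11.isCharacter_sub_irr h1 hirr ?_
    rw [H11.classInner_sub_left, hin, H11.classInner_irr_self hirr, sub_sub, sub_ne_zero]
    exact_mod_cast ht2
  obtain ⟨m, hm⟩ := H11.exists_nat_degree h3
  simp only [hθdef, hχ, Pi.sub_apply, H11.permChar_one] at hm
  rw [← Subgroup.index_eq_card, hidx] at hm
  have h4 : ((1 : ℕ) : ℂ) = (m + Nat.card Ω : ℕ) := by
    push_cast
    rw [← hm]; ring
  have h5 : 1 = m + Nat.card Ω := by exact_mod_cast h4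
  omega

end Cfsg.Agent.S3704
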