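import Cfsg.Statements.S1781
import Cfsg.Agent.H81.TI

set_option autoImplicit false
open Cfsg

namespace Cfsg.Agent.S1781


/-- Let A be an abelian 2-subgroup of the finite group G such that every conjugate of A equals A or meets A trivially, and let g ∈ G with g A g⁻¹ ≠ A. Then either the subgroup of those elements of A that normalize g A g⁻¹ is an elementary abelian 2-group, or A and g A g⁻¹ commute elementwise. -/
theorem result {G : Type*} [Group G] [Finite G] (A : Subgroup G)
    (hA2 : IsPGroup 2 ↥A) (hAa : IsMulCommutative ↥A)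
    (hti : ∀ h : G, A.map (MulAut.conj h).toMonoidHom = A ∨ A.map (MulAut.conj h).toMonoidHom ⊓ A = ⊥)
    (g : G) (hg : A.map (MulAut.conj g).toMonoidHom ≠ A) :
    Cfsg.IsElementaryAbelian 2 (A ⊓ Subgroup.normalizer ((A.map (MulAut.conj g).toMonoidHom : Subgroup G) : Set G)) ∨
      ⁅A, A.map (MulAut.conj g).toMonoidHom⁆ = ⊥ := by
  classical
  set B := A.map (MulAut.conj g).toMonoidHom with hB
  have hAB : A ⊓ B = ⊥ := by rw [inf_comm]; exact (hti g).resolve_left hg
  have hB2 : IsPGroup 2 B := H85.isPGroup_cj g hA2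
  have hBa : IsMulCommutative B := inferInstance
  by_cases h : ∀ t ∈ A ⊓ Subgroup.normalizer (B : Set G), t ^ 2 = 1
  · left
    refine ⟨⟨⟨fun a b => Subtype.ext ?_⟩⟩, h⟩
    exact Subgroup.mul_comm_of_mem_isMulCommutative A a.2.1 b.2.1
  right
  push Not at h
  obtain ⟨t, ⟨htA, htN⟩, ht2⟩ := h
  have hcent : ∀ b ∈ B, t * b = b * t := by
    letI : CommGroup B := IsMulCommutative.instCommGroup
    let τ : MulAut B := B.normalizerMonoidHom ⟨t, htN⟩
    obtain ⟨k, hk⟩ := hA2 ⟨t, htA⟩
    have hτ : τ ^ 2 ^ k = 1 := by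
      rw [← map_pow]
      have : (⟨t, htN⟩ : Subgroup.normalizer (B : Set G)) ^ 2 ^ k = 1 :=
        Subtype.ext (by simpa using congrArg Subtype.val hk)
      rw [this, map_one]
    have hval : ∀ b : B, (τ b : G) = t * b * t⁻¹ := fun b => rfl
    have := H81.aut_eq_of_sq_fixed hB2 τ k hτ (by
      intro b hb
      have h1 : t * (t * b * t⁻¹) * t⁻¹ = b := congrArg Subtype.val hb
      have h2 : (b : G) * t ^ 2 = t ^ 2 * b := by
        calc (b : G) * t ^ 2 = (t * (t * b * t⁻¹) * t⁻¹) * t ^ 2 := by rw [h1]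
          _ = _ := by rw [pow_two]; group
      have hbN := H81.mem_normalizer_of_ti (hti b) (A.pow_mem htA 2) ht2 h2
      have h3 : t * b * t⁻¹ * (b : G)⁻¹ ∈ A ⊓ B := by
        refine ⟨?_, B.mul_mem (τ b).2 (B.inv_mem b.2)⟩
        have := (Subgroup.mem_normalizer_iff.1 hbN t⁻¹).1 (A.inv_mem htA)
        simpa [mul_assoc] using A.mul_mem htA this
      rw [hAB, Subgroup.mem_bot] at h3
      exact Subtype.ext (mul_inv_eq_one.1 h3))
    intro b hb
    have h4 : t * b * t⁻¹ = b := congrArg Subtype.val (this ⟨b, hb⟩)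
    calc t * b = (t * b * t⁻¹) * t := by group
      _ = b * t := by rw [h4]
  have ht1 : t ≠ 1 := by rintro rfl; simp at ht2
  have hN : B ≤ Subgroup.normalizer (A : Set G) := fun b hb =>
    H81.mem_normalizer_of_ti (hti b) htA ht1 (hcent b hb).symm
  refine H81.commutator_eq_bot_of_ti hA2 hB2 ?_ (H85.card_cj g A).ge hAB hN
  intro a ha b hb hb1 hc
  refine H81.mem_normalizer_of_ti ?_ hb hb1 hc
  have hc : H85.cj a B = H85.cj g (H85.cj (g⁻¹ * a * g) A) := by
    rw [hB, ← H85.cj_mul, ← H85.cj_mul]; congr 1; group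
  rcases hti (g⁻¹ * a * g) with h | h
  · left; rw [hc]; exact congrArg _ h
  · right; rw [hc, hB, ← H85.cj_inf, H85.cj_eq_bot_iff]; exact h

end Cfsg.Agent.S1781
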