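import Cfsg.Statements.S5008
import Cfsg.Agent.S0191
import Cfsg.Agent.S0907
import Cfsg.Agent.H23.Cyclic
import Cfsg.Agent.H11.Inner

set_option autoImplicit false
open Cfsg

namespace Cfsg.Agent.S5008

/-- Let `G` be a finite group and `p` a prime dividing the size of no vanishing conjugacy class of `G` (a class of an element on which some irreducible complex character takes the value zero). Then `G` has a normal `p`-complement and abelian Sylow `p`-subgroups. The known proof uses the classification of finite simple groups. -/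
theorem result {G : Type*} [Group G] [Finite G] (p : ℕ) [Fact p.Prime]
    (h : ∀ x : G, (∃ χ : Cfsg.IrrCharacter G, (χ : G → ℂ) x = 0) → ¬ p ∣ (Subgroup.centralizer ({x} : Set G)).index) :
    Cfsg.HasNormalPComplement p G ∧ ∀ P : Sylow p G, IsMulCommutative (P : Subgroup G) := by
  classical
  have hp : p.Prime := Fact.out
  obtain ⟨M, hM⟩ := H23.exists_isPModular hp
  have nat : ∀ n : ℕ, ¬ p ∣ n → ¬ MemLocalIdeal M (n : ℂ) := by
    rintro n hn ⟨a, b, ha, hb, e⟩
    have b0 : (b : ℂ) ≠ 0 := fun h0 => hb (by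
      have : b = 0 := Subtype.ext h0
      rw [this]; exact M.zero_mem)
    have e1 : a = (n : AlgInt) * b := Subtype.ext (by
      rw [div_eq_iff b0] at e
      simpa using e)
    rw [e1] at ha
    have hnM : (n : AlgInt) ∈ M := (hM.2.1.isPrime.mem_or_mem ha).resolve_right hb
    have hc : IsCoprime (p : AlgInt) (n : AlgInt) :=
      Nat.Coprime.cast ((Nat.Prime.coprime_iff_not_dvd hp).2 hn)
    obtain ⟨u, v, huv⟩ := hc
    exact hM.2.1.ne_top ((Ideal.eq_top_iff_one M).2
      (huv ▸ M.add_mem (M.mul_mem_left u hM.2.2) (M.mul_mem_left v hnM)))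
  have lin : ∀ χ ∈ principalBlock M G, (χ : G → ℂ) 1 = 1 := by
    rintro ⟨χ, n, ρ, hρ, rfl⟩ hχ
    have h1 : ρ.character 1 = (Module.finrank ℂ (Fin n → ℂ) : ℂ) := ρ.char_one
    have nz : ∀ g, ρ.character g ≠ 0 := by
      intro g hg
      refine nat _ (h g ⟨⟨_, n, ρ, hρ, rfl⟩, hg⟩) ?_
      have := hχ g
      simpa [centralChar, hg] using this
    change ρ.character 1 = 1
    rw [h1]
    rcases lt_trichotomy 1 (Module.finrank ℂ (Fin n → ℂ)) with l | l | l
    · obtain ⟨g, hg⟩ := S0191.result ρ l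
      exact absurd hg (nz g)
    · rw [← l, Nat.cast_one]
    · exact absurd (by rw [h1, Nat.lt_one_iff.1 l, Nat.cast_zero]) (nz 1)
  have one : IsIrrCharacter G (fun _ => (1 : ℂ)) := H11.isIrrCharacter_one
  have reg : ∀ y ∈ commutator G, ¬ p ∣ orderOf y := by
    intro y hy hpy
    have h0 := S0907.result p M hM (principalBlock M G) ⟨⟨_, one⟩, rfl⟩ 1 y
      (by simpa using hp.one_lt.ne') hpy
    have h1 : ∀ χ ∈ principalBlock M G, (χ : G → ℂ) 1 * (starRingEnd ℂ) ((χ : G → ℂ) y) = 1 := by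
      intro χ hχ
      obtain ⟨n, ρ, -, e⟩ := χ.2
      obtain ⟨lam, hl⟩ := H11.exists_monoidHom_of_apply_one_eq_one ⟨n, ρ, e⟩ (lin χ hχ)
      have : lam y = 1 := Abelianization.commutator_subset_ker lam hy
      rw [lin χ hχ, hl]
      simp [this]
    rw [finsum_mem_congr rfl h1, finsum_mem_eq_finite_toFinset_sum _ (Set.toFinite _)] at h0
    simp only [Finset.sum_const, nsmul_eq_mul, mul_one, Nat.cast_eq_zero, Finset.card_eq_zero,
      Set.Finite.toFinset_eq_empty] at h0
    have : (⟨_, one⟩ : IrrCharacter G) ∈ principalBlock M G := fun g =>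
      ⟨0, 1, M.zero_mem, fun h1 => hM.2.1.ne_top ((Ideal.eq_top_iff_one M).2 h1), by simp⟩
    rw [h0] at this
    exact this
  have key : ∀ (P : Sylow p G) (n a : G), n * a * n⁻¹ ∈ (P : Subgroup G) → a ∈ (P : Subgroup G) →
      a * n = n * a := by
    intro P n a h1 h2
    have h3 : n * a * n⁻¹ * a⁻¹ ∈ (P : Subgroup G) := mul_mem h1 (inv_mem h2)
    obtain ⟨k, hk⟩ := P.isPGroup' ⟨_, h3⟩
    have h4 : orderOf (n * a * n⁻¹ * a⁻¹) ∣ p ^ k :=
      orderOf_dvd_of_pow_eq_one (congrArg Subtype.val hk)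
    have h5 := reg (n * a * n⁻¹ * a⁻¹)
      (Subgroup.commutator_mem_commutator (Subgroup.mem_top n) (Subgroup.mem_top a))
    have h6 : n * a * n⁻¹ * a⁻¹ = 1 := orderOf_eq_one_iff.1
      ((((Nat.Prime.coprime_iff_not_dvd hp).2 h5).symm.pow_right k).eq_one_of_dvd h4)
    rw [mul_inv_eq_one, mul_inv_eq_iff_eq_mul] at h6
    exact h6.symm
  have ab : ∀ P : Sylow p G, IsMulCommutative (P : Subgroup G) := fun P => ⟨⟨fun a b =>
    Subtype.ext (key P b a (mul_mem (mul_mem b.2 a.2) (inv_mem b.2)) a.2)⟩⟩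
  refine ⟨?_, ab⟩
  obtain ⟨P⟩ : Nonempty (Sylow p G) := inferInstance
  have hP : Subgroup.normalizer ((P : Subgroup G) : Set G) ≤
      Subgroup.centralizer ((P : Subgroup G) : Set G) := fun n hn =>
    Subgroup.mem_centralizer_iff.2 fun a ha =>
      key P n a ((Subgroup.mem_normalizer_iff.1 hn a).1 ha) ha
  exact ⟨P, _, inferInstance, MonoidHom.ker_transferSylow_isComplement' P hP⟩

end Cfsg.Agent.S5008
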