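import Cfsg.Statements.S1851
import Cfsg.Agent.H83.FStarP
import Cfsg.Agent.H83.Parab

set_option autoImplicit false
open Cfsg

namespace Cfsg.Agent.S1851

open Subgroup Cfsg.Agent.H83
open scoped commutatorElement

section
variable {G : Type*} [Group G] [Finite G]

omit [Finite G] in
theorem odd_eq (H : Subgroup G) : oddGenerated H = resOf 2 H := by
  rw [resOf_eq, oddGenerated]
  simp only [Nat.coprime_two_right]

omit [Finite G] in
theorem calL_facts {T L : Subgroup G} (h : L ∈ calL T) :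
    L ≠ ⊥ ∧ ⁅L, L⁆ = L ∧ SubnIn L (L ⊔ T) ∧ pCoreOf 2 (L ⊔ T) ≠ ⊥ := by
  obtain ⟨⟨h1, h2, h3, -⟩, -, h4⟩ := h
  refine ⟨fun e => h1 (by rw [e, bot_subgroupOf]), ?_, ⟨le_sup_left, h3⟩,
    fun e => h4 (pCoreOf_eq_bot_iff.mp e)⟩
  have := congrArg (map (L ⊔ T).subtype) h2
  rwa [map_commutator, subgroupOf_map_of_le le_sup_left] at this

theorem aux {p : ℕ} [Fact p.Prime] {K L : Subgroup G} (hK : CharP p K) (hLK : L ≤ K)
    (hn : pCoreOf p K ≤ normalizer (L : Set G)) (hr : resOf p L = L)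
    (h : K ≤ centralizer (OZ p (pCoreOf p K) : Set G)) :
    L ≤ centralizer (OZ p (pCoreOf p L) : Set G) := by
  nth_rewrite 1 [← hr]
  refine resOf_le_iff.mpr fun x hx hc => ?_
  set B := pCoreOf p K
  set V := OZ p (pCoreOf p L)
  have hB := pCoreOf_isPGroup (p := p) K
  have hz : zpowers x ≤ L := zpowers_le.mpr hx
  have hzB : zpowers x ≤ normalizer (B : Set G) := (hz.trans hLK).trans (le_norm_pCoreOf K)
  have e := H4.commutator_sup_centralizer hzB (coprime_zpowers hc hB)
    (Or.inr (H4.isSolvable_of_isPGroup hB))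
  refine thompson_elt hc (P := B ⊓ centralizer (zpowers x : Set G)) hB.to_inf_left
    (EA_isPGroup (EA_OZ _)) (mem_cent_iff_le.mpr inf_le_right)
    (inf_le_left.trans (norm_OZ (norm_pCoreOf hn))) (norm_OZ (le_norm_pCoreOf L) hx) ?_
  refine cent_anti ?_ (h (hLK hx))
  have h1 : V ⊓ centralizer ((B ⊓ centralizer (zpowers x : Set G) : Subgroup G) : Set G) ≤
      centralizer (B : Set G) := by
    nth_rewrite 2 [← e]
    rw [centralizer_sup]
    refine le_inf (inf_le_left.trans ((OZ_le_cent _).trans (cent_anti ?_))) inf_le_right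
    exact (le_inf (comm_le_left hzB) ((commutator_mono le_rfl hz).trans
      (comm_le_right hn))).trans (pCoreOf_inf_le hLK)
  exact le_OZ ((le_inf (inf_le_left.trans (((OZ_le _).trans (pCoreOf_le L)).trans hLK)) h1).trans
    hK) h1 fun a ha => (EA_OZ _).2 a ha.1

end

/-- Let G be a non-abelian finite simple QTKE-group and T a Sylow 2-subgroup of G, and let L be a member of ℒ_f(G, T) (a member of ℒ(G, T) that lies in 𝒳 — L ≠ 1, L = O²(L), F*(L) = O₂(L) — and acts nontrivially on Ω₁(Z(O₂(L)))). Then (1) every member K of ℒ(G, T) containing L is again in ℒ_f(G, T) (a sharper form of (1) also compares the modules [Ω₁(Z(R)), L] and [Ω₁(Z(R')), K] for suitable 2-subgroups R, R'; that comparison is not included); and (2) if L is maximal under inclusion among the members of ℒ_f(G, T), then L is a maximal member of ℒ(G, T), hence a member of ℒ_f*(G, T). -/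
theorem result {G : Type*} [Group G] [Finite G] [IsSimpleGroup G]
    (hG : ¬ IsMulCommutative G) (hQ : Cfsg.IsQTKE G) (T : Sylow 2 G) (L : Subgroup G)
    (hL : L ∈ Cfsg.calLf (T : Subgroup G)) :
    (∀ K ∈ Cfsg.calL (T : Subgroup G), L ≤ K → K ∈ Cfsg.calLf (T : Subgroup G)) ∧
    ((∀ K ∈ Cfsg.calLf (T : Subgroup G), L ≤ K → K = L) → L ∈ Cfsg.calLfMax (T : Subgroup G)) := by
  haveI : Fact (Nat.Prime 2) := ⟨Nat.prime_two⟩
  have hP : Cfsg.IsOfParabolicCharacteristic 2 G := fun R hR h0 hp =>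
    hQ.2.2 _ ⟨R, hR, h0, rfl⟩ hp
  have main : ∀ K ∈ Cfsg.calL (T : Subgroup G), L ≤ K → K ∈ Cfsg.calLf (T : Subgroup G) := by
    intro K hK hLK
    obtain ⟨k1, k2, k3, k4⟩ := calL_facts hK
    obtain ⟨l1, l2, l3, l4⟩ := calL_facts hL.1
    have hc : CharP 2 K := (parChar_charP hP (isSylowIn_top T) le_sup_right k4).of_subnIn k3
    refine ⟨hK, ⟨k1, (odd_eq K).trans (resOf_eq_self_of_perfect k2), charP_iff_fstar.mp hc⟩,
      fun e => hL.2.2 ?_⟩
    have hr := resOf_eq_self_of_perfect (p := 2) l2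
    refine comm_eq_bot_iff.mpr (aux hc hLK ?_ hr (comm_eq_bot_iff.mp e))
    have h1 := l3.pCoreOf_le_norm_resOf (p := 2)
    rw [hr] at h1
    refine k3.pCoreOf_le.trans ((pCoreOf_le_pCoreOf_of_le (sup_le_sup_right hLK _) ?_).trans h1)
    exact (isSylowIn_of_sylow T le_sup_right).pCoreOf_le.trans le_sup_right
  exact ⟨main, fun h => ⟨⟨hL.1, fun K hK hLK => h K (main K hK hLK) hLK⟩, hL.2⟩⟩

end Cfsg.Agent.S1851
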