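import Cfsg.Statements.S1823
import Cfsg.Agent.H82.TI

set_option autoImplicit false
open Cfsg

namespace Cfsg.Agent.S1823

open Subgroup Cfsg.Agent.H82 Cfsg.Agent.H83

/-- A common nontrivial normal 2-subgroup for a pair of 2-local-type subgroups over a Sylow 2-subgroup of a simple QTKE-group. Let G be a non-abelian finite simple QTKE-group and T a Sylow 2-subgroup of G. Let M₀ and H be subgroups of G containing T with O₂(M₀) ≠ 1 and O₂(H) ≠ 1, such that T lies in a unique maximal subgroup of H. Let R be a nontrivial subgroup of T that is a Sylow 2-subgroup of O²(H)R and is normalized by M₀. Then some nontrivial subgroup R₀ of R is normalized by both M₀ and H (that is, R₀ is normal in ⟨M₀, H⟩). -/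
theorem result {G : Type*} [Group G] [Finite G] [IsSimpleGroup G]
    (hG : ¬ IsMulCommutative G) (hQ : Cfsg.IsQTKE G) (T : Sylow 2 G) (M₀ H : Subgroup G)
    (hM₀ : M₀ ∈ Cfsg.calHOver (T : Subgroup G)) (hH : H ∈ Cfsg.calHOver (T : Subgroup G))
    (hU : ∃! K : Subgroup ↥H, IsCoatom K ∧ (T : Subgroup G).subgroupOf H ≤ K)
    (R : Subgroup G) (hR : R ≠ ⊥) (hRT : R ≤ (T : Subgroup G))
    (hRS : ∃ P : Sylow 2 ↥(Cfsg.oddGenerated H ⊔ R),
      (P : Subgroup ↥(Cfsg.oddGenerated H ⊔ R)) = R.subgroupOf (Cfsg.oddGenerated H ⊔ R))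
    (hRM : M₀ ≤ Subgroup.normalizer (R : Set G)) :
    ∃ R₀ : Subgroup G, R₀ ≠ ⊥ ∧ R₀ ≤ R ∧ M₀ ⊔ H ≤ Subgroup.normalizer (R₀ : Set G) := by
  haveI : Fact (Nat.Prime 2) := ⟨Nat.prime_two⟩
  have hG' : ∀ Z : Subgroup G, IsPGroup 2 Z → Z ≠ ⊥ → (T : Subgroup G) ≤ normalizer (Z : Set G) →
      CharP 2 (normalizer (Z : Set G)) := fun Z h1 h2 h3 =>
    charP_iff.2 (hQ.2.2 _ ⟨Z, h1, h2, rfl⟩ ⟨T, h3⟩)
  have hT := isSylowIn_of_sylow T hH.2
  have h1 : CharP 2 H := (hG' (pCoreOf 2 H) (pCoreOf_isPGroup H) (fun h => hH.1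
    ((map_eq_bot_iff_of_injective _ H.subtype_injective).1 h))
    (hH.2.trans (le_norm_pCoreOf H))).of_le (le_norm_pCoreOf H)
    ((isSylowIn_of_sylow T (hH.2.trans (le_norm_pCoreOf H))).pCoreOf_le.trans hH.2)
  obtain ⟨M, hM⟩ := H85.exists_uniqMax_top_iff.2 hU
  rw [← H85.uniqMax_map_subtype_iff, subgroupOf_map_of_le hH.2] at hM
  have h2 : oddGenerated H = resOf 2 H := by
    rw [resOf_eq, oddGenerated]
    simp only [Nat.coprime_two_right]
  obtain ⟨P, hP⟩ := hRS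
  have h3 := isSylowIn_of_eq_subgroupOf le_sup_right P hP
  rw [h2] at h3
  exact exists_common hT hM h1 hRT h3 hR (isSylowIn_of_sylow T hM₀.2) hRM fun Z h4 h5 h6 =>
    ⟨hG' Z (T.isPGroup'.to_le h4) h5 h6, isSylowIn_of_sylow T h6⟩

end Cfsg.Agent.S1823
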