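import Cfsg.Statements.S0020
import Cfsg.Agent.H2.Systems

set_option autoImplicit false
open Pointwise
open Cfsg

namespace Cfsg.Agent.S0020

/-- A finite solvable group admits a Sylow system: Sylow subgroups, one for each prime, that pairwise permute as sets. -/
theorem result {G : Type*} [Group G] [Finite G] [Group.IsSolvable G] :
    ∃ S : (p : Nat.Primes) → Sylow (p : ℕ) G,
      ∀ p q : Nat.Primes, (S p : Set G) * (S q : Set G) = (S q : Set G) * (S p : Set G) := by
  obtain ⟨K, hK⟩ := H2.exists_isComplementSystem G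
  have h : ∀ p : Nat.Primes, ∃ P : Sylow (p : ℕ) G, (P : Subgroup G) = H2.hallOf K {(p : ℕ)} := by
    intro p
    have : Fact (p : ℕ).Prime := ⟨p.2⟩
    exact H2.exists_sylow_eq_of_isPiHall (H2.isPiHall_hallOf hK _)
  choose S hS using h
  refine ⟨S, fun p q => ?_⟩
  rw [← Sylow.coe_coe, ← Sylow.coe_coe, hS, hS, H2.hallOf_mul_hallOf hK, H2.hallOf_mul_hallOf hK,
    Set.union_comm]

end Cfsg.Agent.S0020
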