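import Cfsg.Statements.S0021
import Cfsg.Agent.S0006

set_option autoImplicit false
open Pointwise
open Cfsg

namespace Cfsg.Agent.S0021

/-- A finite group with a family of pairwise permuting Sylow subgroups, one for each prime, is solvable (this direction rests on Burnside's two-prime Theorem). -/
theorem result {G : Type*} [Group G] [Finite G]
    (S : (p : Nat.Primes) → Sylow (p : ℕ) G)
    (hS : ∀ p q : Nat.Primes, (S p : Set G) * (S q : Set G) = (S q : Set G) * (S p : Set G)) :
    Group.IsSolvable G := by
  open Subgroup in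
  classical
  have key : ∀ T : Finset Nat.Primes,
      (∀ r : Nat.Primes, ((T.sup fun q => (S q : Subgroup G) : Subgroup G) : Set G) * (S r : Set G)
        = (S r : Set G) * ((T.sup fun q => (S q : Subgroup G) : Subgroup G) : Set G)) ∧
      ∀ p : ℕ, p.Prime → p ∣ Nat.card (T.sup fun q => (S q : Subgroup G) : Subgroup G) →
        ∃ q ∈ T, p = q := by
    intro T
    induction T using Finset.induction_on with
    | empty =>
      refine ⟨fun r => by simp [Set.singleton_one], fun p hp hd => ?_⟩
      rw [Finset.sup_empty, card_bot] at hd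
      exact absurd (Nat.dvd_one.1 hd) hp.ne_one
    | insert a T _ ih =>
      obtain ⟨ih1, ih2⟩ := ih
      rw [Finset.sup_insert]
      have h1 := H1.coe_sup_of_mul_comm (A := (S a : Subgroup G))
        (B := T.sup fun q => (S q : Subgroup G)) (ih1 a).symm
      refine ⟨fun r => ?_, fun p hp hd => ?_⟩
      · rw [h1, mul_assoc, ih1 r, ← mul_assoc, Sylow.coe_coe, hS a r, mul_assoc]
      · have h2 := hd.trans ⟨_, (H1.card_sup_mul_card_inf_of_coe h1).symm⟩
        rcases hp.dvd_mul.1 h2 with h3 | h3
        · have : Fact (a : ℕ).Prime := ⟨a.2⟩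
          obtain ⟨k, hk⟩ := IsPGroup.iff_card.1 (S a).isPGroup'
          rw [hk] at h3
          exact ⟨a, Finset.mem_insert_self _ _,
            (Nat.prime_dvd_prime_iff_eq hp a.2).1 (hp.dvd_of_dvd_pow h3)⟩
        · obtain ⟨q, hq, e⟩ := ih2 p hp h3
          exact ⟨q, Finset.mem_insert_of_mem hq, e⟩
  refine S0006.result fun p hp => ?_
  let T : Finset Nat.Primes :=
    ((Nat.card G).primeFactors.erase p).subtype Nat.Prime
  refine ⟨T.sup fun q => (S q : Subgroup G), ?_⟩
  set K : Subgroup G := T.sup fun q => (S q : Subgroup G)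
  have h1 : ¬ p ∣ Nat.card K := by
    intro hd
    obtain ⟨q, hq, rfl⟩ := (key T).2 p hp hd
    exact (Finset.mem_erase.1 (Finset.mem_subtype.1 hq)).1 rfl
  have h2 : K.index = p ^ K.index.primeFactorsList.length := by
    refine Nat.eq_prime_pow_of_unique_prime_dvd index_ne_zero_of_finite fun {d} hd hdm => ?_
    by_contra hne
    have : Fact d.Prime := ⟨hd⟩
    have hT : (⟨d, hd⟩ : Nat.Primes) ∈ T := Finset.mem_subtype.2 (Finset.mem_erase.2
      ⟨hne, Nat.mem_primeFactors.2 ⟨hd, hdm.trans K.index_dvd_card, Nat.card_pos.ne'⟩⟩)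
    exact (S ⟨d, hd⟩).not_dvd_index (hdm.trans (index_dvd_of_le
      (Finset.le_sup (f := fun q : Nat.Primes => (S q : Subgroup G)) hT)))
  have h3 := congrArg (fun n => n.factorization p) (card_mul_index K)
  rw [Nat.factorization_mul Nat.card_pos.ne' index_ne_zero_of_finite, h2, hp.factorization_pow] at h3
  simp only [Finsupp.add_apply, Nat.factorization_eq_zero_of_not_dvd h1, zero_add,
    Finsupp.single_eq_same] at h3
  rw [← h3, ← h2]

end Cfsg.Agent.S0021
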