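import Cfsg.Statements.S0069
import Cfsg.Agent.H5.Semiregular

set_option autoImplicit false
open Cfsg

namespace Cfsg.Agent.S0069

/-- A Frobenius complement has nontrivial centre: if H ≠ 1 complements a nontrivial normal subgroup K and every nonidentity element of H has trivial centraliser in K, then the centre of H is nontrivial. -/
theorem result {G : Type*} [Group G] [Finite G] (K H : Subgroup G) [K.Normal]
    (hc : Subgroup.IsComplement' K H) (hK : K ≠ ⊥) (hH : H ≠ ⊥) (hfpf : ∀ h ∈ H, h ≠ 1 → K ⊓ Subgroup.centralizer {h} = ⊥) :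
    Subgroup.center H ≠ ⊥ := by
  have hn : H ≤ Subgroup.normalizer (K : Set G) := by rw [Subgroup.normalizer_eq_top]; exact le_top
  let _ := H5.conjAction H K hn
  have : Nontrivial K := (Subgroup.nontrivial_iff_ne_bot K).mpr hK
  have : Nontrivial H := (Subgroup.nontrivial_iff_ne_bot H).mpr hH
  exact (H5.semireg_conjAction hn hfpf).center_ne_bot

end Cfsg.Agent.S0069
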