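import Cfsg.Statements.S0038
import Cfsg.Agent.H5.Semiregular
import Cfsg.Agent.S0035
import Cfsg.Agent.S0069

set_option autoImplicit false
open Pointwise
open Cfsg

namespace Cfsg.Agent.S0038

theorem aux {G : Type*} [Group G] [Finite G] {H H₀ : Subgroup G}
    (hH : Cfsg.IsFrobeniusComplement H) (hH₀ : Cfsg.IsFrobeniusComplement H₀) (hle : H₀ ≤ H) :
    H₀ = H := by
  by_contra hne
  have h1 : IsFrobeniusComplement (H₀.subgroupOf H) :=
    H5.frob_subgroupOf hH₀ (by rw [inf_eq_left.mpr hle]; exact hH₀.1)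
      (fun h => hne (le_antisymm hle h))
  obtain ⟨N, -, hN, hc⟩ := S0035.result H hH
  have hNb : N ≠ ⊥ := by
    rintro rfl
    exact hH.2.1 (Subgroup.isComplement'_bot_left.mp hc)
  exact S0069.result N H hc hNb hH.1 ((H5.frob_iff_fpf N H hc hNb hH.1).mp hH)
    (H5.frob_center_eq_bot h1)

/-- All Frobenius complements of a finite group are conjugate to one another. -/
theorem result {G : Type*} [Group G] [Finite G] (H H₀ : Subgroup G)
    (hH : Cfsg.IsFrobeniusComplement H) (hH₀ : Cfsg.IsFrobeniusComplement H₀) :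
    ∃ g : G, MulAut.conj g • H₀ = H := by
  rcases le_total (Nat.card H₀) (Nat.card H) with hle | hle
  · obtain ⟨x, hx⟩ := H5.frob_le_conj_of_card_le hH hH₀ hle
    refine ⟨x⁻¹, ?_⟩
    rw [aux (H5.frob_conj_smul hH x) hH₀ hx, map_inv, inv_smul_smul]
  · obtain ⟨x, hx⟩ := H5.frob_le_conj_of_card_le hH₀ hH hle
    exact ⟨x, (aux (H5.frob_conj_smul hH₀ x) hH hx).symm⟩

end Cfsg.Agent.S0038
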