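import Cfsg.Statements.S0053
import Cfsg.Agent.H1.Nilp

set_option autoImplicit false
open Cfsg

namespace Cfsg.Agent.S0053

/-- An abelian minimal normal subgroup N of a finite group is complemented exactly when N is not inside the Frattini subgroup. -/
theorem result {G : Type*} [Group G] [Finite G]
    (N : Subgroup G) [N.Normal] [IsMulCommutative N] (hN : N ≠ ⊥)
    (hmin : ∀ M : Subgroup G, M.Normal → M ≤ N → M = ⊥ ∨ M = N) :
    (∃ H : Subgroup G, Subgroup.IsComplement' N H) ↔ ¬ N ≤ frattini G := by
  open Subgroup in
  constructor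
  · rintro ⟨H, hH⟩ hle
    have h1 : H ⊔ frattini G = ⊤ := by
      rw [eq_top_iff, ← hH.sup_eq_top, sup_comm]
      exact sup_le_sup_left hle _
    have h2 := frattini_nongenerating h1
    have h3 := hH.disjoint
    rw [h2, disjoint_top] at h3
    exact hN h3
  · intro h
    have : ∃ M : Subgroup G, IsCoatom M ∧ ¬ N ≤ M := by
      by_contra hcon
      push Not at hcon
      refine h ?_
      rw [frattini, Order.radical]
      exact le_iInf₂ fun M hM => hcon M hM
    obtain ⟨M, hM, hNM⟩ := this
    have hsup : N ⊔ M = ⊤ := hM.2 _ (right_lt_sup.2 hNM)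
    have hnorm : (N ⊓ M).Normal := by
      refine H1.normal_of_top_le_normalizer ?_
      rw [← hsup]
      refine sup_le ?_ ?_
      · exact (N.le_centralizer.trans (centralizer_le (SetLike.coe_subset_coe.2 inf_le_left))).trans
          (centralizer_le_normalizer _)
      · exact (le_inf le_normalizer_of_normal le_normalizer).trans inf_normalizer_le_normalizer_inf
    rcases hmin _ hnorm inf_le_left with h1 | h1
    · refine ⟨M, isComplement'_of_disjoint_and_mul_eq_univ (disjoint_iff.2 h1) ?_⟩
      rw [← normal_mul, hsup, coe_top]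
    · exact absurd (inf_eq_left.1 h1) hNM

end Cfsg.Agent.S0053
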