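import Cfsg.Statements.S0073
import Cfsg.Agent.H8.Tate

set_option autoImplicit false
open Cfsg

namespace Cfsg.Agent.S0073

/-- For a finite non-abelian simple group, either the cube of the least prime divisor of the order divides the order, or 12 does. -/
theorem result {G : Type*} [Group G] [Finite G] [IsSimpleGroup G] (hG : ∃ x y : G, x * y ≠ y * x) : (Nat.card G).minFac ^ 3 ∣ Nat.card G ∨ 12 ∣ Nat.card G := by
  have hne : Nat.card G ≠ 1 := by
    intro h
    obtain ⟨x, y, hxy⟩ := hG
    have := (Nat.card_eq_one_iff_unique.mp h).1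
    exact hxy (Subsingleton.elim _ _)
  have hp := Nat.minFac_prime hne
  set p := (Nat.card G).minFac with hpdef
  have := Fact.mk hp
  by_contra hcon
  push Not at hcon
  obtain ⟨h3, h12⟩ := hcon
  let P : Sylow p G := default
  obtain ⟨n, hn⟩ := P.2.exists_card_eq
  have hPd : p ^ n ∣ Nat.card G := hn ▸ Subgroup.card_subgroup_dvd_card _
  have hn2 : n ≤ 2 := by
    by_contra h
    exact h3 ((pow_dvd_pow p (by omega)).trans hPd)
  have hc : HasNormalPComplement p G := by
    refine H8.hasNormalPComplement_of_not_dvd_pow_sub_one P hn ?_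
    intro q hq hqp hd j h1 h2 h
    have hpq : p < q := lt_of_le_of_ne (Nat.minFac_le_of_dvd hq.two_le hd) hqp.symm
    have hp2 := hp.two_le
    have hj : j = 1 ∨ j = 2 := by omega
    rcases hj with rfl | rfl
    · rw [pow_one] at h
      have := Nat.le_of_dvd (by omega) h
      omega
    · have h4 : p ^ 2 - 1 = (p + 1) * (p - 1) := by
        rw [← Nat.sq_sub_sq, one_pow]
      rw [h4] at h
      rcases (Nat.Prime.dvd_mul hq).mp h with h5 | h5
      · have h6 : q = p + 1 := le_antisymm (Nat.le_of_dvd (by omega) h5) hpq
        have h7 : p = 2 := by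
          by_contra h7
          have h8 : Odd p := hp.odd_of_ne_two h7
          have h9 : Even q := h6 ▸ h8.add_one
          have := hq.even_iff.mp h9
          omega
        have h8 : n = 2 := by omega
        rw [h7, h8] at hPd
        rw [h6, h7] at hd
        exact h12 (Nat.Coprime.mul_dvd_of_dvd_of_dvd (m := 3) (n := 4) (by norm_num) hd hPd)
      · have := Nat.le_of_dvd (by omega) h5
        omega
  rcases (H8.pResidual_normal (G := G) p).eq_bot_or_eq_top with h | h
  · have := (H8.pResidual_eq_bot_iff.mp h).isNilpotent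
    obtain ⟨x, y, hxy⟩ := hG
    have h1 : commutator G = ⊥ := by
      rcases (inferInstance : (commutator G).Normal).eq_bot_or_eq_top with h1 | h1
      · exact h1
      · have h2 := H8.eq_bot_of_le_commutator_top (H := (⊤ : Subgroup G)) h1.ge
        rw [h1, h2]
    exact hxy (((commutator_eq_bot_iff G).mp h1).is_comm.comm x y)
  · have h1 := H8.hasNormalPComplement_iff_not_dvd.mp hc
    rw [h, Subgroup.card_top] at h1
    exact h1 (Nat.minFac_dvd _)

end Cfsg.Agent.S0073
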