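import Cfsg.Statements.S0077
import Cfsg.Agent.H8.Fusion

set_option autoImplicit false
open Cfsg

namespace Cfsg.Agent.S0077

/-- If a subgroup Z of the centre of a Sylow p-subgroup P is weakly closed in P, then P meets the derived subgroup of G exactly where it meets the derived subgroup of the normalizer of Z. -/
theorem result {G : Type*} [Group G] [Finite G] {p : ℕ} [Fact p.Prime] (P : Sylow p G) (Z : Subgroup G) (hZ : Z ≤ Subgroup.centralizer (P : Set G)) (hW : Cfsg.IsWeaklyClosed Z P) : commutator G ⊓ (P : Subgroup G) = ⁅Subgroup.normalizer (Z : Set G), Subgroup.normalizer (Z : Set G)⁆ ⊓ (P : Subgroup G) := by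
  refine H8.commutator_inf_sylow_eq_of_fusion P (V := Subgroup.normalizer (Z : Set G))
    ((Subgroup.le_centralizer_iff.mp hZ).trans (Subgroup.centralizer_le_normalizer _))
    fun x hx g hg => H8.IsWeaklyClosed.fusion_of_le_centralizer P hW hZ hx hg

end Cfsg.Agent.S0077
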