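import Cfsg.Statements.S0084
import Cfsg.Agent.H8.Tate

set_option autoImplicit false
open Cfsg

namespace Cfsg.Agent.S0084

/-- A group whose Sylow 2-subgroups are Klein four-groups and whose order is prime to 3 has a normal 2-complement. -/
theorem result {G : Type*} [Group G] [Finite G] (T : Sylow 2 G) (hT : IsKleinFour T) (h3 : ¬ 3 ∣ Nat.card G) : Cfsg.HasNormalPComplement 2 G := by
  refine H8.hasNormalPComplement_of_not_dvd_pow_sub_one T (n := 2) hT.card_four ?_
  intro q hq _ hd j h1 h2 h
  interval_cases j
  · exact hq.ne_one (Nat.dvd_one.mp h)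
  · exact h3 (((Nat.prime_dvd_prime_iff_eq hq Nat.prime_three).mp h) ▸ hd)

end Cfsg.Agent.S0084
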