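import Cfsg.Statements.S0087
import Cfsg.Agent.H8.Tate
import Cfsg.Agent.S0581

set_option autoImplicit false
open Cfsg

namespace Cfsg.Agent.S0087

open scoped Pointwise in
theorem aux {G : Type*} [Group G] [Finite G] (H : Subgroup G)
    (hHall : Nat.Coprime (Nat.card H) H.index)
    (h : Subgroup.normalizer (H : Set G) ≤ Subgroup.centralizer (H : Set G))
    (hH : Group.IsNilpotent H) (x : G) (hx : x ∈ H) (g : G) (hy : g * x * g⁻¹ ∈ H) :
    g * x * g⁻¹ = x := by
  have hab : ∀ a ∈ H, ∀ b ∈ H, a * b = b * a := fun a ha b hb =>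
    (h (Subgroup.le_normalizer hb)) a ha
  set y := g * x * g⁻¹ with hydef
  let C := Subgroup.centralizer ({y} : Set G)
  have hHC : H ≤ C := fun a ha => Subgroup.mem_centralizer_singleton_iff.mpr (hab a ha y hy)
  have hKC : MulAut.conj g • H ≤ C := by
    intro a ha
    rw [H8.mem_conj_smul] at ha
    rw [Subgroup.mem_centralizer_singleton_iff]
    have := hab _ ha x hx
    calc a * y = g * (g⁻¹ * a * g * x) * g⁻¹ := by rw [hydef]; group
      _ = y * a := by rw [this, hydef]; group
  have e1 : Nat.card (H.subgroupOf C) = Nat.card H :=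
    Nat.card_congr (Subgroup.subgroupOfEquivOfLe hHC).toEquiv
  have e2 : Nat.card ((MulAut.conj g • H).subgroupOf C) = Nat.card H := by
    rw [Nat.card_congr (Subgroup.subgroupOfEquivOfLe hKC).toEquiv, H8.card_conj_smul]
  have hnil : Group.IsNilpotent (H.subgroupOf C) :=
    Group.nilpotent_of_mulEquiv (Subgroup.subgroupOfEquivOfLe hHC).symm
  have hcop : (Nat.card (H.subgroupOf C)).Coprime (H.subgroupOf C).index := by
    rw [e1]
    exact Nat.Coprime.coprime_dvd_right (Subgroup.relIndex_dvd_index_of_le hHC) hHall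
  obtain ⟨c, hc⟩ := Cfsg.Agent.S0581.result (H.subgroupOf C) ((MulAut.conj g • H).subgroupOf C)
    hnil hcop (fun p _ hp => by rwa [e1, ← e2])
  have hn : (c : G)⁻¹ * g ∈ Subgroup.normalizer (H : Set G) := by
    apply H8.mem_normalizer_of_conj_smul_le
    intro a ha
    rw [H8.mem_conj_smul] at ha
    have h1 : (c : G) * a * (c : G)⁻¹ ∈ MulAut.conj g • H := by
      rw [H8.mem_conj_smul]
      convert ha using 1
      group
    have h2 := hc (show (⟨_, hKC h1⟩ : C) ∈ (MulAut.conj g • H).subgroupOf C from h1)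
    rw [H8.mem_conj_smul, Subgroup.mem_subgroupOf] at h2
    simpa [mul_assoc] using h2
  have h3 := (h hn) x hx
  have h4 : (c : G) * y = y * c := Subgroup.mem_centralizer_singleton_iff.mp c.2
  have h5 : (c : G)⁻¹ * y * c = x := by
    calc (c : G)⁻¹ * y * c = ((c : G)⁻¹ * g * x) * g⁻¹ * c := by rw [hydef]; group
      _ = x := by rw [← h3]; group
  rw [← h5, mul_assoc, ← h4]; group

/-- A Hall subgroup that is central in its normalizer has a normal complement. -/
theorem result {G : Type*} [Group G] [Finite G] (H : Subgroup G) (hHall : Nat.Coprime (Nat.card H) H.index) (h : Subgroup.normalizer (H : Set G) ≤ Subgroup.centralizer (H : Set G)) : ∃ N : Subgroup G, N.Normal ∧ N.IsComplement' H := by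
  have hab : ∀ a ∈ H, ∀ b ∈ H, a * b = b * a := fun a ha b hb =>
    (h (Subgroup.le_normalizer hb)) a ha
  have hH : Group.IsNilpotent H := by
    let _ : CommGroup H := { (inferInstance : Group H) with
      mul_comm := fun a b => Subtype.ext (hab a a.2 b b.2) }
    exact CommGroup.isNilpotent
  refine H8.exists_normal_isComplement'_of_no_fusion hH hHall fun x hx g hy => ⟨1, H.one_mem, ?_⟩
  rw [aux H hHall h hH x hx g hy]; simp

end Cfsg.Agent.S0087
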