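import Cfsg.Statements.S0090
import Cfsg.Agent.H8.Tate
import Cfsg.Agent.S0088

set_option autoImplicit false
open Cfsg

namespace Cfsg.Agent.S0090

/-- An abelian normal Hall subgroup A splits as the internal direct product of G' ∩ A and Z(G) ∩ A, and [A, G] = G' ∩ A. -/
theorem result {G : Type*} [Group G] [Finite G] (A : Subgroup G) [A.Normal] (hc : IsMulCommutative A) (hHall : Nat.Coprime (Nat.card A) A.index) : ⁅A, (⊤ : Subgroup G)⁆ = commutator G ⊓ A ∧ (commutator G ⊓ A) ⊓ (Subgroup.center G ⊓ A) = ⊥ ∧ (commutator G ⊓ A) ⊔ (Subgroup.center G ⊓ A) = A := by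
  have h1 : ⁅A, (⊤ : Subgroup G)⁆ = commutator G ⊓ A := by
    refine le_antisymm (le_inf (Subgroup.commutator_mono le_top le_top)
      (Subgroup.commutator_le_left _ _)) ?_
    rw [← H8.focalSubgroup_eq_of_coprime
      (hHall.symm.coprime_dvd_right (Subgroup.relIndex_dvd_card _ _)),
      Subgroup.focalSubgroup_def, Subgroup.closure_le]
    rintro g ⟨-, x, hx, u, rfl⟩
    exact Subgroup.commutator_mem_commutator hx trivial
  refine ⟨h1, ?_, ?_⟩
  · rw [eq_bot_iff, ← S0088.result A hc hHall]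
    rintro x ⟨⟨h2, h3⟩, h4, -⟩
    exact ⟨⟨h3, h2⟩, h4⟩
  · refine le_antisymm (sup_le inf_le_right inf_le_right) fun a ha => ?_
    obtain ⟨b, hb, c, hc', rfl⟩ := H8.exists_commutator_mul_center_of_abelian_hall hc hHall ha
    exact Subgroup.mul_mem_sup (h1 ▸ hb) hc'

end Cfsg.Agent.S0090
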