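import Cfsg.Statements.S0092
import Cfsg.Agent.H8.Tate
import Cfsg.Agent.H4.Coprime

set_option autoImplicit false
open Cfsg

namespace Cfsg.Agent.S0092

open scoped Pointwise commutatorElement

/-- If the Sylow p-subgroups of O^p(G) are abelian then G splits over O^p(G). -/
theorem result {G : Type*} [Group G] [Finite G] {p : ℕ} [Fact p.Prime] (h : ∀ Q : Sylow p (Cfsg.pResidual p G), IsMulCommutative Q) : ∃ K : Subgroup G, K.IsComplement' (Cfsg.pResidual p G) := by
  set N := pResidual p G with hN
  let P : Sylow p G := default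
  have hQ := H8.isSylowIn_inf_normal P N
  set Q : Subgroup G := (P : Subgroup G) ⊓ N with hQdef
  have hQc : IsMulCommutative Q := by
    have := h hQ.toSylow
    exact Subgroup.le_centralizer_iff_isMulCommutative.mp fun x hx y hy =>
      congrArg Subtype.val ((hQ.toSylow : Subgroup N).le_centralizer
        (x := ⟨x, hQ.le hx⟩) hx ⟨y, hQ.le hy⟩ hy)
  set M : Subgroup G := N ⊓ Subgroup.normalizer (Q : Set G) with hM
  have hQM : H8.IsSylowIn p Q M := hQ.mono (le_inf hQ.le Subgroup.le_normalizer) inf_le_left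
  have hQn : (Q.subgroupOf M).Normal := Subgroup.normal_subgroupOf_of_le_normalizer inf_le_right
  obtain ⟨L', hL'⟩ := Subgroup.exists_right_complement'_of_coprime (N := Q.subgroupOf M)
    hQM.toSylow.card_coprime_index
  set L : Subgroup G := L'.map M.subtype with hL
  have hLM : L ≤ M := Subgroup.map_subtype_le _
  have hsup : Q ⊔ L = M := by
    have := congrArg (Subgroup.map M.subtype) hL'.sup_eq_top
    rwa [Subgroup.map_sup, Subgroup.map_subgroupOf_eq_of_le hQM.le, ← MonoidHom.range_eq_map,
      Subgroup.range_subtype] at this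
  have hcop : (Nat.card L).Coprime (Nat.card Q) := by
    rw [Subgroup.card_map_of_injective M.subtype_injective, ← hL'.symm.index_eq_card]
    obtain ⟨k, hk⟩ := hQ.isPGroup.exists_card_eq
    rw [hk]
    exact ((Nat.Prime.coprime_iff_not_dvd Fact.out).mpr hQM.not_dvd).symm.pow_right k
  have hQMM : Q ≤ ⁅M, M⁆ := by
    have h1 := hQ.inf_pResidual_le_commutator
    rw [H8.map_subtype_pResidual_of_le le_rfl, inf_of_le_left hQ.le] at h1
    refine (le_inf h1 le_rfl).trans (hQ.commutator_inf_le_of_fusion fun x hx g hg hc => ?_)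
    obtain ⟨n, hn, he⟩ := H8.exists_normalizer_conj_eq_of_comm hQ.toSylow (h _)
      (x := ⟨x, hQ.le hx⟩) (g := ⟨g, hg⟩) hx hc
    have hn' : (n : G) ∈ Subgroup.normalizer (Q : Set G) := by
      have : n ∈ Subgroup.normalizer ((Q.subgroupOf N : Subgroup N) : Set N) := hn
      rwa [← Subgroup.subgroupOf_normalizer_eq hQ.le] at this
    have he' : n * x * (n : G)⁻¹ = g * x * g⁻¹ := congrArg Subtype.val he
    have h2 : x * (n * x * (n : G)⁻¹)⁻¹ = ⁅x, (n : G)⁆ := by rw [commutatorElement_def]; group
    rw [← he', h2]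
    exact Subgroup.commutator_mem_commutator (hQM.le hx) ⟨n.2, hn'⟩
  have hQL : ∀ x ∈ Q, x ∈ Subgroup.centralizer (L : Set G) → x = 1 := by
    intro x hx hxL
    have h1 : M ≤ Subgroup.centralizer {x} := by
      rw [← hsup]
      exact sup_le (fun y hy => Subgroup.mem_centralizer_singleton_iff.mpr
        (Q.le_centralizer hx y hy)) fun y hy => Subgroup.mem_centralizer_singleton_iff.mpr (hxL y hy)
    exact Subgroup.mem_bot.mp ((hQM.inf_commutator_inf_centralizer hQc).le
      ⟨⟨hx, hQMM hx⟩, fun y hy => Subgroup.mem_centralizer_singleton_iff.mp (h1 hy)⟩)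
  set X : Subgroup G := Subgroup.normalizer (Q : Set G) ⊓ Subgroup.normalizer (L : Set G) with hX
  obtain ⟨R, hR⟩ := H8.exists_isSylowIn p X
  refine ⟨R, Subgroup.isComplement'_of_disjoint_and_mul_eq_univ ?_ ?_⟩
  · rw [Subgroup.disjoint_def]
    intro x hx hxN
    have h1 : R ⊓ N ≤ Q := hQ.le_of_le_normalizer' hR.isPGroup.to_inf_left inf_le_right
      (inf_le_left.trans (hR.le.trans inf_le_left))
    have hxQ : x ∈ Q := h1 ⟨hx, hxN⟩
    apply hQL x hxQ
    rw [Subgroup.mem_centralizer_iff_commutator_eq_one]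
    intro y hy
    refine Subgroup.disjoint_def.mp (Subgroup.disjoint_of_coprime_natCard hcop) ?_ ?_
    · exact Subgroup.le_normalizer_iff_commutator_le_left.mp (hR.le.trans inf_le_right)
        (Subgroup.commutator_mem_commutator hy hx)
    · exact Subgroup.le_normalizer_iff_commutator_le_right.mp (hLM.trans inf_le_right)
        (Subgroup.commutator_mem_commutator hy hxQ)
  · rw [← Subgroup.mul_normal, Subgroup.coe_eq_univ, eq_top_iff]
    intro g _
    obtain ⟨n, hn, m, hm, rfl⟩ := hQ.frattini (g := g)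
      (Subgroup.le_normalizer_of_normal (K := ⊤) trivial)
    have hmM : MulAut.conj m • M = M := by
      rw [hM, Subgroup.smul_inf, ← H8.normalizer_conj_smul,
        H8.mem_normalizer_iff_conj_smul_eq.mp hm, Subgroup.Normal.conj_smul_eq_self]
    obtain ⟨k, hk, hkL⟩ := H4.exists_conj_eq_of_le_sup (A := L) (K := Q) (B := MulAut.conj m • L)
      (hLM.trans inf_le_right) hcop (Or.inr (by have := hQ.isPGroup.isNilpotent; infer_instance))
      (by rw [hsup, ← hmM]; exact Subgroup.pointwise_smul_le_pointwise_smul_iff.mpr hLM)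
      (H8.card_conj_smul L m)
    have h1 : k⁻¹ * m ∈ X := by
      refine ⟨Subgroup.mul_mem _ (Subgroup.inv_mem _ (Subgroup.le_normalizer hk)) hm, ?_⟩
      refine H8.mem_normalizer_iff_conj_smul_eq.mpr ?_
      rw [← H8.conj_smul_conj_smul, ← hkL, H8.conj_inv_smul_conj_smul]
    obtain ⟨s, hs, r, hr, hsr⟩ := hR.exists_mul_of_forall_coprime_mem (K := N)
      (fun g _ hc => H8.mem_pResidual_of_coprime hc) h1
    have h2 : n * m = n * k * (s * r) := by rw [← hsr]; group
    rw [h2]
    exact Subgroup.mul_mem _ (Subgroup.mem_sup_right (N.mul_mem hn (hQ.le hk)))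
      (Subgroup.mul_mem_sup hs hr)

end Cfsg.Agent.S0092
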