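import Cfsg.Statements.S0097
import Cfsg.Agent.H7.Pairing

set_option autoImplicit false
open Cfsg

namespace Cfsg.Agent.S0097

/-- For odd p and E extraspecial, the subgroup generated by the elements of order dividing p has exponent dividing p and index at most p. -/
theorem result {E : Type*} [Group E] [Finite E] {p : ℕ} [Fact p.Prime] (hp : p ≠ 2) (h : Cfsg.IsExtraspecial p E) : (Subgroup.closure {x : E | x ^ p = 1}).index ≤ p ∧ ∀ g ∈ Subgroup.closure {x : E | x ^ p = 1}, g ^ p = 1 := by
  exact ⟨H7.IsExtraspecial.index_omega_le h hp, fun g hg =>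
    H7.omega_pow_of_class2 Fact.out hp (H7.IsSpecial.class2 h.1) hg⟩

end Cfsg.Agent.S0097
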