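import Cfsg.Statements.S0099
import Mathlib
import Cfsg.Agent.H89.XS2

set_option autoImplicit false
open Cfsg

namespace Cfsg.Agent.S0099

/-- Among three extraspecial 2-groups of equal order, some two are isomorphic. -/
theorem result {E₁ : Type*} {E₂ : Type*} {E₃ : Type*} [Group E₁] [Group E₂] [Group E₃] [Finite E₁] [Finite E₂] [Finite E₃] (h₁ : Cfsg.IsExtraspecial 2 E₁) (h₂ : Cfsg.IsExtraspecial 2 E₂) (h₃ : Cfsg.IsExtraspecial 2 E₃) (h12 : Nat.card E₁ = Nat.card E₂) (h23 : Nat.card E₂ = Nat.card E₃) : Nonempty (E₁ ≃* E₂) ∨ Nonempty (E₂ ≃* E₃) ∨ Nonempty (E₁ ≃* E₃) := by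
  obtain ⟨z₁, hz₁⟩ := H89.XS.of_isExtraspecial h₁
  obtain ⟨z₂, hz₂⟩ := H89.XS.of_isExtraspecial h₂
  obtain ⟨z₃, hz₃⟩ := H89.XS.of_isExtraspecial h₃
  obtain ⟨m, hc₁⟩ := hz₁.exists_card
  have hc₂ := h12.symm.trans hc₁
  have hc₃ := h23.symm.trans hc₂
  by_cases h : H89.ssum E₁ = H89.ssum E₂
  · obtain ⟨f, -⟩ := H89.XS.exists_mulEquiv_two m hz₁ hz₂ hc₁ hc₂ h
    exact Or.inl ⟨f⟩
  by_cases h' : H89.ssum E₂ = H89.ssum E₃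
  · obtain ⟨f, -⟩ := H89.XS.exists_mulEquiv_two m hz₂ hz₃ hc₂ hc₃ h'
    exact Or.inr (Or.inl ⟨f⟩)
  obtain ⟨f, -⟩ := H89.XS.exists_mulEquiv_two m hz₁ hz₃ hc₁ hc₃ (by
    rcases hz₁.ssum_eq_or hc₁ with a | a <;> rcases hz₂.ssum_eq_or hc₂ with b | b <;>
      rcases hz₃.ssum_eq_or hc₃ with c | c <;> simp_all)
  exact Or.inr (Or.inr ⟨f⟩)

end Cfsg.Agent.S0099
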