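import Cfsg.Statements.S0104
import Cfsg.Agent.H8.Fusion

set_option autoImplicit false
open Cfsg

namespace Cfsg.Agent.S0104

/-- A subgroup Z of a Sylow p-subgroup P that is normalized by N_G(P) is weakly closed in P exactly when it is normal in every Sylow p-subgroup containing it. -/
theorem result {G : Type*} [Group G] [Finite G] {p : ℕ} [Fact p.Prime] (P : Sylow p G) (Z : Subgroup G) (hZP : Z ≤ (P : Subgroup G)) (hZN : Subgroup.normalizer (P : Set G) ≤ Subgroup.normalizer (Z : Set G)) : Cfsg.IsWeaklyClosed Z P ↔ ∀ R : Sylow p G, Z ≤ (R : Subgroup G) → (R : Subgroup G) ≤ Subgroup.normalizer (Z : Set G) := by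
  constructor
  · intro hW R hR r hr
    rw [H8.mem_normalizer_iff_conj_smul_eq,
      H8.IsWeaklyClosed.eq_of_le_pGroup P hW R.2 (a := r) (b := 1)
        (Subgroup.conj_smul_le_of_le hR ⟨r, hr⟩) (by simpa using hR)]
    simp
  · intro h
    refine ⟨hZP, fun g hg => ?_⟩
    rw [H8.map_conj_eq_smul] at hg ⊢
    have h1 := h (g⁻¹ • P) (by
      rw [Sylow.coe_subgroup_smul, map_inv, ← Subgroup.pointwise_smul_subset_iff]; exact hg)
    obtain ⟨c, hc, hcg⟩ := H8.sylow_exists_mul_mem_normalizer P (h P hZP) h1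
    rw [← H8.mem_normalizer_iff_conj_smul_eq]
    simpa using Subgroup.mul_mem _ (Subgroup.inv_mem _ (hZN hcg)) hc

end Cfsg.Agent.S0104
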