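import Cfsg.Statements.S0114
import Cfsg.Agent.H9.Taussky

set_option autoImplicit false
open Cfsg

namespace Cfsg.Agent.S0114

/-- The central quotient of a 2-group of maximal class is dihedral. -/
theorem result {X : Type*} [Group X] [Finite X] (n : ℕ) (hn : 3 ≤ n) (hX : Nat.card X = 2 ^ n) (hc : Group.nilpotencyClass X = n - 1) : Nonempty (X ⧸ Subgroup.center X ≃* DihedralGroup (2 ^ (n - 2))) := by
  obtain ⟨m, rfl⟩ : ∃ m, n = m + 2 := ⟨n - 2, by omega⟩
  obtain ⟨a, b, h⟩ := H9.exists_MC_of_maxClass (by omega) hX hc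
  have hZ := h.center_eq
  have hz : a ^ 2 ^ m ∈ Subgroup.center X := hZ ▸ Subgroup.mem_zpowers _
  have hz' : ((a ^ 2 ^ m : X) : X ⧸ Subgroup.center X) = 1 := (QuotientGroup.eq_one_iff _).mpr hz
  refine H9.equiv_dihedral_of_card (a : X ⧸ Subgroup.center X) (b : X ⧸ Subgroup.center X) ?_ ?_ ?_ ?_ ?_
  · obtain ⟨m, rfl⟩ : ∃ m', m = m' + 1 := ⟨m - 1, by omega⟩
    refine orderOf_eq_prime_pow ?_ (by rw [← QuotientGroup.mk_pow]; exact hz')
    rw [← QuotientGroup.mk_pow, QuotientGroup.eq_one_iff, hZ, h.mem_zpowers_z_iff, H9.MC.z_eq,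
      h.zpow_eq_one_or_z_iff]
    intro hd
    have := Int.le_of_dvd (by positivity) hd
    have h2 : (0 : ℤ) < 2 ^ m := by positivity
    rw [pow_succ] at this
    omega
  · rw [← QuotientGroup.mk_mul]
    rcases h.sq with h1 | h1 <;> rw [h1]
    · rfl
    · exact hz'
  · rw [← QuotientGroup.mk_mul, ← QuotientGroup.mk_inv, ← QuotientGroup.mk_mul]
    rcases h.conj with h1 | ⟨-, h1⟩ <;> rw [h1]
    · rfl
    · rw [QuotientGroup.mk_mul, hz', mul_one]; rfl
  · rintro ⟨k, hk⟩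
    simp only at hk
    rw [← QuotientGroup.mk_zpow, QuotientGroup.eq, hZ] at hk
    have h1 : (a ^ k)⁻¹ * b ∈ Subgroup.zpowers a :=
      Subgroup.zpowers_le.mpr (Subgroup.pow_mem _ (Subgroup.mem_zpowers a) _) hk
    rw [← zpow_neg] at h1
    exact h.zpow_mul_not_mem _ h1
  · have := (Subgroup.center X).card_eq_card_quotient_mul_card_subgroup
    rw [hX, hZ, Nat.card_zpowers, h.orderOf_z, pow_succ, pow_succ'] at this
    rw [hZ]
    exact (Nat.eq_of_mul_eq_mul_right two_pos this).symm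

end Cfsg.Agent.S0114
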