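import Cfsg.Statements.S0115
import Cfsg.Agent.H9.Taussky

set_option autoImplicit false
open Cfsg

namespace Cfsg.Agent.S0115

/-- A 2-group of order 2^n, n ≥ 3, is of maximal class exactly when its commutator quotient is a Klein four-group. -/
theorem result {X : Type*} [Group X] [Finite X] (n : ℕ) (hn : 3 ≤ n) (hX : Nat.card X = 2 ^ n) : Group.nilpotencyClass X = n - 1 ↔ IsKleinFour (X ⧸ commutator X) := by
  obtain ⟨m, rfl⟩ : ∃ m, n = m + 2 := ⟨n - 2, by omega⟩
  constructor
  · intro hc
    obtain ⟨a, b, h⟩ := H9.exists_MC_of_maxClass (by omega) hX hc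
    have h4 : Nat.card (X ⧸ commutator X) = 4 := h.index_commutator
    refine ⟨h4, ?_⟩
    have : Nontrivial (X ⧸ commutator X) := Finite.one_lt_card_iff_nontrivial.mp (by omega)
    rw [Monoid.exponent_eq_prime_iff Nat.prime_two]
    intro g hg
    refine orderOf_eq_prime ?_ hg
    obtain ⟨g, rfl⟩ := QuotientGroup.mk_surjective g
    rw [← QuotientGroup.mk_pow, QuotientGroup.eq_one_iff]
    exact H7.frattini_le (IsPGroup.of_card hX) le_rfl (fun x => by
      rw [h.commutator_eq]
      by_cases hx : x ∈ Subgroup.zpowers a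
      · obtain ⟨k, rfl⟩ := hx
        exact ⟨k, by simp only; group⟩
      · obtain ⟨q, -, hq⟩ := h.two_pow_eq
        rw [pow_two x]
        rcases (h.of_mem (Subgroup.mem_top x) hx).sq with h1 | h1 <;> rw [h1]
        · exact Subgroup.one_mem _
        · exact ⟨q, by simp only; rw [H9.MC.z_eq a m, hq]; group⟩)
      (H7.pow_mem_frattini (IsPGroup.of_card hX) g)
  · intro hK
    rcases H9.taussky (IsPGroup.of_card hX) hK.card_four with h | ⟨a, b, k, h⟩
    · have := Nat.pow_right_injective le_rfl (hX.symm.trans h : 2 ^ (m + 2) = 2 ^ 2)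
      omega
    · have := Nat.pow_right_injective le_rfl (hX.symm.trans h.card_top)
      obtain rfl : m = k := by omega
      exact h.nilpotencyClass_eq

end Cfsg.Agent.S0115
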