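import Cfsg.Statements.S0125
import Cfsg.Agent.H8.Tate

set_option autoImplicit false
open Cfsg

namespace Cfsg.Agent.S0125

/-- The centralizer of a self-centralizing normal subgroup A of a Sylow p-subgroup is the direct product of A with a normal p'-subgroup. -/
theorem result {G : Type*} [Group G] [Finite G] {p : ℕ} [Fact p.Prime] (R : Sylow p G) (A : Subgroup G) (hAR : A ≤ (R : Subgroup G)) (hAn : (R : Subgroup G) ≤ Subgroup.normalizer (A : Set G)) (hC : (R : Subgroup G) ⊓ Subgroup.centralizer (A : Set G) = A) : ∃ H : Subgroup G, H ≤ Subgroup.centralizer (A : Set G) ∧ Nat.Coprime (Nat.card H) p ∧ Subgroup.centralizer (A : Set G) ≤ Subgroup.normalizer (H : Set G) ∧ H ⊓ A = ⊥ ∧ H ⊔ A = Subgroup.centralizer (A : Set G) := by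
  set C := Subgroup.centralizer (A : Set G) with hCdef
  have hS : H8.IsSylowIn p A C := by
    have := (H8.isSylowIn_of_le R hAn).inf_of_le_normalizer (N := C) (fun g hg => by
      rw [H8.mem_normalizer_iff_conj_smul_eq] at hg ⊢
      rw [← H8.centralizer_conj_smul, hg])
    rwa [hC, inf_of_le_right (Subgroup.centralizer_le_normalizer _)] at this
  have hc : HasNormalPComplement p C := by
    apply H8.hasNormalPComplement_of_normalizer_le_centralizer hS.toSylow
    intro x _ y hy
    exact Subtype.ext (x.2 y hy)
  refine ⟨(pResidual p C).map C.subtype, Subgroup.map_subtype_le _, ?_, ?_, ?_, ?_⟩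
  · rw [Subgroup.card_map_of_injective C.subtype_injective]
    exact H8.hasNormalPComplement_iff_coprime.mp hc
  · exact Subgroup.le_normalizer.trans (H8.normalizer_le_normalizer_pResidual C)
  · rw [inf_comm]
    exact (H8.hasNormalPComplement_iff_inf_map_eq_bot hS).mp hc
  · have := congrArg (Subgroup.map C.subtype) (H8.sylow_sup_pResidual hS.toSylow)
    rwa [Subgroup.map_sup, hS.map_toSylow, ← MonoidHom.range_eq_map, Subgroup.range_subtype,
      sup_comm] at this

end Cfsg.Agent.S0125
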