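import Cfsg.Statements.S0131
import Cfsg.Agent.H8.Tate

set_option autoImplicit false
open Cfsg

namespace Cfsg.Agent.S0131

/-- P/P' has a normal complement in G exactly when the focal subgroup G' ∩ P is as small as possible, namely P'. -/
theorem result {G : Type*} [Group G] [Finite G] {p : ℕ} [Fact p.Prime] (P : Sylow p G) : (∃ N : Subgroup G, N.Normal ∧ N ⊓ (P : Subgroup G) = ⁅(P : Subgroup G), (P : Subgroup G)⁆ ∧ N ⊔ (P : Subgroup G) = ⊤) ↔ commutator G ⊓ (P : Subgroup G) = ⁅(P : Subgroup G), (P : Subgroup G)⁆ := by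
  constructor
  · rintro ⟨N, hN, h1, h2⟩
    refine le_antisymm ?_ (le_inf (Subgroup.commutator_mono le_top le_top)
      (P : Subgroup G).commutator_le_self)
    rw [← h1]
    refine inf_le_inf_right _ ?_
    have h3 : (⊤ : Subgroup G).map (QuotientGroup.mk' N) =
        (P : Subgroup G).map (QuotientGroup.mk' N) := by
      rw [← h2, Subgroup.map_sup, QuotientGroup.map_mk'_self, bot_sup_eq]
    have h4 : (commutator G).map (QuotientGroup.mk' N) = ⊥ := by
      rw [commutator_def, Subgroup.map_commutator, h3, ← Subgroup.map_commutator, ← h1,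
        Subgroup.map_eq_bot_iff, QuotientGroup.ker_mk']
      exact inf_le_left
    rwa [Subgroup.map_eq_bot_iff, QuotientGroup.ker_mk'] at h4
  · intro h
    refine ⟨pResidual p G ⊔ commutator G, inferInstance, ?_, ?_⟩
    · rw [H8.pResidual_sup_commutator_inf_sylow, h]
    · rw [eq_top_iff, ← H8.sylow_sup_pResidual P]
      exact sup_le le_sup_right (le_sup_left.trans le_sup_left)

end Cfsg.Agent.S0131
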