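import Cfsg.Statements.S0132
import Cfsg.Agent.H8.Tate

set_option autoImplicit false
open Cfsg

namespace Cfsg.Agent.S0132

/-- A minimal non-p-nilpotent finite group is a minimal non-nilpotent group with a normal Sylow p-subgroup. -/
theorem result {G : Type*} [Group G] [Finite G] {p : ℕ} [Fact p.Prime] (h1 : ¬ Cfsg.HasNormalPComplement p G) (h2 : ∀ H : Subgroup G, H ≠ ⊤ → Cfsg.HasNormalPComplement p H) : (∀ H : Subgroup G, H ≠ ⊤ → Group.IsNilpotent H) ∧ ¬ Group.IsNilpotent G ∧ ∀ P : Sylow p G, (P : Subgroup G).Normal := by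
  let P : Sylow p G := default
  obtain ⟨Q, hQ, q, hq, hqp, -, g, hg, ⟨k, hk⟩, hgc⟩ :=
    H8.exists_prime_not_centralizes_of_not_hasNormalPComplement P h1
  have := Fact.mk hq
  have hQp : IsPGroup p Q := P.2.to_le hQ
  have hgo : (orderOf g).Coprime p := Nat.Coprime.coprime_dvd_left (orderOf_dvd_of_pow_eq_one hk)
    (((Nat.coprime_primes hq Fact.out).mpr hqp).pow_left k)
  have htop : Q ⊔ Subgroup.zpowers g = ⊤ := by
    by_contra hne
    have hgm : g ∈ Q ⊔ Subgroup.zpowers g := Subgroup.mem_sup_right (Subgroup.mem_zpowers g)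
    have := H8.HasNormalPComplement.mem_centralizer (h2 _ hne)
      (Q := Q.subgroupOf (Q ⊔ Subgroup.zpowers g)) hQp.comap_subtype (g := ⟨g, hgm⟩)
      (by rw [← Subgroup.subgroupOf_normalizer_eq le_sup_left]; exact hg)
      (by rwa [← Subgroup.orderOf_coe])
    exact hgc fun x hx => congrArg Subtype.val (this ⟨x, Subgroup.mem_sup_left hx⟩ hx)
  have hQn : Q.Normal := by
    rw [← Subgroup.normalizer_eq_top_iff, eq_top_iff, ← htop]
    exact sup_le Subgroup.le_normalizer (Subgroup.zpowers_le.mpr hg)
  have hquot : IsPGroup q (G ⧸ Q) := by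
    have h3 : (⊤ : Subgroup (G ⧸ Q)) = (Subgroup.zpowers g).map (QuotientGroup.mk' Q) := by
      rw [← Subgroup.map_top_of_surjective _ (QuotientGroup.mk'_surjective Q), ← htop,
        Subgroup.map_sup, QuotientGroup.map_mk'_self, bot_sup_eq]
    have h4 := (H8.isPGroup_zpowers_of_pow_eq_one hk).map (QuotientGroup.mk' Q)
    rw [← h3] at h4
    exact h4.of_equiv Subgroup.topEquiv
  have hmem : ∀ (r : ℕ) (x : G) (j : ℕ), r.Prime → r ≠ q → x ^ r ^ j = 1 → x ∈ Q := by
    intro r x j hr hrq hx
    refine H8.pResidual_le_of_isPGroup_quotient hquot (H8.mem_pResidual_of_coprime ?_)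
    exact Nat.Coprime.coprime_dvd_left (orderOf_dvd_of_pow_eq_one hx)
      (((Nat.coprime_primes hr hq).mpr hrq).pow_left j)
  refine ⟨fun H hH => ?_, fun hn => h1 (H8.hasNormalPComplement_of_isNilpotent p), fun R => ?_⟩
  · apply (Group.isNilpotent_of_finite_tfae.out 3 0).mp
    intro r hr R
    by_cases hrq : r = q
    · subst hrq
      have hp' : IsPGroup r (pResidual p H) := by
        refine hquot.of_injective
          ((QuotientGroup.mk' Q).comp (H.subtype.comp (pResidual p H).subtype)) ?_
        rw [injective_iff_map_eq_one]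
        intro x hx
        have h5 := H8.hasNormalPComplement_iff_forall_coprime.mp (h2 H hH) x x.2
        rw [← Subgroup.orderOf_coe] at h5
        exact Subtype.ext (Subtype.ext
          (H8.eq_one_of_mem_of_coprime hQp ((QuotientGroup.eq_one_iff _).mp hx) h5))
      have h6 : (R : Subgroup H) ≤ pResidual p H := by
        intro x hx
        obtain ⟨j, hj⟩ := R.2 ⟨x, hx⟩
        exact H8.mem_pResidual_of_coprime (Nat.Coprime.coprime_dvd_left
          (orderOf_dvd_of_pow_eq_one (congrArg Subtype.val hj))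
          (((Nat.coprime_primes hq Fact.out).mpr hqp).pow_left j))
      rw [← R.3 hp' h6]
      infer_instance
    · have h6 : (R : Subgroup H) ≤ Q.subgroupOf H := by
        intro x hx
        obtain ⟨j, hj⟩ := R.2 ⟨x, hx⟩
        exact hmem r x j hr.out hrq (congrArg Subtype.val (congrArg Subtype.val hj))
      by_cases hrp : r = p
      · subst hrp
        rw [← R.3 hQp.comap_subtype h6]
        infer_instance
      · have h7 : (R : Subgroup H) = ⊥ :=
          disjoint_self.mp ((IsPGroup.disjoint_of_ne r p hrp _ _ R.2 hQp.comap_subtype).mono_right h6)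
        rw [h7]
        infer_instance
  · have h6 : (R : Subgroup G) ≤ Q := by
      intro x hx
      obtain ⟨j, hj⟩ := R.2 ⟨x, hx⟩
      exact hmem p x j Fact.out hqp.symm (congrArg Subtype.val hj)
    rw [← R.3 hQp h6]
    exact hQn

end Cfsg.Agent.S0132
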