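import Cfsg.Statements.S0148
import Cfsg.Agent.H14.InduceChar

set_option autoImplicit false
open Cfsg

namespace Cfsg.Agent.S0148

/-- Inducing a character of a subgroup yields a character of the whole group. -/
theorem result {G : Type*} [Group G] [Fintype G] (H : Subgroup G) (θ : H → ℂ) (hθ : Cfsg.IsCharacter H θ) : Cfsg.IsCharacter G (Cfsg.indFun H θ) := by
  exact H14.IsCharacter.indFun H hθ

end Cfsg.Agent.S0148
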