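import Cfsg.Statements.S0162
import Cfsg.Agent.H11.PermChar
import Cfsg.Agent.S0135

set_option autoImplicit false
open Cfsg

namespace Cfsg.Agent.S0162

open Cfsg.Agent.H11

/-- If a finite group has odd order, its order is congruent to its number of conjugacy classes modulo 16. -/
theorem result {G : Type*} [Group G] [Finite G] (hodd : Odd (Nat.card G)) : Nat.card G ≡ Nat.card (ConjClasses G) [MOD 16] := by
  classical
  have := Fintype.ofFinite G
  choose d hd0 hd using fun χ : IrrCharacter G => exists_pos_degree χ.2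
  have hdodd : ∀ χ, Odd (d χ) := by
    intro χ
    obtain ⟨n, ρ, hρ, h⟩ := χ.2
    have h1 := S0135.result ρ
    have h2 : d χ = Module.finrank ℂ (Fin n → ℂ) := by
      have := hd χ
      rw [← h, ρ.char_one] at this
      exact_mod_cast this.symm
    rw [← h2] at h1
    exact hodd.of_dvd_nat h1
  have h8 : ∀ χ, ∃ f : ℕ, d χ ^ 2 = 8 * f + 1 := by
    intro χ
    obtain ⟨k, hk⟩ := hdodd χ
    obtain ⟨m, hm⟩ := Nat.even_mul_succ_self k
    exact ⟨m, by rw [hk]; nlinarith⟩
  choose f hf using h8
  have hsum : Nat.card G = 8 * ∑ χ, f χ + Nat.card (ConjClasses G) := by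
    have h := sum_degree_sq (G := G)
    simp only [hd] at h
    have h' : ∑ χ, d χ ^ 2 = Nat.card G := by exact_mod_cast h
    rw [← h', ← card_irr_eq_card_conjClasses, Nat.card_eq_fintype_card]
    simp only [hf, Finset.sum_add_distrib, Finset.mul_sum]
    simp
  let σ : IrrCharacter G → IrrCharacter G := fun χ => ⟨_, isIrrCharacter_conj χ.2⟩
  have hσd : ∀ χ, d (σ χ) = d χ := by
    intro χ
    have h1 := hd (σ χ)
    change (starRingEnd ℂ) (χ.1 1) = _ at h1
    rw [hd χ, map_natCast] at h1
    exact_mod_cast h1.symm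
  have hσf : ∀ χ, f (σ χ) = f χ := by
    intro χ
    have h1 := hf (σ χ)
    rw [hσd, hf χ] at h1
    omega
  have heven : ((∑ χ, f χ : ℕ) : ZMod 2) = 0 := by
    rw [Nat.cast_sum]
    refine Finset.sum_involution (fun χ _ => σ χ) (fun χ _ => ?_) (fun χ _ h => ?_)
      (fun _ _ => Finset.mem_univ _) (fun χ _ => ?_)
    · rw [hσf, ← two_mul]
      exact mul_eq_zero_of_left rfl _
    · intro h'
      apply h
      have h1 : χ.1 = fun _ => 1 := by
        by_contra h2
        exact irr_conj_ne_of_odd hodd χ.2 h2 (congrArg Subtype.val h')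
      have h2 := hd χ
      rw [h1] at h2
      have h3 : d χ = 1 := by
        have h5 : (d χ : ℂ) = 1 := h2.symm
        exact_mod_cast h5
      have h4 := hf χ
      rw [h3] at h4
      have : f χ = 0 := by omega
      simp [this]
    · ext g; simp [σ]
  obtain ⟨m, hm⟩ := (ZMod.natCast_eq_zero_iff _ _).1 heven
  rw [hsum, hm]
  unfold Nat.ModEq
  omega

end Cfsg.Agent.S0162
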