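import Cfsg.Statements.S0166
import Cfsg.Agent.H13.Realizable

set_option autoImplicit false
open Cfsg

namespace Cfsg.Agent.S0166

/-- Brauer's splitting field Theorem: a complex representation of a finite group of exponent m is equivalent to a representation by matrices with entries in ℚ adjoined exp(2πi/m). -/
theorem result {G : Type*} [Group G] [Finite G] (n : ℕ) (ρ : Representation ℂ G (Fin n → ℂ)) : ∃ σ : Representation ℂ G (Fin n → ℂ), Nonempty (ρ.Equiv σ) ∧ ∀ g : G, ∀ i j : Fin n, LinearMap.toMatrix' (σ g) i j ∈ Algebra.adjoin ℚ ({Complex.exp (2 * Real.pi * Complex.I / (Monoid.exponent G : ℂ))} : Set ℂ) := by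
  have hm : Monoid.exponent G ≠ 0 := Monoid.exponent_ne_zero_of_finite
  have hζ := Complex.isPrimitiveRoot_exp _ hm
  set ζ := Complex.exp (2 * Real.pi * Complex.I / (Monoid.exponent G : ℂ)) with hζdef
  have halg : IsAlgebraic ℚ ζ := ((hζ.isIntegral (Nat.pos_of_ne_zero hm)).tower_top).isAlgebraic
  have hK : ∀ z : ℂ, z ^ Monoid.exponent G = 1 →
      z ∈ Set.range (algebraMap (IntermediateField.adjoin ℚ {ζ}) ℂ) := by
    intro z hz
    have : NeZero (Monoid.exponent G) := ⟨hm⟩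
    obtain ⟨i, -, rfl⟩ := hζ.eq_pow_of_pow_eq_one hz
    exact ⟨⟨ζ ^ i, pow_mem (IntermediateField.mem_adjoin_simple_self ℚ ζ) i⟩, rfl⟩
  obtain ⟨σ, hσ, h⟩ := Cfsg.Agent.H13.exists_equiv_entries_of_isRealizable ρ
    (Cfsg.Agent.H13.isRealizable_of_roots hK ⟨n, ρ, rfl⟩)
  refine ⟨σ, hσ, fun g i j => ?_⟩
  obtain ⟨x, hx⟩ := h g i j
  rw [← hx, ← IntermediateField.adjoin_simple_toSubalgebra_of_isAlgebraic halg]
  exact x.2

end Cfsg.Agent.S0166
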