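import Cfsg.Statements.S0172
import Cfsg.Agent.H14.FrobChar

set_option autoImplicit false
open Cfsg

namespace Cfsg.Agent.S0172

/-- Class number of a Frobenius group: if G = K H with K normal, K ⊓ H trivial and no non-identity element of H commuting with a non-identity element of K, then |H| * k(G) + 1 = |H| * k(H) + k(K), where k denotes the number of conjugacy classes. -/
theorem result {G : Type*} [Group G] [Finite G] (K H : Subgroup G) [K.Normal] (hKH : K ⊓ H = ⊥) (hKH' : K ⊔ H = ⊤) (hfpf : ∀ h ∈ H, h ≠ 1 → ∀ k ∈ K, h * k = k * h → k = 1) : Nat.card H * Nat.card (ConjClasses G) + 1 = Nat.card H * Nat.card (ConjClasses H) + Nat.card (ConjClasses K) := by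
  have hc : K.IsComplement' H :=
    Subgroup.isComplement'_of_disjoint_and_mul_eq_univ (disjoint_iff.mpr hKH) (by
      rw [← Subgroup.normal_mul, hKH']; rfl)
  have h1 := H14.index_mul_card_irr_not_le_charKer (H14.centralizer_le_of_fpf K H hKH' hfpf)
  have h2 := H14.card_irr_eq_card_quotient_add (K := K)
  have h3 : K.index = Nat.card H := hc.symm.index_eq_card
  have h4 : Nat.card (IrrCharacter (G ⧸ K)) = Nat.card (IrrCharacter H) :=
    Nat.card_congr (H11.irrEquivOfMulEquiv (hc.symm.QuotientMulEquiv)).symm
  rw [← H11.card_irr_eq_card_conjClasses, ← H11.card_irr_eq_card_conjClasses,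
    ← H11.card_irr_eq_card_conjClasses, h2, h4, ← h1, h3]
  ring

end Cfsg.Agent.S0172
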