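import Cfsg.Statements.S0173
import Cfsg.Agent.H11.PermChar

set_option autoImplicit false
open Cfsg

namespace Cfsg.Agent.S0173

open Cfsg.Agent.H11

/-- Brauer's permutation lemma for a single automorphism: the number of conjugacy classes mapped to themselves equals the number of irreducible complex characters χ with χ ∘ α = χ. -/
theorem result {G : Type*} [Group G] [Finite G] (α : G ≃* G) : Nat.card {C : ConjClasses G // ConjClasses.map α.toMonoidHom C = C} = Nat.card {χ : Cfsg.IrrCharacter G // (χ : G → ℂ) ∘ α = (χ : G → ℂ)} := by
  symm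
  refine (Nat.card_congr (Equiv.subtypeEquivRight fun χ => ?_)).trans
    ((card_irr_fixed_mulEquiv α).trans (Nat.card_congr (Equiv.subtypeEquivRight fun C => ?_)))
  · rw [funext_iff]; rfl
  · obtain ⟨x, rfl⟩ := ConjClasses.exists_rep C
    have h0 : ConjClasses.map α.toMonoidHom (ConjClasses.mk x) = ConjClasses.mk (α x) := rfl
    rw [h0, ConjClasses.mk_eq_mk_iff_isConj]
    constructor
    · intro h; exact (h x rfl).symm
    · intro h g hg
      rw [ConjClasses.mk_eq_mk_iff_isConj] at hg
      exact (hg.trans h.symm).trans (α.toMonoidHom.map_isConj hg.symm)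

end Cfsg.Agent.S0173
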