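import Cfsg.Statements.S0175
import Cfsg.Agent.H14.MGroup
import Cfsg.Agent.H12.Central

set_option autoImplicit false
open Cfsg

namespace Cfsg.Agent.S0175

/-- Taketa's Theorem on M-groups: if every irreducible complex character of a finite group is induced from a linear character (a homomorphism to ℂˣ) of some subgroup, the group is solvable. -/
theorem result {G : Type*} [Group G] [Fintype G] (hM : ∀ χ : G → ℂ, Cfsg.IsIrrCharacter G χ → ∃ (H : Subgroup G) (lam : H →* ℂˣ), χ = Cfsg.indFun H (fun h => (lam h : ℂ))) : Group.IsSolvable G := by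
  have key : ∀ d : ℕ, ∀ χ : G → ℂ, IsIrrCharacter G χ → χ 1 = d →
      derivedSeries G d ≤ H11.charKer χ := by
    intro d
    induction d using Nat.strong_induction_on with | _ d ih => ?_
    intro χ hχ hd
    obtain ⟨H, lam, hH⟩ := hM χ hχ
    have hidx : H.index = d := by
      rw [hH, H14.indFun_one] at hd
      simpa using hd
    have hd0 : d ≠ 0 := hidx ▸ Subgroup.index_ne_zero_of_finite
    obtain ⟨c, rfl⟩ := Nat.exists_eq_succ_of_ne_zero hd0
    have hperm := H14.IsCharacter.indFun H H11.isCharacter_one
    have hle : derivedSeries G c ≤ H := by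
      rcases Nat.eq_zero_or_pos c with rfl | hc
      · rw [Subgroup.index_eq_one.mp hidx]
        exact le_top
      refine le_trans ?_ (H14.charKer_indFun_le H H11.isCharacter_one
        (H11.irr_ne_zero H11.isIrrCharacter_one))
      intro g hg
      rw [H11.mem_charKer_iff_forall_constituent hperm]
      intro ψ hψ hc'
      obtain ⟨b, hb0, hb⟩ := H11.exists_pos_degree hψ
      have hdeg : indFun H (fun _ => 1) 1 = (c.succ : ℕ) := by
        rw [H14.indFun_one, hidx, mul_one]
      have h1 := H14.degree_le_of_inner_ne_zero hperm hψ hc' hb hdeg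
      have h2 : b ≠ c.succ := by
        intro e
        have h3 := H14.eq_of_inner_ne_zero_of_degree_eq hperm hψ hc' (by rw [hdeg, hb, e])
        letI := Fintype.ofFinite H
        have h4 : classInner (indFun H (fun _ => 1)) (fun _ => 1) ≠ 0 := by
          rw [H14.classInner_indFun_left H _ (fun _ _ => rfl), H11.classInner_one_one]
          exact one_ne_zero
        rw [h3] at h4
        rw [H11.irr_eq_of_classInner_ne_zero hψ H11.isIrrCharacter_one h4] at hb
        have hb' : (1 : ℂ) = b := hb
        have : 1 = b := by exact_mod_cast hb'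
        omega
      exact ih b (by omega) ψ hψ hb (derivedSeries_antitone G (by omega : b ≤ c) hg)
    rw [hH]
    refine H14.le_charKer_indFun H (H11.isCharacter_monoidHom lam) _
      ((derivedSeries_antitone G (Nat.le_succ c)).trans hle) ?_
    intro m
    have h1 : (m : G) ∈ ⁅H, H⁆ := Subgroup.commutator_mono hle hle m.2
    rw [← Subgroup.map_subtype_commutator] at h1
    obtain ⟨x, hx, e⟩ := h1
    have h2 : lam x = 1 := Abelianization.commutator_subset_ker lam hx
    have h3 : ∀ h, (⟨(m : G), h⟩ : H) = x := fun h => Subtype.ext e.symm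
    rw [h3, h2, map_one]
  refine ⟨⟨Nat.card G, ?_⟩⟩
  rw [eq_bot_iff]
  intro g hg
  apply H11.eq_one_of_forall_mem_charKer
  intro χ hχ
  obtain ⟨d, -, hd⟩ := H11.exists_pos_degree hχ
  exact key d χ hχ hd (derivedSeries_antitone G
    (Nat.le_of_dvd Nat.card_pos (H12.irr_degree_dvd_card hχ hd)) hg)

end Cfsg.Agent.S0175
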