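import Cfsg.Statements.S0180
import Cfsg.Agent.H12.Central

set_option autoImplicit false
open Cfsg

namespace Cfsg.Agent.S0180

/-- Every irreducible complex character of a finite group takes only rational values if and only if g is conjugate to g ^ m for every element g and every m coprime to the group order. -/
theorem result {G : Type*} [Group G] [Finite G] : (∀ χ : Cfsg.IrrCharacter G, ∀ g : G, ∃ q : ℚ, (χ : G → ℂ) g = (q : ℂ)) ↔ ∀ m : ℕ, m.Coprime (Nat.card G) → ∀ g : G, IsConj g (g ^ m) := by
  constructor
  · intro h m hm g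
    obtain ⟨σ, hσ⟩ := H12.exists_ringEquiv_character_pow (G := G) hm
    rw [H13.isConj_iff_irr]
    intro χ hχ
    obtain ⟨q, hq⟩ := h ⟨χ, hχ⟩ g
    rw [← hσ χ (H12.isCharacter_of_irr hχ)]
    simp only at hq
    rw [hq, map_ratCast]
  · intro h χ g
    obtain ⟨z, hz⟩ := H12.exists_int_of_forall_isConj_pow (H12.isCharacter_of_irr χ.2) g
      (fun m hm => h m hm g)
    exact ⟨z, by rw [hz, Rat.cast_intCast]⟩

end Cfsg.Agent.S0180
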