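import Cfsg.Statements.S0184
import Cfsg.Agent.H11.Kernel
import Cfsg.Agent.H11.GroupUtil

set_option autoImplicit false
open Cfsg

namespace Cfsg.Agent.S0184

open Cfsg.Agent.H11

/-- A finite p-group admits a faithful irreducible complex representation if and only if its centre is cyclic. -/
theorem result {G : Type*} [Group G] [Finite G] (p : ℕ) [Fact p.Prime] (hG : IsPGroup p G) : (∃ (n : ℕ) (ρ : Representation ℂ G (Fin n → ℂ)), ρ.IsIrreducible ∧ Function.Injective ρ) ↔ IsCyclic (Subgroup.center G) := by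
  constructor
  · rintro ⟨n, ρ, hρ, hinj⟩
    exact isCyclic_center_of_faithful (isIrrCharacter_character ρ)
      ((charKer_character_eq_bot_iff ρ).2 hinj)
  · intro hc
    suffices h : ∃ χ, IsIrrCharacter G χ ∧ charKer χ = ⊥ by
      obtain ⟨χ, ⟨n, ρ, hρ, rfl⟩, h⟩ := h
      exact ⟨n, ρ, hρ, (charKer_character_eq_bot_iff ρ).1 h⟩
    rcases subsingleton_or_nontrivial G with hG1 | hG1
    · exact ⟨_, isIrrCharacter_one, Subsingleton.elim _ _⟩
    have hp : p.Prime := Fact.out
    obtain ⟨z, -, hz, hzo⟩ := exists_mem_center_orderOf_eq_prime hG ⊤ top_ne_bot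
    have hz1 : z ≠ 1 := by
      rintro rfl
      rw [orderOf_one] at hzo
      exact hp.one_lt.ne hzo
    obtain ⟨χ, hχ, hne⟩ := exists_irr_apply_ne hz1
    refine ⟨χ, hχ, ?_⟩
    by_contra hker
    have := charKer_normal (isClassFunction_of_irr hχ)
    obtain ⟨w, hw1, hw, hwo⟩ := exists_mem_center_orderOf_eq_prime hG _ hker
    obtain ⟨k, hk⟩ := mem_zpowers_of_orderOf_dvd _ hz hw (by rw [hzo, hwo])
    exact hne (apply_eq_of_mem_charKer (hk ▸ (charKer χ).zpow_mem hw1 k))

end Cfsg.Agent.S0184
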