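import Cfsg.Statements.S0186
import Cfsg.Agent.H12.Burnside

set_option autoImplicit false
open Cfsg

namespace Cfsg.Agent.S0186

/-- Let G be a finite simple group of order n and p a prime dividing n. If G has more than n / p^2 conjugacy classes, then every Sylow p-subgroup of G is abelian. -/
theorem result {G : Type*} [Group G] [Finite G] [IsSimpleGroup G] (p : ℕ) [Fact p.Prime] (hp : p ∣ Nat.card G) (hmany : Nat.card G < p ^ 2 * Nat.card (ConjClasses G)) (P : Sylow p G) (a b : G) (ha : a ∈ P) (hb : b ∈ P) : a * b = b * a := by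
  classical
  have hpp : p.Prime := Fact.out
  by_cases h2 : p ^ 2 ∣ Nat.card G
  · have := Fintype.ofFinite (IrrCharacter G)
    by_cases hex : ∃ (χ : G → ℂ) (d : ℕ), IsIrrCharacter G χ ∧ χ ≠ (fun _ => 1) ∧ χ 1 = d ∧ d < p
    · obtain ⟨χ, d, hχ, h1, hd, hdp⟩ := hex
      exact H12.comm_of_isPGroup_of_degree_lt (H12.isCharacter_of_irr hχ)
        (H11.charKer_eq_bot_of_isSimpleGroup hχ h1) hpp hd hdp P.2 ha hb
    · exfalso
      push Not at hex
      choose d hd0 hd using fun χ : IrrCharacter G => H13.exists_pos_nat_degree χ.2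
      have h1 := H13.sum_sq_degree (G := G)
      simp only [hd] at h1
      have h3 : ∑ χ : IrrCharacter G, d χ ^ 2 = Nat.card G := by exact_mod_cast h1
      let one : IrrCharacter G := ⟨fun _ => 1, H13.isIrrCharacter_one⟩
      rw [← Finset.add_sum_erase _ _ (Finset.mem_univ one)] at h3
      have h4 : (Finset.univ.erase one).card * p ^ 2 ≤ ∑ χ ∈ Finset.univ.erase one, d χ ^ 2 := by
        rw [← smul_eq_mul]
        refine Finset.card_nsmul_le_sum _ _ _ fun χ hχ => ?_
        exact Nat.pow_le_pow_left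
          (hex χ (d χ) χ.2 (fun h => (Finset.mem_erase.mp hχ).1 (Subtype.ext h)) (hd χ)) 2
      rw [Finset.card_erase_of_mem (Finset.mem_univ one), Finset.card_univ,
        ← Nat.card_eq_fintype_card, H13.card_irr_eq_card_conjClasses] at h4
      obtain ⟨m, hm⟩ := h2
      have h5 : m < Nat.card (ConjClasses G) := by
        rw [hm] at hmany
        exact Nat.lt_of_mul_lt_mul_left hmany
      have h6 : m * p ^ 2 ≤ (Nat.card (ConjClasses G) - 1) * p ^ 2 :=
        Nat.mul_le_mul_right _ (by omega)
      have h7 := pow_pos (hd0 one) 2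
      rw [hm, mul_comm] at h3
      omega
  · obtain ⟨k, hk⟩ := IsPGroup.iff_card.mp P.2
    have h3 : p ^ k ∣ Nat.card G := hk ▸ Subgroup.card_subgroup_dvd_card _
    have h4 : k ≤ 1 := by
      by_contra h5
      exact h2 ((pow_dvd_pow p (by omega)).trans h3)
    have : IsCyclic (P : Subgroup G) := isCyclic_of_card_dvd_prime (p := p)
      (hk ▸ (pow_dvd_pow p h4).trans (by rw [pow_one]))
    exact congrArg Subtype.val (IsCyclic.commutative.is_comm.comm (⟨a, ha⟩ : (P : Subgroup G)) ⟨b, hb⟩)

end Cfsg.Agent.S0186
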