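import Cfsg.Statements.S0189
import Cfsg.Agent.H11.Kernel
import Cfsg.Agent.H11.GroupUtil

set_option autoImplicit false
open Cfsg

namespace Cfsg.Agent.S0189

open Cfsg.Agent.H11

/-- If a complex character of a finite group vanishes at every non-identity element of a Sylow p-subgroup P, then |P| divides its degree. -/
theorem result {G : Type*} [Group G] [Finite G] (p : ℕ) [Fact p.Prime] (P : Sylow p G) (χ : G → ℂ) (hχ : Cfsg.IsCharacter G χ) (hvan : ∀ g : G, g ∈ P → g ≠ 1 → χ g = 0) : ∃ k : ℕ, χ 1 = (Nat.card P : ℂ) * k := by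
  have := Fintype.ofFinite (P : Subgroup G)
  obtain ⟨k, hk⟩ := exists_nat_classInner (isCharacter_restrict hχ (P : Subgroup G)) isCharacter_one
  refine ⟨k, ?_⟩
  rw [classInner_one_right, Finset.sum_eq_single (1 : (P : Subgroup G))
    (fun g _ hg => hvan g g.2 (by simpa using hg)) (by simp)] at hk
  have h0 := card_ne_zero (P : Subgroup G)
  rw [← hk, ← mul_assoc]
  erw [mul_inv_cancel₀ h0, one_mul]
  rfl

end Cfsg.Agent.S0189
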