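import Cfsg.Statements.S0192
import Cfsg.Agent.H11.Kernel
import Cfsg.Agent.H11.GroupUtil

set_option autoImplicit false
open Cfsg

namespace Cfsg.Agent.S0192

open Cfsg.Agent.H11

/-- Brauer's generation criterion. Let G be a finite simple group, H₁ and H₂ subgroups, and χ a non-principal irreducible character. If the multiplicity of the principal character in χ restricted to H₁ ⊓ H₂ is less than the sum of the corresponding multiplicities for H₁ and H₂, then H₁ and H₂ do not generate G. -/
theorem result {G : Type*} [Group G] [Fintype G] [IsSimpleGroup G] (H₁ H₂ : Subgroup G) [Fintype H₁] [Fintype H₂] [Fintype ↥(H₁ ⊓ H₂)] (χ : G → ℂ) (hχ : Cfsg.IsIrrCharacter G χ) (hχ1 : χ ≠ fun _ => 1) (hlt : (Cfsg.classInner (fun x : ↥(H₁ ⊓ H₂) => χ x) (fun _ => 1)).re < (Cfsg.classInner (fun x : H₁ => χ x) (fun _ => 1)).re + (Cfsg.classInner (fun x : H₂ => χ x) (fun _ => 1)).re) : H₁ ⊔ H₂ ≠ ⊤ := by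
  intro htop
  obtain ⟨n, ρ, hρ, rfl⟩ := hχ
  have e : ∀ (H : Subgroup G) [Fintype H], classInner (fun x : H => ρ.character x) (fun _ => 1) =
      Module.finrank ℂ (Representation.invariants (ρ.comp H.subtype)) :=
    fun H _ => classInner_character_one_eq_finrank (G := H) (ρ.comp H.subtype)
  rw [e, e, e] at hlt
  simp only [Complex.natCast_re] at hlt
  set V₁ := Representation.invariants (ρ.comp H₁.subtype)
  set V₂ := Representation.invariants (ρ.comp H₂.subtype)
  set V₁₂ := Representation.invariants (ρ.comp (H₁ ⊓ H₂).subtype)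
  have h1 : V₁ ⊔ V₂ ≤ V₁₂ := by
    refine sup_le (fun v hv x => hv ⟨x, x.2.1⟩) (fun v hv x => hv ⟨x, x.2.2⟩)
  have h2 : V₁ ⊓ V₂ = ⊥ := by
    have := Fintype.ofFinite (⊤ : Subgroup G)
    have h3 := classInner_irr_of_ne (isIrrCharacter_character ρ) isIrrCharacter_one hχ1
    rw [classInner_character_one_eq_finrank, Nat.cast_eq_zero, Submodule.finrank_eq_zero] at h3
    rw [eq_bot_iff, ← h3]
    intro v hv g
    have hg : g ∈ H₁ ⊔ H₂ := htop ▸ Subgroup.mem_top g
    let S : Subgroup G :=
      { carrier := {g | ρ g v = v}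
        one_mem' := by simp
        mul_mem' := fun {a b} ha hb => by
          simp only [Set.mem_setOf_eq] at ha hb ⊢
          rw [map_mul, Module.End.mul_apply, hb, ha]
        inv_mem' := fun {a} ha => by
          simp only [Set.mem_setOf_eq] at ha ⊢
          conv_lhs => rw [← ha, Representation.inv_self_apply] }
    exact (sup_le (fun x hx => hv.1 ⟨x, hx⟩) (fun x hx => hv.2 ⟨x, hx⟩) : H₁ ⊔ H₂ ≤ S) hg
  have h3 := Submodule.finrank_sup_add_finrank_inf_eq V₁ V₂
  rw [h2, finrank_bot, add_zero] at h3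
  have h4 := Submodule.finrank_mono h1
  rw [h3] at h4
  have h5 : (Module.finrank ℂ V₁ : ℝ) + Module.finrank ℂ V₂ ≤ Module.finrank ℂ V₁₂ := by
    exact_mod_cast h4
  linarith

end Cfsg.Agent.S0192
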