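import Cfsg.Statements.S0196
import Mathlib.GroupTheory.GroupAction.Quotient
import Mathlib.Tactic.Group
import Mathlib.SetTheory.Cardinal.NatCard
import Mathlib.Data.Set.Card.Arithmetic

set_option autoImplicit false
open Cfsg

namespace Cfsg.Agent.S0196

theorem dvd_card_of_index_stabilizer {N X : Type*} [Group N] [MulAction N X] [Finite X] (d : ℕ)
    (h : ∀ x : X, (MulAction.stabilizer N x).index = d) : d ∣ Nat.card X := by
  classical
  rw [Nat.card_congr (MulAction.selfEquivSigmaOrbits N X)]
  haveI : Finite (MulAction.orbitRel.Quotient N X) := Quotient.finite _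
  letI : Fintype (MulAction.orbitRel.Quotient N X) := Fintype.ofFinite _
  rw [Nat.card_sigma]
  apply Finset.dvd_sum
  intro ω _
  rw [← h ω.out, MulAction.index_stabilizer]
  rfl


/-- Let A be a subgroup of a finite group G that equals the centralizer of each of its non-identity elements, and let N be its normalizer. Then the index of A in N divides |A| − 1 (N/A permutes the non-identity elements of A in orbits of full length). -/
theorem result {G : Type*} [Group G] [Finite G] (A : Subgroup G) (hA : ∀ x ∈ A, x ≠ 1 → Subgroup.centralizer ({x} : Set G) = A) : (A.subgroupOf (Subgroup.normalizer (A : Set G))).index ∣ Nat.card A - 1 := by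
  classical
  let N := Subgroup.normalizer (A : Set G)
  let X := {a : A // a ≠ 1}
  letI : MulAction N X :=
    { smul := fun n a => ⟨⟨n * a.1 * (n : G)⁻¹,
        (Subgroup.mem_normalizer_iff.mp n.2 a.1).mp a.1.2⟩, by
          intro h
          apply a.2
          have h' : (n : G) * a.1 * (n : G)⁻¹ = 1 := congrArg Subtype.val h
          apply Subtype.ext
          have : (a.1 : G) = (n : G)⁻¹ * ((n : G) * a.1 * (n : G)⁻¹) * n := by group
          rw [this, h']; simp⟩
      one_smul := fun k => Subtype.ext (Subtype.ext (by
        change ((1 : N) : G) * k.1 * ((1 : N) : G)⁻¹ = k.1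
        simp))
      mul_smul := fun a b k => Subtype.ext (Subtype.ext (by
        change ((a * b : N) : G) * k.1 * ((a * b : N) : G)⁻¹ =
          a * (b * k.1 * (b : G)⁻¹) * (a : G)⁻¹
        simp [mul_assoc])) }
  have hX : Nat.card X = Nat.card A - 1 := by
    letI := Fintype.ofFinite A
    simp only [X, Nat.card_eq_fintype_card, Fintype.card_subtype_compl, Fintype.card_unique]
  rw [← hX]
  apply dvd_card_of_index_stabilizer (N := N)
  intro x
  congr 1
  ext n
  rw [MulAction.mem_stabilizer_iff, Subgroup.mem_subgroupOf]
  rw [← SetLike.ext_iff.mp (hA x.1 x.1.2 (fun h => x.2 (Subtype.ext h))) (n : G),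
    Subgroup.mem_centralizer_singleton_iff, Subtype.ext_iff, Subtype.ext_iff]
  change (n : G) * x.1 * (n : G)⁻¹ = x.1 ↔ _
  rw [mul_inv_eq_iff_eq_mul]

end Cfsg.Agent.S0196
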