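import Cfsg.Statements.S0210
import Cfsg.Agent.H9.Dihedral

set_option autoImplicit false
open Cfsg

namespace Cfsg.Agent.S0210

/-- If x, y are involutions whose product has even order, no element of the subgroup generated by x and y conjugates x to y. -/
theorem result {G : Type*} [Group G] [Finite G] (x y : G) (hx : orderOf x = 2) (hy : orderOf y = 2) (heven : Even (orderOf (x * y))) (d : G) (hd : d ∈ Subgroup.closure ({x, y} : Set G)) : d * x * d⁻¹ ≠ y := by
  have hx2 := H9.mul_self_of_orderOf_two hx
  have hy2 := H9.mul_self_of_orderOf_two hy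
  obtain ⟨k, hk⟩ := H9.conj_left_of_mem_closure hx2 hy2 hd
  intro h
  rw [hk] at h
  conv_rhs at h => rw [H9.right_eq_zpow_mul_left hx2 hy2]
  rw [mul_left_inj, zpow_eq_zpow_iff_modEq, Int.modEq_iff_dvd] at h
  obtain ⟨m, hm⟩ := heven
  rw [hm] at h
  obtain ⟨c, hc⟩ := h
  push_cast at hc
  have : -1 - 2 * k = 2 * (m * c) := by rw [hc]; ring
  omega

end Cfsg.Agent.S0210
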