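import Cfsg.Statements.S0211
import Cfsg.Agent.H9.Dihedral

set_option autoImplicit false
open Cfsg

namespace Cfsg.Agent.S0211

/-- Let x, y be involutions with xy of even order n and z = (xy)^(n/2). Then xz is conjugate to x by an element of the subgroup generated by x, y if and only if 4 divides n. -/
theorem result {G : Type*} [Group G] [Finite G] (x y : G) (hx : orderOf x = 2) (hy : orderOf y = 2) (heven : Even (orderOf (x * y))) : (∃ d ∈ Subgroup.closure ({x, y} : Set G), d * x * d⁻¹ = x * (x * y) ^ (orderOf (x * y) / 2)) ↔ 4 ∣ orderOf (x * y) := by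
  have hx2 := H9.mul_self_of_orderOf_two hx
  have hy2 := H9.mul_self_of_orderOf_two hy
  have hc := (H9.central_involution hx2 hy2 heven).2.1
  rw [← hc.eq]
  obtain ⟨m, hm⟩ := heven
  have hm2 : orderOf (x * y) / 2 = m := by omega
  rw [hm2]
  constructor
  · rintro ⟨d, hd, h⟩
    obtain ⟨k, hk⟩ := H9.conj_left_of_mem_closure hx2 hy2 hd
    rw [hk, mul_left_inj, ← zpow_natCast, zpow_eq_zpow_iff_modEq, Int.modEq_iff_dvd, hm] at h
    obtain ⟨c, hc⟩ := h
    push_cast at hc
    have : (m : ℤ) - 2 * k = 2 * (m * c) := by rw [hc]; ring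
    omega
  · intro h
    obtain ⟨k, hk⟩ : ∃ k : ℕ, m = 2 * k := ⟨m / 2, by omega⟩
    refine ⟨(x * y) ^ (k : ℤ), (H9.mem_closure_involutions hx2 hy2 _).mpr (Or.inl ⟨k, rfl⟩), ?_⟩
    rw [H9.zpow_conj_left hx2 hy2, hk, ← zpow_natCast]
    push_cast
    rfl

end Cfsg.Agent.S0211
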