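import Cfsg.Statements.S0216
import Cfsg.Agent.H10.Isolated

set_option autoImplicit false
open Cfsg

namespace Cfsg.Agent.S0216

/-- For an involution u in a Sylow 2-subgroup P of a finite group G, the following are equivalent: no G-conjugate of u other than u lies in P; every commutator of u with an element of G has odd order. -/
theorem result {G : Type*} [Group G] [Finite G] (P : Sylow 2 G) (u : G) (hu : orderOf u = 2) (huP : u ∈ P) : (∀ g : G, g * u * g⁻¹ ∈ P → g * u * g⁻¹ = u) ↔ (∀ g : G, Odd (orderOf (u * g * u⁻¹ * g⁻¹))) := by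
  have hinv := H10.inv_eq_of_orderOf_two hu
  constructor
  · intro h g
    have hz := H10.Isolated.of_sylow P hu h
    have ht : IsConj u (g * u * g⁻¹) := isConj_iff.mpr ⟨g, rfl⟩
    have := H10.Isolated.odd_orderOf_mul' hz ht (IsConj.refl u)
    rw [hinv]
    simpa [mul_assoc] using this
  · intro h g hg
    have hodd := h g
    rw [hinv] at hodd
    have hmem : u * g * u * g⁻¹ ∈ (P : Subgroup G) := by
      have := (P : Subgroup G).mul_mem huP hg
      simpa [mul_assoc] using this
    obtain ⟨k, hk⟩ := P.isPGroup' ⟨_, hmem⟩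
    have hk' : (u * g * u * g⁻¹) ^ 2 ^ k = 1 := by simpa using congrArg Subtype.val hk
    have h1 : orderOf (u * g * u * g⁻¹) ∣ 2 ^ k := orderOf_dvd_of_pow_eq_one hk'
    have h2 : orderOf (u * g * u * g⁻¹) = 1 :=
      Nat.Coprime.eq_one_of_dvd (Nat.Coprime.pow_right k (Nat.coprime_two_right.mpr hodd)) h1
    have h3 : u * (g * u * g⁻¹) = 1 := by simpa [mul_assoc] using orderOf_eq_one_iff.mp h2
    rw [eq_inv_of_mul_eq_one_right h3, hinv]

end Cfsg.Agent.S0216
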