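import Cfsg.Statements.S0218
import Cfsg.Agent.H9.Dihedral
import Mathlib.Tactic.Linarith

set_option autoImplicit false
open Cfsg

namespace Cfsg.Agent.S0218

/-- The generalized quaternion group of order 2^(n+3) contains exactly one element of order 2. -/
theorem result (n : ℕ) : Nat.card {x : QuaternionGroup (2 ^ (n + 1)) // orderOf x = 2} = 1 := by
  obtain ⟨a, b, ha, hb, hab, hba, hall⟩ :=
    H9.exists_gens_of_equiv_quaternion (MulEquiv.refl (QuaternionGroup (2 ^ (n + 1))))
  have hpos : 0 < 2 ^ (n + 1) := by positivity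
  have hz : orderOf (a ^ 2 ^ (n + 1)) = 2 := by
    rw [orderOf_pow' _ hpos.ne', ha, Nat.gcd_mul_left_left, Nat.mul_div_cancel _ hpos]
  rw [Nat.card_eq_one_iff_exists]
  refine ⟨⟨_, hz⟩, ?_⟩
  rintro ⟨x, hx⟩
  refine Subtype.ext ?_
  have hx2 := H9.mul_self_of_orderOf_two hx
  rcases hall x with ⟨k, rfl⟩ | ⟨k, rfl⟩
  · rw [← zpow_add, ← orderOf_dvd_iff_zpow_eq_one, ha] at hx2
    have h1 := H9.ne_one_of_orderOf_two hx
    rw [Ne, ← orderOf_dvd_iff_zpow_eq_one, ha] at h1
    simp only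
    rw [← zpow_natCast, zpow_eq_zpow_iff_modEq, ha, Int.modEq_iff_dvd]
    generalize 2 ^ (n + 1) = m at *
    push_cast at *
    obtain ⟨c, hc⟩ := hx2
    have hk : k = m * c := by linarith
    rcases Int.even_or_odd' c with ⟨d, rfl | rfl⟩
    · exact absurd ⟨d, by rw [hk]; ring⟩ h1
    · exact ⟨-d, by rw [hk]; ring⟩
  · exfalso
    have e : a ^ k * b * (a ^ k * b) = b * b := by
      calc a ^ k * b * (a ^ k * b) = a ^ k * (b * a ^ k) * b := by group
        _ = b * b := by rw [H9.mul_zpow_of_inverts hab]; group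
    rw [e, hb] at hx2
    exact H9.ne_one_of_orderOf_two hz hx2

end Cfsg.Agent.S0218
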