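import Cfsg.Statements.S0220
import Cfsg.Agent.H9.InvCount

set_option autoImplicit false
open Cfsg

namespace Cfsg.Agent.S0220

/-- If x is an involution of a finite group G and a Sylow 2-subgroup of the centralizer of x is cyclic, then G has a subgroup of index 2; in particular G is not simple unless it has order 2. -/
theorem result {G : Type*} [Group G] [Finite G] (x : G) (hx : orderOf x = 2) (S : Sylow 2 ↥(Subgroup.centralizer ({x} : Set G))) (hS : IsCyclic (S : Subgroup ↥(Subgroup.centralizer ({x} : Set G)))) : ∃ H : Subgroup G, H.index = 2 := by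
  have hx1 := H9.ne_one_of_orderOf_two hx
  revert S
  set C := Subgroup.centralizer ({x} : Set G) with hCdef
  intro S hS
  have hxC : x ∈ C := Subgroup.mem_centralizer_singleton_iff.mpr rfl
  obtain ⟨T, hT⟩ := (S.isPGroup'.map C.subtype).exists_le_sylow
  -- the elements of `T` centralizing `x` lie in `S`
  have hTS : ∀ g (hg : g ∈ C), g ∈ T → (⟨g, hg⟩ : C) ∈ (S : Subgroup C) := by
    intro g hg hgT
    have := S.is_maximal' (T.isPGroup'.comap_subtype (K := C)) (Subgroup.map_le_iff_le_comap.mp hT)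
    rw [← this]; exact hgT
  have hxS : (⟨x, hxC⟩ : C) ∈ (S : Subgroup C) := by
    have hP : IsPGroup 2 (Subgroup.zpowers (⟨x, hxC⟩ : C)) :=
      IsPGroup.of_card (n := 1) (by rw [Nat.card_zpowers, Subgroup.orderOf_mk, hx, pow_one])
    have : (Subgroup.zpowers (⟨x, hxC⟩ : C)).Normal := by
      refine ⟨fun n hn g => ?_⟩
      obtain ⟨k, rfl⟩ := hn
      refine ⟨k, ?_⟩
      have : Commute g (⟨x, hxC⟩ : C) := Subtype.ext (Subgroup.mem_centralizer_singleton_iff.mp g.2)
      simp only
      rw [(this.zpow_right k).eq]; group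
    exact hP.le_sylow_of_normal S (Subgroup.mem_zpowers _)
  have hxT : x ∈ T := hT ⟨_, hxS, rfl⟩
  have : Nontrivial (T : Subgroup G) := ⟨⟨⟨x, hxT⟩, 1, fun h => hx1 (congrArg Subtype.val h)⟩⟩
  have hZ := T.isPGroup'.center_nontrivial
  obtain ⟨⟨⟨z, hzT⟩, hzZ⟩, hz⟩ := H9.exists_involution (G := Subgroup.center (T : Subgroup G)) (by
    obtain ⟨n, hn, h⟩ := (T.isPGroup'.to_subgroup (Subgroup.center (T : Subgroup G))).nontrivial_iff_card.mp hZ
    rw [h]; exact (Nat.even_pow' hn.ne').mpr even_two)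
  rw [Subgroup.orderOf_mk, Subgroup.orderOf_mk] at hz
  rw [Subgroup.mem_center_iff] at hzZ
  have hzC : z ∈ C := Subgroup.mem_centralizer_singleton_iff.mpr
    (congrArg Subtype.val (hzZ ⟨x, hxT⟩)).symm
  have hzx : z = x := by
    classical
    have := Fintype.ofFinite (S : Subgroup C)
    have h2 := IsCyclic.card_orderOf_eq_totient (α := (S : Subgroup C)) (d := 2) (by
      rw [← Nat.card_eq_fintype_card]
      exact (H9.even_card_of_mem_involution (by rw [Subgroup.orderOf_mk, hx]) hxS).two_dvd)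
    rw [Nat.totient_two, Finset.card_eq_one] at h2
    obtain ⟨a, ha⟩ := h2
    have h3 : (⟨⟨z, hzC⟩, hTS z hzC hzT⟩ : (S : Subgroup C)) ∈ ({a} : Finset _) := by
      rw [← ha]; simp [hz]
    have h4 : (⟨⟨x, hxC⟩, hxS⟩ : (S : Subgroup C)) ∈ ({a} : Finset _) := by
      rw [← ha]; simp [hx]
    rw [Finset.mem_singleton] at h3 h4
    exact congrArg (fun u : (S : Subgroup C) => u.1.1) (h3.trans h4.symm)
  subst hzx
  have hTC : (T : Subgroup G) ≤ C := fun g hg =>
    Subgroup.mem_centralizer_singleton_iff.mpr (congrArg Subtype.val (hzZ ⟨g, hg⟩))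
  have hcyc : IsCyclic (T : Subgroup G) :=
    isCyclic_of_injective (G' := (S : Subgroup C))
      (((Subgroup.inclusion hTC).codRestrict (S : Subgroup C) fun g => hTS g.1 (hTC g.2) g.2))
      (fun a b h => Subtype.ext (congrArg (fun u : (S : Subgroup C) => u.1.1) h))
  exact H9.exists_index_two_of_cyclic_sylow (H9.even_card_of_involution hx) T hcyc

end Cfsg.Agent.S0220
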