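import Cfsg.Statements.S0221
import Cfsg.Agent.H2.MacW
import Cfsg.Agent.H87.Transfer
import Cfsg.Agent.H9.SelfCent

set_option autoImplicit false
open Cfsg

namespace Cfsg.Agent.S0221

/-- Let G be a finite group with no subgroup of index 2 whose 2-rank is at least 3 (it contains an elementary abelian subgroup of order 8). Then the centralizer of every involution of G also contains an elementary abelian subgroup of order 8. -/
theorem result {G : Type*} [Group G] [Finite G] (hno : ∀ H : Subgroup G, H.index ≠ 2) (hrank : ∃ E : Subgroup G, Nat.card E = 8 ∧ ∀ e ∈ E, e ^ 2 = 1) (x : G) (hx : orderOf x = 2) : ∃ E : Subgroup G, E ≤ Subgroup.centralizer ({x} : Set G) ∧ Nat.card E = 8 ∧ ∀ e ∈ E, e ^ 2 = 1 := by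
    classical
    -- a four-group and a commuting involution outside generate an `E₈`
    have ext : ∀ (U : Subgroup G), IsKleinFour U → ∀ e : G, e * e = 1 → e ∉ U →
        (∀ m ∈ U, m * e = e * m) → Nat.card (U ⊔ Subgroup.zpowers e : Subgroup G) = 8 ∧
        ∀ y ∈ U ⊔ Subgroup.zpowers e, y ∈ U ∨ y * e ∈ U := by
      intro U hU e he heU hc
      have hn : e ∈ Subgroup.normalizer (U : Set G) := by
        rw [Subgroup.mem_normalizer_iff]
        intro m
        constructor
        · intro hm
          have : e * m * e⁻¹ = m := by rw [← hc m hm]; group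
          rwa [this]
        · intro hm
          have h2 := hc _ hm
          have : m = e * m * e⁻¹ := by
            have h3 : e * m = e * (e * m * e⁻¹) := by rw [← h2]; group
            exact mul_left_cancel h3
          rwa [this]
      let K : Subgroup G :=
        { carrier := {y | y ∈ U ∨ y * e ∈ U}
          one_mem' := Or.inl U.one_mem
          mul_mem' := by
            intro a b ha hb
            have hee : e⁻¹ = e := by rw [inv_eq_iff_mul_eq_one, he]
            have key : ∀ m ∈ U, e * m * e = m := by
              intro m hm; rw [← hc m hm, mul_assoc, he, mul_one]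
            rcases ha with ha | ha <;> rcases hb with hb | hb
            · exact Or.inl (U.mul_mem ha hb)
            · right; rw [mul_assoc]; exact U.mul_mem ha hb
            · right
              have : a * b * e = a * e * b := by
                rw [mul_assoc, hc b hb, mul_assoc]
              rw [this]; exact U.mul_mem ha hb
            · left
              have : a * b = a * e * (e * (b * e) * e) := by
                rw [key _ hb]
                have h3 := hc _ hb
                rw [mul_assoc a e, ← h3, mul_assoc b e e, he, mul_one]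
              rw [this, key _ hb]; exact U.mul_mem ha hb
          inv_mem' := by
            intro a ha
            rcases ha with ha | ha
            · exact Or.inl (U.inv_mem ha)
            · right
              have h1 := U.inv_mem ha
              have h2 := hc _ h1
              have hee : e⁻¹ = e := by rw [inv_eq_iff_mul_eq_one, he]
              have : a⁻¹ * e = (a * e)⁻¹ := by
                have h3 : (a * e)⁻¹ = e * a⁻¹ := by rw [mul_inv_rev, hee]
                rw [h3] at h2 ⊢
                have h4 : e * (a⁻¹ * e) = e * (e * a⁻¹) := by rw [← mul_assoc]; exact h2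
                exact mul_left_cancel h4
              rw [this]; exact h1 }
      have hK : U ⊔ Subgroup.zpowers e ≤ K := by
        refine sup_le (fun y hy => Or.inl hy) ?_
        rw [Subgroup.zpowers_le]
        right; rw [he]; exact U.one_mem
      refine ⟨?_, fun y hy => hK hy⟩
      have hi : U.relIndex (U ⊔ Subgroup.zpowers e) = 2 := by
        rw [Subgroup.relIndex, Subgroup.index_eq_two_iff]
        refine ⟨⟨e, Subgroup.mem_sup_right (Subgroup.mem_zpowers e)⟩, fun b => ?_⟩
        simp only [Subgroup.mem_subgroupOf, Subgroup.coe_mul]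
        rcases hK b.2 with h | h
        · right; refine ⟨h, fun h' => heU ?_⟩
          simpa using U.mul_mem (U.inv_mem h) h'
        · left; refine ⟨h, fun h' => heU ?_⟩
          simpa using U.mul_mem (U.inv_mem h') h
      have h1 := Subgroup.card_mul_index (U.subgroupOf (U ⊔ Subgroup.zpowers e))
      rw [Nat.card_congr (Subgroup.subgroupOfEquivOfLe le_sup_left).toEquiv, hU.card_four] at h1
      rw [← h1]; unfold Subgroup.relIndex at hi; rw [hi]
    have sqU : ∀ (U : Subgroup G), IsKleinFour U → ∀ m ∈ U, m * m = 1 := by
      intro U hU m hm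
      have := hU.mul_self (⟨m, hm⟩ : U)
      exact congrArg Subtype.val this
    have comm2 : ∀ (E : Subgroup G), (∀ m ∈ E, m * m = 1) → ∀ a ∈ E, ∀ b ∈ E, a * b = b * a := by
      intro E hE a ha b hb
      have h1 := hE _ (E.mul_mem ha hb)
      have h2 : a⁻¹ = a := by rw [inv_eq_iff_mul_eq_one, hE a ha]
      have h3 : b⁻¹ = b := by rw [inv_eq_iff_mul_eq_one, hE b hb]
      have h4 : (a * b)⁻¹ = a * b := by rw [inv_eq_iff_mul_eq_one, h1]
      rw [← h4, mul_inv_rev, h2, h3]
    have ext2 : ∀ (U : Subgroup G), IsKleinFour U → ∀ e : G, e * e = 1 → e ∉ U →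
        (∀ m ∈ U, m * e = e * m) → ∀ y ∈ U ⊔ Subgroup.zpowers e, y * y = 1 := by
      intro U hU e he heU hc y hy
      rcases (ext U hU e he heU hc).2 y hy with h | h
      · exact sqU U hU y h
      · have h1 := sqU U hU _ h
        have h2 := hc _ h
        have : y * y = y * e * (y * e) := by
          calc y * y = y * (y * e * e) := by rw [mul_assoc y e e, he, mul_one]
            _ = y * (e * (y * e)) := by rw [h2]
            _ = _ := by rw [mul_assoc]
        rw [this, h1]
    obtain ⟨E, hE8, hE2⟩ := hrank
    have hE2' : ∀ e ∈ E, e * e = 1 := fun e he => by rw [← sq]; exact hE2 e he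
    have hEp : IsPGroup 2 E := IsPGroup.of_card (n := 3) (by rw [hE8]; norm_num)
    obtain ⟨S, hES⟩ := hEp.exists_le_sylow
    have hE8' : Nat.card (E.subgroupOf (S : Subgroup G)) = 8 := by
      rw [Nat.card_congr (Subgroup.subgroupOfEquivOfLe hES).toEquiv, hE8]
    obtain ⟨U₀, hU₀n, hU₀⟩ := Cfsg.Agent.H9.exists_normal_four_of_rank S.isPGroup'
      (E := E.subgroupOf (S : Subgroup G)) (by rw [hE8']; norm_num)
      (fun e he => Subtype.ext (hE2' e he))
    have hidx := Cfsg.Agent.H2.index_centralizer_four S.isPGroup' (U := U₀) hU₀.card_four.le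
    set U : Subgroup G := U₀.map (S : Subgroup G).subtype with hUdef
    have hU : IsKleinFour U := by
      have e := Subgroup.equivMapOfInjective U₀ (S : Subgroup G).subtype Subtype.val_injective
      exact ⟨by rw [← Nat.card_congr e.toEquiv, hU₀.card_four],
        by rw [← Monoid.exponent_eq_of_mulEquiv e, hU₀.exponent_two]⟩
    set M : Subgroup G := (S : Subgroup G) ⊓ Subgroup.centralizer (U : Set G) with hM
    have hMS : M.subgroupOf (S : Subgroup G) = Subgroup.centralizer (U₀ : Set (S : Subgroup G)) := by
      ext a
      simp only [hM, Subgroup.mem_subgroupOf, Subgroup.mem_inf, a.2, true_and,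
        Subgroup.mem_centralizer_iff]
      constructor
      · intro h b hb
        exact Subtype.ext (h b ⟨b, hb, rfl⟩)
      · rintro h _ ⟨b, hb, rfl⟩
        exact congrArg Subtype.val (h b hb)
    have hrel : M.relIndex (S : Subgroup G) ≤ 2 := by
      unfold Subgroup.relIndex; rw [hMS]; exact hidx
    -- an `E₈` inside `C(U)`
    have hF : ∃ F : Subgroup G, F ≤ Subgroup.centralizer (U : Set G) ∧ Nat.card F = 8 ∧
        ∀ e ∈ F, e * e = 1 := by
      by_cases h : ∃ e ∈ E, e ∈ M ∧ e ∉ U
      · obtain ⟨e, heE, heM, heU⟩ := h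
        have hc : ∀ m ∈ U, m * e = e * m := fun m hm => heM.2 m hm
        refine ⟨U ⊔ Subgroup.zpowers e, ?_, (ext U hU e (hE2' e heE) heU hc).1,
          ext2 U hU e (hE2' e heE) heU hc⟩
        refine sup_le (fun a ha b hb => comm2 U (sqU U hU) b hb a ha) ?_
        rw [Subgroup.zpowers_le]; exact heM.2
      · push Not at h
        have hle : M ⊓ E ≤ U := fun e he => h e he.2 he.1
        have h1 : M.relIndex E ≤ 2 :=
          le_trans (Subgroup.relIndex_le_of_le_right hES Subgroup.index_ne_zero_of_finite) hrel
        have h2 := Subgroup.card_mul_index (M.subgroupOf E)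
        have h3 : Nat.card (M.subgroupOf E) = Nat.card (M ⊓ E : Subgroup G) := by
          rw [← Subgroup.inf_subgroupOf_right]
          exact Nat.card_congr (Subgroup.subgroupOfEquivOfLe inf_le_right).toEquiv
        have h4 : Nat.card U ≤ Nat.card (M ⊓ E : Subgroup G) := by
          rw [hU.card_four, ← h3]
          unfold Subgroup.relIndex at h1
          rw [hE8] at h2
          nlinarith
        have h5 : M ⊓ E = U := Subgroup.eq_of_le_of_card_ge hle h4
        refine ⟨E, fun a ha b hb => comm2 E hE2' b ?_ a ha, hE8, hE2'⟩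
        rw [← h5] at hb; exact hb.2
    have hx2 : x ^ 2 = 1 := by rw [← hx]; exact pow_orderOf_eq_one x
    have hconj : ∃ g : G, g * x * g⁻¹ ∈ M := by
      by_cases h2 : M.relIndex (S : Subgroup G) = 2
      · by_contra hcon
        push Not at hcon
        obtain ⟨K, -, hK, -⟩ := Cfsg.Agent.H87.thompson_transfer_involution
          (H := (S : Subgroup G)) (M := M)
          (Nat.odd_iff.2 (by have := S.not_dvd_index; omega)) h2 hx2 hcon
        exact hno K hK
      · have h0 : M.relIndex (S : Subgroup G) ≠ 0 := Subgroup.index_ne_zero_of_finite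
        have h1 : M.relIndex (S : Subgroup G) = 1 := by omega
        rw [Subgroup.relIndex_eq_one] at h1
        have hp : IsPGroup 2 (Subgroup.zpowers x) :=
          IsPGroup.of_card (n := 1) (by rw [Nat.card_zpowers, hx]; norm_num)
        obtain ⟨T, hT⟩ := hp.exists_le_sylow
        obtain ⟨g, hg⟩ := MulAction.exists_smul_eq G T S
        refine ⟨g, h1 ?_⟩
        rw [← hg]
        exact Subgroup.smul_mem_pointwise_smul x (MulAut.conj g) _ (hT (Subgroup.mem_zpowers x))
    obtain ⟨g, hg⟩ := hconj
    set y := g * x * g⁻¹ with hy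
    have hy2 : y * y = 1 := by
      have : y * y = g * x ^ 2 * g⁻¹ := by rw [hy, sq]; group
      rw [this, hx2]; group
    have hFy : ∃ F : Subgroup G, F ≤ Subgroup.centralizer ({y} : Set G) ∧ Nat.card F = 8 ∧
        ∀ e ∈ F, e * e = 1 := by
      by_cases hyU : y ∈ U
      · obtain ⟨F, hF1, hF2, hF3⟩ := hF
        exact ⟨F, hF1.trans (Subgroup.centralizer_le (by simpa using hyU)), hF2, hF3⟩
      · have hc : ∀ m ∈ U, m * y = y * m := fun m hm => hg.2 m hm
        refine ⟨U ⊔ Subgroup.zpowers y, sup_le ?_ ?_, (ext U hU y hy2 hyU hc).1,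
          ext2 U hU y hy2 hyU hc⟩
        · intro a ha
          rw [Subgroup.mem_centralizer_singleton_iff]; exact hc a ha
        · rw [Subgroup.zpowers_le, Subgroup.mem_centralizer_singleton_iff]
    obtain ⟨F, hF1, hF2, hF3⟩ := hFy
    refine ⟨F.map (MulAut.conj g⁻¹).toMonoidHom, ?_, ?_, ?_⟩
    · rintro _ ⟨a, ha, rfl⟩
      have h1 := hF1 ha
      rw [Subgroup.mem_centralizer_singleton_iff] at h1 ⊢
      have h2 : x = g⁻¹ * y * g := by rw [hy]; group
      simp only [MulEquiv.coe_toMonoidHom, MulAut.conj_apply, inv_inv]
      rw [h2]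
      calc g⁻¹ * a * g * (g⁻¹ * y * g) = g⁻¹ * (a * y) * g := by group
        _ = g⁻¹ * (y * a) * g := by rw [h1]
        _ = _ := by group
    · rw [Subgroup.card_map_of_injective (MulAut.conj g⁻¹).injective, hF2]
    · rintro _ ⟨a, ha, rfl⟩
      rw [← map_pow, sq, hF3 a ha, map_one]

end Cfsg.Agent.S0221
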