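import Cfsg.Statements.S0226
import Cfsg.Agent.H9.InvCount

set_option autoImplicit false
open Cfsg

namespace Cfsg.Agent.S0226

/-- A finite group of even order has an odd number of involutions. -/
theorem result {G : Type*} [Group G] [Finite G] (heven : Even (Nat.card G)) : Odd (Nat.card {t : G // orderOf t = 2}) := by
  classical
  have := Fintype.ofFinite G
  have h := Equiv.Perm.card_fixedPoints_modEq (f := (fun x : G => x⁻¹ : Function.End G)) (p := 2) (n := 1)
    (by funext x; exact inv_inv x)
  have h2 := H9.card_subtype_add_one (p := fun x : G => x * x = 1) (a := 1) (by simp)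
  have h3 : Nat.card {x : G // x * x = 1 ∧ x ≠ 1} = Nat.card {t : G // orderOf t = 2} :=
    Nat.card_congr (Equiv.subtypeEquivRight fun t => by rw [H9.orderOf_eq_two_iff, and_comm])
  have h4 : Nat.card {x : G // x * x = 1} =
      Nat.card (Function.fixedPoints (fun x : G => x⁻¹ : Function.End G)) :=
    Nat.card_congr (Equiv.subtypeEquivRight fun t => by
      change _ ↔ t⁻¹ = t
      rw [inv_eq_iff_mul_eq_one])
  rw [← Nat.card_eq_fintype_card, ← Nat.card_eq_fintype_card, ← h4, ← h2, h3] at h
  obtain ⟨m, hm⟩ := heven
  rw [Nat.odd_iff]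
  unfold Nat.ModEq at h
  omega

end Cfsg.Agent.S0226
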