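import Cfsg.Statements.S0229
import Cfsg.Agent.H10.Isolated

set_option autoImplicit false
open Cfsg

namespace Cfsg.Agent.S0229

/-- Let t be an involution of a Sylow 2-subgroup S of a finite group G, conjugate in G to no other element of S, and let s be an involution of G not conjugate to t. Then the order of st is twice an odd number. -/
theorem result {G : Type*} [Group G] [Finite G] (S : Sylow 2 G) (t : G) (ht : orderOf t = 2) (htS : t ∈ S) (hiso : ∀ g : G, g * t * g⁻¹ ∈ S → g * t * g⁻¹ = t) (s : G) (hs : orderOf s = 2) (hns : ¬ IsConj s t) : orderOf (s * t) % 4 = 2 := by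
  have hz := H10.Isolated.of_sylow S ht hiso
  have hss := H10.mul_self_of_orderOf_two hs
  have htt := H10.mul_self_of_orderOf_two ht
  rcases Nat.even_or_odd (orderOf (s * t)) with ⟨m, hm⟩ | h
  · have hm0 : m ≠ 0 := by
      rintro rfl
      exact (orderOf_pos (s * t)).ne' hm
    have hm' : orderOf (s * t) = 2 * m := by omega
    obtain ⟨a, ha⟩ := H10.Isolated.odd_half hz hss hm0 hm'
    omega
  · obtain ⟨a, ha⟩ := H10.exists_pow_conj_of_odd htt hss h
    exact absurd (isConj_iff.mpr ⟨_, ha⟩ : IsConj t s).symm hns

end Cfsg.Agent.S0229
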