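import Cfsg.Statements.S0230
import Cfsg.Agent.H9.InvCount

set_option autoImplicit false
open Cfsg

namespace Cfsg.Agent.S0230

/-- Let G be a finite group with two non-conjugate involutions, and let t be an involution whose centralizer has maximal order among centralizers of involutions. Then |G| < |C_G(t)|^3. -/
theorem result {G : Type*} [Group G] [Finite G] (s t : G) (hs : orderOf s = 2) (ht : orderOf t = 2) (hnc : ¬ IsConj s t) (hmax : ∀ u : G, orderOf u = 2 → Nat.card (Subgroup.centralizer ({u} : Set G)) ≤ Nat.card (Subgroup.centralizer ({t} : Set G))) : Nat.card G < Nat.card (Subgroup.centralizer ({t} : Set G)) ^ 3 := by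
  classical
  have := Fintype.ofFinite G
  set c := Nat.card (Subgroup.centralizer ({t} : Set G)) with hc
  have hc0 : 0 < c := Nat.card_pos
  -- each conjugate of `s` commutes with an involution commuting with `t`
  have key : ∀ u : {u : G // IsConj s u}, ∃ z : {z : G // orderOf z = 2 ∧ Commute z t},
      Commute z.1 u.1 := by
    rintro ⟨u, hu⟩
    have hu2 : orderOf u = 2 := by
      obtain ⟨g, rfl⟩ := isConj_iff.mp hu
      rw [H9.orderOf_conj', hs]
    have hev : Even (orderOf (u * t)) := by
      by_contra h
      exact hnc (hu.trans (H9.isConj_of_odd (H9.mul_self_of_orderOf_two hu2)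
        (H9.mul_self_of_orderOf_two ht) (Nat.not_even_iff_odd.mp h)))
    obtain ⟨h1, h2, h3⟩ := H9.central_involution (H9.mul_self_of_orderOf_two hu2)
        (H9.mul_self_of_orderOf_two ht) hev
    exact ⟨⟨_, h1, h3⟩, h2⟩
  choose f hf using key
  have h1 : Nat.card {u : G // IsConj s u} ≤
      Nat.card {z : G // orderOf z = 2 ∧ Commute z t} * c := by
    rw [H9.card_eq_sum_fibers f, Nat.card_eq_fintype_card, ← Finset.card_univ, ← smul_eq_mul]
    refine Finset.sum_le_card_nsmul _ _ _ fun z _ => le_trans ?_ (hmax z.1 z.2.1)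
    refine Nat.card_le_card_of_injective
      (fun u => ⟨u.1.1, Subgroup.mem_centralizer_singleton_iff.mpr ?_⟩) ?_
    · have := hf u.1
      rw [u.2] at this
      exact this.symm.eq
    · intro u v h
      exact Subtype.ext (Subtype.ext (Subtype.mk.inj h))
  have h2 := H9.pairCount_involution ht
  have h3 := H9.pairCount_add_two_le ht
  have h4 := H9.card_isConj_mul_card_centralizer s
  have h5 := hmax s hs
  rw [← hc] at h3
  have h6 : Nat.card {z : G // orderOf z = 2 ∧ Commute z t} + 1 ≤ c := by omega
  calc Nat.card G ≤ (Nat.card {z : G // orderOf z = 2 ∧ Commute z t} * c) * c := by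
        rw [← h4]; exact Nat.mul_le_mul h1 h5
    _ < c * c * c := Nat.mul_lt_mul_of_pos_right (Nat.mul_lt_mul_of_pos_right h6 hc0) hc0
    _ = c ^ 3 := by ring

end Cfsg.Agent.S0230
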