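import Cfsg.Statements.S0231
import Cfsg.Agent.H10.StronglyEmbedded

set_option autoImplicit false
open scoped Pointwise
open Cfsg

namespace Cfsg.Agent.S0231

/-- Let T be a Sylow 2-subgroup of the finite group G which is not normal and which intersects every other Sylow 2-subgroup trivially. Then G has a single conjugacy class of involutions. -/
theorem result {G : Type*} [Group G] [Finite G] (T : Sylow 2 G) (hnn : ¬ (T : Subgroup G).Normal) (hTI : ∀ g : G, MulAut.conj g • (T : Subgroup G) ≠ T → MulAut.conj g • (T : Subgroup G) ⊓ T = ⊥) (s t : G) (hs : orderOf s = 2) (ht : orderOf t = 2) : IsConj s t := by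
  have hSE : IsStronglyEmbedded (Subgroup.normalizer ((T : Subgroup G) : Set G)) := by
    have hT : ∀ x ∈ Subgroup.normalizer ((T : Subgroup G) : Set G), orderOf x = 2 →
        x ∈ (T : Subgroup G) := by
      intro x hx h2
      have hp : IsPGroup 2 (Subgroup.zpowers x) :=
        H10.isPGroup_zpowers_of_pow (k := 1) (by rw [pow_one, ← h2, pow_orderOf_eq_one])
      have := hp.inf_normalizer_sylow T
      have h3 : x ∈ Subgroup.zpowers x ⊓ Subgroup.normalizer (T : Set G) :=
        ⟨Subgroup.mem_zpowers x, hx⟩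
      rw [this] at h3
      exact h3.2
    refine H10.SE.iff.mpr ⟨fun h => hnn (Subgroup.normalizer_eq_top_iff.mp h), ?_,
      fun x hx h2 g hg => ?_⟩
    · obtain ⟨h, -, hh⟩ := H10.exists_conj_mem_sylow (H := ⊤) T le_top (x := s) (k := 1)
        (by rw [pow_one, ← hs, pow_orderOf_eq_one]) trivial
      exact ⟨_, Subgroup.le_normalizer hh, by rw [H10.orderOf_conj, hs]⟩
    · by_contra hgN
      have h1 := hTI g (fun h => hgN (H10.map_conj_eq_iff.mp h))
      have h3 : g * x * g⁻¹ ∈ MulAut.conj g • (T : Subgroup G) ⊓ T :=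
        ⟨H10.conj_mem_map_conj.mpr (hT x hx h2), hT _ hg (by rw [H10.orderOf_conj, h2])⟩
      rw [h1, Subgroup.mem_bot] at h3
      exact H10.ne_one_of_orderOf_two (z := g * x * g⁻¹) (by rw [H10.orderOf_conj, h2]) h3
  exact H10.SE.isConj_involutions hSE hs ht

end Cfsg.Agent.S0231
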