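import Cfsg.Statements.S0232
import Cfsg.Agent.H9.InvCount

set_option autoImplicit false
open Cfsg

namespace Cfsg.Agent.S0232

universe u

theorem aux (n : ℕ) : ∀ (G : Type u) [Group G] [Finite G], Nat.card G = n → Even (Nat.card G) →
    2 < Nat.card G → ∃ H : Subgroup G, H ≠ ⊤ ∧ Nat.card G < (Nat.card H) ^ 3 := by
  induction n using Nat.strong_induction_on with
  | _ n ih =>
  intro G _ _ hn heven hgt
  by_cases h2 : ∃ H : Subgroup G, H.index = 2
  · obtain ⟨H, hH⟩ := h2
    refine ⟨H, by rintro rfl; simp at hH, ?_⟩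
    have := H.index_mul_card
    rw [hH] at this
    have h3 : 2 ≤ Nat.card H := by omega
    rw [← this]
    nlinarith [Nat.mul_le_mul h3 h3]
  push Not at h2
  by_cases hZ : Odd (Nat.card (Subgroup.center G))
  · obtain ⟨t, ht⟩ := H9.exists_involution heven
    obtain ⟨H, hH, h⟩ := H9.exists_index_lt_sq hZ h2 ht
    have hC : Subgroup.centralizer ({t} : Set G) ≠ ⊤ := by
      intro h
      have : t ∈ Subgroup.center G := by
        rw [Subgroup.mem_center_iff]
        intro g
        exact Subgroup.mem_centralizer_singleton_iff.mp (h ▸ Subgroup.mem_top g)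
      exact (Nat.not_even_iff_odd.mpr hZ) (H9.even_card_of_mem_involution ht this)
    by_contra hcon
    push Not at hcon
    have a1 := hcon H hH
    have a2 := hcon _ hC
    have a3 := H.index_mul_card
    set c := Nat.card (Subgroup.centralizer ({t} : Set G))
    set h' := Nat.card H
    have hh : 0 < h' := Nat.card_pos
    have a4 : Nat.card G ^ 3 < (c ^ 2) ^ 3 * h' ^ 3 := by
      rw [← a3, mul_pow]
      exact Nat.mul_lt_mul_of_pos_right (Nat.pow_lt_pow_left h (by norm_num)) (by positivity)
    have a5 : (c ^ 2) ^ 3 * h' ^ 3 ≤ Nat.card G ^ 2 * Nat.card G := by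
      rw [← pow_mul, mul_comm 2 3, pow_mul]
      exact Nat.mul_le_mul (Nat.pow_le_pow_left a2 2) a1
    rw [← pow_succ] at a5
    exact absurd (a4.trans_le a5) (lt_irrefl _)
  · obtain ⟨⟨z, hzZ⟩, hz⟩ := H9.exists_involution (Nat.not_odd_iff_even.mp hZ)
    rw [Subgroup.orderOf_mk] at hz
    have hN : (Subgroup.zpowers z).Normal := by
      refine ⟨fun m hm g => ?_⟩
      obtain ⟨k, rfl⟩ := hm
      refine ⟨k, ?_⟩
      have : Commute g z := Subgroup.mem_center_iff.mp hzZ g
      simp only
      rw [(this.zpow_right k).eq]; group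
    have hc : Nat.card (Subgroup.zpowers z) = 2 := by rw [Nat.card_zpowers, hz]
    have hq := (Subgroup.zpowers z).card_eq_card_quotient_mul_card_subgroup
    rw [hc] at hq
    by_cases hodd : Odd (Nat.card (G ⧸ Subgroup.zpowers z))
    · obtain ⟨H, hH⟩ := H9.exists_index_two_of_card hodd (by rw [hq, mul_comm])
      exact absurd hH (h2 H)
    by_cases hq2 : Nat.card (G ⧸ Subgroup.zpowers z) = 2
    · exact absurd hq2 (h2 (Subgroup.zpowers z))
    have hev := Nat.not_odd_iff_even.mp hodd
    obtain ⟨K, hK, hlt⟩ := ih (Nat.card (G ⧸ Subgroup.zpowers z)) (by omega) _ rfl hev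
      (by obtain ⟨m, hm⟩ := hev; omega)
    refine ⟨K.comap (QuotientGroup.mk' _), ?_, ?_⟩
    · intro h
      apply hK
      rw [← Subgroup.map_comap_eq_self_of_surjective (QuotientGroup.mk'_surjective _) K, h]
      exact Subgroup.map_top_of_surjective _ (QuotientGroup.mk'_surjective _)
    · have h1 := (K.comap (QuotientGroup.mk' (Subgroup.zpowers z))).index_mul_card
      rw [Subgroup.index_comap_of_surjective _ (QuotientGroup.mk'_surjective _), hq,
        ← K.index_mul_card, mul_assoc] at h1
      have h3 := Nat.eq_of_mul_eq_mul_left (Nat.pos_of_ne_zero K.index_ne_zero_of_finite) h1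
      rw [h3, hq, mul_pow]
      omega

/-- A finite group G of even order greater than 2 has a proper subgroup H with |G| < |H|^3. -/
theorem result {G : Type*} [Group G] [Finite G] (heven : Even (Nat.card G)) (hgt : 2 < Nat.card G) : ∃ H : Subgroup G, H ≠ ⊤ ∧ Nat.card G < (Nat.card H) ^ 3 := by
  exact aux _ G rfl heven hgt

end Cfsg.Agent.S0232
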