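import Cfsg.Statements.S0234
import Cfsg.Agent.H9.InvCount
import Mathlib.GroupTheory.SpecificGroups.Alternating

set_option autoImplicit false
open Cfsg

namespace Cfsg.Agent.S0234

theorem card_inv_A5 :
    Fintype.card {σ : Equiv.Perm (Fin 5) // σ ≠ 1 ∧ σ * σ = 1 ∧ Equiv.Perm.sign σ = 1} = 15 := by
  decide +kernel

/-- In a finite simple group G of even order greater than 2, the number n of involutions satisfies 3n < |G|. -/
theorem result {G : Type*} [Group G] [Finite G] [IsSimpleGroup G] (heven : Even (Nat.card G)) (hgt : 2 < Nat.card G) : 3 * Nat.card {t : G // orderOf t = 2} < Nat.card G := by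
  classical
  by_contra hcon
  push Not at hcon
  have h2 : ∀ H : Subgroup G, H.index ≠ 2 := by
    intro H hH
    rcases (Subgroup.normal_of_index_eq_two hH).eq_bot_or_eq_top with h | h
    · rw [h, Subgroup.index_bot] at hH; omega
    · rw [h, Subgroup.index_top] at hH; omega
  have hZ : Subgroup.center G = ⊥ := by
    rcases (inferInstance : (Subgroup.center G).Normal).eq_bot_or_eq_top with hZ | hZ
    · exact hZ
    · exfalso
      have : IsMulCommutative G := ⟨⟨fun a b =>
        (Subgroup.mem_center_iff.mp (hZ ▸ Subgroup.mem_top b) a)⟩⟩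
      have hp := Group.is_simple_iff_prime_card.mp ‹IsSimpleGroup G›
      have := hp.even_iff.mp heven
      omega
  obtain ⟨H, hH, hmin⟩ := H9.exists_min_index (G := G)
  have h1 := H9.brauer_fowler_ineq (by rw [hZ]; simp) h2 hmin
  unfold H9.invCount at h1
  set n := Nat.card {t : G // orderOf t = 2} with hn
  have hj : H.index < 6 := by
    have h3 : Nat.card G * (Nat.card G + n) ≤ (3 * n) * (3 * n + n) :=
      Nat.mul_le_mul hcon (Nat.add_le_add_right hcon n)
    have h4 : n ^ 2 * (2 * H.index) < n ^ 2 * 12 := by nlinarith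
    have := Nat.lt_of_mul_lt_mul_left h4
    omega
  have hdvd := H9.card_dvd_factorial_index hH
  have hjd := H.index_dvd_card
  have hj1 : H.index ≠ 1 := fun h => hH (Subgroup.index_eq_one.mp h)
  have hj0 : H.index ≠ 0 := H.index_ne_zero_of_finite
  have hj2 := h2 H
  have sub : ∀ p k m : ℕ, p.Prime → Nat.card G = m * p ^ k → m ≠ 1 → H.index ≤ m ∧ m ≠ 2 := by
    intro p k m hp h hm
    have := Fact.mk hp
    obtain ⟨K, hK⟩ := Sylow.exists_subgroup_card_pow_prime (G := G) p (n := k) ⟨m, by rw [h, mul_comm]⟩
    have hi : K.index = m := by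
      have := K.index_mul_card
      rw [hK, h] at this
      exact Nat.eq_of_mul_eq_mul_right (pow_pos hp.pos k) this
    exact ⟨hi ▸ hmin K (by rintro rfl; simp at hi; exact hm hi.symm), hi ▸ h2 K⟩
  have odd2 : ∀ m : ℕ, Odd m → Nat.card G ≠ 2 * m := by
    intro m hm h
    obtain ⟨K, hK⟩ := H9.exists_index_two_of_card hm h
    exact h2 K hK
  have hcases : H.index = 3 ∨ H.index = 4 ∨ H.index = 5 := by omega
  rcases hcases with h | h | h
  · rw [h] at hdvd hjd
    have := Nat.le_of_dvd (by decide) hdvd
    exact odd2 3 (by decide) (by obtain ⟨m, hm⟩ := heven; simp only [Nat.factorial] at this; omega)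
  · rw [h] at hdvd hjd
    have hle := Nat.le_of_dvd (by decide) hdvd
    simp only [Nat.factorial] at hle hdvd
    have : Nat.card G = 4 ∨ Nat.card G = 8 ∨ Nat.card G = 12 ∨ Nat.card G = 24 := by
      generalize Nat.card G = g at *
      interval_cases g <;> omega
    rcases this with hg | hg | hg | hg
    · exact (sub 2 1 2 Nat.prime_two (by rw [hg]; norm_num) (by norm_num)).2 rfl
    · exact (sub 2 2 2 Nat.prime_two (by rw [hg]; norm_num) (by norm_num)).2 rfl
    · have := (sub 2 2 3 Nat.prime_two (by rw [hg]; norm_num) (by norm_num)).1; omega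
    · have := (sub 2 3 3 Nat.prime_two (by rw [hg]; norm_num) (by norm_num)).1; omega
  · have e : (G ⧸ H) ≃ Fin 5 := Finite.equivFinOfCardEq h
    let φ : G →* Equiv.Perm (Fin 5) := e.permCongrHom.toMonoidHom.comp (MulAction.toPermHom G (G ⧸ H))
    have hφ : Function.Injective φ := by
      refine e.permCongrHom.injective.comp ?_
      rw [← MonoidHom.ker_eq_bot_iff, ← Subgroup.normalCore_eq_ker]
      rcases H.normalCore_normal.eq_bot_or_eq_top with h1 | h1
      · exact h1
      · exact absurd (top_le_iff.mp (h1 ▸ H.normalCore_le)) hH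
    have hs : ∀ g, Equiv.Perm.sign (φ g) = 1 := by
      rcases (inferInstance : (Equiv.Perm.sign.comp φ).ker.Normal).eq_bot_or_eq_top with h1 | h1
      · have := Nat.card_le_card_of_injective _ ((MonoidHom.ker_eq_bot_iff _).mp h1)
        simp only [Nat.card_eq_fintype_card (α := ℤˣ), Fintype.card_units_int] at this
        omega
      · intro g
        exact (h1 ▸ Subgroup.mem_top g : g ∈ (Equiv.Perm.sign.comp φ).ker)
    have hn15 : n ≤ 15 := by
      rw [← card_inv_A5, ← Nat.card_eq_fintype_card]
      refine Nat.card_le_card_of_injective (fun t => ⟨φ t.1, ?_, ?_, hs _⟩) ?_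
      · exact fun h => H9.ne_one_of_orderOf_two t.2 (hφ (h.trans φ.map_one.symm))
      · rw [← map_mul, H9.mul_self_of_orderOf_two t.2, map_one]
      · intro a b hab
        exact Subtype.ext (hφ (Subtype.mk.inj hab))
    have h60 : Nat.card G ∣ 60 := by
      have h3 : φ.range ≤ alternatingGroup (Fin 5) := by
        rintro _ ⟨g, rfl⟩; exact hs g
      have h4 := Subgroup.card_dvd_of_le h3
      rw [← Nat.card_congr (MonoidHom.ofInjective hφ).toEquiv] at h4
      have h5 := two_mul_nat_card_alternatingGroup (α := Fin 5)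
      rw [Nat.card_perm] at h5
      simp only [Nat.card_eq_fintype_card (α := Fin 5), Fintype.card_fin, Nat.factorial] at h5
      have h6 : Nat.card (alternatingGroup (Fin 5)) = 60 := by omega
      rwa [h6] at h4
    rw [h] at hjd
    have : Nat.card G = 10 ∨ Nat.card G = 20 ∨ Nat.card G = 30 := by
      obtain ⟨m, hm⟩ := heven
      have hle : Nat.card G ≤ 45 := by omega
      generalize Nat.card G = g at *
      interval_cases g <;> omega
    rcases this with hg | hg | hg
    · exact odd2 5 (by decide) hg
    · have := (sub 5 1 4 Nat.prime_five (by rw [hg]; norm_num) (by norm_num)).1; omega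
    · exact odd2 15 (by decide) hg

end Cfsg.Agent.S0234
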