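import Cfsg.Statements.S0239
import Cfsg.Agent.H9.InvCount

set_option autoImplicit false
open Cfsg

namespace Cfsg.Agent.S0239

/-- If some nontrivial element x of a finite group G is conjugate to x⁻¹, then |G| is even. -/
theorem result {G : Type*} [Group G] [Finite G] (x : G) (hx : x ≠ 1) (hreal : IsConj x x⁻¹) : Even (Nat.card G) := by
  by_cases h : x = x⁻¹
  · exact H9.even_card_of_involution (t := x) (H9.orderOf_eq_two_iff.mpr ⟨hx, by
      nth_rewrite 1 [h]; exact inv_mul_cancel x⟩)
  · have := (H9.extCentralizer x).card_subgroup_dvd_card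
    rw [H9.card_extCentralizer h hreal] at this
    exact even_iff_two_dvd.mpr (dvd_of_mul_right_dvd this)

end Cfsg.Agent.S0239
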