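import Cfsg.Statements.S0240
import Cfsg.Agent.H9.InvCount

set_option autoImplicit false
open Cfsg

namespace Cfsg.Agent.S0240

/-- Let G be a finite group with n involutions and H a subgroup with |H|·(n+1) > |G|. Then some nontrivial h ∈ H is strongly real in G: an involution t of G satisfies t h t⁻¹ = h⁻¹. -/
theorem result {G : Type*} [Group G] [Finite G] (H : Subgroup G) (hH : Nat.card G < Nat.card H * (Nat.card {t : G // orderOf t = 2} + 1)) : ∃ h : G, h ∈ H ∧ h ≠ 1 ∧ ∃ t : G, orderOf t = 2 ∧ t * h * t⁻¹ = h⁻¹ := by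
  classical
  have h1 := H9.card_subtype_add_one (p := fun x : G => x * x = 1) (a := 1) (by simp)
  have h3 : Nat.card {x : G // x * x = 1 ∧ x ≠ 1} = Nat.card {t : G // orderOf t = 2} :=
    Nat.card_congr (Equiv.subtypeEquivRight fun t => by rw [H9.orderOf_eq_two_iff, and_comm])
  rw [← h3, h1, ← H.index_mul_card, mul_comm] at hH
  have hlt := Nat.lt_of_mul_lt_mul_left hH
  have hninj : ¬ Function.Injective (fun x : {x : G // x * x = 1} => (QuotientGroup.mk x.1 : G ⧸ H)) :=
    fun hinj => absurd (Nat.card_le_card_of_injective _ hinj) (not_le.mpr hlt)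
  obtain ⟨⟨s, hs⟩, ⟨t, ht⟩, hst, hne⟩ := Function.not_injective_iff.mp hninj
  simp only [QuotientGroup.eq, ne_eq, Subtype.mk.injEq] at hst hne
  rw [inv_eq_of_mul_eq_one_right hs] at hst
  have hne1 : s * t ≠ 1 := fun h => hne (by
    rw [← inv_eq_of_mul_eq_one_right hs]; exact inv_eq_of_mul_eq_one_right h)
  refine ⟨s * t, hst, hne1, ?_⟩
  by_cases hs1 : s = 1
  · exact ⟨t, H9.orderOf_eq_two_iff.mpr ⟨fun h => hne (hs1.trans h.symm), ht⟩,
      H9.right_inverts_mul hs ht⟩
  · exact ⟨s, H9.orderOf_eq_two_iff.mpr ⟨hs1, hs⟩, H9.left_inverts_mul hs ht⟩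

end Cfsg.Agent.S0240
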