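import Cfsg.Statements.S0241
import Cfsg.Agent.H9.InvCount

set_option autoImplicit false
open Cfsg

namespace Cfsg.Agent.S0241

/-- If x ≠ 1 is conjugate to x⁻¹ in a finite group G and |C_G(x)| is odd, then some involution t satisfies t x t⁻¹ = x⁻¹. -/
theorem result {G : Type*} [Group G] [Finite G] (x : G) (hx : x ≠ 1) (hreal : IsConj x x⁻¹) (hodd : Odd (Nat.card (Subgroup.centralizer ({x} : Set G)))) : ∃ t : G, orderOf t = 2 ∧ t * x * t⁻¹ = x⁻¹ := by
  have hne : x ≠ x⁻¹ := by
    intro h
    have h2 : orderOf x = 2 := H9.orderOf_eq_two_iff.mpr ⟨hx, by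
      nth_rewrite 1 [h]; exact inv_mul_cancel x⟩
    exact (Nat.not_even_iff_odd.mpr hodd) (H9.even_card_of_mem_involution h2
      (Subgroup.mem_centralizer_singleton_iff.mpr rfl))
  obtain ⟨⟨t, ht⟩, ho⟩ := H9.exists_involution (G := H9.extCentralizer x)
    (by rw [H9.card_extCentralizer hne hreal]; exact even_two_mul _)
  rw [Subgroup.orderOf_mk] at ho
  refine ⟨t, ho, ?_⟩
  rcases ht with ht | ht
  · exact absurd (H9.even_card_of_mem_involution ho (H9.mem_centralizer_singleton.mpr ht))
      (Nat.not_even_iff_odd.mpr hodd)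
  · exact ht

end Cfsg.Agent.S0241
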