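import Cfsg.Statements.S0263
import Cfsg.Agent.H26.SLTrans

set_option autoImplicit false
open Cfsg

namespace Cfsg.Agent.S0263

/-- A Sylow p-subgroup of GL_n(q), p the characteristic, has order q^(n(n-1)/2). -/
theorem result {F : Type*} [Field F] [Fintype F] {q : ℕ} (hF : Fintype.card F = q) (p : ℕ) [Fact p.Prime] [CharP F p] (n : ℕ) (P : Sylow p (Matrix.GeneralLinearGroup (Fin n) F)) : Nat.card P = q ^ (n * (n - 1) / 2) := by
  obtain ⟨k, hp, hk⟩ := FiniteField.card F p
  rw [hF] at hk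
  have hq : p ∣ q := by rw [hk]; exact dvd_pow_self p k.ne_zero
  have hq0 : q ≠ 0 := by rw [hk]; exact pow_ne_zero _ hp.ne_zero
  have h := H26.card_gl_fin (F := F) n
  rw [Nat.card_eq_fintype_card (α := F), hF, H26.prod_pow_sub_pow] at h
  have h2 : q ^ (n * (n - 1) / 2) = p ^ (k * (n * (n - 1) / 2)) := by rw [hk, ← pow_mul]
  rw [h2] at h ⊢
  exact H26.card_sylow_of_card_eq P h (H26.not_dvd_prod_pow_sub_one hp hq hq0 n)

end Cfsg.Agent.S0263
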