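import Cfsg.Statements.S0266
import Mathlib
import Cfsg.Agent.H28.PGL2

set_option autoImplicit false
open scoped MatrixGroups
open Cfsg

namespace Cfsg.Agent.S0266

/-- PGL_2(F) is sharply 3-transitive on the projective line: it is 3-transitive and the stabiliser of three distinct points is trivial. -/
theorem result {F : Type*} [Field F] : MulAction.IsMultiplyPretransitive (Matrix.ProjGenLinGroup (Fin 2) F) (Projectivization F (Fin 2 → F)) 3 ∧ ∀ (g : Matrix.ProjGenLinGroup (Fin 2) F) (a b c : Projectivization F (Fin 2 → F)), a ≠ b → a ≠ c → b ≠ c → g • a = a → g • b = b → g • c = c → g = 1 := by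
  constructor
  · constructor
    intro x y
    obtain ⟨g, g1, g2, g3⟩ := H28.exists_gl_three (x 0) (x 1) (x 2) (x.injective.ne (by decide))
      (x.injective.ne (by decide)) (x.injective.ne (by decide))
    obtain ⟨h, h1, h2, h3⟩ := H28.exists_gl_three (y 0) (y 1) (y 2) (y.injective.ne (by decide))
      (y.injective.ne (by decide)) (y.injective.ne (by decide))
    refine ⟨Matrix.ProjGenLinGroup.mk (h * g⁻¹), ?_⟩
    ext i
    rw [Function.Embedding.smul_apply, H28.pgl_mk_smul, mul_smul]
    fin_cases i
    · exact (by rw [← g1, ← h1, inv_smul_smul] : h • g⁻¹ • x 0 = y 0)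
    · exact (by rw [← g2, ← h2, inv_smul_smul] : h • g⁻¹ • x 1 = y 1)
    · exact (by rw [← g3, ← h3, inv_smul_smul] : h • g⁻¹ • x 2 = y 2)
  · intro g a b c hab hac hbc ha hb hc
    obtain ⟨g, rfl⟩ := Matrix.ProjGenLinGroup.mk_surjective g
    rw [H28.pgl_mk_smul] at ha hb hc
    rw [Matrix.ProjGenLinGroup.mk_eq_one]
    exact H28.mem_center_of_fix_three' g a b c hab hac hbc ha hb hc

end Cfsg.Agent.S0266
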