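import Cfsg.Statements.S0267
import Mathlib
import Cfsg.Agent.H28.PGL2

set_option autoImplicit false
open Cfsg

namespace Cfsg.Agent.S0267

open Cfsg.Agent.H28 in
/-- the ordered triple of points `∞, 0, a`. -/
def tri {F : Type*} [Field F] (a : F) (ha : a ≠ 0) : Fin 3 ↪ Projectivization F (Fin 2 → F) :=
  ⟨![pt0 F, pt1 F, ptA a], by
    have h1 := pt0_ne_pt1 (F := F)
    have h2 := pt0_ne_ptA a
    have h3 := pt1_ne_ptA ha
    intro i j
    fin_cases i <;> fin_cases j <;> simp [h1, h2, h3, h1.symm, h2.symm, h3.symm]⟩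

/-- SL_2(q) is 3-transitive on the q+1 points of the projective line if and only if q is even. -/
theorem result {F : Type*} [Field F] [Fintype F] : MulAction.IsMultiplyPretransitive (Matrix.SpecialLinearGroup (Fin 2) F) (Projectivization F (Fin 2 → F)) 3 ↔ ringChar F = 2 := by
  constructor
  · intro h
    by_contra h2
    obtain ⟨a, ha⟩ := FiniteField.exists_nonsquare h2
    have ha0 : a ≠ 0 := by
      rintro rfl
      exact ha (IsSquare.zero)
    obtain ⟨g, hg⟩ := h.exists_smul_eq (tri 1 one_ne_zero) (tri a ha0)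
    have h0 : g • H28.pt0 F = H28.pt0 F := congrArg (fun f => f 0) hg
    have h1 : g • H28.pt1 F = H28.pt1 F := congrArg (fun f => f 1) hg
    have h2 : g • H28.ptA (1 : F) = H28.ptA a := congrArg (fun f => f 2) hg
    rw [H28.sl_smul_eq_gl] at h0 h1 h2
    rw [H28.gl_fix_pt0_iff] at h0
    rw [H28.gl_fix_pt1_iff] at h1
    rw [H28.gl_smul_ptA_iff] at h2
    have hd := g.det_coe
    rw [Matrix.det_fin_two] at hd
    simp only [Matrix.SpecialLinearGroup.coe_GL_coe_matrix] at h0 h1 h2
    rw [h0, h1] at hd h2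
    apply ha
    refine ⟨g 0 0, ?_⟩
    linear_combination (-(g 0 0)) * h2 - a * hd
  · intro h2
    have key : ∀ x : Fin 3 ↪ Projectivization F (Fin 2 → F),
        ∃ g : Matrix.SpecialLinearGroup (Fin 2) F, g • H28.pt0 F = x 0 ∧ g • H28.pt1 F = x 1 ∧
          g • H28.ptA (1 : F) = x 2 := by
      intro x
      obtain ⟨g, g1, g2, g3⟩ := H28.exists_gl_three (x 0) (x 1) (x 2) (x.injective.ne (by decide))
        (x.injective.ne (by decide)) (x.injective.ne (by decide))
      have hs : Function.Surjective (Matrix.ProjectiveSpecialLinearGroup.toPGL (n := Fin 2) (R := F)) := by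
        apply Matrix.ProjectiveSpecialLinearGroup.toPGL_surj_of_roots
        intro r
        obtain ⟨k, hk⟩ := FiniteField.isSquare_of_char_two h2 (r : F)
        have hk0 : k ≠ 0 := by
          rintro rfl
          exact r.ne_zero (by simpa using hk)
        exact ⟨Units.mk0 k hk0, Units.ext (by simp [hk, sq])⟩
      obtain ⟨s, hs⟩ := hs (Matrix.ProjGenLinGroup.mk g)
      obtain ⟨s, rfl⟩ := QuotientGroup.mk_surjective s
      rw [Matrix.ProjectiveSpecialLinearGroup.toPGL_mk] at hs
      refine ⟨s, ?_, ?_, ?_⟩ <;>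
        rw [H28.sl_smul_eq_gl, ← H28.pgl_mk_smul, hs, H28.pgl_mk_smul] <;> assumption
    constructor
    intro x y
    obtain ⟨g, g1, g2, g3⟩ := key x
    obtain ⟨h, h1, h2, h3⟩ := key y
    refine ⟨h * g⁻¹, ?_⟩
    ext i
    rw [Function.Embedding.smul_apply, mul_smul]
    fin_cases i
    · exact (by rw [← g1, ← h1, inv_smul_smul] : h • g⁻¹ • x 0 = y 0)
    · exact (by rw [← g2, ← h2, inv_smul_smul] : h • g⁻¹ • x 1 = y 1)
    · exact (by rw [← g3, ← h3, inv_smul_smul] : h • g⁻¹ • x 2 = y 2)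

end Cfsg.Agent.S0267
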