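import Cfsg.Statements.S0273
import Cfsg.Agent.H29.Cover

set_option autoImplicit false
open Cfsg

namespace Cfsg.Agent.S0273

/-- In GL_2(q) the centraliser of a non-trivial element of a Sylow p-subgroup (p the characteristic) has order q (q-1): the Sylow subgroup times the scalars. -/
theorem result {F : Type*} [Field F] [Fintype F] {q : ℕ} (hF : Fintype.card F = q) (p : ℕ) [Fact p.Prime] [CharP F p] (P : Sylow p (Matrix.GeneralLinearGroup (Fin 2) F)) (a : Matrix.GeneralLinearGroup (Fin 2) F) (ha : a ∈ P) (ha1 : a ≠ 1) : Nat.card (Subgroup.centralizer ({a} : Set (Matrix.GeneralLinearGroup (Fin 2) F))) = q * (q - 1) := by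
  have hc := H29.isCover_pmk (F := F) (p := p)
  obtain ⟨x, hx⟩ := hc.sylow_map P
  rw [hc.centralizer_eq hx ha ha1, H29.card_comap_eq _ (by rw [H29.range_pmk]; exact le_top),
    H29.card_ker_pmk, H29.card_uni, Nat.card_eq_fintype_card, hF]
  ring

end Cfsg.Agent.S0273
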