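import Cfsg.Statements.S0275
import Cfsg.Agent.H29.PSLFacts

set_option autoImplicit false
open Cfsg

namespace Cfsg.Agent.S0275

/-- If p is odd and H is a subgroup of SL_2(q), q a power of p, with more than one Sylow p-subgroup, then the Sylow 2-subgroups of H are generalised quaternion. -/
theorem result {F : Type*} [Field F] [Fintype F] (p : ℕ) [Fact p.Prime] [CharP F p] (hp : p ≠ 2) (H : Subgroup (Matrix.SpecialLinearGroup (Fin 2) F)) (hH : 1 < Nat.card (Sylow p H)) (S : Sylow 2 H) : ∃ k : ℕ, 1 ≤ k ∧ Nonempty ((S : Subgroup H) ≃* QuaternionGroup (2 ^ k)) := by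
  obtain ⟨c, h⟩ := H29.exists_PSL_prime_le_of_sylow p hp H hH
  have ho : Odd (Nat.card (ZMod p)) := by
    rw [Nat.card_zmod]; exact (Fact.out : p.Prime).odd_of_ne_two hp
  obtain ⟨a, b, hab, ha, hb⟩ := H29.exists_kpair_L ho
  have h1 : (H29.slp.comp H.subtype).range = H.map H29.slp := by
    rw [MonoidHom.range_comp, Subgroup.range_subtype]
  exact H29.sylow_two_quaternion ((H29.odd_card_iff_of_ringHom (ZMod.castHom (dvd_refl p) F)).1 ho)
    H.subtype H.subtype_injective ((hab.map (H29.pmap_injective (ZMod.castHom (dvd_refl p) F))).conj c)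
    (h1 ▸ h (H29.conj_mem_map_conj_iff.2 (Subgroup.mem_map_of_mem _ ha)))
    (h1 ▸ h (H29.conj_mem_map_conj_iff.2 (Subgroup.mem_map_of_mem _ hb))) S

end Cfsg.Agent.S0275
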