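import Cfsg.Statements.S0307
import Cfsg.Agent.H26.SLTrans

set_option autoImplicit false
open Cfsg

namespace Cfsg.Agent.S0307

/-- PSL_n(q) is normal in PGL_n(q) with cyclic quotient of order gcd(n, q-1): the image of the natural map PSL_n → PGL_n is the kernel of a surjective homomorphism onto the cyclic group of that order. -/
theorem result {F : Type*} [Field F] [Fintype F] {q : ℕ} (hF : Fintype.card F = q) (n : ℕ) (hn : 1 ≤ n) : ∃ g : Matrix.ProjGenLinGroup (Fin n) F →* Multiplicative (ZMod (Nat.gcd n (q - 1))), Function.Surjective g ∧ g.ker = (Matrix.ProjectiveSpecialLinearGroup.toPGL : Matrix.ProjectiveSpecialLinearGroup (Fin n) F →* Matrix.ProjGenLinGroup (Fin n) F).range := by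
  have hne : Nonempty (Fin n) := ⟨⟨0, hn⟩⟩
  let P : Subgroup Fˣ := (powMonoidHom n : Fˣ →* Fˣ).range
  have hcard : Nat.card (Fˣ ⧸ P) = Nat.card (Multiplicative (ZMod (Nat.gcd n (q - 1)))) := by
    rw [Nat.card_congr Multiplicative.toAdd, Nat.card_zmod, ← Subgroup.index_eq_card,
      IsCyclic.index_powMonoidHom_range, Nat.card_units, Nat.card_eq_fintype_card, hF, Nat.gcd_comm]
  have hcyc : IsCyclic (Fˣ ⧸ P) := isCyclic_of_surjective _ (QuotientGroup.mk'_surjective P)
  let e : (Fˣ ⧸ P) ≃* Multiplicative (ZMod (Nat.gcd n (q - 1))) := mulEquivOfCyclicCardEq hcard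
  let f : Matrix.GeneralLinearGroup (Fin n) F →* Fˣ ⧸ P :=
    (QuotientGroup.mk' P).comp Matrix.GeneralLinearGroup.det
  have hf : f.comp (Matrix.GeneralLinearGroup.scalar (Fin n)) = 1 := by
    ext u
    simp only [f, MonoidHom.comp_apply, QuotientGroup.mk'_apply, MonoidHom.one_apply,
      QuotientGroup.eq_one_iff]
    exact ⟨u, by simp⟩
  refine ⟨e.toMonoidHom.comp (Matrix.ProjGenLinGroup.lift f hf), ?_, ?_⟩
  · intro y
    obtain ⟨x, rfl⟩ := e.surjective y
    obtain ⟨a, rfl⟩ := QuotientGroup.mk'_surjective P x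
    obtain ⟨g, rfl⟩ := Matrix.GeneralLinearGroup.det_surjective (n := Fin n) a
    exact ⟨Matrix.ProjGenLinGroup.mk g, rfl⟩
  · ext x
    induction x using Matrix.ProjGenLinGroup.induction_on with | mk g =>
    simp only [MonoidHom.mem_ker, MonoidHom.comp_apply, Matrix.ProjGenLinGroup.lift_mk,
      MulEquiv.coe_toMonoidHom, MulEquiv.map_eq_one_iff, f, QuotientGroup.mk'_apply,
      QuotientGroup.eq_one_iff, MonoidHom.mem_range]
    constructor
    · rintro ⟨a, ha⟩
      have h1 : g * Matrix.GeneralLinearGroup.scalar (Fin n) a⁻¹ ∈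
          (Matrix.GeneralLinearGroup.det : Matrix.GeneralLinearGroup (Fin n) F →* Fˣ).ker := by
        rw [MonoidHom.mem_ker, map_mul, ← ha]
        simp
      rw [← H26.range_toGL_eq_ker_det] at h1
      obtain ⟨s, hs⟩ := h1
      refine ⟨(s : Matrix.ProjectiveSpecialLinearGroup (Fin n) F), ?_⟩
      rw [Matrix.ProjectiveSpecialLinearGroup.toPGL_mk, hs, map_mul,
        Matrix.ProjGenLinGroup.mk_scalar, mul_one]
    · rintro ⟨y, hy⟩
      obtain ⟨s, rfl⟩ := QuotientGroup.mk_surjective y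
      rw [Matrix.ProjectiveSpecialLinearGroup.toPGL_mk, Matrix.ProjGenLinGroup.mk_eq_mk_iff] at hy
      obtain ⟨u, rfl⟩ := hy
      exact ⟨u, by simp⟩

end Cfsg.Agent.S0307
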