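import Cfsg.Statements.S0310
import Cfsg.Agent.H35.BNParabolic

set_option autoImplicit false
open Cfsg

namespace Cfsg.Agent.S0310

/-- For a set `J` of distinguished generators, the subgroup generated by `B` and `J` is exactly the union of
the double cosets `B n B` with `n` in the subgroup generated by `J` (so `B W_J B` is a subgroup). -/
theorem result {G : Type*} [Group G] (P : Cfsg.BNPair G) {J : Set G}
    (hJ : J ⊆ P.S) (g : G) :
    g ∈ P.parabolic J ↔ ∃ n ∈ Subgroup.closure J, g ∈ DoubleCoset.doubleCoset n (P.B : Set G) P.B := by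
  constructor
  · intro hg
    rw [← H35.BN.image_preimage_val hJ] at hg ⊢
    rw [H35.BN.mem_parabolic_iff_bruhat] at hg
    obtain ⟨l, hl, hw⟩ := (H35.BN.gens P).mem_closure_iff.1 hg
    refine ⟨_, H35.BN.prod_mem_closure hl, ?_⟩
    rw [← H35.BN.cell_mkW (H35.BN.prod_mem_N l), H35.BN.mkW_prod, hw]
    exact H35.BN.mem_cell_bruhat g
  · rintro ⟨n, hn, hg⟩
    obtain ⟨b, hb, b', hb', rfl⟩ := DoubleCoset.mem_doubleCoset.1 hg
    exact mul_mem (mul_mem (H35.BN.B_le_parabolic J hb)
      ((le_sup_right : Subgroup.closure J ≤ P.parabolic J) hn)) (H35.BN.B_le_parabolic J hb')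

end Cfsg.Agent.S0310
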