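import Cfsg.Statements.S0316
import Cfsg.Agent.H35.BNParabolic

set_option autoImplicit false
open Cfsg

namespace Cfsg.Agent.S0316

/-- The map `J ↦ P_J` is a lattice isomorphism from the power set of the set of distinguished generators onto the
subgroups containing `B`. -/
theorem result {G : Type*} [Group G] (P : Cfsg.BNPair G) :
    ∃ e : Set P.S ≃o {M : Subgroup G // P.B ≤ M},
      ∀ J : Set P.S, ((e J : {M : Subgroup G // P.B ≤ M}) : Subgroup G) = P.parabolic (Subtype.val '' J) := by
  have hsub : ∀ J : Set P.S, (Subtype.val '' J : Set G) ⊆ P.S := by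
    rintro J _ ⟨i, -, rfl⟩; exact i.2
  refine ⟨RelIso.mk (Equiv.mk (fun J => ⟨P.parabolic (Subtype.val '' J), H35.BN.B_le_parabolic _⟩)
    (fun M => {i : P.S | (i : G) ∈ M.1}) ?_ ?_) ?_, fun J => rfl⟩
  · intro J
    ext i
    exact H35.BN.s_mem_parabolic_iff'
  · intro M
    exact Subtype.ext (H35.BN.eq_parabolic_of_le M.2).symm
  · intro J K
    change P.parabolic (Subtype.val '' J) ≤ P.parabolic (Subtype.val '' K) ↔ J ⊆ K
    rw [H35.BN.parabolic_le_parabolic_iff (hsub J) (hsub K),
      Set.image_subset_image_iff Subtype.val_injective]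

end Cfsg.Agent.S0316
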