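import Cfsg.Statements.S0321
import Cfsg.Agent.H35.BNParabolic

set_option autoImplicit false
open Cfsg

namespace Cfsg.Agent.S0321

/-- For `n ∈ N` not in `B`, the union `B ∪ B n B` is (the underlying set of) a subgroup exactly when `n` agrees
modulo `B ⊓ N` with one of the distinguished representatives; thus the distinguished involutions are
determined by `B` and `N`. -/
theorem result {G : Type*} [Group G] (P : Cfsg.BNPair G) {n : G}
    (hn : n ∈ P.N) (hnB : n ∉ P.B) :
    (∃ H : Subgroup G, (H : Set G) = (P.B : Set G) ∪ DoubleCoset.doubleCoset n (P.B : Set G) P.B) ↔ ∃ s ∈ P.S, s⁻¹ * n ∈ P.B := by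
  rw [← H35.BN.cell_mkW hn]
  constructor
  · rintro ⟨H, hH⟩
    have hB : P.B ≤ H := fun b hb => by
      rw [← SetLike.mem_coe, hH]; exact Or.inl hb
    have hnH : n ∈ H := by
      rw [← SetLike.mem_coe, hH]; exact Or.inr (H35.BN.self_mem_cell hn)
    obtain ⟨l, hl, hw⟩ := (H35.BN.gens P).exists_isRed (H35.BN.mkW P n hn)
    cases l with
    | nil => exact absurd ((H35.BN.mkW_eq_one_iff hn).1 (by simpa using hw.symm)) hnB
    | cons i l =>
      have hi := H35.BN.letter_mem_of_mem hB hl (hw ▸ H35.BN.self_mem_cell hn) hnH i (by simp)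
      rw [← SetLike.mem_coe, hH] at hi
      rcases hi with hi | hi
      · exact absurd hi (H35.BN.s_not_mem_B i)
      · exact ⟨i, i.2, (H35.BN.mkW_eq_iff (P.subset i.2) hn).1
          (H35.BN.eq_of_mem_cell (H35.BN.s_mem_cell i) hi)⟩
  · rintro ⟨s, hs, h⟩
    refine ⟨P.parabolic {s}, ?_⟩
    rw [← (H35.BN.mkW_eq_iff (P.subset hs) hn).2 h]
    ext g
    exact H35.BN.mem_parabolic_singleton_iff (i := ⟨s, hs⟩)

end Cfsg.Agent.S0321
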