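import Cfsg.Statements.S0322
import Cfsg.Agent.H35.BNParabolic

set_option autoImplicit false
open Cfsg

namespace Cfsg.Agent.S0322

/-- A group with a (B,N)-pair of rank one acts doubly transitively on the left cosets of `B`. -/
theorem result {G : Type*} [Group G] (P : Cfsg.BNPair G) (h : P.rank = 1) : MulAction.IsMultiplyPretransitive G (G ⧸ P.B) 2 := by
  obtain ⟨i, hi⟩ := Nat.card_eq_one_iff_exists.1 (show Nat.card P.S = 1 from h)
  have hS : P.S = {(i : G)} := by
    ext s
    constructor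
    · intro hs
      exact congrArg Subtype.val (hi ⟨s, hs⟩)
    · rintro rfl
      exact i.2
  have hcell : ∀ g : G, g ∉ P.B → g ∈ H35.BN.cell P ((H35.BN.gens P).s i) := by
    intro g hg
    have : g ∈ P.parabolic {(i : G)} := by rw [← hS, H35.BN.parabolic_S]; trivial
    exact (H35.BN.mem_parabolic_singleton_iff.1 this).resolve_left hg
  rw [MulAction.is_two_pretransitive_iff]
  intro a b c d hab hcd
  obtain ⟨a, rfl⟩ := QuotientGroup.mk_surjective a
  obtain ⟨b, rfl⟩ := QuotientGroup.mk_surjective b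
  obtain ⟨c, rfl⟩ := QuotientGroup.mk_surjective c
  obtain ⟨d, rfl⟩ := QuotientGroup.mk_surjective d
  rw [Ne, QuotientGroup.eq] at hab hcd
  obtain ⟨b₁, h₁, b₂, h₂, e⟩ := H35.BN.exists_eq_of_mem_cell (hcell _ hab) (hcell _ hcd)
  refine ⟨c * b₁ * a⁻¹, ?_, ?_⟩
  · rw [MulAction.Quotient.smul_mk, QuotientGroup.eq, smul_eq_mul]
    simpa using h₁
  · rw [MulAction.Quotient.smul_mk, QuotientGroup.eq, smul_eq_mul]
    have : (c * b₁ * a⁻¹ * b)⁻¹ * d = b₂ := by
      rw [show d = c * (c⁻¹ * d) by group, e]; group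
    rw [this]
    exact h₂

end Cfsg.Agent.S0322
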