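import Cfsg.Statements.S0323


set_option autoImplicit false
open scoped Pointwise
open Cfsg

namespace Cfsg.Agent.S0323

/-- A doubly transitive action on a set with at least three points yields a (B,N)-pair of rank one:
`B` is the stabiliser of a point `x`, `N` the setwise stabiliser of a pair `{x, y}`. -/
theorem result {G Ω : Type*} [Group G] [MulAction G Ω]
    (h2 : MulAction.IsMultiplyPretransitive G Ω 2) {x y z : Ω} (hxy : x ≠ y) (hyz : y ≠ z) (hxz : x ≠ z) :
    ∃ P : Cfsg.BNPair G, P.B = MulAction.stabilizer G x ∧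
      P.N = MulAction.stabilizer G ({x, y} : Set Ω) ∧ P.rank = 1 := by
  rw [MulAction.is_two_pretransitive_iff] at h2
  obtain ⟨s, hsx, hsy⟩ := h2 hxy hxy.symm
  have hN : ∀ n : G, n ∈ MulAction.stabilizer G ({x, y} : Set Ω) ↔
      (n • x = x ∧ n • y = y) ∨ (n • x = y ∧ n • y = x) := by
    intro n
    rw [MulAction.mem_stabilizer_iff, Set.smul_set_insert, Set.smul_set_singleton,
      Set.pair_eq_pair_iff]
  have hB : ∀ b : G, b ∈ MulAction.stabilizer G x ↔ b • x = x := fun b =>
    MulAction.mem_stabilizer_iff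
  have hsN : s ∈ MulAction.stabilizer G ({x, y} : Set Ω) := (hN s).2 (Or.inr ⟨hsx, hsy⟩)
  have hcell : ∀ g n : G, g • x ≠ x → n • x ≠ x → g ∈ DoubleCoset.doubleCoset n
      (MulAction.stabilizer G x : Set G) (MulAction.stabilizer G x) := by
    intro g n hg hn
    obtain ⟨b, hb1, hb2⟩ := h2 hn.symm hg.symm
    refine DoubleCoset.mem_doubleCoset.2 ⟨b, hb1, (b * n)⁻¹ * g, ?_, by group⟩
    rw [SetLike.mem_coe, hB, mul_smul, ← hb2, ← mul_smul b n, inv_smul_smul]
  have hcell1 : ∀ g n : G, g • x = x → n • x = x → g ∈ DoubleCoset.doubleCoset n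
      (MulAction.stabilizer G x : Set G) (MulAction.stabilizer G x) := by
    intro g n hg hn
    refine DoubleCoset.mem_doubleCoset.2 ⟨1, one_mem _, n⁻¹ * g, ?_, by group⟩
    rw [SetLike.mem_coe, hB, mul_smul, hg, inv_smul_eq_iff, hn]
  refine ⟨⟨MulAction.stabilizer G x, MulAction.stabilizer G ({x, y} : Set Ω), {s}, ?_, ?_, ?_, ?_,
    ?_, ?_, ?_, ?_⟩, rfl, rfl, ?_⟩
  · rw [eq_top_iff]
    intro g _
    by_cases hg : g • x = x
    · exact Subgroup.mem_sup_left hg
    · obtain ⟨b, hb, b', hb', rfl⟩ := DoubleCoset.mem_doubleCoset.1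
        (hcell g s hg (by rw [hsx]; exact hxy.symm))
      exact mul_mem (mul_mem (Subgroup.mem_sup_left hb) (Subgroup.mem_sup_right hsN))
        (Subgroup.mem_sup_left hb')
  · intro n hn t ht
    have h1 : t • x = x := ht.1
    have h3 : t • y = y := by
      rcases (hN t).1 ht.2 with h | h
      · exact h.2
      · exact absurd (h1.symm.trans h.1) hxy
    rw [hB, mul_smul, mul_smul]
    rcases (hN n⁻¹).1 (inv_mem hn) with h | h
    · rw [h.1, h1, ← h.1, smul_inv_smul, h.1]
    · rw [h.1, h3, ← h.1, smul_inv_smul]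
  · exact Set.singleton_subset_iff.2 hsN
  · rintro _ rfl
    rw [hB, mul_smul, hsx, hsy]
  · rintro _ rfl _ rfl _
    rfl
  · apply le_antisymm
    · exact sup_le ((Subgroup.closure_le _).2 (Set.singleton_subset_iff.2 hsN)) inf_le_right
    · intro n hn
      rcases (hN n).1 hn with h | h
      · exact Subgroup.mem_sup_right ⟨h.1, hn⟩
      · have h1 : s⁻¹ * n ∈ MulAction.stabilizer G x := by
          rw [hB, mul_smul, h.1, inv_smul_eq_iff, hsx]
        have : n = s * (s⁻¹ * n) := by group
        rw [this]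
        exact mul_mem (Subgroup.mem_sup_left (Subgroup.subset_closure rfl))
          (Subgroup.mem_sup_right ⟨h1, Subgroup.mul_mem _ (Subgroup.inv_mem _ hsN) hn⟩)
  · intro s' hs' n hn b hb
    rw [Set.mem_singleton_iff.1 hs']
    have hb' : b • x = x := hb
    rcases (hN n).1 hn with h | h
    · left
      apply hcell
      · rw [mul_smul, mul_smul, h.1, hb', hsx]; exact hxy.symm
      · rw [mul_smul, h.1, hsx]; exact hxy.symm
    · by_cases hg : (s * b * n) • x = x
      · left
        apply hcell1 _ _ hg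
        rw [mul_smul, h.1, hsy]
      · right
        apply hcell _ _ hg
        rw [h.1]; exact hxy.symm
  · intro s' hs' hh
    rw [Set.mem_singleton_iff.1 hs'] at hh
    obtain ⟨b, hb1, hb2⟩ := h2 hxy hxz
    have : s * b * s ∈ (MulAction.stabilizer G x : Set G) := by
      rw [← hh]; exact ⟨b, hb1, rfl⟩
    rw [SetLike.mem_coe, hB, mul_smul, mul_smul, hsx, hb2, ← hsy, smul_left_cancel_iff] at this
    exact hyz this.symm
  · simp [BNPair.rank]

end Cfsg.Agent.S0323
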