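import Cfsg.Statements.S0327
import Cfsg.Agent.H39.SzBasic

set_option autoImplicit false
open Cfsg

namespace Cfsg.Agent.S0327

/-- The Suzuki group (`m ≥ 1`) is a Zassenhaus group on the `q² + 1` points of the Suzuki–Tits ovoid. -/
theorem result {F : Type*} [Field F] [Fintype F] {m : ℕ} (hm : 1 ≤ m)
    (hF : Fintype.card F = 2 ^ (2 * m + 1)) :
    Cfsg.IsZassenhausGroup (Cfsg.Sz F m) (Cfsg.suzukiOvoid F m) := by
  have := H39.szField_of_card hm hF
  set S := H39.ovoidModel hm hF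
  have hO := S.mem_ovoid_iff (m := m) (H39.ovoidModel_θ hm hF)
  let e : S.Pt → Cfsg.suzukiOvoid F m := fun P => ⟨S.proj P, (hO _).mpr ⟨P, rfl⟩⟩
  have he : ∀ (g : Cfsg.Sz F m) (P : S.Pt), g • e P = e (g • P) := fun g P =>
    Subtype.ext (H39.ovoidModel_smul_proj hm hF g P)
  have hinj : Function.Injective e := fun P Q h => S.proj_inj (Subtype.ext_iff.mp h)
  have hsurj : Function.Surjective e := fun p => by
    obtain ⟨P, hP⟩ := (hO _).mp p.2
    exact ⟨P, Subtype.ext hP⟩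
  obtain ⟨k, hk⟩ := H39.SzField.exists_unit_ne F
  refine ⟨⟨fun {g g'} h => ?_⟩, ?_, ?_, ?_, ?_⟩
  · exact FaithfulSMul.eq_of_smul_eq_smul (α := S.Pt) fun P => hinj (by rw [← he, ← he, h])
  · rw [MulAction.is_two_pretransitive_iff]
    intro a b c d h h'
    obtain ⟨a, rfl⟩ := hsurj a
    obtain ⟨b, rfl⟩ := hsurj b
    obtain ⟨c, rfl⟩ := hsurj c
    obtain ⟨d, rfl⟩ := hsurj d
    obtain ⟨g, h1, h2⟩ := S.exists_smul_pair' (hinj.ne_iff.mp h) (hinj.ne_iff.mp h')
    exact ⟨g, by rw [he, h1], by rw [he, h2]⟩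
  · intro g a b c hab hbc hac h1 h2 h3
    obtain ⟨a, rfl⟩ := hsurj a
    obtain ⟨b, rfl⟩ := hsurj b
    obtain ⟨c, rfl⟩ := hsurj c
    rw [he, hinj.eq_iff] at h1 h2 h3
    exact S.eq_one_of_fix_three (hinj.ne_iff.mp hab) (hinj.ne_iff.mp hbc) (hinj.ne_iff.mp hac)
      h1 h2 h3
  · exact ⟨S.h k, fun h => hk (S.h_eq_one_iff.mp h), e .inf, e (.pt 0 0), hinj.ne (S.inf_ne_pt 0 0),
      by rw [he, S.h_smul_inf], by rw [he, S.h_smul_zero]⟩
  · intro N hN htr
    have := S.isSimpleGroup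
    rcases hN.eq_bot_or_eq_top with rfl | rfl
    · obtain ⟨g, hg⟩ := htr.exists_smul_eq (e .inf) (e (.pt 0 0))
      have hg1 : g = 1 := Subsingleton.elim _ _
      rw [hg1, one_smul] at hg
      exact absurd (hinj hg) (S.inf_ne_pt 0 0)
    · refine ⟨e .inf, fun h => ?_⟩
      have : (⟨S.h k, Subgroup.mem_top _⟩ : (⊤ : Subgroup (Cfsg.Sz F m))) ∈
          MulAction.stabilizer (⊤ : Subgroup (Cfsg.Sz F m)) (e .inf) := by
        rw [MulAction.mem_stabilizer_iff]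
        change S.h k • e .inf = _
        rw [he, S.h_smul_inf]
      rw [h, Subgroup.mem_bot] at this
      exact hk (S.h_eq_one_iff.mp (congrArg Subtype.val this))

end Cfsg.Agent.S0327
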