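import Cfsg.Statements.S0328
import Cfsg.Agent.H39.SzBasic

set_option autoImplicit false
open Cfsg

namespace Cfsg.Agent.S0328

/-- The stabiliser in the Suzuki group of the two ovoid points spanned by `(1,0,0,0)` and `(0,0,0,1)` is
isomorphic to the multiplicative group of the field (cyclic of order `q - 1`). -/
theorem result {F : Type*} [Field F] [Fintype F] {m : ℕ} (hm : 1 ≤ m)
    (hF : Fintype.card F = 2 ^ (2 * m + 1)) :
    Nonempty (↥(MulAction.stabilizer (Cfsg.Sz F m) (Cfsg.suzukiPointInfinity F) ⊓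
        MulAction.stabilizer (Cfsg.Sz F m) (Cfsg.suzukiPointZero F)) ≃* Fˣ) := by
  set S := H39.ovoidModel hm hF
  have : MulAction.stabilizer (Cfsg.Sz F m) (Cfsg.suzukiPointInfinity F) ⊓
      MulAction.stabilizer (Cfsg.Sz F m) (Cfsg.suzukiPointZero F) = S.H := by
    ext g
    have h1 : Cfsg.suzukiPointInfinity F = S.proj .inf := rfl
    have h2 : Cfsg.suzukiPointZero F = S.proj (.pt 0 0) := by
      unfold H39.Model.proj Cfsg.suzukiPointZero
      congr 1
      simp [H39.Model.vec]
    rw [S.mem_H_iff_fix, Subgroup.mem_inf, MulAction.mem_stabilizer_iff,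
      MulAction.mem_stabilizer_iff, h1, h2, H39.ovoidModel_smul_proj, H39.ovoidModel_smul_proj,
      S.proj_inj.eq_iff, S.proj_inj.eq_iff]
  rw [this]
  exact ⟨S.hEquiv.symm⟩

end Cfsg.Agent.S0328
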