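import Cfsg.Statements.S0335
import Cfsg.Agent.H39.SzBasic

set_option autoImplicit false
open Cfsg

namespace Cfsg.Agent.S0335

/-- The Suzuki–Tits point set is an ovoid: any three distinct points of it are projectively independent
(no line of projective 3-space meets it in more than two points). -/
theorem result {F : Type*} [Field F] [Fintype F] {m : ℕ} (hm : 1 ≤ m)
    (hF : Fintype.card F = 2 ^ (2 * m + 1)) (p : Fin 3 ↪ Cfsg.suzukiOvoid F m) :
    Projectivization.Independent (fun i => (p i : Projectivization F (Fin 4 → F))) := by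
  have := H39.szField_of_card hm hF
  set S := H39.ovoidModel hm hF
  have hO := S.mem_ovoid_iff (m := m) (H39.ovoidModel_θ hm hF)
  choose P hP using fun i => (hO _).mp (p i).2
  have hinj : Function.Injective P := fun i j h => p.injective (Subtype.ext (by rw [← hP, ← hP, h]))
  simp only [← hP]
  refine Projectivization.Independent.mk (fun i => S.vec (P i)) (fun i => S.vec_ne_zero _) ?_
  obtain ⟨g, h0, h1⟩ := S.exists_smul_pair' (hinj.ne (show (0 : Fin 3) ≠ 1 by decide))
    (S.inf_ne_pt 0 0)
  rw [Fintype.linearIndependent_iff]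
  intro c hc
  choose d hd0 hd using fun i => S.exists_mulVec_vec g (P i)
  have h2 := congrArg (S.mat g).mulVec hc
  rw [Fin.sum_univ_three, Matrix.mulVec_add, Matrix.mulVec_add, Matrix.mulVec_smul,
    Matrix.mulVec_smul, Matrix.mulVec_smul, hd, hd, hd, h0, h1, Matrix.mulVec_zero] at h2
  have n0 : g • P 2 ≠ .inf := by
    rw [← h0, Ne, smul_left_cancel_iff]
    exact hinj.ne (by decide)
  have n1 : g • P 2 ≠ .pt 0 0 := by
    rw [← h1, Ne, smul_left_cancel_iff]
    exact hinj.ne (by decide)
  cases h3 : g • P 2 with
  | inf => exact absurd h3 n0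
  | pt x y =>
    rw [h3] at h2 n1
    have e0 := congrFun h2 0
    have e1 := congrFun h2 1
    have e2 := congrFun h2 2
    have e3 := congrFun h2 3
    simp [H39.Model.vec, hd0] at e0 e1 e2 e3
    have hc2 : c 2 = 0 := by
      by_contra h
      exact n1 (by rw [e1.resolve_left h, e2.resolve_left h])
    simp [hc2, hd0] at e0 e3
    intro i
    fin_cases i <;> assumption

end Cfsg.Agent.S0335
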