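import Cfsg.Statements.S0340
import Cfsg.Agent.H11.ZassClass
import Cfsg.Agent.S0347

set_option autoImplicit false
open Cfsg

namespace Cfsg.Agent.S0340

open Cfsg.Agent.H11

/-- Classification of Zassenhaus groups, simple case, order-level form: a finite simple Zassenhaus group is
isomorphic to `PSL₂(F)` for some finite field `F` or is simple of Suzuki order. -/
theorem result {G Ω : Type*} [Group G] [Finite G] [MulAction G Ω]
    [Finite Ω] (hZ : Cfsg.IsZassenhausGroup G Ω) [IsSimpleGroup G] :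
    (∃ (F : Type) (_ : Field F) (_ : Fintype F), Nonempty (G ≃* Matrix.ProjectiveSpecialLinearGroup (Fin 2) F)) ∨ Cfsg.IsSuzuki G := by
  have h := H61.IsZ.of_zass hZ
  have h3 := H61.three_le_card_of_zass hZ
  have : Nontrivial Ω := Finite.one_lt_card_iff_nontrivial.mp (by omega)
  obtain ⟨o, w, ho⟩ := exists_pair_ne Ω
  obtain ⟨F, hF⟩ := h.exists_isKer ho (H61.stab2_ne_bot_of_zass hZ ho.symm)
  rcases zass_simple_cases hZ hF with ⟨K, _, _, -, e⟩ | ⟨h1, h2⟩
  · exact Or.inl ⟨K, inferInstance, inferInstance, e⟩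
  · exact Or.inr (Cfsg.Agent.S0347.result hZ w F hF.fix hF.normal h1 h2 hF.existsUnique)

end Cfsg.Agent.S0340
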