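import Cfsg.Statements.S0341
import Cfsg.Agent.H60.Jordan
import Cfsg.Agent.H60.Centralizer
import Cfsg.Agent.H69.FixLift
import Cfsg.Agent.H61.ZassOdd
import Cfsg.Agent.H63.Prod

set_option autoImplicit false
open Cfsg

namespace Cfsg.Agent.S0341

/-- If a finite group acts faithfully and doubly transitively, no non-identity element fixes three points, some
non-identity element fixes two points, and some normal subgroup acts regularly, then the number of points
is `2^p` with `p` prime. -/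
theorem result {G Ω : Type*} [Group G]
    [MulAction G Ω] [Fintype Ω] [FaithfulSMul G Ω] (h2 : MulAction.IsMultiplyPretransitive G Ω 2)
    (h3 : ∀ g : G, ∀ a b c : Ω, a ≠ b → b ≠ c → a ≠ c → g • a = a → g • b = b → g • c = c → g = 1)
    (hfix : ∃ g : G, g ≠ 1 ∧ ∃ a b : Ω, a ≠ b ∧ g • a = a ∧ g • b = b)
    (N : Subgroup G) [N.Normal] (hNt : MulAction.IsPretransitive N Ω)
    (hNr : ∀ a : Ω, MulAction.stabilizer N a = ⊥) :
    ∃ p : ℕ, p.Prime ∧ Fintype.card Ω = 2 ^ p := by
  classical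
  obtain ⟨g, hg1, a, b, hab, hga, hgb⟩ := hfix
  have h : H61.IsZ G Ω := ⟨fun _ _ _ _ => H60.exists_smul_pair h2, h3, fun g hg =>
    eq_of_smul_eq_smul (α := Ω) fun x => by rw [hg, one_smul]⟩
  have := h.finite
  have hne : H61.stab2 G a b ≠ ⊥ := fun h' => hg1 (by
    have : g ∈ H61.stab2 G a b := ⟨hga, hgb⟩
    rwa [h'] at this)
  have h3le := h.three_le_card hab hne
  obtain ⟨F, hF⟩ := h.exists_isKer hab.symm hne
  obtain ⟨s, hs, hsd⟩ := Nat.exists_prime_and_dvd (n := Nat.card (H61.stab2 G a b))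
    (fun h' => hne (Subgroup.card_eq_one.1 h'))
  have := Fact.mk hs
  obtain ⟨⟨x, hx⟩, hxo⟩ := exists_prime_orderOf_dvd_card' s hsd
  rw [Subgroup.orderOf_mk] at hxo
  have hx1 : x ≠ 1 := fun h' => hs.ne_one (by rw [← hxo, h', orderOf_one])
  have hN : Nat.card N = Nat.card Ω := H60.natCard_eq_of_regular a (hNr a)
  have hreg : ∀ n ∈ N, ∀ n' ∈ N, n • a = n' • a → n = n' := by
    intro n hn n' hn' hh
    have : (⟨n'⁻¹ * n, N.mul_mem (N.inv_mem hn') hn⟩ : N) ∈ MulAction.stabilizer N a := by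
      change (n'⁻¹ * n) • a = a
      rw [mul_smul, hh, inv_smul_smul]
    rw [hNr, Subgroup.mem_bot, Subtype.ext_iff] at this
    exact (inv_mul_eq_one.1 this).symm
  have hconj : ∀ y : G, y • a = a → ∀ n ∈ N, (y * n * y⁻¹) • a = y • n • a := fun y hy n _ => by
    rw [mul_smul, mul_smul, inv_smul_eq_iff.2 hy.symm]
  have hNn : ∀ y : G, ∀ n ∈ N, y * n * y⁻¹ ∈ N := fun y n hn => Subgroup.Normal.conj_mem ‹_› n hn y
  obtain ⟨⟨n₀, hn₀⟩, hn₀a⟩ := hNt.exists_smul_eq a b
  change n₀ • a = b at hn₀a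
  have hn₀1 : n₀ ≠ 1 := fun h' => hab (by rw [← hn₀a, h', one_smul])
  have hC : ∀ n ∈ N, x * n * x⁻¹ = n ↔ n = 1 ∨ n = n₀ := by
    intro n hn
    constructor
    · intro hh
      have h1 : x • n • a = n • a := by rw [← hconj x hx.1 n hn, hh]
      by_contra hcon
      push Not at hcon
      exact hx1 (h3 x a b (n • a) hab (fun h' => hcon.2 (hreg n hn n₀ hn₀ (by rw [hn₀a, h'])))
        (fun h' => hcon.1 (hreg n hn 1 N.one_mem (by rw [one_smul, ← h']))) hx.1 hx.2 h1)
    · rintro (rfl | rfl)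
      · simp
      · exact hreg _ (hNn x _ hn) _ hn (by rw [hconj x hx.1 _ hn, hn₀a, hx.2])
  have hsq₀ : n₀ * n₀ = 1 := by
    have h1 := (hC n₀ hn₀).2 (Or.inr rfl)
    rcases (hC (n₀ * n₀) (N.mul_mem hn₀ hn₀)).1 (by
      rw [← conj_mul, h1]) with h' | h'
    · exact h'
    · exact absurd (mul_eq_left.1 h') hn₀1
  have hsq : ∀ n ∈ N, n * n = 1 := by
    intro n hn
    by_cases hn1 : n = 1
    · simp [hn1]
    obtain ⟨u, hu, hub⟩ := hF.trans b (n • a) hab.symm
      (fun h' => hn1 (hreg n hn 1 N.one_mem (by rw [one_smul, h'])))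
    rw [← hreg _ (hNn u _ hn₀) _ hn (by rw [hconj u (hF.fix u hu) _ hn₀, hn₀a, hub]), conj_mul,
      hsq₀, mul_one, mul_inv_cancel]
  have hsq' : ∀ n : N, n ^ 2 = 1 := fun n => Subtype.ext (by rw [pow_two]; exact hsq n n.2)
  have hcomm : ∀ m n : N, m * n = n * m := fun m n =>
    Commute.of_orderOf_dvd_two (fun n => orderOf_dvd_of_pow_eq_one (hsq' n)) m n
  have : Fact (Nat.Prime 2) := ⟨Nat.prime_two⟩
  obtain ⟨d, hd⟩ := IsPGroup.iff_card.1 (show IsPGroup 2 N from fun n => ⟨1, hsq' n⟩)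
  have hCc : Nat.card (N ⊓ Subgroup.centralizer (Subgroup.zpowers x : Set G) : Subgroup G) = 2 := by
    rw [← Set.ncard_pair hn₀1.symm, ← Nat.card_coe_set_eq]
    apply Nat.card_congr (Equiv.setCongr _)
    ext n
    rw [Subgroup.zpowers_eq_closure, Subgroup.centralizer_closure, SetLike.mem_coe, Subgroup.mem_inf,
      Subgroup.mem_centralizer_singleton_iff, Set.mem_insert_iff, Set.mem_singleton_iff]
    constructor
    · rintro ⟨hn, hh⟩
      exact (hC n hn).1 (by rw [← hh, mul_inv_cancel_right])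
    · intro hh
      have hn : n ∈ N := by rcases hh with rfl | rfl; exacts [N.one_mem, hn₀]
      exact ⟨hn, (mul_inv_eq_iff_eq_mul.1 ((hC n hn).2 hh)).symm⟩
  rw [← Nat.card_eq_fintype_card, ← hN]
  by_cases hs2 : s = 2
  · refine ⟨2, Nat.prime_two, ?_⟩
    have hxx : x * x = 1 := by rw [← pow_two, ← hs2, ← hxo, pow_orderOf_eq_one]
    let c : N →* N := (MulAut.conjNormal x).toMonoidHom
    have hc : ∀ n : N, (c n : G) = x * n * x⁻¹ := fun n => rfl
    let φ : N →* N := MonoidHom.mk' (fun n => n * c n) fun m n => by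
      rw [map_mul, mul_assoc, mul_assoc, ← mul_assoc n, hcomm n, mul_assoc]
    have hle : ∀ K : Subgroup N, (∀ n ∈ K, c n = n) → Nat.card K ≤ 2 := by
      intro K hK
      rw [← Set.ncard_pair hn₀1.symm, ← Nat.card_coe_set_eq]
      exact Nat.card_le_card_of_injective (fun n : K =>
        (⟨((n : N) : G), (hC _ (n : N).2).1 (congrArg Subtype.val (hK n n.2))⟩ : ({1, n₀} : Set G)))
        fun m n h => Subtype.ext (Subtype.ext (Subtype.mk.inj h))
    have h1 := hle φ.ker fun n hn => by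
      have h1 : n * c n = 1 := hn
      have h2 : n * n = 1 := by rw [← pow_two, hsq']
      exact mul_left_cancel (h1.trans h2.symm)
    have h2 := hle φ.range (by
      rintro _ ⟨n, rfl⟩
      change c (n * c n) = n * c n
      rw [map_mul, hcomm]
      congr 1
      apply Subtype.ext
      rw [hc, hc, ← mul_assoc, ← mul_assoc, hxx, mul_assoc, ← mul_inv_rev, hxx]
      simp)
    have h4 := φ.ker.index_mul_card
    rw [Subgroup.index_ker] at h4
    have h5 : Nat.card N ≤ 2 * 2 := h4 ▸ Nat.mul_le_mul h2 h1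
    rw [hd] at h5 ⊢
    rw [← hN, hd] at h3le
    have h6 : d ≤ 2 := (Nat.pow_le_pow_iff_right (by norm_num : 1 < 2)).1 h5
    interval_cases d <;> omega
  · refine ⟨s, hs, ?_⟩
    have hR : Subgroup.zpowers x ≤ H61.stab2 G a b := Subgroup.zpowers_le.2 hx
    have hRc : Nat.card (Subgroup.zpowers x) = s := by rw [Nat.card_zpowers, hxo]
    have hFc := hF.card_eq hab.symm
    have hsdp : H63.IsSdp F (Subgroup.zpowers x) (F ⊔ Subgroup.zpowers x) :=
      ⟨hR.trans (hF.le_normalizer b), by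
        rw [eq_bot_iff]
        rintro u ⟨hu, hu'⟩
        exact hF.free u hu b hab.symm (hR hu').2, rfl⟩
    have hfrob : H63.IsFrobenius (F ⊔ Subgroup.zpowers x) F (Subgroup.zpowers x) :=
      ⟨hsdp, fun h' => by rw [h', Subgroup.card_bot] at hFc; omega,
        Subgroup.zpowers_ne_bot.2 hx1, fun y hy hy1 => by
          rw [eq_bot_iff]
          rintro u ⟨hu, hu'⟩
          by_contra hu1
          exact hy1 (hF.eq_one_of_commute h hab.symm (hR hy) hu hu1 (by
            rw [← Subgroup.mem_centralizer_singleton_iff.1 hu', mul_inv_cancel_right]))⟩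
    have hd0 : d ≠ 0 := by rintro rfl; omega
    have hcop : (Nat.card N).Coprime (Nat.card (F ⊔ Subgroup.zpowers x : Subgroup G)) := by
      rw [hsdp.card, hFc, hRc, ← hN, hd]
      refine Nat.Coprime.mul_right ?_ (Nat.Coprime.pow_left _
        ((Nat.coprime_primes Nat.prime_two hs).2 (Ne.symm hs2)))
      exact (Nat.coprime_self_sub_right Nat.one_le_two_pow).2 (by simp)
    have hsol : Group.IsSolvable N := Group.isSolvable_of_comm hcomm
    have key := (H69.Frobenius_Wielandt_fixpoint hfrob (V := N)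
      (by rw [Subgroup.normalizer_eq_top]; exact le_top) hcop hsol).2.2 (by
        rw [eq_bot_iff]
        rintro n ⟨hn, hn'⟩
        by_contra hn1
        have hna : n • a ≠ a := fun h' => hn1 (hreg n hn 1 N.one_mem (by rw [one_smul, h']))
        have : Nontrivial F := Finite.one_lt_card_iff_nontrivial.1 (by omega)
        obtain ⟨⟨u, hu⟩, hu1⟩ := exists_ne (1 : F)
        refine hu1 (Subtype.ext (hF.free u hu _ hna ?_))
        rw [← mul_smul, hn' u hu, mul_smul, hF.fix u hu])
    rw [key, hCc, hRc]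

end Cfsg.Agent.S0341
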