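import Cfsg.Statements.S0381
import Cfsg.Agent.H42.Enum

set_option autoImplicit false
set_option maxRecDepth 1000000
open Cfsg

namespace Cfsg.Agent.S0381

open Cfsg.Agent.H42

/-- The pointwise stabiliser of an octad in the group of the length-24 code has order 16 and every element of it squares to the identity. -/
theorem result (o : Finset Cfsg.GolayPt) (ho : o ∈ Cfsg.octads) : Nat.card ↥(Cfsg.M24 ⊓ fixingSubgroup (Equiv.Perm Cfsg.GolayPt) (o : Set Cfsg.GolayPt)) = 16 ∧ ∀ g ∈ Cfsg.M24 ⊓ fixingSubgroup (Equiv.Perm Cfsg.GolayPt) (o : Set Cfsg.GolayPt), g * g = 1 := by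
  constructor
  · rw [← card_fixing_octad ho]
    exact (Nat.card_congr (permEquiv (fixingSubgroup M24 (o : Set GolayPt))
      (M24 ⊓ fixingSubgroup (Equiv.Perm GolayPt) (o : Set GolayPt)) (fun x =>
      ⟨fun h => ⟨h.1, h.2⟩, fun ⟨h1, h2⟩ => ⟨h1, h2⟩⟩)).toEquiv).symm
  · intro g hg
    exact congrArg Subtype.val (mul_self_of_mem_fixing_octad ho (x := ⟨g, hg.1⟩) hg.2)

end Cfsg.Agent.S0381
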