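import Cfsg.Statements.S0385
import Cfsg.Agent.H42.Mathieu

set_option autoImplicit false
set_option maxRecDepth 1000000
open Cfsg

namespace Cfsg.Agent.S0385

open Cfsg.Agent.H42

/-- The 6-point intersections of octads with a fixed dodecad form a Steiner system S(5, 6, 12) on the dodecad. -/
theorem result (d : Finset Cfsg.GolayPt) (hd : d ∈ Cfsg.dodecads) : Cfsg.IsSteinerSystem 5 6 {h : Finset {p : Cfsg.GolayPt // p ∈ d} | ∃ o ∈ Cfsg.octads, (o ∩ d).card = 6 ∧ h = Finset.subtype (fun p => p ∈ d) o} := by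
  constructor
  · rintro h ⟨o, _, ho6, rfl⟩
    rw [Finset.card_subtype, Finset.filter_mem_eq_inter, ho6]
  · intro s hs
    have hs' : (s.map (Function.Embedding.subtype _)).card = 5 := by rw [Finset.card_map, hs]
    obtain ⟨o, ⟨ho, hso⟩, huniq⟩ := octads_steiner.2 _ hs'
    have h5 : 5 ≤ (o ∩ d).card := by
      rw [← hs']
      apply Finset.card_le_card
      intro p hp
      refine Finset.mem_inter.mpr ⟨hso hp, ?_⟩
      obtain ⟨q, _, rfl⟩ := Finset.mem_map.mp hp
      exact q.2
    have h6 : (o ∩ d).card = 6 := by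
      have h1 := even_card_inter ho.1 hd.1
      have h2 := card_symmDiff_add o d
      have h3 := card_codeSets (symmDiff_mem_codeSets ho.1 hd.1)
      rw [ho.2, hd.2] at h2
      rw [Nat.even_iff] at h1
      have h4 : (o ∩ d).card ≤ 8 := ho.2 ▸ Finset.card_le_card Finset.inter_subset_left
      omega
    refine ⟨Finset.subtype (fun p => p ∈ d) o, ⟨⟨o, ho, h6, rfl⟩, ?_⟩, ?_⟩
    · intro q hq
      exact Finset.mem_subtype.mpr (hso (Finset.mem_map_of_mem _ hq))
    · rintro h ⟨⟨o', ho', _, rfl⟩, hs2⟩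
      rw [huniq o' ⟨ho', ?_⟩]
      intro p hp
      obtain ⟨q, hq, rfl⟩ := Finset.mem_map.mp hp
      exact Finset.mem_subtype.mp (hs2 hq)

end Cfsg.Agent.S0385
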