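import Cfsg.Statements.S0386
import Cfsg.Agent.H42.Mathieu

set_option autoImplicit false
set_option maxRecDepth 1000000
open Cfsg
open scoped Pointwise

namespace Cfsg.Agent.S0386

open Cfsg.Agent.H42

theorem aux (k n : ℕ) (h : cnt (fun m => force (enc m) (fun n =>
      Bool.and (Nat.beq (pc n) 8) (Nat.beq (pc (Nat.land n dod0)) k))) 4096 = n)
    (d : Finset GolayPt) (hd : d ∈ dodecads) :
    {o : Finset GolayPt | o ∈ octads ∧ (o ∩ d).card = k}.ncard = n := by
  obtain ⟨g, rfl⟩ := exists_smul_dod0 hd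
  rw [ncard_eq_of_smul g {o : Finset GolayPt | o ∈ octads ∧ (o ∩ toSet dod0).card = k} _
    (fun x => by simp only [Set.mem_ofPred_eq, msmul_mem_octads_iff, card_msmul_inter]), ← h]
  apply ncard_codeSets _ _ (fun _ h => h.1.1)
  intro n hn
  rw [Set.mem_ofPred_eq, toSet_mem_octads_iff' hn, card_toSet_inter _ (isCode_lt hn),
    Bool.and_eq_true, beq_iff, beq_iff]

/-- For a fixed dodecad, 132 octads meet it in 6 points, 132 in 2 points and 495 in 4 points. -/
theorem result (d : Finset Cfsg.GolayPt) (hd : d ∈ Cfsg.dodecads) : {o : Finset Cfsg.GolayPt | o ∈ Cfsg.octads ∧ (o ∩ d).card = 6}.ncard = 132 ∧ {o : Finset Cfsg.GolayPt | o ∈ Cfsg.octads ∧ (o ∩ d).card = 2}.ncard = 132 ∧ {o : Finset Cfsg.GolayPt | o ∈ Cfsg.octads ∧ (o ∩ d).card = 4}.ncard = 495 := by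
  exact ⟨aux 6 132 (by decide +kernel) d hd, aux 2 132 (by decide +kernel) d hd,
    aux 4 495 (by decide +kernel) d hd⟩

end Cfsg.Agent.S0386
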