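import Cfsg.Statements.S0389
import Cfsg.Agent.H42.Mathieu

set_option autoImplicit false
set_option maxRecDepth 1000000
open scoped Pointwise
open Cfsg

namespace Cfsg.Agent.S0389

open Cfsg.Agent.H42

/-- The stabiliser of a dodecad and a point on it is 3-transitive on the complementary dodecad. -/
theorem result (d : Finset Cfsg.GolayPt) (hd : d ∈ Cfsg.dodecads) (p : Cfsg.GolayPt) (hp : p ∈ d) (x y : Fin 3 ↪ Cfsg.GolayPt) (hx : ∀ i, x i ∉ d) (hy : ∀ i, y i ∉ d) : ∃ g ∈ MulAction.stabilizer Cfsg.M24 d ⊓ MulAction.stabilizer Cfsg.M24 p, ∀ i, (g : Equiv.Perm Cfsg.GolayPt) (x i) = y i := by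
  obtain ⟨a, rfl, rfl⟩ := exists_smul_dod0_pt hd hp
  obtain ⟨g, hg, e⟩ := G11_three_transitive (fun i => a⁻¹ • x i) (fun i => a⁻¹ • y i)
    (fun i j h => x.injective (MulAction.injective _ h))
    (fun i => Finset.mem_compl.mpr (fun h => hx i (Finset.inv_smul_mem_iff.mp h)))
    (fun i j h => y.injective (MulAction.injective _ h))
    (fun i => Finset.mem_compl.mpr (fun h => hy i (Finset.inv_smul_mem_iff.mp h)))
  refine ⟨a * g * a⁻¹, ⟨(conj_mem_stabilizer_smul a g _).mpr hg.1,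
    (conj_mem_stabilizer_smul a g _).mpr hg.2⟩, fun i => ?_⟩
  show (a * g * a⁻¹) • x i = y i
  rw [mul_smul, mul_smul, e, smul_inv_smul]

end Cfsg.Agent.S0389
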