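import Cfsg.Statements.S0403
import Cfsg.Agent.H48.Simple

set_option autoImplicit false
open Cfsg

namespace Cfsg.Agent.S0403

open Cfsg.Agent.H48 Cfsg.Agent.H42 MulAction
open scoped Pointwise

/-- Stabiliser of a vector of sum of squares 48 is simple of order 495766656000. -/
theorem result (v : Cfsg.leechLattice) (hv : Cfsg.sqNorm (v : Cfsg.GolayPt → ℤ) = 48) : Cfsg.IsCo3 (MulAction.stabilizer Cfsg.Co0 v) := by
  obtain ⟨g, rfl⟩ := trans48 sqNorm_leechV hv
  exact ⟨isSimpleGroup_of_conj g _ _ (fun y => (conj_mem_stabilizer_smul g y vV).symm) simple_Co3',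
    card_stabilizer_48 hv⟩

end Cfsg.Agent.S0403
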