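import Cfsg.Statements.S0419
import Cfsg.Agent.H60.Sharp4Deg
import Cfsg.Agent.S0698

set_option autoImplicit false
open Cfsg

namespace Cfsg.Agent.S0419

/-- A sharply 5-transitive group of degree 12 is simple of order 95040. -/
theorem result {α : Type*} [Fintype α] [DecidableEq α] (hα : Fintype.card α = 12) (G : Subgroup (Equiv.Perm α)) [MulAction.IsMultiplyPretransitive G α 5] (hsharp : ∀ x : Fin 5 ↪ α, MulAction.stabilizer G x = ⊥) : Cfsg.IsM12 G := by
  have h : ∀ (g : G) (s : Finset α), s.card = 5 → (∀ x ∈ s, g • x = x) → g = 1 := fun g s hs =>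
    H60.eq_one_of_fix_finset_of_stabilizer_eq_bot hsharp g s hs.ge
  have hn : Nat.card α = 12 := by rw [Nat.card_eq_fintype_card, hα]
  have hG : Nat.card G = 95040 := by
    rw [H60.card_eq_descFactorial_of_sharp inferInstance (by omega) h, hn]; rfl
  have : Nontrivial G := Finite.one_lt_card_iff_nontrivial.1 (by omega)
  refine ⟨⟨fun N hN => ?_⟩, hG⟩
  rw [or_iff_not_imp_left, ← Subgroup.index_eq_one]
  intro hN1
  have h3 := (S0698.result G (k := 5) (by norm_num) (by omega) inferInstance N hN1).resolve_right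
    (by simp)
  obtain ⟨s, hs⟩ := H60.exists_finset_card_eq (α := α) (m := 4) (by omega)
  have h4 := H60.card_eq_descFactorial_mul h3 (s := s) (by rw [Set.ncard_coe_finset, hs])
  rw [hn, show Nat.descFactorial 12 (5 - 1) = 11880 from rfl] at h4
  obtain ⟨d, hd, hd', hd''⟩ := H60.exists_dvd_modEq_index_dvd (G := G) (α := α) (p := 11)
    (c := 8640) (by norm_num) (by omega) hG (H60.eq_one_of_fix_of_le (by norm_num) h)
  have h5 := hd'' N hN (by rw [h4]; exact Dvd.dvd.mul_right (by norm_num) _)
  have h6 : N.index ∣ 8 := by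
    have h7 := N.index_mul_card
    rw [h4, hG, mul_left_comm] at h7
    exact Dvd.intro (Nat.card (fixingSubgroup N (s : Set α))) (by omega)
  have h7 : d = 5 := by
    have := Nat.le_of_dvd (by norm_num) hd
    unfold Nat.ModEq at hd'
    omega
  exact Nat.eq_one_of_dvd_coprimes (by norm_num : Nat.Coprime 5 8) (h7 ▸ h5) h6

end Cfsg.Agent.S0419
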