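import Cfsg.Statements.S0429
import Cfsg.Agent.H78.Srg77
import Cfsg.Agent.H45.U22

set_option autoImplicit false
open Cfsg

namespace Cfsg.Agent.S0429

/-- Uniqueness of the strongly regular graph with parameters (77, 16, 0, 4). -/
theorem result {V W : Type*} [Fintype V] [Fintype W] {G : SimpleGraph V} {H : SimpleGraph W} [DecidableRel G.Adj] [DecidableRel H.Adj] (hG : G.IsSRGWith 77 16 0 4) (hH : H.IsSRGWith 77 16 0 4) : Nonempty (G ≃g H) := by
  classical
  obtain ⟨P, b, p1, p2, p3, p4⟩ := H78.S77.exists_design hG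
  obtain ⟨Q, c, q1, q2, q3, q4⟩ := H78.S77.exists_design hH
  obtain ⟨e, he⟩ := H45.iso22 p1 q1 p2 q2
  replace he : H45.mapB e (Set.range b) = Set.range c := he
  have h1 : ∀ x, ∃ y, c y = (b x).image e := fun x => by
    rw [← Set.mem_range, ← he]
    exact ⟨_, ⟨x, rfl⟩, rfl⟩
  choose f hf using h1
  have h2 : Function.Injective f := fun x y k => p3 (Finset.image_injective e.injective (by
    rw [← hf, ← hf, k]))
  refine ⟨⟨Equiv.ofBijective f ((Fintype.bijective_iff_injective_and_card f).2
    ⟨h2, by rw [hG.card, hH.card]⟩), fun {x y} => ?_⟩⟩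
  show H.Adj (f x) (f y) ↔ _
  rw [q4, p4, hf, hf, Finset.disjoint_image e.injective]

end Cfsg.Agent.S0429
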