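import Cfsg.Statements.S0439

set_option autoImplicit false
open Cfsg

namespace Cfsg.Agent.S0439

open Equiv Equiv.Perm in
theorem swap_mul_swap_pow {α : Type*} [DecidableEq α] (a b c d : α) (hab : a ≠ b) (hcd : c ≠ d) :
    (swap a b * swap c d) ^ 2 = 1 ∨ (swap a b * swap c d) ^ 3 = 1 := by
  by_cases h1 : a = c
  · subst h1
    by_cases h2 : b = d
    · subst h2; left; simp
    · right; ext x
      simp only [pow_succ, pow_zero, one_mul, mul_apply, one_apply, swap_apply_def]
      grind
  by_cases h2 : a = d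
  · subst h2
    by_cases h2 : b = c
    · subst h2; left; simp [swap_comm a b]
    · right; ext x
      simp only [pow_succ, pow_zero, one_mul, mul_apply, one_apply, swap_apply_def]
      grind
  by_cases h3 : b = c
  · subst h3
    right; ext x
    simp only [pow_succ, pow_zero, one_mul, mul_apply, one_apply, swap_apply_def]
    grind
  by_cases h4 : b = d
  · subst h4
    right; ext x
    simp only [pow_succ, pow_zero, one_mul, mul_apply, one_apply, swap_apply_def]
    grind
  left; ext x
  simp only [pow_succ, pow_zero, one_mul, mul_apply, one_apply, swap_apply_def]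
  grind

/-- In the symmetric group of degree n ≥ 2, the set of transpositions is a conjugacy class of 3-transpositions which generates the group. -/
theorem result (n : ℕ) (hn : 2 ≤ n) : Cfsg.IsThreeTranspositionClass {σ : Equiv.Perm (Fin n) | σ.IsSwap} := by
  refine ⟨⟨fun d hd => Equiv.Perm.IsSwap.orderOf hd, ?_⟩, ?_, Equiv.Perm.closure_isSwap⟩
  · rintro d ⟨a, b, hab, rfl⟩ e ⟨c, d, hcd, rfl⟩
    exact swap_mul_swap_pow a b c d hab hcd
  · have h01 : (⟨0, by omega⟩ : Fin n) ≠ ⟨1, by omega⟩ := by simp
    refine ⟨Equiv.swap ⟨0, by omega⟩ ⟨1, by omega⟩, ⟨_, _, h01, rfl⟩, ?_⟩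
    ext σ
    constructor
    · rintro ⟨a, b, hab, rfl⟩
      exact Equiv.Perm.isConj_swap h01 hab
    · intro h
      have h' : IsConj (Equiv.swap (⟨0, by omega⟩ : Fin n) ⟨1, by omega⟩) σ := h
      rw [isConj_iff] at h'
      obtain ⟨c, rfl⟩ := h'
      refine ⟨c ⟨0, by omega⟩, c ⟨1, by omega⟩, c.injective.ne h01, ?_⟩
      rw [Equiv.swap_apply_apply]

end Cfsg.Agent.S0439
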