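import Cfsg.Statements.S0442
import Mathlib.Tactic.Group
import Mathlib.Tactic.Ring

set_option autoImplicit false
open Cfsg

namespace Cfsg.Agent.S0442

lemma aux {G : Type*} [Group G] {a b : G} (ha : a * a = 1) (hb : b * b = 1) (m : ℕ) :
    a * (a * b) ^ m = ((a * b) ^ m)⁻¹ * a := by
  have h1 : a * (a * b) * a⁻¹ = (a * b)⁻¹ := by
    have ha' : a⁻¹ = a := inv_eq_of_mul_eq_one_right ha
    have hb' : b⁻¹ = b := inv_eq_of_mul_eq_one_right hb
    rw [mul_inv_rev, ha', hb', ← mul_assoc, ha, one_mul]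
  have h2 : a * (a * b) ^ m * a⁻¹ = ((a * b) ^ m)⁻¹ := by
    rw [← conj_pow, h1, inv_pow]
  rw [← h2]; group

lemma aux_even {G : Type*} [Group G] {a b : G} (ha : a * a = 1) (hb : b * b = 1) (m : ℕ)
    (h : (a * b) ^ (2 * m) = 1) : Commute ((a * b) ^ m) a := by
  have h1 := aux ha hb m
  have h2 : ((a * b) ^ m)⁻¹ = (a * b) ^ m := by
    apply inv_eq_of_mul_eq_one_right
    rw [← pow_add, ← two_mul, h]
  rw [h2] at h1
  exact h1.symm

/-- A standard trick for producing elements of an involution centraliser: for an involution a and an element g, let b be the conjugate g⁻¹ * a * g. If a * b has odd order 2m + 1 then g * (a * b) ^ m commutes with a; if a * b has even order 2m then (a * b) ^ m and (a * (g * a * g⁻¹)) ^ m commute with a. -/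
theorem result {G : Type*} [Group G] (a g : G) (ha : orderOf a = 2) : (∀ m : ℕ, orderOf (a * (g⁻¹ * a * g)) = 2 * m + 1 → Commute (g * (a * (g⁻¹ * a * g)) ^ m) a) ∧ (∀ m : ℕ, orderOf (a * (g⁻¹ * a * g)) = 2 * m → Commute ((a * (g⁻¹ * a * g)) ^ m) a ∧ Commute ((a * (g * a * g⁻¹)) ^ m) a) := by
  have ha2 : a * a = 1 := by rw [← pow_two, ← ha, pow_orderOf_eq_one]
  have hb2 : (g⁻¹ * a * g) * (g⁻¹ * a * g) = 1 := by
    calc (g⁻¹ * a * g) * (g⁻¹ * a * g) = g⁻¹ * (a * a) * g := by group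
      _ = 1 := by rw [ha2]; group
  have hc2 : (g * a * g⁻¹) * (g * a * g⁻¹) = 1 := by
    calc (g * a * g⁻¹) * (g * a * g⁻¹) = g * (a * a) * g⁻¹ := by group
      _ = 1 := by rw [ha2]; group
  refine ⟨fun m hm => ?_, fun m hm => ⟨?_, ?_⟩⟩
  · set b := g⁻¹ * a * g with hb
    have h1 := aux ha2 hb2 (m + 1)
    have h2 : (a * b) ^ (2 * m + 1) = 1 := by rw [← hm, pow_orderOf_eq_one]
    have h3 : ((a * b) ^ (m + 1))⁻¹ = (a * b) ^ m := by
      apply inv_eq_of_mul_eq_one_right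
      rw [← pow_add, ← h2]; congr 1; ring
    rw [h3] at h1
    show g * (a * b) ^ m * a = a * (g * (a * b) ^ m)
    have h4 : a * g = g * b := by rw [hb]; group
    clear_value b
    rw [← mul_assoc a g, h4, mul_assoc g, ← h1, pow_succ', ← mul_assoc a, ← mul_assoc a, ha2, one_mul,
      mul_assoc]
  · exact aux_even ha2 hb2 m (by rw [← hm, pow_orderOf_eq_one])
  · apply aux_even ha2 hc2 m
    have h1 : a * (g * a * g⁻¹) = g * (a * (g⁻¹ * a * g))⁻¹ * g⁻¹ := by
      have ha' : a⁻¹ = a := inv_eq_of_mul_eq_one_right ha2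
      simp only [mul_inv_rev, inv_inv, ha']
      group
    rw [h1, conj_pow, inv_pow, ← hm, pow_orderOf_eq_one]; group

end Cfsg.Agent.S0442
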