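import Cfsg.Statements.S0444
import Cfsg.Agent.H50.Basic

set_option autoImplicit false
open Cfsg

namespace Cfsg.Agent.S0444

/-- Two members of a set of 3-transpositions which do not commute generate a subgroup isomorphic to the symmetric group on three letters. -/
theorem result {G : Type*} [Group G] {E : Set G} (hE : Cfsg.IsThreeTranspositionSet E) {d e : G} (hd : d ∈ E) (he : e ∈ E) (h : ¬ Commute d e) : Nonempty (Subgroup.closure ({d, e} : Set G) ≃* Equiv.Perm (Fin 3)) := by
  obtain ⟨φ, h1, h2, -⟩ := H50.exists_perm_three_hom (H50.tt_mul_self hE hd) (H50.tt_mul_self hE he)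
    (H50.tt_braid hE hd he h)
  have hinj := H50.perm_three_hom_injective φ (by rw [h1, h2]; exact h)
  have hr : φ.range = Subgroup.closure ({d, e} : Set G) := by
    have hc : Subgroup.closure ({Equiv.swap 0 1, Equiv.swap 1 2} : Set (Equiv.Perm (Fin 3))) = ⊤ := by
      rw [eq_top_iff, ← Equiv.Perm.closure_isSwap, Subgroup.closure_le]
      rintro σ ⟨i, j, hij, rfl⟩
      have m1 : Equiv.swap (0 : Fin 3) 1 ∈ Subgroup.closure ({Equiv.swap 0 1, Equiv.swap 1 2} : Set (Equiv.Perm (Fin 3))) := Subgroup.subset_closure (by simp)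
      have m2 : Equiv.swap (1 : Fin 3) 2 ∈ Subgroup.closure ({Equiv.swap 0 1, Equiv.swap 1 2} : Set (Equiv.Perm (Fin 3))) := Subgroup.subset_closure (by simp)
      have m3 := mul_mem (mul_mem m1 m2) m1
      have key : Equiv.swap i j = Equiv.swap 0 1 ∨ Equiv.swap i j = Equiv.swap 1 2 ∨
          Equiv.swap i j = Equiv.swap 0 1 * Equiv.swap 1 2 * Equiv.swap 0 1 := by
        revert i j; decide
      rcases key with h | h | h <;> rw [SetLike.mem_coe, h] <;> assumption
    rw [MonoidHom.range_eq_map, ← hc, MonoidHom.map_closure, Set.image_pair, h1, h2]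
  exact ⟨(MulEquiv.subgroupCongr hr.symm).trans (MonoidHom.ofInjective hinj).symm⟩

end Cfsg.Agent.S0444
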