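import Cfsg.Statements.S0445
import Cfsg.Agent.S5424
import Cfsg.Agent.H49.V8

set_option autoImplicit false
open Cfsg

namespace Cfsg.Agent.S0445

/-- In the special linear group of dimension 5 over the field with two elements, the centraliser of a transvection has order 21504 = 2 ^ 7 · 168 (it is an extension of an extraspecial group of order 2 ^ 7 by the simple group of order 168). -/
theorem result (s : Matrix.SpecialLinearGroup (Fin 5) (ZMod 2)) (hs : (s : Matrix (Fin 5) (Fin 5) (ZMod 2)) = Matrix.transvection 0 1 1) : Nat.card (Subgroup.centralizer ({s} : Set (Matrix.SpecialLinearGroup (Fin 5) (ZMod 2)))) = 21504 := by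
  obtain ⟨-, hc, -, -, K, hK, hQK, hsup, ⟨e⟩⟩ := S5424.result 3 (by norm_num) s hs _ rfl
  set C := Subgroup.centralizer ({s} : Set (Matrix.SpecialLinearGroup (Fin 5) (ZMod 2))) with hC
  haveI := pCore_normal 2 C
  have hcomp : (pCore 2 C).IsComplement' (K.subgroupOf C) := by
    refine Subgroup.isComplement'_of_disjoint_and_mul_eq_univ ?_ ?_
    · rw [disjoint_iff, eq_bot_iff]
      rintro x ⟨h1, h2⟩
      have : (x : Matrix.SpecialLinearGroup (Fin 5) (ZMod 2)) ∈ (pCore 2 C).map C.subtype ⊓ K :=
        ⟨⟨x, h1, rfl⟩, h2⟩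
      rw [hQK] at this
      exact Subtype.ext this
    · rw [← Subgroup.normal_mul]
      have : pCore 2 C ⊔ K.subgroupOf C = ⊤ := by
        apply Subgroup.map_injective (f := C.subtype) Subtype.val_injective
        rw [Subgroup.map_sup, Subgroup.subgroupOf_map_subtype, inf_eq_left.2 hK, hsup,
          ← MonoidHom.range_eq_map, Subgroup.range_subtype]
      rw [this]; rfl
  have h1 := hcomp.card_mul
  rw [Subgroup.card_map_of_injective Subtype.val_injective] at hc
  rw [hc, Nat.card_congr (Subgroup.subgroupOfEquivOfLe hK).toEquiv, Nat.card_congr e.toEquiv,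
    H49.card_SL32] at h1
  rw [← h1]; norm_num

end Cfsg.Agent.S0445
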