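import Cfsg.Statements.S0446

set_option autoImplicit false
open Cfsg

namespace Cfsg.Agent.S0446

/-- Every finite group of even order contains a 2-central involution, i.e. an element of order 2 in the centre of some Sylow 2-subgroup. -/
theorem result {G : Type*} [Group G] [Finite G] (h : Even (Nat.card G)) : ∃ t : G, Cfsg.IsTwoCentralInvolution t := by
  haveI : Fact (Nat.Prime 2) := ⟨Nat.prime_two⟩
  obtain ⟨P⟩ : Nonempty (Sylow 2 G) := inferInstance
  have hP : Nontrivial (P : Subgroup G) := by
    rw [Subgroup.nontrivial_iff_ne_bot]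
    intro hb
    have h1 := P.not_dvd_index
    rw [hb, Subgroup.index_bot] at h1
    exact h1 h.two_dvd
  have hZ : Nontrivial (Subgroup.center (P : Subgroup G)) := P.isPGroup'.center_nontrivial
  have hZp : IsPGroup 2 (Subgroup.center (P : Subgroup G)) := P.isPGroup'.to_subgroup _
  obtain ⟨n, hn0, hn⟩ := hZp.nontrivial_iff_card.mp hZ
  have hdvd : 2 ∣ Nat.card (Subgroup.center (P : Subgroup G)) := by
    rw [hn]; exact dvd_pow_self 2 hn0.ne'
  obtain ⟨x, hx⟩ := exists_prime_orderOf_dvd_card' 2 hdvd
  refine ⟨((x : (P : Subgroup G)) : G), ?_, P, (x : (P : Subgroup G)).2, fun y hy => ?_⟩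
  · rw [Subgroup.orderOf_coe, Subgroup.orderOf_coe, hx]
  · have := (Subgroup.mem_center_iff.mp x.2) ⟨y, hy⟩
    exact congrArg Subtype.val this

end Cfsg.Agent.S0446
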