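import Cfsg.Statements.S0458
import Cfsg.Agent.H46.J3Out

set_option autoImplicit false
open Cfsg

namespace Cfsg.Agent.S0458

/-- Janko's third group exists as a transitive permutation group of degree 6156 with point stabiliser of order 8160: a simple group of order 50232960. -/
theorem result : ∃ H : Subgroup (Equiv.Perm (Fin 6156)), Cfsg.IsJ3 H ∧ MulAction.IsPretransitive H (Fin 6156) ∧ Nat.card (MulAction.stabilizer H (0 : Fin 6156)) = 8160 := by
  obtain ⟨F, _, _, ω, hF, hω⟩ := Cfsg.Agent.H46.J3.exists_F4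
  have h := Cfsg.Agent.H46.isF4_of_card hF hω
  have := Cfsg.Agent.H46.J3.finite_J h
  have := Cfsg.Agent.H46.J3.isSimple h
  obtain ⟨f, hf, h1, h2⟩ := Cfsg.Agent.H46.exists_perm_rep (Cfsg.Agent.H46.J3.H h)
    (Cfsg.Agent.H46.J3.index_H h) (by norm_num)
  obtain ⟨e⟩ := Cfsg.Agent.H46.stabilizer_range_equiv hf h2
  refine ⟨f.range, ⟨(MonoidHom.ofInjective hf).symm.isSimpleGroup, ?_⟩, h1, ?_⟩
  · rw [← Nat.card_congr (MonoidHom.ofInjective hf).toEquiv, Cfsg.Agent.H46.J3.card_J h]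
  · rw [← Nat.card_congr e.toEquiv, Cfsg.Agent.H46.J3.card_H h]

end Cfsg.Agent.S0458
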