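import Cfsg.Statements.S0460
import Cfsg.Agent.H44.ONJ
import Cfsg.Agent.H44.Rng

set_option autoImplicit false
open Cfsg

namespace Cfsg.Agent.S0460

/-- The O'Nan group exists as a transitive permutation group of degree 122760: simple of order 460815505920, point stabiliser of order 3753792, and containing simple subgroups of orders 175560 and 7920. -/
theorem result : ∃ H : Subgroup (Equiv.Perm (Fin 122760)), Cfsg.IsON H ∧ MulAction.IsPretransitive H (Fin 122760) ∧ Nat.card (MulAction.stabilizer H (0 : Fin 122760)) = 3753792 ∧ (∃ K : Subgroup H, Cfsg.IsJ1 K) ∧ (∃ K : Subgroup H, Cfsg.IsM11 K) := by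
  have e := MonoidHom.ofInjective H44.ONM.inj
  refine ⟨H44.ONM.φ.range, H44.simple_card_of_equiv e ⟨H44.ONM.simple, H44.ONM.card⟩,
    H44.ONM.act.pretransitive, ?_, H44.exists_sub_of_equiv e H44.ONJ.subJ,
    H44.exists_sub_of_equiv e H44.ONJ.subM⟩
  exact (Nat.card_congr (H44.ONM.act.stabEquiv H44.ONM.inj).toEquiv).symm.trans H44.ONM.card_H

end Cfsg.Agent.S0460
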