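import Cfsg.Statements.S0464
import Cfsg.Agent.H90.ThS

set_option autoImplicit false
open Cfsg

namespace Cfsg.Agent.S0464

theorem aux {G M D : Type} [Group G] [Group M] [Group D] {π : G →* M} (hπ : Function.Injective π)
    (hS : IsSimpleGroup G) (hc : Nat.card G = 90745943887872000) (ψ : D →* G)
    (hψ : Function.Injective ψ) (hD : IsSimpleGroup D) (hd : Nat.card D = 211341312)
    (K : Subgroup G) (hK : K.index = 143127000) (h : ψ.range ≤ K) :
    ∃ H : Subgroup M, Cfsg.IsTh H ∧ ∃ K : Subgroup H, K.index = 143127000 ∧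
      ∃ L : Subgroup H, L ≤ K ∧ Cfsg.Is3D4 L := by
  let e := MonoidHom.ofInjective hπ
  let f : D →* π.range := e.toMonoidHom.comp ψ
  have hf : Function.Injective f := e.injective.comp hψ
  refine ⟨π.range, ⟨e.symm.isSimpleGroup, (Nat.card_congr e.toEquiv).symm.trans hc⟩,
    K.map e.toMonoidHom, ?_, f.range, ?_,
    (MonoidHom.ofInjective hf).symm.isSimpleGroup, 2, Nat.prime_two.isPrimePow, ?_⟩
  · exact (Subgroup.index_map_of_bijective (f := e.toMonoidHom) e.bijective K).trans hK
  · rintro _ ⟨y, rfl⟩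
    exact ⟨_, h ⟨_, rfl⟩, rfl⟩
  · rw [← Nat.card_congr (MonoidHom.ofInjective hf).toEquiv, hd]
    norm_num

/-- The Thompson group exists as a group of 248 × 248 matrices over the field with three elements: a simple subgroup of GL(248, 3) of order 90745943887872000, possessing a subgroup of index 143127000 which contains a simple subgroup of the order of a triality-twisted D4 group. -/
theorem result : ∃ H : Subgroup (GL (Fin 248) (ZMod 3)), Cfsg.IsTh H ∧ ∃ K : Subgroup H, K.index = 143127000 ∧ ∃ L : Subgroup H, L ≤ K ∧ Cfsg.Is3D4 L := by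
  exact aux H90.ThO.π_inj H90.ThS.simple H90.ThO.card (H90.ThV.φ.comp H90.ThK.inc)
    (H90.ThV.φ_inj.comp H90.ThK.inc_inj) H90.ThK.simpleD H90.ThK.card_DS H90.ThV.φ.range
    H90.ThO.index_K (by rintro _ ⟨y, rfl⟩; exact ⟨_, rfl⟩)

end Cfsg.Agent.S0464
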