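import Cfsg.Statements.S0467
import Cfsg.Agent.H97.MoFin

set_option autoImplicit false
open Cfsg

namespace Cfsg.Agent.S0467

open Cfsg.Agent.H97

theorem exists_GL {F G W : Type*} [Field F] [Group G] [AddCommGroup W] [Module F W]
    [FiniteDimensional F W] {n : ℕ} (hn : Module.finrank F W = n) (ρ : G →* (W ≃ₗ[F] W))
    (hρ : Function.Injective ρ) : ∃ H : Subgroup (GL (Fin n) F), Nonempty (G ≃* H) := by
  let b := Module.finBasisOfFinrankEq F W hn
  let e := ((Matrix.GeneralLinearGroup.toLin' b).trans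
    (LinearMap.GeneralLinearGroup.generalLinearEquiv F W)).symm
  exact ⟨_, ⟨MonoidHom.ofInjective (f := e.toMonoidHom.comp ρ) (e.injective.comp hρ)⟩⟩

theorem exists_rep {V : Type*} [AddCommGroup V] [Module ℝ V] {G : Type*} [Group G]
    {mul : V →ₗ[ℝ] V →ₗ[ℝ] V} {B : LinearMap.BilinForm ℝ V} {π : G →* (V ≃ₗ[ℝ] V)}
    {D : Set G} {a : G → V} {e : V} (h : Mj.MRep mul B π D a) (m : Mj.MMod mul B π D a e) :
    ∃ H : Subgroup (GL (Fin 196883) ℝ), Nonempty (G ≃* H) := by
  have : FiniteDimensional ℝ V := Module.finite_of_finrank_pos (by rw [m.dim]; norm_num)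
  let f : V →ₗ[ℝ] ℝ := B.flip e
  have hf : ∀ v, f v = B v e := fun _ => rfl
  have f1 : f e = 48 := m.e_norm
  have hs : LinearMap.range f = ⊤ := LinearMap.range_eq_top.2 fun c =>
    ⟨(c / 48) • e, by rw [map_smul, f1, smul_eq_mul]; ring⟩
  have hd := LinearMap.finrank_range_add_finrank_ker f
  rw [hs, finrank_top, Module.finrank_self, m.dim] at hd
  have inv : ∀ g v, f (π g v) = f v := fun g v => by
    rw [hf, hf, ← h.pB g v e, m.e_fix]
  have mem : ∀ g, ∀ v ∈ LinearMap.ker f, π g v ∈ LinearMap.ker f := fun g v hv => by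
    rw [LinearMap.mem_ker, inv]; exact hv
  let r : G →* Module.End ℝ (LinearMap.ker f) :=
    { toFun g := (π g : V →ₗ[ℝ] V).restrict (mem g)
      map_one' := LinearMap.ext fun v => Subtype.ext (by simp)
      map_mul' g h := LinearMap.ext fun v => Subtype.ext (by simp) }
  refine exists_GL (W := LinearMap.ker f) (by omega)
    ((LinearMap.GeneralLinearGroup.generalLinearEquiv ℝ _).toMonoidHom.comp r.toHomUnits)
    ((injective_iff_map_eq_one _).2 fun g hg => ?_)
  have h1 : ∀ v (hv : v ∈ LinearMap.ker f), π g v = v := fun v hv =>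
    congrArg Subtype.val (LinearEquiv.congr_fun hg ⟨v, hv⟩)
  refine h.inj (LinearEquiv.ext fun v => ?_)
  have h2 := h1 (v - (f v / 48) • e) (by
    rw [LinearMap.mem_ker, map_sub, map_smul, f1, smul_eq_mul]; ring)
  rw [map_sub, map_smul, m.e_fix, sub_left_inj] at h2
  rw [h2, map_one]; rfl

/-- The Monster exists as a group of real 196883 × 196883 matrices: GL(196883, ℝ) has a simple subgroup of order 808017424794512875886459904961710757005754368000000000. -/
theorem result : ∃ H : Subgroup (GL (Fin 196883) ℝ), Cfsg.IsM H := by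
  obtain ⟨H, ⟨e⟩⟩ := exists_rep Gr.mrep Gr.mmod
  exact ⟨H, @MulEquiv.isSimpleGroup _ _ _ _ Gr.isM_real.1 e.symm,
    (Nat.card_congr e.toEquiv).symm.trans Gr.isM_real.2⟩

end Cfsg.Agent.S0467
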