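import Cfsg.Statements.S0478
import Cfsg.Agent.H46.J3Out

set_option autoImplicit false
open Cfsg

namespace Cfsg.Agent.S0478

/-- A triple cover of Janko's third group inside a unitary group: for a field F with four elements, the special unitary group of dimension 9 (with respect to the form with q = 2) has a subgroup whose centre has order 3 and whose quotient by its centre is simple of order 50232960. -/
theorem result : ∃ (F : Type) (_ : Field F) (_ : Fintype F), Fintype.card F = 4 ∧ ∃ H : Subgroup (Cfsg.SU 9 F 2), Nat.card (Subgroup.center H) = 3 ∧ Cfsg.IsJ3 (H ⧸ Subgroup.center H) := by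
  obtain ⟨F, _, _, ω, hF, hω⟩ := Cfsg.Agent.H46.J3.exists_F4
  have h := Cfsg.Agent.H46.isF4_of_card hF hω
  obtain ⟨f, hf⟩ := Cfsg.Agent.H46.J3.exists_hom_SU h
  let e := MonoidHom.ofInjective hf
  have hc : (Subgroup.center _).map (e : Cfsg.Spor.threeJ3 F ω →* f.range) = Subgroup.center f.range := by
    ext x
    obtain ⟨x, rfl⟩ := e.surjective x
    constructor
    · rintro ⟨y, hy, hxy⟩
      rw [Subgroup.mem_center_iff]
      intro g
      obtain ⟨g, rfl⟩ := e.surjective g
      have hxy : e y = e x := hxy
      rw [← hxy, ← map_mul, ← map_mul, Subgroup.mem_center_iff.mp hy]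
    · intro hx
      refine ⟨x, Subgroup.mem_center_iff.mpr fun g => e.injective ?_, rfl⟩
      rw [map_mul, map_mul, Subgroup.mem_center_iff.mp hx]
  let e' := QuotientGroup.congr _ _ e hc
  have := Cfsg.Agent.H46.J3.isSimple h
  refine ⟨F, inferInstance, inferInstance, hF, f.range, ?_, e'.symm.isSimpleGroup, ?_⟩
  · rw [← hc]
    exact (Subgroup.card_map_of_injective e.injective).trans (Cfsg.Agent.H46.J3.card_center h)
  · rw [← Nat.card_congr e'.toEquiv, Cfsg.Agent.H46.J3.card_J h]

end Cfsg.Agent.S0478
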