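import Cfsg.Statements.S0518
import Cfsg.Agent.H84.JFinal

set_option autoImplicit false
open Cfsg

namespace Cfsg.Agent.S0518

/-- Let G be a finite group of characteristic 2 type with trivial 2-core in which every 2-local subgroup is solvable
and, for every Sylow 2-subgroup S, the centralizer of the set of central involutions of S lies in the normalizer of S.
Then either G has a strongly embedded subgroup, or the subgroup generated by the elements of odd order has two distinct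
maximal 2-local subgroups, each isomorphic to the symmetric group of degree 4, whose intersection has order 8. -/
theorem result {G : Type*} [Group G] [Finite G]
    (hL : Cfsg.IsCharacteristicTwoType G) (hO : Cfsg.pCore 2 G = ⊥)
    (hN : ∀ N : Subgroup G, Cfsg.IsTwoLocal N → Group.IsSolvable N)
    (hZ : ∀ S : Sylow 2 G,
      Subgroup.centralizer {z : G | z ∈ (S : Subgroup G) ∧ z ^ 2 = 1 ∧ ∀ s ∈ (S : Subgroup G), s * z = z * s} ≤
        Subgroup.normalizer ((S : Subgroup G) : Set G))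
    (H : Subgroup G) (hH : H = Subgroup.closure {g : G | Odd (orderOf g)}) :
    (∃ K : Subgroup G, Cfsg.IsStronglyEmbedded K) ∨
      ∃ M₁ M₂ : Subgroup H, M₁ ≠ M₂ ∧ Cfsg.IsMaximalTwoLocal M₁ ∧ Cfsg.IsMaximalTwoLocal M₂ ∧
        Nonempty (M₁ ≃* Equiv.Perm (Fin 4)) ∧ Nonempty (M₂ ≃* Equiv.Perm (Fin 4)) ∧ Nat.card ↥(M₁ ⊓ M₂) = 8 := by
  have z : H84.ZN G := ⟨hL, hN, fun S g hg => hZ S fun a ha => hg a
    (H84.mem_omegaOne_ctr.mpr ⟨ha.1, ha.2.2, ha.2.1⟩)⟩
  obtain ⟨S⟩ : Nonempty (Sylow 2 G) := inferInstance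
  have hS : (S : Subgroup G) ≠ ⊥ := fun e => by
    have := S.not_dvd_index
    rw [e, Subgroup.index_bot] at this
    exact this (even_iff_two_dvd.mp hL.1)
  have hM : Cfsg.IsTwoLocal (Subgroup.normalizer (Cfsg.thompsonSubgroupOf 2 (S : Subgroup G) : Set G)) :=
    ⟨_, S.isPGroup'.to_le (H84.JJ_le _), H84.JJ_ne_bot S.isPGroup' hS, rfl⟩
  by_cases he : Cfsg.straddlingTwoSubgroups
      (Subgroup.normalizer (Cfsg.thompsonSubgroupOf 2 (S : Subgroup G) : Set G)) = ∅
  · exact Or.inl ⟨_, (S2947.result hL hN z.hZ hO S _ hM le_rfl).mpr he⟩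
  obtain ⟨T, hT⟩ := H84.exists_maxStraddling (Set.nonempty_iff_ne_empty.mpr he)
  have h : H84.Str _ T := ⟨z, ⟨S, le_rfl⟩, hT⟩
  obtain ⟨K, hK⟩ := h.outside_nonempty
  obtain ⟨L, g⟩ := h.exists_good hK
  obtain ⟨K₂, L₂, p⟩ := g.exists_pair z hO
  exact Or.inr (p.final (by rw [hH, H84.resOf_two_eq]; simp))

end Cfsg.Agent.S0518
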