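import Cfsg.Statements.S0519
import Cfsg.Agent.H9.SelfCent

set_option autoImplicit false
open Cfsg

namespace Cfsg.Agent.S0519

/-- Let P be a finite p-group in which every abelian normal subgroup is cyclic, but which has a non-cyclic abelian
subgroup. Then p = 2 and P is generalized quaternion, dihedral of order at least 16, or quasi-dihedral. -/
theorem result {P : Type*} [Group P] [Finite P] (p : ℕ) [Fact p.Prime]
    (hP : IsPGroup p P) (hn : ∀ A : Subgroup P, A.Normal → IsMulCommutative A → IsCyclic A)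
    (hm : ∃ B : Subgroup P, IsMulCommutative B ∧ ¬ IsCyclic B) :
    p = 2 ∧ ((∃ n : ℕ, Nonempty (P ≃* QuaternionGroup n)) ∨ (∃ n : ℕ, 8 ≤ n ∧ Nonempty (P ≃* DihedralGroup n)) ∨
      Cfsg.IsQuasiDihedral P) := by
  have hp : p.Prime := Fact.out
  rcases H9.isCyclic_or_MC_of_no_normal_sq hP (fun E hE hEc hc => by
      by_contra hcon
      push Not at hcon
      obtain ⟨k, rfl⟩ := (E.isCyclic_iff_exists_zpowers_eq_top).1 (hn E hE hEc)
      rw [Nat.card_zpowers] at hc
      have := Nat.le_of_dvd hp.pos (orderOf_dvd_of_pow_eq_one (hcon k (Subgroup.mem_zpowers k)))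
      rw [hc] at this
      exact absurd this (not_le.mpr (by nlinarith [hp.one_lt]))) with h | ⟨rfl, a, b, n, h, h1⟩
  · obtain ⟨B, -, hB⟩ := hm
    exact absurd (inferInstance : IsCyclic B) hB
  refine ⟨rfl, ?_⟩
  obtain ⟨c, hc, ⟨h2, h3⟩ | ⟨h2, h3⟩ | ⟨hn, h2, h3⟩⟩ := h.normalize
  · obtain ⟨e⟩ := hc.equiv_dihedral h2 h3
    refine Or.inr (Or.inl ⟨_, ?_, ⟨Subgroup.topEquiv.symm.trans e⟩⟩)
    obtain ⟨i, rfl⟩ := h.exists_eq_of_not_mem (Subgroup.mem_top c) hc.not_mem
    have h4 : n ≠ 1 := fun h0 => h1 h0 i h2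
    have h5 := h.one_le
    exact Nat.pow_le_pow_right (n := 2) (i := 3) (by norm_num) (by omega)
  · obtain ⟨e⟩ := hc.equiv_quaternion h2 h3
    exact Or.inl ⟨_, ⟨Subgroup.topEquiv.symm.trans e⟩⟩
  · exact Or.inr (Or.inr (hc.isQuasiDihedral_top hn h2 h3))

end Cfsg.Agent.S0519
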