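import Cfsg.Statements.S1231
import Cfsg.Agent.H10.SylowUtil

set_option autoImplicit false
open Cfsg

namespace Cfsg.Agent.S1231

theorem rank_iff {G : Type*} [Group G] (p k : ℕ) (X : Subgroup G) :
    PRankLE p k X ↔ ∀ A : Subgroup G, A ≤ X → (∀ a ∈ A, ∀ b ∈ A, a * b = b * a) →
      (∀ a ∈ A, a ^ p = 1) → Nat.card A ≤ p ^ k := by
  constructor
  · intro h A hAX h1 h2
    have := h (A.subgroupOf X) ⟨⟨fun a b => Subtype.ext (Subtype.ext (h1 _ a.2 _ b.2))⟩⟩
      (fun a ha => Subtype.ext (h2 _ ha))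
    rwa [Nat.card_congr (Subgroup.subgroupOfEquivOfLe hAX).toEquiv] at this
  · intro h A h1 h2
    have := h (A.map X.subtype) (Subgroup.map_subtype_le _) (by
      rintro _ ⟨a, ha, rfl⟩ _ ⟨b, hb, rfl⟩
      exact congrArg Subtype.val (congrArg Subtype.val (h1.is_comm.comm ⟨a, ha⟩ ⟨b, hb⟩))) (by
      rintro _ ⟨a, ha, rfl⟩
      exact congrArg Subtype.val (h2 a ha))
    rwa [Subgroup.card_map_of_injective X.subtype_injective] at this

theorem rank_mono {G : Type*} [Group G] {p k : ℕ} {X Y : Subgroup G} (h : X ≤ Y)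
    (hY : PRankLE p k Y) : PRankLE p k X := by
  rw [rank_iff] at hY ⊢
  exact fun A hA => hY A (hA.trans h)

theorem rank_conj {G : Type*} [Group G] {p k : ℕ} {X : Subgroup G} (g : G)
    (hX : PRankLE p k (X.map (MulAut.conj g).toMonoidHom)) : PRankLE p k X := by
  rw [rank_iff] at hX ⊢
  intro A hA h1 h2
  rw [← H10.card_map_conj A g]
  apply hX _ (Subgroup.map_mono hA)
  · rintro _ ⟨a, ha, rfl⟩ _ ⟨b, hb, rfl⟩
    rw [← map_mul, ← map_mul, h1 a ha b hb]
  · rintro _ ⟨a, ha, rfl⟩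
    rw [← map_pow, h2 a ha, map_one]

/-- Let H be a subgroup of the finite group G, p a prime, k ≥ 1, and P a Sylow p-subgroup of H whose p-rank is at least k. Then N_G(X) ≤ H for every subgroup X of P of p-rank at least k if and only if H ∩ gHg⁻¹ has p-rank less than k for every g ∉ H. -/
theorem result {G : Type*} [Group G] [Finite G] {p : ℕ} [Fact p.Prime] (k : ℕ) (hk : 1 ≤ k) (H : Subgroup G) (P : Sylow p ↥H) (hP : ¬ Cfsg.PRankLE p (k - 1) ↥(P : Subgroup ↥H)) : (∀ X : Subgroup G, X ≤ (P : Subgroup ↥H).map H.subtype → ¬ Cfsg.PRankLE p (k - 1) ↥X → Subgroup.normalizer (X : Set G) ≤ H) ↔ (∀ g : G, g ∉ H → Cfsg.PRankLE p (k - 1) ↥(H ⊓ H.map (MulAut.conj g).toMonoidHom)) := by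
  constructor
  · intro h g hg
    have h' : ∀ X : Subgroup G, X ≤ H → IsPGroup p X → ¬ PRankLE p (k - 1) X →
        Subgroup.normalizer (X : Set G) ≤ H := by
      intro X hXH hX hr
      obtain ⟨c, hc, hc2⟩ := H10.exists_conj_le_sylow_map P hX hXH
      have h1 := h _ hc2 (fun h0 => hr (rank_conj c h0))
      rw [H10.normalizer_map_conj] at h1
      intro x hx
      have := h1 (H10.conj_mem_map_conj.mpr hx)
      simpa [mul_assoc] using H.mul_mem (H.mul_mem (H.inv_mem hc) this) hc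
    by_contra hr
    rw [rank_iff] at hr
    push Not at hr
    obtain ⟨A, hA, h1, h2, h3⟩ := hr
    have hAp : IsPGroup p A := fun a => ⟨1, Subtype.ext (by rw [pow_one]; exact h2 a a.2)⟩
    obtain ⟨Q, hQ⟩ := (hAp.comap_subtype (K := H ⊓ H.map (MulAut.conj g).toMonoidHom)).exists_le_sylow
    set X : Subgroup G := Q.1.map (Subgroup.subtype _) with hX
    have hAX : A ≤ X := fun a ha => ⟨⟨a, hA ha⟩, hQ ha, rfl⟩
    have hXr : ¬ PRankLE p (k - 1) X := fun h0 =>
      absurd ((rank_iff _ _ _).mp h0 A hAX h1 h2) (not_le.mpr h3)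
    have hle : X ≤ H ⊓ H.map (MulAut.conj g).toMonoidHom := Subgroup.map_subtype_le _
    have hp : IsPGroup p X := Q.isPGroup'.map _
    apply hg
    apply H10.mem_of_normalizer_le Q (h' _ (hle.trans inf_le_left) hp hXr)
    have h4 := h' (X.map (MulAut.conj g⁻¹).toMonoidHom) (by
      intro x hx
      have := (hle (by simpa using H10.mem_map_conj.mp hx)).2
      exact H10.conj_mem_map_conj.mp this) (hp.map _) (fun h0 => hXr (rank_conj _ h0))
    rw [H10.normalizer_map_conj] at h4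
    intro x hx
    have hx' : x ∈ Subgroup.normalizer (X : Set G) := hx
    refine H10.mem_map_conj.mpr (h4 (H10.mem_map_conj.mpr ?_))
    rwa [show g⁻¹⁻¹ * (g⁻¹ * x * g) * g⁻¹ = x by group]
  · intro h X hX hr g hg
    by_contra hgH
    apply hr
    apply rank_mono _ (h g hgH)
    have hXH : X ≤ H := hX.trans (Subgroup.map_subtype_le _)
    refine le_inf hXH ?_
    rw [← H10.map_conj_eq_iff.mpr hg]
    exact Subgroup.map_mono hXH

end Cfsg.Agent.S1231
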