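import Cfsg.Statements.S0520
import Cfsg.Agent.H81.Four
import Cfsg.Agent.S1231

set_option autoImplicit false
open Cfsg

namespace Cfsg.Agent.S0520


/-- Let G be a finite group of 2-rank at least 2 and S a Sylow 2-subgroup whose commuting graph of Klein four-subgroups is
connected. Then the commuting graph of Klein four-subgroups of G is disconnected if and only if the 2-generated core — the
subgroup generated by the normalizers N_G(Q) of the subgroups Q of S that contain a Klein four-group — is a proper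
subgroup of G. -/
theorem result {G : Type*} [Group G] [Finite G] (h2 : ¬ Cfsg.PRankLE 2 1 G)
    (S : Sylow 2 G) (hS : Cfsg.IsFourConnected (S : Subgroup G)) :
    ¬ Cfsg.IsFourConnected G ↔
      (⨆ Q : {Q : Subgroup G // Q ≤ (S : Subgroup G) ∧ ¬ Cfsg.PRankLE 2 1 Q},
          Subgroup.normalizer ((Q : Subgroup G) : Set G)) ≠ ⊤ := by
  classical
  set Γ := ⨆ Q : {Q : Subgroup G // Q ≤ (S : Subgroup G) ∧ ¬ Cfsg.PRankLE 2 1 Q},
          Subgroup.normalizer ((Q : Subgroup G) : Set G) with hΓ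
  let r := fun A B : Subgroup G => IsKleinFour A ∧ IsKleinFour B ∧ ∀ a ∈ A, ∀ b ∈ B, a * b = b * a
  have hsymm : ∀ A B, r A B → r B A := fun A B h => ⟨h.2.1, h.1, fun a ha b hb => (h.2.2 b hb a ha).symm⟩
  have hK : ∀ (g : G) (V : Subgroup G), IsKleinFour V → IsKleinFour (H85.cj g V) := by
    intro g V hV
    rw [H81.isKleinFour_iff] at hV ⊢
    exact ⟨H51.isEA_map hV.1 _, by rw [H85.card_cj, hV.2]⟩
  have hrc : ∀ (g : G) (A B : Subgroup G), Relation.ReflTransGen r A B →
      Relation.ReflTransGen r (H85.cj g A) (H85.cj g B) := by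
    intro g A B h
    refine Relation.ReflTransGen.lift (H85.cj g) ?_ _ _ h
    rintro A B ⟨h1, h2, h3⟩
    refine ⟨hK g A h1, hK g B h2, ?_⟩
    rintro _ ⟨a, ha, rfl⟩ _ ⟨b, hb, rfl⟩
    rw [← map_mul, ← map_mul, h3 a ha b hb]
  have hSr : ∀ A B : Subgroup G, IsKleinFour A → IsKleinFour B → A ≤ S → B ≤ S →
      Relation.ReflTransGen r A B := by
    intro A B hA hB hAS hBS
    have hk : ∀ A : Subgroup G, IsKleinFour A → A ≤ S → IsKleinFour (A.subgroupOf S) := by
      intro A hA hAS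
      rw [H81.isKleinFour_iff] at hA ⊢
      exact ⟨H51.isEA_subgroupOf hA.1 _, by rw [H3.card_subgroupOf, inf_eq_left.2 hAS, hA.2]⟩
    have hk' : ∀ A : Subgroup S, IsKleinFour A → IsKleinFour (A.map (S : Subgroup G).subtype) := by
      intro A hA
      rw [H81.isKleinFour_iff] at hA ⊢
      exact ⟨H51.isEA_map hA.1 _, by rw [H3.card_map_subtype, hA.2]⟩
    have := Relation.ReflTransGen.lift (p := r) (r := fun A B : Subgroup S => IsKleinFour A ∧
      IsKleinFour B ∧ ∀ a ∈ A, ∀ b ∈ B, a * b = b * a) (Subgroup.map (S : Subgroup G).subtype) (by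
      rintro A B ⟨h1, h2, h3⟩
      refine ⟨hk' A h1, hk' B h2, ?_⟩
      rintro _ ⟨a, ha, rfl⟩ _ ⟨b, hb, rfl⟩
      rw [← map_mul, ← map_mul, h3 a ha b hb]) _ _ (hS _ _ (hk A hA hAS) (hk B hB hBS))
    rwa [Function.onFun, Subgroup.map_subgroupOf_eq_of_le hAS, Subgroup.map_subgroupOf_eq_of_le hBS] at this
  have hinto : ∀ V : Subgroup G, IsKleinFour V → ∃ g : G, H85.cj g V ≤ S := by
    intro V hV
    obtain ⟨g, -, hg⟩ := (H85.isSyl_top S).exists_cj_le
      (H51.isEA_isPGroup (H81.isKleinFour_iff.1 hV).1) le_top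
    exact ⟨g, hg⟩
  obtain ⟨V, hV, hVS⟩ : ∃ V : Subgroup G, IsKleinFour V ∧ V ≤ S := by
    obtain ⟨V, hV, hV4⟩ := H81.not_pRankLE_top_iff.1 h2
    have hV' : IsKleinFour V := H81.isKleinFour_iff.2 ⟨hV, by simpa using hV4⟩
    obtain ⟨g, hg⟩ := hinto V hV'
    exact ⟨_, hK g V hV', hg⟩
  have hrank : ∀ Q W : Subgroup G, IsKleinFour W → W ≤ Q → ¬ PRankLE 2 1 Q := by
    intro Q W hW hWQ
    rw [H81.isKleinFour_iff] at hW
    exact H81.not_pRankLE_iff.2 ⟨W, hWQ, hW.1, by simpa using hW.2⟩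
  have hNΓ : ∀ Q : Subgroup G, Q ≤ S → ¬ PRankLE 2 1 Q → Subgroup.normalizer (Q : Set G) ≤ Γ :=
    fun Q h1 h2 => le_iSup (fun Q : {Q : Subgroup G // Q ≤ (S : Subgroup G) ∧ ¬ Cfsg.PRankLE 2 1 Q} =>
      Subgroup.normalizer ((Q : Subgroup G) : Set G)) ⟨Q, h1, h2⟩
  have hSΓ : (S : Subgroup G) ≤ Γ := Subgroup.le_normalizer.trans (hNΓ S le_rfl (hrank _ V hV hVS))
  rw [not_iff_not]
  constructor
  · intro hG
    have hsyl := H85.isSyl_of_sylow_le S hSΓ
    have key : ∀ W, Relation.ReflTransGen r V W → ∃ h ∈ Γ, H85.cj h W ≤ S := by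
      intro W hW
      induction hW with
      | refl => exact ⟨1, Γ.one_mem, by rwa [H85.cj_one]⟩
      | @tail A B _ hAB ih =>
        obtain ⟨h, hh, hA⟩ := ih
        have hB : H85.cj h B ≤ Γ := by
          refine le_trans ?_ (hNΓ _ hA (hrank _ _ (hK h A hAB.1) le_rfl))
          refine le_trans ?_ (Subgroup.centralizer_le_normalizer _)
          rw [← H85.cj_centralizer]
          exact H85.cj_mono h fun b hb a ha => hAB.2.2 a ha b hb
        obtain ⟨k, hk, hk'⟩ := hsyl.exists_cj_le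
          (H51.isEA_isPGroup (H81.isKleinFour_iff.1 (hK h B hAB.2.1)).1) hB
        exact ⟨k * h, Γ.mul_mem hk hh, by rwa [H85.cj_mul]⟩
    have h1231 := (S1231.result (p := 2) 2 (by norm_num) Γ hsyl.toSylow (by
      rw [hsyl.coe_toSylow]
      obtain ⟨hVe, hV4⟩ := H81.isKleinFour_iff.1 hV
      refine H81.not_pRankLE_iff.2 ⟨V.subgroupOf Γ, Subgroup.subgroupOf_mono _ hVS,
        H51.isEA_subgroupOf hVe _, ?_⟩
      rw [H3.card_subgroupOf, inf_eq_left.2 (hVS.trans hSΓ), hV4]; rfl)).1 (by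
      rw [hsyl.map_toSylow]
      exact hNΓ)
    rw [eq_top_iff]
    intro g _
    by_contra hg
    obtain ⟨h, hh, hle⟩ := key _ (hG V _ hV (hK g V hV))
    refine hrank _ _ (hK g V hV) ?_ (h1231 g hg)
    refine le_inf ?_ (H85.cj_mono g (hVS.trans hSΓ))
    rw [← H85.cj_inv_cj h (H85.cj g V)]
    exact H85.cj_le_of_mem (hle.trans hSΓ) (Γ.inv_mem hh)
  · intro hG
    let H : Subgroup G :=
      { carrier := {g | Relation.ReflTransGen r V (H85.cj g V)}
        one_mem' := by simp only [Set.mem_setOf_eq, H85.cj_one]; exact Relation.ReflTransGen.refl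
        mul_mem' := by
          intro a b ha hb
          simp only [Set.mem_setOf_eq, H85.cj_mul] at *
          exact ha.trans (hrc a _ _ hb)
        inv_mem' := by
          intro a ha
          simp only [Set.mem_setOf_eq] at *
          have := hrc a⁻¹ _ _ ha
          rw [H85.cj_inv_cj] at this
          exact H81.reflTransGen_symm hsymm this }
    have hΓH : Γ ≤ H := by
      refine iSup_le ?_
      rintro ⟨Q, hQS, hQ⟩ g hg
      obtain ⟨W, hWQ, hWe, hW4⟩ := H81.not_pRankLE_iff.1 hQ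
      have hW : IsKleinFour W := H81.isKleinFour_iff.2 ⟨hWe, by simpa using hW4⟩
      exact (hSr V _ hV (hK g W hW) hVS ((H85.cj_le_of_mem_normalizer hWQ hg).trans hQS)).trans
        (hrc g _ _ (hSr W V hW hV (hWQ.trans hQS) hVS))
    have key : ∀ W : Subgroup G, IsKleinFour W → Relation.ReflTransGen r V W := by
      intro W hW
      obtain ⟨g, hg⟩ := hinto W hW
      have h1 : Relation.ReflTransGen r V (H85.cj g⁻¹ V) := hΓH (hG ▸ Subgroup.mem_top g⁻¹)
      have h3 := hrc g⁻¹ _ _ (hSr V _ hV (hK g W hW) hVS hg)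
      rw [H85.cj_inv_cj] at h3
      exact h1.trans h3
    intro A B hA hB
    exact (H81.reflTransGen_symm hsymm (key A hA)).trans (key B hB)

end Cfsg.Agent.S0520
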