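import Cfsg.Statements.S0521
import Cfsg.Agent.H64.AppAB
import Cfsg.Agent.H63.BG1
import Cfsg.Agent.H67.Sol

set_option autoImplicit false
open Cfsg

namespace Cfsg.Agent.S0521

open Subgroup Cfsg.Agent.H63 Cfsg.Agent.H67

section
variable {G : Type*} [Group G] [Finite G] {p : ℕ} [hp : Fact p.Prime] {M S : Subgroup G}

theorem step1 (hodd : Odd (Nat.card M)) (hs : Group.IsSolvable M) (hS : IsSyl p S M)
    (hc : IsCyclic ↥⁅S, S⁆) (h0 : O[{p}ᶜ](M) = ⊥) (he : IsElementaryAbelian p O[{p}](M)) :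
    S ≤ O[{p}](M) := by
  set P := O[{p}](M) with hP
  have hPp : IsPGroup p P := elemAb_isPGroup he
  have hPM : P ⊴ M := piCoreOf_normalIn _ _
  have hPS : P ≤ S := le_syl_of_normalIn hS hPM hPp
  have hSp := syl_isPGroup hS
  set W := ⁅S, S⁆ ⊓ P with hW
  have hWc : IsCyclic W := isCyclic_of_le' hc inf_le_left
  have hWe : IsElementaryAbelian p W := elemAb_of_le he inf_le_right
  have hWn : S ≤ N[W] := le_normalizer_inf (charIn_derived S).normalIn.norm (hS.1.trans hPM.norm)
  have hWS : W ≤ C[S] := by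
    have hle := (elemAb_isCyclic_iff hWe).1 hWc
    obtain ⟨k, hk⟩ := elemAb_card hWe
    rcases k with _ | k
    · rw [pow_zero] at hk
      rw [card_eq_one.1 hk]; exact bot_le
    · have : k = 0 := by
        by_contra h
        have h1 : p ^ 2 ≤ p ^ (k + 1) := Nat.pow_le_pow_right hp.out.pos (by omega)
        have h2 := hp.out.one_lt
        nlinarith
      subst this
      exact le_centralizer_of_card_prime hp.out hSp (by simpa using hk) hWn
  intro x hx
  have hxS : zpowers x ≤ S := zpowers_le.2 hx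
  have hB : IsMulCommutative ↥(zpowers x ⊔ W) :=
    isMulCommutative_sup inferInstance (elemAb_comm hWe)
      (le_centralizer_iff.1 (hWS.trans (centralizer_anti hxS)))
  have hBS : zpowers x ⊔ W ≤ S := sup_le hxS (inf_le_right.trans hPS)
  have hPB : P ≤ N[zpowers x ⊔ W] := by
    refine le_normalizer_iff_commutator_le_left.2 ?_
    refine le_trans ?_ le_sup_right
    refine le_inf (commutator_mono hBS hPS) ?_
    exact le_normalizer_iff_commutator_le_right.1 (hBS.trans (hS.1.trans hPM.norm))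
  exact H64.odd_abelian_gen_constrained hodd hs h0 hPM hPp inf_le_left (hBS.trans hS.1) hB hPB
    (le_sup_left (b := W) (mem_zpowers x))

theorem step2 (hodd : Odd (Nat.card M)) (hs : Group.IsSolvable M) (hS : IsSyl p S M)
    (hc : IsCyclic ↥⁅S, S⁆) (h0 : O[{p}ᶜ](M) = ⊥) : S ≤ O[{p}](M) := by
  set P := O[{p}](M) with hP
  have hPp : IsPGroup p P := isPGroup_of_isPi hp.out (isPi_piCoreOf _ _)
  have hPM : P ⊴ M := piCoreOf_normalIn _ _
  set F := frattiniOf P with hF
  have hFM : F ⊴ M := (charIn_frattiniOf P).normalIn_of_normalIn hPM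
  have hFp : IsPGroup p F := hPp.to_le (frattiniOf_le P)
  have hq : P /ᵍ F = O[{p}](M /ᵍ F) := quo_piCoreOf hFM (isPi_of_isPGroup hp.out hFp)
  have hCP : M ⊓ C[P] ≤ P := by
    have h1 : fittingOf M ≤ P := fittingOf_le_piCoreOf h0
    exact (inf_le_inf_left _ (centralizer_anti h1)).trans ((cent_sub_Fitting hs).trans h1)
  have h0' : O[{p}ᶜ](M /ᵍ F) = ⊥ := by
    obtain ⟨K, hFK, hKM, hK⟩ := inv_quoN hFM (piCoreOf_normalIn {p}ᶜ (M /ᵍ F))
    obtain ⟨H, hH⟩ := exists_hall {p}ᶜ (isSolvable_of_le hs hKM.le)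
    have hHq : H /ᵍ F = K /ᵍ F := by
      have := pim_isPiHallOf (cosetHom F) hFK.norm hH
      exact hall_eq_of_isPi this (by change IsPiSubgroup _ (K /ᵍ F); rw [hK]; exact isPi_piCoreOf _ _)
    have hHM : H ≤ M := hH.1.trans hKM.le
    have hcomm : ⁅P, H⁆ ≤ F := by
      rw [← quo_cents_iff (hPM.le.trans hFM.norm) (hHM.trans hFM.norm), hq, hHq, hK]
      exact piCoreOf_le_centralizer_compl _ _
    have hHC : H ≤ C[P] := coprime_cent_Phi (hHM.trans hPM.norm)
      (isPi_coprime (isPi_of_isPGroup hp.out hPp) hH.2.1).symm hcomm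
    have hHP : H ≤ P := (le_inf hHM hHC).trans hCP
    have : H = ⊥ := isPi_eq_bot (isPi_of_le (isPi_of_isPGroup hp.out hPp) hHP) hH.2.1
    rw [← hK, ← hHq, this, bot_quo]
  have hSN : S ≤ N[F] := hS.1.trans hFM.norm
  have := step1 (M := M /ᵍ F) (S := S /ᵍ F) (hodd.of_dvd_nat (card_pim_dvd _ _))
    (pim_isSolvable _ hs) (pim_isPiHallOf _ hFM.norm hS)
    (by rw [← quo_commutator hSN hSN]; exact pim_isCyclic _ hc) h0'
    (by rw [← hq]; exact quo_frattiniOf_elemAb hPp)
  rw [← hq] at this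
  exact (quo_le_quo_iff_of_le hSN (frattiniOf_le P)).1 this

theorem step3 (hodd : Odd (Nat.card M)) (hs : Group.IsSolvable M) (hS : IsSyl p S M)
    (hc : IsCyclic ↥⁅S, S⁆) : PLen1 p M := by
  have hN := piCoreOf_normalIn {p}ᶜ M
  have hSN : S ≤ N[O[{p}ᶜ](M)] := hS.1.trans hN.norm
  have hS' := pim_isPiHallOf (cosetHom O[{p}ᶜ](M)) hN.norm hS
  have := step2 (M := M /ᵍ O[{p}ᶜ](M)) (S := S /ᵍ O[{p}ᶜ](M)) (hodd.of_dvd_nat (card_pim_dvd _ _))
    (pim_isSolvable _ hs) hS'
    (by rw [← quo_commutator hSN hSN]; exact pim_isCyclic _ hc) (piCoreOf_quo_self _ _)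
  refine plen1_of_quo_compl hN (isPi_piCoreOf _ _) (plen1_of_syl_le hS' ?_)
  exact this.trans (piCoreOf_le_piCore2Of' _ _ _)
end

/-- Let X be a finite solvable group of odd order, p a prime and S a Sylow p-subgroup of X whose commutator subgroup is
cyclic. Then the product of the largest normal subgroup of X of order prime to p with S is a normal subgroup of X. -/
theorem result {X : Type*} [Group X] [Finite X] [Group.IsSolvable X]
    (hX : Odd (Nat.card X)) (p : ℕ) [Fact p.Prime] (S : Sylow p X) (hS : IsCyclic (commutator (S : Subgroup X))) :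
    (Cfsg.pPrimeCore p X ⊔ (S : Subgroup X)).Normal := by
  have hc : IsCyclic ↥⁅(S : Subgroup X), (S : Subgroup X)⁆ := by
    rw [← map_subtype_commutator]
    exact (MulEquiv.isCyclic (equivMapOfInjective _ _ (subtype_injective _))).1 hS
  have h := plen1_sup_normalIn (step3 (M := ⊤) (by rwa [card_top]) inferInstance (syl_top S) hc)
    (syl_top S)
  rw [piCoreOf_top, ← pPrimeCore_eq_piCore Fact.out] at h
  exact normalIn_top_iff.1 h

end Cfsg.Agent.S0521
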