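import Cfsg.Statements.S0522
import Cfsg.Agent.H64.AppAB
import Cfsg.Agent.H63.BG1
import Cfsg.Agent.H67.Sol
import Cfsg.Agent.H67.BG7
import Cfsg.Agent.S0205

set_option autoImplicit false
open Cfsg

namespace Cfsg.Agent.S0522

open Subgroup Cfsg.Agent.H63 Cfsg.Agent.H67

/-- Transitivity Theorem (odd-order setting). Let X be a finite group of odd order in which the normalizer of every
nontrivial p-subgroup is solvable, P a Sylow p-subgroup, and B an abelian subgroup of P, normalized by P, with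
C_P(B) = B and containing an elementary abelian subgroup of order p^3. Then for every prime q ≠ p, any two q-subgroups
that are maximal among the q-subgroups normalized by B are conjugate by an element of the centralizer of B. -/
theorem result {X : Type*} [Group X] [Finite X] (hX : Odd (Nat.card X)) (p : ℕ)
    [Fact p.Prime] (hloc : ∀ T : Subgroup X, IsPGroup p T → T ≠ ⊥ → Group.IsSolvable (Subgroup.normalizer (T : Set X)))
    (P : Sylow p X) (B : Subgroup X) (hBP : B ≤ (P : Subgroup X))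
    (hBn : ∀ x ∈ (P : Subgroup X), ∀ b ∈ B, x * b * x⁻¹ ∈ B) (hBa : IsMulCommutative B)
    (hBc : (P : Subgroup X) ⊓ Subgroup.centralizer (B : Set X) = B)
    (hB3 : ∃ E : Subgroup X, E ≤ B ∧ (∀ e ∈ E, e ^ p = 1) ∧ p ^ 3 ≤ Nat.card E)
    (q : ℕ) [Fact q.Prime] (hqp : q ≠ p) (Q₁ Q₂ : Subgroup X)
    (h₁ : IsPGroup q Q₁ ∧ B ≤ Subgroup.normalizer (Q₁ : Set X) ∧
      ∀ R : Subgroup X, IsPGroup q R → B ≤ Subgroup.normalizer (R : Set X) → Q₁ ≤ R → R = Q₁)
    (h₂ : IsPGroup q Q₂ ∧ B ≤ Subgroup.normalizer (Q₂ : Set X) ∧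
      ∀ R : Subgroup X, IsPGroup q R → B ≤ Subgroup.normalizer (R : Set X) → Q₂ ≤ R → R = Q₂) :
    ∃ c ∈ Subgroup.centralizer (B : Set X), Q₂ = Q₁.map (MulAut.conj c).toMonoidHom := by
  have hp : p.Prime := Fact.out
  have hq : q.Prime := Fact.out
  haveI hs : Group.IsSolvable X := S0205.result hX
  have hs' : Group.IsSolvable (⊤ : Subgroup X) := inferInstance
  have sylP := syl_top P
  have scn : IsSCN (P : Subgroup X) B :=
    ⟨hBP, fun x hx => mem_normalizer_of_cj_le (cj_le_iff.2 (hBn x hx)), hBc⟩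
  have pB : IsPGroup p B := (syl_isPGroup sylP).to_le hBP
  have core : ∀ Y : Subgroup X, IsPiSubgroup {p}ᶜ Y → B ≤ N[Y] → Y ≤ O[{p}ᶜ]((⊤ : Subgroup X)) := by
    intro Y p'Y nYA
    refine (coprime_cent_prod nYA (isPi_coprime (isPi_of_isPGroup hp pB) p'Y)
      (Or.inr (isSolvable_of_le hs' le_top))).le_of_le (Aux.commutator_le_core p'Y le_top
        (H64.odd_p_abelian_constrained (by rwa [card_top]) hs' sylP le_top hBa scn.2.1) nYA) ?_
    exact Aux.scn_le_core hs' sylP scn le_top inf_le_right (isPi_of_le p'Y inf_le_left)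
  set K := O[{p}ᶜ]((⊤ : Subgroup X)) with hK
  have nK : B ≤ N[K] := le_top.trans (piCoreOf_normalIn _ _).norm
  have cop : (Nat.card B).Coprime (Nat.card K) :=
    isPi_coprime (isPi_of_isPGroup hp pB) (isPi_piCoreOf _ _)
  have sol : Group.IsSolvable B ∨ Group.IsSolvable K := Or.inl inferInstance
  have syl : ∀ Q : Subgroup X, (IsPGroup q Q ∧ B ≤ N[Q] ∧
      ∀ R : Subgroup X, IsPGroup q R → B ≤ N[R] → Q ≤ R → R = Q) → IsSyl q Q K := by
    intro Q hQ
    obtain ⟨R, hR, nR, hQR⟩ := coprime_syl_subset nK cop sol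
      (core Q (isPi_compl_of_isPGroup hq hQ.1 hqp) hQ.2.1) hQ.1 hQ.2.1
    rw [← hQ.2.2 R (syl_isPGroup hR) nR hQR]; exact hR
  obtain ⟨c, hc, h⟩ := coprime_syl_trans nK cop sol (syl _ h₁) h₁.2.1 (syl _ h₂) h₂.2.1
  exact ⟨c, hc.2, h⟩

end Cfsg.Agent.S0522
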