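import Cfsg.Statements.S0530
import Cfsg.Agent.H5.Supersolvable2

set_option autoImplicit false
open Cfsg

namespace Cfsg.Agent.S0530

/-- A finite group whose order is twice a prime power is supersolvable. -/
theorem result {G : Type*} [Group G] [Finite G] (p n : ℕ) (hp : p.Prime) (hG : Nat.card G = 2 * p ^ n) : Cfsg.IsSupersolvable G := by
  have : Fact p.Prime := ⟨hp⟩
  obtain ⟨P, hP⟩ := Sylow.exists_subgroup_card_pow_prime (G := G) p (n := n) ⟨2, by rw [hG, mul_comm]⟩
  refine H5.supersolvable_of_index_dvd_two P (IsPGroup.of_card hP) ?_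
  have := P.index_mul_card
  rw [hP, hG] at this
  exact Nat.eq_of_mul_eq_mul_right (pow_pos hp.pos n) this

end Cfsg.Agent.S0530
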