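import Cfsg.Statements.S0537
import Cfsg.Agent.H4.Schmidt

set_option autoImplicit false
open Cfsg

namespace Cfsg.Agent.S0537

/-- A finite non-abelian group in which every proper subgroup is abelian is either of prime-power order, or is generated by a cyclic Sylow p-subgroup and a normal Sylow q-subgroup that is elementary abelian, for distinct primes p and q. -/
theorem result {G : Type*} [Group G] [Finite G] (hna : ¬ IsMulCommutative G) (h : ∀ H : Subgroup G, H ≠ ⊤ → IsMulCommutative H) : (∃ p : ℕ, p.Prime ∧ IsPGroup p G) ∨ ∃ p q : ℕ, p.Prime ∧ q.Prime ∧ p ≠ q ∧ ∃ (P : Sylow p G) (Q : Sylow q G), IsCyclic P ∧ (Q : Subgroup G).Normal ∧ Cfsg.IsElementaryAbelian q (Q : Subgroup G) ∧ (P : Subgroup G) ⊔ Q = ⊤ := by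
  by_cases hG : Group.IsNilpotent G
  · left
    by_contra hne
    push Not at hne
    apply hna
    have := hG
    apply H4.isMulCommutative_of_top
    apply H4.isMulCommutative_of_isNilpotent inferInstance
    intro p hp P _ hP
    apply h
    rintro rfl
    exact hne p hp.out (hP.of_equiv Subgroup.topEquiv)
  right
  obtain ⟨p, q, hp, hq, hpq, P, Q, x, hP, hQ, htop, hx⟩ := H4.schmidt_structure
    ⟨hG, fun H hH => have := h H hH; H3.isNilpotent_of_isMulCommutative⟩
  have := Fact.mk hp
  have := Fact.mk hq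
  have hPc : IsCyclic (P : Subgroup G) := by rw [hP]; infer_instance
  have hQne : (Q : Subgroup G) ≠ ⊤ := fun hQ =>
    hG (IsPGroup.isNilpotent (p := q) ((hQ ▸ Q.2 : IsPGroup q (⊤ : Subgroup G)).of_equiv
      Subgroup.topEquiv))
  have hQc := h _ hQne
  refine ⟨p, q, hp, hq, hpq, P, Q, hPc, hQ, ⟨hQc, ?_⟩, by rwa [sup_comm]⟩
  have hn := H3.powKer_normal (Q : Subgroup G) q
  have hcop := IsPGroup.coprime_card_of_ne p q hpq _ _ P.2 Q.2
  by_cases hΩ : H3.powKer (Q : Subgroup G) q ⊔ P = ⊤
  · intro a ha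
    have : a ∈ H3.powKer (Q : Subgroup G) q ⊔ P := hΩ ▸ Subgroup.mem_top a
    obtain ⟨k, hk, b, hb, rfl⟩ :=
      (H4.mem_sup_iff_of_le_normalizer Subgroup.le_normalizer_of_normal).mp this
    have hbQ : b ∈ (Q : Subgroup G) := by
      simpa using (Q : Subgroup G).mul_mem ((Q : Subgroup G).inv_mem (H3.powKer_le _ _ hk)) ha
    have hb1 : b = 1 := Subgroup.disjoint_def.mp (Subgroup.disjoint_of_coprime_natCard hcop) hb hbQ
    rw [hb1, mul_one]
    exact (H3.mem_powKer.mp hk).2
  · exfalso
    apply hx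
    have hc := h _ hΩ
    have := H4.le_centralizer_of_prime_order (A := (P : Subgroup G)) (V := (Q : Subgroup G))
      Subgroup.le_normalizer_of_normal
      hcop (fun v hv hvp => by
        have hvq : orderOf v = q := by
          obtain ⟨k, hk⟩ := IsPGroup.iff_orderOf.mp Q.2 ⟨v, hv⟩
          rw [Subgroup.orderOf_mk] at hk
          rw [hk] at hvp ⊢
          rw [hvp.eq_one_of_pow, pow_one]
        intro a ha
        exact setLike_mul_comm (s := H3.powKer (Q : Subgroup G) q ⊔ P) (Subgroup.mem_sup_right ha)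
          (Subgroup.mem_sup_left (H3.mem_powKer.mpr ⟨hv, by rw [← hvq, pow_orderOf_eq_one]⟩)))
    exact Subgroup.le_centralizer_iff.mp this (hP ▸ Subgroup.mem_zpowers x)

end Cfsg.Agent.S0537
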