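import Cfsg.Statements.S0541
import Cfsg.Agent.H1.Zipper

set_option autoImplicit false
open Pointwise
open Cfsg

namespace Cfsg.Agent.S0541

/-- Let Z and Y be subgroups of a finite group G and p a prime. Suppose that for every g in G the subgroup generated by the conjugates of g Z g⁻¹ under Y is a p-group. Then there is a Sylow p-subgroup P of G such that Y normalizes the subgroup generated by all conjugates of Z contained in P. -/
theorem result {G : Type*} [Group G] [Finite G] (p : ℕ) [Fact p.Prime] (Z Y : Subgroup G) (h : ∀ g : G, IsPGroup p ↥(⨆ y ∈ Y, MulAut.conj (y * g) • Z)) : ∃ P : Sylow p G, Y ≤ Subgroup.normalizer ((⨆ g ∈ {g : G | MulAut.conj g • Z ≤ (P : Subgroup G)}, MulAut.conj g • Z : Subgroup G) : Set G) := by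
  classical
  open H1 Subgroup in
  let W : Subgroup G → Subgroup G := fun U =>
    sSup {B | (∃ g : G, B = MulAut.conj g • Z) ∧ B ≤ U}
  have hW : ∀ U, W U ≤ U := fun U => sSup_le fun B hB => hB.2
  have hcl : ∀ g : G, Y ≤ normalizer ((⨆ y ∈ Y, MulAut.conj (y * g) • Z : Subgroup G) : Set G) := by
    intro g
    refine le_normalizer_of_conj_le fun x hx => ?_
    rw [pointwise_smul_subset_iff]
    refine iSup₂_le fun y hy => ?_
    rw [← pointwise_smul_subset_iff, conj_smul_conj_smul, ← mul_assoc]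
    exact le_iSup₂ (f := fun y (_ : y ∈ Y) => MulAut.conj (y * g) • Z) (x * y) (Y.mul_mem hx hy)
  obtain ⟨U, -, hU⟩ := exists_maximal_ge_of_wellFoundedGT
    (fun U : Subgroup G => IsPGroup p U ∧ Y ≤ normalizer (U : Set G) ∧ U ≤ W U) ⊥
    ⟨IsPGroup.of_bot, le_normalizer_of_normal, bot_le⟩
  obtain ⟨hUp, hUY, hUW⟩ := hU.prop
  obtain ⟨P, hP⟩ := hUp.exists_le_sylow
  refine ⟨P, ?_⟩
  have hWP : (⨆ g ∈ {g : G | MulAut.conj g • Z ≤ (P : Subgroup G)}, MulAut.conj g • Z : Subgroup G)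
      = U := by
    refine le_antisymm ?_ (hUW.trans (sSup_le ?_))
    · by_contra hcon
      have hss : {B | (∃ g : G, B = MulAut.conj g • Z) ∧ B ≤ U} ⊂
          {B | (∃ g : G, B = MulAut.conj g • Z) ∧ B ≤ (P : Subgroup G)} := by
        refine ⟨fun B hB => ⟨hB.1, hB.2.trans hP⟩, fun h' => hcon (iSup₂_le fun g hg => ?_)⟩
        exact (h' ⟨⟨g, rfl⟩, hg⟩).2
      obtain ⟨X, ⟨⟨x, rfl⟩, hXP⟩, hX0, hXN⟩ := SnIn.exists_le_normalizer_sSup (T := P)
        (fun B hB => SnIn.of_isPGroup P.isPGroup' hB.2)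
        (by
          rintro B ⟨⟨g, rfl⟩, hB⟩ y hy
          exact ⟨⟨y * g, conj_smul_conj_smul _ _ _⟩, conj_smul_le_of_mem hB hy⟩) hss
      have hWU : W U = U := le_antisymm (hW U) hUW
      change _ ≤ normalizer ((W U : Subgroup G) : Set G) at hXN
      rw [hWU] at hXN
      set V : Subgroup G := ⨆ y ∈ Y, MulAut.conj (y * x) • Z with hV
      have hVN : V ≤ normalizer (U : Set G) := by
        refine iSup₂_le fun y hy => ?_
        rw [← conj_smul_conj_smul]
        exact conj_smul_le_of_mem_normalizer hXN (le_normalizer (hUY hy))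
      have hle := hU.le_of_ge (y := V ⊔ U) ⟨(h x).to_sup_of_normal_right' hUp hVN,
        (le_inf (hcl x) hUY).trans (normalizer_inf_normalizer_le_normalizer_sup _ _), ?_⟩
        le_sup_right
      · refine hX0 ⟨⟨x, rfl⟩, le_trans ?_ (le_sup_left.trans hle)⟩
        have := le_iSup₂ (f := fun y (_ : y ∈ Y) => MulAut.conj (y * x) • Z) 1 Y.one_mem
        rwa [one_mul] at this
      · refine sup_le (iSup₂_le fun y hy => le_sSup ⟨⟨_, rfl⟩, le_trans ?_ le_sup_left⟩)
          (hUW.trans (sSup_le_sSup fun B hB => ⟨hB.1, hB.2.trans le_sup_right⟩))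
        exact le_iSup₂ (f := fun y (_ : y ∈ Y) => MulAut.conj (y * x) • Z) y hy
    · rintro _ ⟨⟨g, rfl⟩, hg⟩
      exact le_iSup₂ (f := fun g (_ : g ∈ {g : G | MulAut.conj g • Z ≤ (P : Subgroup G)}) =>
        MulAut.conj g • Z) g (hg.trans hP)
  rw [hWP]
  exact hUY

end Cfsg.Agent.S0541
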