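import Cfsg.Statements.S0548
import Cfsg.Agent.H3.Primitive

set_option autoImplicit false
open Cfsg

namespace Cfsg.Agent.S0548

/-- Let a finite solvable group G act faithfully and primitively on a set, let M be a minimal normal subgroup and H the stabilizer of a point. Then H is a complement to M, no non-identity element of H centralizes M, and the only subgroups of M normalized by H are the trivial subgroup and M. -/
theorem result {G : Type*} [Group G] [Finite G] [Group.IsSolvable G] {Ω : Type*} [MulAction G Ω] [FaithfulSMul G Ω] (hprim : MulAction.IsPreprimitive G Ω) (M : Subgroup G) [M.Normal] (hM : M ≠ ⊥) (hmin : ∀ K : Subgroup G, K.Normal → K ≤ M → K = ⊥ ∨ K = M) (ω : Ω) : Subgroup.IsComplement' M (MulAction.stabilizer G ω) ∧ MulAction.stabilizer G ω ⊓ Subgroup.centralizer (M : Set G) = ⊥ ∧ ∀ K : Subgroup G, K ≤ M → MulAction.stabilizer G ω ≤ Subgroup.normalizer (K : Set G) → K = ⊥ ∨ K = M := by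
  obtain ⟨hc, -⟩ := H3.minimal_normal_elementary M inferInstance hM hmin
  have ht := H3.isPretransitive_of_normal_of_primitive hprim M hM
  have hs := H3.stabilizer_eq_bot_of_comm_of_transitive ht ω
  have hcomp : Subgroup.IsComplement' M (MulAction.stabilizer G ω) := by
    refine Subgroup.isComplement'_stabilizer ω (fun h hh => ?_) fun g => ht.exists_smul_eq _ _
    have : h ∈ MulAction.stabilizer M ω := hh
    rwa [hs] at this
  refine ⟨hcomp, ?_, fun K hKM hK => hmin K ?_ hKM⟩
  · rw [eq_bot_iff]
    exact fun g hg => H3.eq_one_of_centralizes_of_transitive ht hg.2 hg.1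
  · rw [← Subgroup.normalizer_eq_top_iff, eq_top_iff, ← hcomp.sup_eq_top]
    exact sup_le (((Subgroup.le_centralizer M).trans (H3.centralizer_anti hKM)).trans
      (Subgroup.centralizer_le_normalizer _)) hK

end Cfsg.Agent.S0548
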