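import Cfsg.Statements.S0551
import Cfsg.Agent.H2.Systems

set_option autoImplicit false
open Pointwise
open Cfsg

namespace Cfsg.Agent.S0551

/-- In a finite solvable group all core-free maximal subgroups are conjugate. -/
theorem result {G : Type*} [Group G] [Finite G] [Group.IsSolvable G] (U V : Subgroup G) (hU : IsCoatom U) (hV : IsCoatom V) (hUc : U.normalCore = ⊥) (hVc : V.normalCore = ⊥) : ∃ g : G, MulAut.conj g • U = V := by
  have : Nontrivial G := by
    by_contra h
    rw [not_nontrivial_iff_subsingleton] at h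
    exact hU.1 (Subsingleton.elim _ _)
  obtain ⟨N, hNn, hN0, hNc, p, hp, hN⟩ := H2.exists_abelian_pgroup_normal (G := G)
  have : Fact p.Prime := ⟨hp⟩
  have hcf : ∀ X L : Subgroup G, X.normalCore = ⊥ → L.Normal → L ≤ X → L = ⊥ := by
    intro X L hX hL hLX
    rw [eq_bot_iff, ← hX]
    exact Subgroup.normal_le_normalCore.mpr hLX
  have hnorm : ∀ X R : Subgroup G, R.Normal →
      X ≤ Subgroup.normalizer ((X ⊓ R : Subgroup G) : Set G) := by
    intro X R hR
    exact (le_inf Subgroup.le_normalizer Subgroup.le_normalizer_of_normal).trans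
      Subgroup.inf_normalizer_le_normalizer_inf
  have hcompl : ∀ X : Subgroup G, IsCoatom X → X.normalCore = ⊥ → Subgroup.IsComplement' N X := by
    intro X hX hXc
    have h1 : X ⊔ N = ⊤ := hX.2 _ (left_lt_sup.mpr fun h => hN0 (hcf X N hXc hNn h))
    refine Subgroup.isComplement'_of_disjoint_and_mul_eq_univ ?_ ?_
    · rw [disjoint_comm, disjoint_iff]
      refine hcf X _ hXc ?_ inf_le_left
      rw [← Subgroup.normalizer_eq_top_iff, eq_top_iff, ← h1]
      refine sup_le (hnorm X N hNn) ?_
      exact (N.le_centralizer.trans (Subgroup.centralizer_le inf_le_right)).trans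
        (Subgroup.centralizer_le_normalizer _)
    · rw [← Subgroup.normal_mul, sup_comm, h1, Subgroup.coe_top]
  have hUN := hcompl U hU hUc
  have hVN := hcompl V hV hVc
  by_cases hNt : N = ⊤
  · subst hNt
    rw [Subgroup.isComplement'_top_left] at hUN hVN
    exact ⟨1, by rw [hUN, hVN, map_one, one_smul]⟩
  have : Nontrivial (G ⧸ N) := QuotientGroup.nontrivial_iff.mpr hNt
  obtain ⟨R₀, hR₀n, hR₀0, -, r, hr, hR₀⟩ := H2.exists_abelian_pgroup_normal (G := G ⧸ N)
  have hf := QuotientGroup.mk'_surjective N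
  set R := R₀.comap (QuotientGroup.mk' N) with hR
  have hNR : N ≤ R := (QuotientGroup.ker_mk' N).ge.trans (Subgroup.ker_le_comap _ _)
  have hRn : R.Normal := inferInstance
  have hself : ∀ X : Subgroup G, IsCoatom X → X.normalCore = ⊥ →
      Subgroup.normalizer ((X ⊓ R : Subgroup G) : Set G) = X := by
    intro X hX hXc
    by_contra h
    have h1 := hX.2 _ (lt_of_le_of_ne (hnorm X R hRn) (Ne.symm h))
    have h2 := hcf X _ hXc (Subgroup.normalizer_eq_top_iff.mp h1) inf_le_left
    have h3 := H2.isComplement'_subgroupOf_of_left_le (hcompl X hX hXc) hNR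
    rw [Subgroup.subgroupOf_eq_bot.mpr (disjoint_iff.mpr h2), Subgroup.isComplement'_bot_right,
      Subgroup.subgroupOf_eq_top] at h3
    apply hR₀0
    rw [eq_bot_iff]
    intro x hx
    obtain ⟨x, rfl⟩ := hf x
    exact (QuotientGroup.eq_one_iff x).mpr (h3 hx)
  have hrp : r ≠ p := by
    rintro rfl
    have h1 : IsPGroup r R := hR₀.comap_of_ker_isPGroup _ (by rwa [QuotientGroup.ker_mk'])
    have h2 := H2.eq_of_normalizer_inf_le_of_isNilpotent (inf_le_right : U ⊓ R ≤ R) h1.isNilpotent
      (by rw [hself U hU hUc])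
    exact hN0 (hcf U N hUc hNn (hNR.trans (h2.ge.trans inf_le_left)))
  have hcop : (Nat.card (N.subgroupOf R)).Coprime (N.subgroupOf R).index := by
    have h1 := (N.subgroupOf R).card_mul_index
    rw [H2.card_subgroupOf_of_le hNR] at h1 ⊢
    rw [hR, H2.card_comap_mk'] at h1
    rw [Nat.eq_of_mul_eq_mul_left Nat.card_pos h1]
    exact (H2.isPiNum_card_of_isPGroup hp (Set.mem_singleton p) hN).coprime
      (H2.isPiNum_card_of_isPGroup hr hrp hR₀)
  obtain ⟨x, -, hx⟩ := H2.schurZassenhaus_conj' (N.subgroupOf R) hcop _ _ (Or.inl inferInstance)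
    (H2.isComplement'_subgroupOf_of_left_le hUN hNR)
    (H2.isComplement'_subgroupOf_of_left_le hVN hNR)
  have h1 := congrArg (Subgroup.map R.subtype) hx
  rw [H2.map_conj_smul, Subgroup.subgroupOf_map_subtype, Subgroup.subgroupOf_map_subtype] at h1
  refine ⟨R.subtype x, ?_⟩
  rw [← hself U hU hUc, ← H2.normalizer_conj_smul, h1, hself V hV hVc]

end Cfsg.Agent.S0551
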