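import Cfsg.Statements.S0552
import Cfsg.Agent.H3.Fitting

set_option autoImplicit false
open Cfsg

namespace Cfsg.Agent.S0552

/-- Let σ be an automorphism of a finite solvable group G fixing every element of the Fitting subgroup. If σ is not the identity then the order of σ and the order of G have a common prime factor. -/
theorem result {G : Type*} [Group G] [Finite G] [Group.IsSolvable G] (σ : G ≃* G) (hσ : ∀ x ∈ Cfsg.fittingSubgroup G, σ x = x) (hne : σ ≠ MulEquiv.refl G) : ¬ (orderOf σ).Coprime (Nat.card G) := by
  intro hcop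
  apply hne
  haveI := H3.fitting_normal G
  ext g
  set c := g⁻¹ * σ g with hc
  have hcF : c ∈ fittingSubgroup G := by
    refine H3.centralizer_fitting_le G fun x hx => ?_
    have h1 := hσ _ (Subgroup.Normal.conj_mem inferInstance x hx g)
    rw [map_mul, map_mul, map_inv, hσ x hx, mul_inv_eq_iff_eq_mul] at h1
    rw [hc, mul_assoc g⁻¹, h1]; group
  have hσg : σ g = g * c := by rw [hc]; group
  have key : ∀ n : ℕ, (σ ^ n) g = g * c ^ n := by
    intro n
    induction n with
    | zero => simp
    | succ n ih =>
      rw [pow_succ', MulAut.mul_apply, ih, map_mul, hσ _ (Subgroup.pow_mem _ hcF n), hσg,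
        pow_succ', mul_assoc]
  have h1 : c ^ orderOf σ = 1 := by
    have := key (orderOf σ)
    rw [pow_orderOf_eq_one, MulAut.one_apply] at this
    exact (mul_eq_left.mp this.symm)
  have h2 : orderOf c = 1 := Nat.eq_one_of_dvd_coprimes hcop (orderOf_dvd_of_pow_eq_one h1)
    (orderOf_dvd_natCard c)
  rw [hσg, orderOf_eq_one_iff.mp h2]; simp

end Cfsg.Agent.S0552
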