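import Cfsg.Statements.S0553
import Cfsg.Agent.H2.Systems

set_option autoImplicit false
open Cfsg

namespace Cfsg.Agent.S0553

universe u

theorem aux (n : ℕ) : ∀ (G : Type u) [Group G] [Finite G] [Group.IsSolvable G] [Nontrivial G],
    Nat.card G = n → (∀ M : Subgroup G, IsCoatom M → (Nat.card M).Coprime M.index) →
    ∃ p : ℕ, p.Prime ∧ p ∣ Nat.card G ∧ ∃ P : Subgroup G, P.Normal ∧ IsPiHall {p} P := by
  induction n using Nat.strongRecOn with | ind n ih => ?_
  rintro G _ _ _ _ rfl h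
  obtain ⟨N, hNn, hN0, -, p, hp, hN⟩ := H2.exists_abelian_pgroup_normal (G := G)
  have : Fact p.Prime := ⟨hp⟩
  have hf := QuotientGroup.mk'_surjective N
  by_cases hc : ∀ M : Subgroup G, IsCoatom M → N ≤ M
  · have hNt : N ≠ ⊤ := by
      obtain ⟨M, hM, -⟩ := (eq_top_or_exists_le_coatom (⊥ : Subgroup G)).resolve_left bot_ne_top
      exact ne_top_of_le_ne_top hM.1 (hc M hM)
    have : Nontrivial (G ⧸ N) := QuotientGroup.nontrivial_iff.mpr hNt
    obtain ⟨q, hq, hqd, Q, hQn, hQ⟩ := ih _ (H2.card_quotient_lt_of_ne_bot hN0) (G ⧸ N) rfl (by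
      intro M hM
      have h1 := h _ (Subgroup.isCoatom_comap_of_surjective hf hM)
      rw [Subgroup.index_comap_of_surjective _ hf, H2.card_comap_mk'] at h1
      exact h1.coprime_mul_left)
    have : Fact q.Prime := ⟨hq⟩
    refine ⟨q, hq, hqd.trans N.card_quotient_dvd_card, ?_⟩
    obtain ⟨P⟩ : Nonempty (Sylow q G) := inferInstance
    refine ⟨P, ?_, H2.isPiHall_sylow P⟩
    have hP := H2.isPiHall_map hf (H2.isPiHall_sylow P)
    have h1 : (P : Subgroup G).map (QuotientGroup.mk' N) = Q :=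
      H2.eq_of_isPiHall_of_le hP hQ.1 (H2.le_of_isPiHall_of_normal hQ hP.1)
    have h2 : ((P : Subgroup G) ⊔ N).Normal := by
      conv_rhs => rw [← QuotientGroup.ker_mk' N]
      rw [← Subgroup.comap_map_eq, h1]
      infer_instance
    have h3 := Sylow.normalizer_sup_eq_top' P (le_sup_left : (P : Subgroup G) ≤ (P : Subgroup G) ⊔ N)
    rw [← Subgroup.normalizer_eq_top_iff]
    by_contra h4
    obtain ⟨M, hM, h5⟩ := (eq_top_or_exists_le_coatom _).resolve_left h4
    apply hM.1
    rw [eq_top_iff, ← h3]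
    exact sup_le h5 (sup_le (Subgroup.le_normalizer.trans h5) (hc M hM))
  · push Not at hc
    obtain ⟨M, hM, hNM⟩ := hc
    have h1 : M ⊔ N = ⊤ := hM.2 _ (left_lt_sup.mpr hNM)
    have h2 : M.map (QuotientGroup.mk' N) = ⊤ := by
      rw [← Subgroup.map_top_of_surjective _ hf, ← h1, Subgroup.map_sup,
        (Subgroup.map_eq_bot_iff N).mpr (QuotientGroup.ker_mk' N).ge, sup_bot_eq]
    have h3 : M.index ∣ Nat.card N := by
      have h4 := H2.card_sup_normal_dvd M N
      rw [h1, Subgroup.card_top, ← M.card_mul_index] at h4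
      exact Nat.dvd_of_mul_dvd_mul_left Nat.card_pos h4
    have h4 : p ∣ M.index := by
      have h5 := H2.IsPiNum.of_dvd (H2.isPiNum_card_of_isPGroup hp (Set.mem_singleton p) hN) h3
      obtain ⟨r, hr, hrd⟩ := Nat.exists_prime_and_dvd (Subgroup.index_eq_one.not.mpr hM.1)
      exact h5 r hr hrd ▸ hrd
    refine ⟨p, hp, h4.trans M.index_dvd_card, N, hNn,
      H2.isPiNum_card_of_isPGroup hp (Set.mem_singleton p) hN, ?_⟩
    rintro r hr rfl hd
    have h5 : N.index ∣ Nat.card M := by
      rw [← Subgroup.relIndex_top_right, ← h1, Subgroup.relIndex_sup_right]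
      exact N.relIndex_dvd_card M
    exact hp.one_lt.ne' (Nat.eq_one_of_dvd_coprimes (h M hM) (hd.trans h5) h4)


/-- Let G be a nontrivial finite solvable group in which every maximal subgroup has order coprime to its index. Then for some prime p dividing the order of G the Sylow p-subgroups of G are normal. -/
theorem result {G : Type*} [Group G] [Finite G] [Group.IsSolvable G] [Nontrivial G] (h : ∀ M : Subgroup G, IsCoatom M → (Nat.card M).Coprime M.index) : ∃ p : ℕ, p.Prime ∧ p ∣ Nat.card G ∧ ∀ P : Sylow p G, (P : Subgroup G).Normal := by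
  obtain ⟨p, hp, hd, Q, hQn, hQ⟩ := aux _ G rfl h
  refine ⟨p, hp, hd, fun P => ?_⟩
  have : Fact p.Prime := ⟨hp⟩
  rw [H2.eq_of_isPiHall_of_le (H2.isPiHall_sylow P) hQ.1
    (H2.le_of_isPiHall_of_normal hQ (H2.isPiHall_sylow P).1)]
  exact hQn

end Cfsg.Agent.S0553
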