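import Cfsg.Statements.S0554
import Cfsg.Agent.H2.Systems

set_option autoImplicit false
open Cfsg

namespace Cfsg.Agent.S0554

theorem shift {G : Type*} [Group G] (N : Subgroup G) [hN : N.Normal] :
    ∀ (t : ℕ) (s : Fin t → G) (i : Fin t) (n : G), n ∈ N →
      ∃ n' ∈ N, n * (List.ofFn s).prod = (List.ofFn (Function.update s i (n' * s i))).prod := by
  intro t
  induction t with
  | zero => exact fun _ i => i.elim0
  | succ t ih =>
    intro s i n hn
    induction i using Fin.cases with
    | zero =>
      refine ⟨n, hn, ?_⟩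
      simp only [List.ofFn_succ, List.prod_cons, Function.update_self, mul_assoc]
      congr 4
    | succ j =>
      obtain ⟨n', hn', h⟩ := ih (fun k => s k.succ) j ((s 0)⁻¹ * n * s 0)
        (by simpa using hN.conj_mem n hn (s 0)⁻¹)
      refine ⟨n', hn', ?_⟩
      simp only [List.ofFn_succ, List.prod_cons]
      rw [Function.update_of_ne (Fin.succ_ne_zero j).symm]
      have h1 : (fun k : Fin t => Function.update s j.succ (n' * s j.succ) k.succ) =
          Function.update (fun k => s k.succ) j (n' * s j.succ) :=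
        Function.update_comp_eq_of_injective s (Fin.succ_injective t) j _
      rw [h1, ← h]
      group

universe u

theorem aux (t : ℕ) (p : Fin t → ℕ) (n : ℕ) :
    ∀ (G : Type u) [Group G] [Finite G] [Group.IsSolvable G], Nat.card G = n →
    (∀ q : ℕ, q.Prime → q ∣ Nat.card G → ∃ i, p i = q) →
    ∀ S : Fin t → Subgroup G, (∀ i, IsPiHall {p i} (S i)) →
    ∀ g : G, ∃ s : (i : Fin t) → G, (∀ i, s i ∈ S i) ∧ g = (List.ofFn s).prod := by
  induction n using Nat.strongRecOn with | ind n ih => ?_
  rintro G _ _ _ rfl hall S hS g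
  rcases subsingleton_or_nontrivial G with hs | hs
  · exact ⟨fun _ => 1, fun i => (S i).one_mem, Subsingleton.elim _ _⟩
  obtain ⟨N, hNn, hN0, -, q, hq, hN⟩ := H2.exists_abelian_pgroup_normal (G := G)
  have : Fact q.Prime := ⟨hq⟩
  have hf := QuotientGroup.mk'_surjective N
  obtain ⟨i, rfl⟩ := hall q hq ((hN.card_eq_or_dvd.resolve_left
    (N.one_lt_card_iff_ne_bot.mpr hN0).ne').trans N.card_subgroup_dvd_card)
  obtain ⟨s, hs1, hs2⟩ := ih _ (H2.card_quotient_lt_of_ne_bot hN0) (G ⧸ N) rfl
    (fun r hr hd => hall r hr (hd.trans N.card_quotient_dvd_card))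
    (fun j => (S j).map (QuotientGroup.mk' N)) (fun j => H2.isPiHall_map hf (hS j))
    (QuotientGroup.mk' N g)
  choose s' hs' hss' using hs1
  have h1 : g * (List.ofFn s').prod⁻¹ ∈ N := by
    rw [← QuotientGroup.eq_one_iff, ← QuotientGroup.mk'_apply, map_mul, map_inv, map_list_prod,
      List.map_ofFn, hs2, mul_inv_eq_one]
    congr 2
    exact (funext hss').symm
  obtain ⟨n', hn', h⟩ := shift N t s' i _ h1
  refine ⟨Function.update s' i (n' * s' i), fun j => ?_, by rw [← h]; simp⟩
  by_cases hj : j = i
  · subst hj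
    rw [Function.update_self]
    exact (S j).mul_mem (H2.normal_le_of_isPiHall (hS j)
      (H2.isPiNum_card_of_isPGroup hq rfl hN) hn') (hs' j)
  · rw [Function.update_of_ne hj]
    exact hs' j


/-- Let G be a finite solvable group and let S assign to each of t distinct primes, including every prime divisor of the order of G, a Sylow subgroup of G. Then every element of G is a product s_0 s_1 ⋯ s_(t-1) with s_i in S i, the factors taken in the given order. -/
theorem result {G : Type*} [Group G] [Finite G] [Group.IsSolvable G] (t : ℕ) (p : Fin t → ℕ) (hp : ∀ i, (p i).Prime) (hinj : Function.Injective p) (hall : ∀ q : ℕ, q.Prime → q ∣ Nat.card G → ∃ i, p i = q) (S : (i : Fin t) → Sylow (p i) G) : ∀ g : G, ∃ s : (i : Fin t) → G, (∀ i, s i ∈ (S i : Subgroup G)) ∧ g = (List.ofFn s).prod := by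
  refine aux t p _ G rfl hall (fun i => S i) fun i => ?_
  have : Fact (p i).Prime := ⟨hp i⟩
  exact H2.isPiHall_sylow (S i)

end Cfsg.Agent.S0554
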