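import Cfsg.Statements.S0555
import Cfsg.Agent.H4.CoprimeGen

set_option autoImplicit false
open Cfsg
open scoped commutatorElement

namespace Cfsg.Agent.S0555

/-- Let i ≥ 1. If in the derived series of a group the quotient of the i-th term by the (i+1)-st and the quotient of the (i+1)-st by the (i+2)-nd are both cyclic, then the (i+1)-st and (i+2)-nd terms coincide. -/
theorem result {G : Type*} [Group G] (i : ℕ) (hi : 1 ≤ i) (h₁ : IsCyclic (↥(derivedSeries G i) ⧸ (derivedSeries G (i + 1)).subgroupOf (derivedSeries G i))) (h₂ : IsCyclic (↥(derivedSeries G (i + 1)) ⧸ (derivedSeries G (i + 2)).subgroupOf (derivedSeries G (i + 1)))) : derivedSeries G (i + 1) = derivedSeries G (i + 2) := by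
  have hn := fun j => derivedSeries_normal G j
  set X := derivedSeries G i with hX
  set K := derivedSeries G (i + 1) with hK
  set M := derivedSeries G (i + 2) with hM
  have hXn : X.Normal := hn _
  have hKn : K.Normal := hn _
  have hMn : M.Normal := hn _
  have hMK : M ≤ K := derivedSeries_antitone G (Nat.le_succ _)
  apply le_antisymm _ hMK
  let φ := H4.sectionAct (A := ⊤) (K := K) (M := M) Subgroup.le_normalizer_of_normal
    Subgroup.le_normalizer_of_normal
  let _ := (h₂.mulAutMulEquiv _).toMonoidHom.commGroupOfInjective (h₂.mulAutMulEquiv _).injective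
  have hXK : ∀ x ∈ X, ∀ k ∈ K, ⁅k, x⁆ ∈ M := by
    intro x hx
    have h1 : x ∈ commutator G := by
      rw [← derivedSeries_one]
      exact derivedSeries_antitone G hi hx
    rw [commutator_def, ← Subgroup.map_subtype_commutator] at h1
    obtain ⟨y, hy, rfl⟩ := h1
    exact (H4.mem_ker_sectionAct _ _ y).mp (Abelianization.commutator_subset_ker φ hy)
  let f : X ⧸ M.subgroupOf X →* X ⧸ K.subgroupOf X :=
    QuotientGroup.map _ _ (MonoidHom.id X) (fun x hx => hMK hx)
  have hcomm := f.isMulCommutative_of_isCyclic_of_ker_le_center (by
    intro y hy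
    induction y using QuotientGroup.induction_on with
    | H y =>
      have hyK : (y : G) ∈ K := by
        have : ((y : X) : X ⧸ K.subgroupOf X) = 1 := hy
        exact (QuotientGroup.eq_one_iff y).mp this
      rw [Subgroup.mem_center_iff]
      intro z
      induction z using QuotientGroup.induction_on with
      | H z =>
        rw [← QuotientGroup.mk_mul, ← QuotientGroup.mk_mul, QuotientGroup.eq,
          Subgroup.mem_subgroupOf]
        simpa [commutatorElement_def, mul_assoc] using hXK _ (inv_mem z.2) _ (inv_mem hyK))
  have h3 := Subgroup.Normal.quotient_commutative_iff_commutator_le.mp hcomm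
  change ⁅X, X⁆ ≤ M
  rw [← Subgroup.map_subtype_commutator]
  exact Subgroup.map_le_iff_le_comap.mpr h3

end Cfsg.Agent.S0555
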