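import Cfsg.Statements.S0557
import Cfsg.Agent.H4.Schmidt
import Mathlib.GroupTheory.Focal

set_option autoImplicit false
open Cfsg

namespace Cfsg.Agent.S0557

/-- Let H be a subgroup of a finite group G with order coprime to its index. If iterating the focal-subgroup construction starting from H reaches the trivial subgroup after finitely many steps, then H has a normal complement in G. -/
theorem result {G : Type*} [Group G] [Finite G] (H : Subgroup G) (hHall : (Nat.card H).Coprime H.index) (n : ℕ) (hfoc : (fun K : Subgroup G => Subgroup.focalSubgroup K)^[n] H = ⊥) : ∃ N : Subgroup G, N.Normal ∧ Subgroup.IsComplement' N H := by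
  obtain ⟨N, hN, hc⟩ := H4.exists_normal_complement_of_forall_hasNormalPComplement hHall
    (fun p hp hpH => by
      have := Fact.mk hp
      obtain ⟨S, hS⟩ := H8.exists_isSylowIn p H
      have hS' : H8.IsSylowIn p S ⊤ := hS.trans_of_not_dvd le_top (by
        rw [Subgroup.relIndex_top_right]
        exact fun h => hp.not_dvd_one (hHall ▸ Nat.dvd_gcd hpH h))
      obtain ⟨P, rfl⟩ := H8.isSylowIn_top_iff.mp hS'
      rw [H8.hasNormalPComplement_iff_inf_eq_bot P, eq_bot_iff, ← hfoc]
      clear hfoc
      induction n with
      | zero => exact inf_le_left.trans hS.le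
      | succ n ih =>
        rw [Function.iterate_succ_apply']
        apply H8.sylow_inf_pResidual_le_of_fusion
        intro x hx hxr g _ hg
        refine H8.focalSubgroup_le_iff.mp le_rfl x (ih ⟨hx, hxr⟩) g (ih ⟨hg, ?_⟩)
        exact (H8.pResidual_normal p).conj_mem x hxr g)
  exact ⟨N, hN, hc⟩

end Cfsg.Agent.S0557
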