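import Cfsg.Statements.S0558
import Cfsg.Agent.H4.Schmidt

set_option autoImplicit false
open Cfsg

namespace Cfsg.Agent.S0558

theorem isSylowIn_top_of_normalizer {G : Type*} [Group G] [Finite G] {p : ℕ} [Fact p.Prime]
    {S : Subgroup G} (h : H8.IsSylowIn p S (Subgroup.normalizer (S : Set G))) :
    H8.IsSylowIn p S ⊤ := by
  rw [H8.isSylowIn_iff_exists_sylow]
  exact H4.exists_sylow_map_eq_of_maximal_in_normalizer le_top h.isPGroup
    fun V hV hSV _ hVN => (h.eq_of_le hV hVN hSV).le

/-- Let H be a subgroup of a finite group G that is not a Sylow subgroup of G for any prime, and suppose that for every prime p dividing the order of H and every Sylow p-subgroup P of H the normalizer of P in G is exactly H. Then some normal subgroup of G is a complement to H. -/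
theorem result {G : Type*} [Group G] [Finite G] (H : Subgroup G) (hnot : ∀ p : ℕ, p.Prime → ∀ P : Sylow p G, (P : Subgroup G) ≠ H) (hnorm : ∀ p : ℕ, p.Prime → p ∣ Nat.card H → ∀ P : Sylow p H, Subgroup.normalizer (((P : Subgroup H).map H.subtype : Subgroup G) : Set G) = H) : ∃ N : Subgroup G, N.Normal ∧ Subgroup.IsComplement' N H := by
  have hnorm' : ∀ p : ℕ, p.Prime → p ∣ Nat.card H → ∀ S, H8.IsSylowIn p S H →
      Subgroup.normalizer (S : Set G) = H := by
    intro p hp hd S hS
    have := Fact.mk hp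
    obtain ⟨P, rfl⟩ := H8.isSylowIn_iff_exists_sylow.mp hS
    exact hnorm p hp hd P
  have htop : ∀ p : ℕ, p.Prime → p ∣ Nat.card H → ∀ S, H8.IsSylowIn p S H →
      H8.IsSylowIn p S ⊤ := by
    intro p hp hd S hS
    have := Fact.mk hp
    apply isSylowIn_top_of_normalizer
    rwa [hnorm' p hp hd S hS]
  have hnil : Group.IsNilpotent H := by
    apply H3.isNilpotent_of_sylow_normal
    intro p hp P
    rcases P.2.card_eq_or_dvd with h | h
    · rw [Subgroup.card_eq_one.mp h]; infer_instance
    · have h1 := hnorm p hp.out (h.trans (Subgroup.card_subgroup_dvd_card _)) P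
      have h2 := Subgroup.normal_subgroupOf_of_le_normalizer h1.ge
      rwa [Subgroup.subgroupOf, Subgroup.comap_map_eq_self_of_injective H.subtype_injective] at h2
  have hHall : (Nat.card H).Coprime H.index := by
    apply Nat.coprime_of_dvd
    intro p hp h1 h2
    have := Fact.mk hp
    obtain ⟨S, hS⟩ := H8.exists_isSylowIn p H
    apply (htop p hp h1 S hS).not_dvd
    rw [Subgroup.relIndex_top_right]
    exact h2.trans (Subgroup.index_dvd_of_le hS.le)
  apply H4.exists_normal_complement_of_forall_hasNormalPComplement hHall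
  intro p hp hd
  have := Fact.mk hp
  obtain ⟨S, hS⟩ := H8.exists_isSylowIn p H
  obtain ⟨P, rfl⟩ := H8.isSylowIn_top_iff.mp (htop p hp hd S hS)
  obtain ⟨q, hq, hqd, hqp⟩ : ∃ q : ℕ, q.Prime ∧ q ∣ Nat.card H ∧ q ≠ p := by
    by_contra hne
    push Not at hne
    have hH : IsPGroup p H := IsPGroup.iff_card.mpr
      ⟨_, Nat.eq_prime_pow_of_unique_prime_dvd Nat.card_pos.ne' fun {q} hq hd => hne q hq hd⟩
    exact hnot p hp P (hS.eq_of_le hH le_rfl hS.le).symm
  have := Fact.mk hq
  obtain ⟨Q, hQ⟩ := H8.exists_isSylowIn q H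
  apply H8.hasNormalPComplement_of_forall_le_centralizes P
  intro U hU g hg hgp
  have hQU : Q ≤ Subgroup.centralizer (U : Set G) :=
    H4.le_centralizer_of_isNilpotent_of_coprime hnil hQ.le (hU.trans hS.le)
      (IsPGroup.coprime_card_of_ne q p hqp _ _ hQ.isPGroup (P.2.to_le hU))
  obtain ⟨c, hc, m, hm, rfl⟩ := ((htop q hq hqd Q hQ).mono hQU le_top).frattini
    (H4.normalizer_le_normalizer_centralizer _ hg)
  rw [hnorm' q hq hqd Q hQ] at hm
  obtain ⟨a, b, ha, hb, rfl, ⟨k, hk⟩, hbp⟩ := H8.exists_pPart_mul_pPrimePart p m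
  have haH : a ∈ H := Subgroup.zpowers_le.mpr hm ha
  have hbH : b ∈ H := Subgroup.zpowers_le.mpr hm hb
  have hbC : b ∈ Subgroup.centralizer (U : Set G) := by
    refine H4.le_centralizer_of_isNilpotent_of_coprime hnil (Subgroup.zpowers_le.mpr hbH)
      (hU.trans hS.le) (H4.coprime_card_of_isPGroup ?_ (P.2.to_le hU)) (Subgroup.mem_zpowers b)
    rwa [Nat.card_zpowers]
  -- work modulo the centralizer inside the normalizer
  have hCN := Subgroup.centralizer_le_normalizer (U : Set G)
  have haN : a ∈ Subgroup.normalizer (U : Set G) := by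
    have := mul_mem (mul_mem (inv_mem (hCN hc)) hg) (inv_mem (hCN hbC))
    simpa [mul_assoc] using this
  let f := U.normalizerMonoidHom
  have hker : ∀ x (hx : x ∈ Subgroup.normalizer (U : Set G)),
      x ∈ Subgroup.centralizer (U : Set G) ↔ f ⟨x, hx⟩ = 1 := fun x hx => by
    rw [← MonoidHom.mem_ker, Subgroup.normalizerMonoidHom_ker, Subgroup.mem_subgroupOf]
  have h1 : f ⟨_, hg⟩ = f ⟨a, haN⟩ := by
    have : (⟨_, hg⟩ : Subgroup.normalizer (U : Set G)) =
        ⟨c, hCN hc⟩ * (⟨a, haN⟩ * ⟨b, hCN hbC⟩) := rfl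
    rw [this, map_mul, map_mul, (hker _ _).mp hc, (hker _ _).mp hbC, one_mul, mul_one]
  rw [hker _ hg, ← orderOf_eq_one_iff]
  apply Nat.eq_one_of_dvd_coprimes (hgp.pow_right k)
  · exact (orderOf_map_dvd f _).trans (by rw [Subgroup.orderOf_mk])
  · rw [h1, orderOf_dvd_iff_pow_eq_one, ← map_pow]
    have : (⟨a, haN⟩ : Subgroup.normalizer (U : Set G)) ^ p ^ k = 1 := Subtype.ext hk
    rw [this, map_one]

end Cfsg.Agent.S0558
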