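import Cfsg.Statements.S0561
import Cfsg.Agent.H2.Systems

set_option autoImplicit false
open Pointwise
open Cfsg

namespace Cfsg.Agent.S0561

/-- Let the finite solvable group G be the product HK of subgroups, and let A be normal in H and B normal in K, where A and B are Hall subgroups of G (order coprime to index). Then for all x, y the product set of xAx⁻¹ and yBy⁻¹ is a subgroup of G. -/
theorem result {G : Type*} [Group G] [Finite G] [Group.IsSolvable G] (H K A B : Subgroup G) (hHK : ∀ g : G, ∃ h ∈ H, ∃ k ∈ K, g = h * k) (hA : A ≤ H) (hAn : (A.subgroupOf H).Normal) (hB : B ≤ K) (hBn : (B.subgroupOf K).Normal) (hAh : (Nat.card A).Coprime A.index) (hBh : (Nat.card B).Coprime B.index) (x y : G) : ∃ S : Subgroup G, (S : Set G) = ((MulAut.conj x • A : Subgroup G) : Set G) * ((MulAut.conj y • B : Subgroup G) : Set G) := by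
  obtain ⟨C, hC⟩ := H2.exists_isComplementSystem G
  have hA' := H2.isPiHall_of_coprime hAh
  have hB' := H2.isPiHall_of_coprime hBh
  obtain ⟨u, hu⟩ := H2.isPiHall_conj hA' (H2.isPiHall_hallOf hC _)
  obtain ⟨v, hv⟩ := H2.isPiHall_conj hB' (H2.isPiHall_hallOf hC _)
  have hHA : H ≤ Subgroup.normalizer (A : Set G) := Subgroup.le_normalizer_of_normal_subgroupOf hA
  have hKB : K ≤ Subgroup.normalizer (B : Set G) := Subgroup.le_normalizer_of_normal_subgroupOf hB
  have key : ∀ x y : G, ∃ g : G, MulAut.conj g • A = MulAut.conj x • A ∧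
      MulAut.conj g • B = MulAut.conj y • B := by
    intro x y
    obtain ⟨h, hh, k, hk, hhk⟩ := hHK (x⁻¹ * y)
    refine ⟨x * h, ?_, ?_⟩
    · rw [← H2.conj_smul_conj_smul, H2.conj_smul_eq_iff_mem_normalizer.mpr (hHA hh)]
    · have : x * h = y * k⁻¹ := by
        rw [eq_mul_inv_iff_mul_eq, mul_assoc, ← hhk]; simp
      rw [this, ← H2.conj_smul_conj_smul,
        H2.conj_smul_eq_iff_mem_normalizer.mpr (hKB (K.inv_mem hk))]
  obtain ⟨g, hg1, hg2⟩ := key x y
  obtain ⟨w, hw1, hw2⟩ := key u v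
  refine ⟨MulAut.conj (g * w⁻¹) • H2.hallOf C ({p | p ∣ Nat.card A} ∪ {p | p ∣ Nat.card B}), ?_⟩
  rw [Subgroup.coe_pointwise_smul, ← H2.hallOf_mul_hallOf hC, ← hu, ← hv, ← hw1, ← hw2, ← hg1,
    ← hg2, smul_mul', ← Subgroup.coe_pointwise_smul, ← Subgroup.coe_pointwise_smul,
    H2.conj_smul_conj_smul, H2.conj_smul_conj_smul, inv_mul_cancel_right]

end Cfsg.Agent.S0561
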