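import Cfsg.Statements.S0563
import Cfsg.Agent.H1.KegelWielandt
import Cfsg.Agent.S0561

set_option autoImplicit false
open Pointwise
open Cfsg

namespace Cfsg.Agent.S0563

open Subgroup in
theorem hall_Op {G : Type*} [Group G] [Finite G] {A B : Subgroup G} [Group.IsNilpotent A]
    (hcop : (Nat.card A).Coprime (Nat.card B)) (h : H1.Fac A B) {p : ℕ} (hp : p.Prime) :
    (Nat.card (H1.Op p A)).Coprime (H1.Op p A).index := by
  have : Fact p.Prime := ⟨hp⟩
  obtain ⟨k, hk⟩ := IsPGroup.iff_card.1 (H1.Op_isPGroup (p := p) (L := A))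
  by_cases hd : p ∣ Nat.card A
  · rw [hk]
    refine Nat.Coprime.pow_left _ ((Nat.Prime.coprime_iff_not_dvd hp).2 ?_)
    refine H1.not_dvd_index_Op hp (h.not_dvd_index fun hB => ?_)
    exact hp.one_lt.ne' (Nat.dvd_one.1 (hcop ▸ Nat.dvd_gcd hd hB))
  · have : H1.Op p A = ⊥ := by
      by_contra hne
      exact hd ((H1.dvd_card_of_isPGroup_of_ne_bot hp H1.Op_isPGroup hne).trans
        (card_dvd_of_le H1.Op_le))
    rw [this, card_bot]
    exact Nat.coprime_one_left _

/-- If a finite group G is the product AB of two nilpotent subgroups of coprime orders, then G is solvable, and for every Sylow p-subgroup P of A and Sylow q-subgroup Q of B the product set PQ is a subgroup. -/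
theorem result {G : Type*} [Group G] [Finite G] (A B : Subgroup G) (hA : Group.IsNilpotent A) (hB : Group.IsNilpotent B) (hcop : (Nat.card A).Coprime (Nat.card B)) (hAB : ∀ g : G, ∃ a ∈ A, ∃ b ∈ B, g = a * b) : Group.IsSolvable G ∧ ∀ (p q : ℕ) [Fact p.Prime] [Fact q.Prime] (P : Sylow p A) (Q : Sylow q B), ∃ S : Subgroup G, (S : Set G) = (((P : Subgroup A).map A.subtype : Subgroup G) : Set G) * (((Q : Subgroup B).map B.subtype : Subgroup G) : Set G) := by
  have hs := H1.kegel_wielandt G A B hA hB hAB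
  refine ⟨hs, fun p q hp hq P Q => ?_⟩
  rw [H1.map_sylow_eq_Op, H1.map_sylow_eq_Op]
  have := S0561.result A B (H1.Op p A) (H1.Op q B) hAB H1.Op_le
    (Subgroup.normal_subgroupOf_of_le_normalizer H1.le_normalizer_Op) H1.Op_le
    (Subgroup.normal_subgroupOf_of_le_normalizer H1.le_normalizer_Op)
    (hall_Op hcop hAB hp.out) (hall_Op hcop.symm (H1.Fac.symm hAB) hq.out) 1 1
  simpa using this

end Cfsg.Agent.S0563
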