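import Cfsg.Statements.S0565
import Cfsg.Agent.H1.KegelWielandt

set_option autoImplicit false
open Cfsg

namespace Cfsg.Agent.S0565

open Subgroup H1 in
theorem of_top {G : Type*} [Group G] [Finite G] {B : Subgroup G} (hA : Group.IsNilpotent (⊤ : Subgroup G))
    (hB : B ≠ ⊤) : ∃ N : Subgroup G, N.Normal ∧ N ≠ ⊤ ∧ B ≤ N := by
  obtain ⟨K, h1, h2, h3⟩ := (SnIn.of_isNilpotent (T := ⊤) (le_top (a := B))).exists_normal_lt hB
  exact ⟨K, normal_of_top_le_normalizer h3, h2.ne, h1.le⟩

open Subgroup H1 in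
theorem inf_eq_bot {G : Type*} [Group G] {A N : Subgroup G} [N.Normal] [IsMulCommutative N]
    (hA : A ≠ ⊤) (hall : ∀ N : Subgroup G, N.Normal → N ≠ ⊥ → A ⊔ N = ⊤) (hN : N ≠ ⊥) :
    A ⊓ N = ⊥ := by
  by_contra hne
  have h1 : (A ⊓ N).Normal := by
    refine normal_of_top_le_normalizer ?_
    rw [← hall N inferInstance hN]
    refine sup_le (le_trans ?_ inf_normalizer_le_normalizer_inf) ?_
    · exact le_inf le_normalizer le_normalizer_of_normal
    · exact (le_centralizer_iff.1 (inf_le_right.trans (le_centralizer N))).trans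
        (centralizer_le_normalizer _)
  have := hall _ h1 hne
  rw [sup_inf_self] at this
  exact hA this

open Subgroup H1 in
theorem aux (G : Type*) [Group G] [Finite G] : ∀ A B : Subgroup G, Group.IsNilpotent A →
    Group.IsNilpotent B → Fac A B → (A ≠ ⊤ ∨ B ≠ ⊤) →
    ∃ N : Subgroup G, N.Normal ∧ N ≠ ⊤ ∧ (A ≤ N ∨ B ≤ N) := by
  refine card_induction (P := fun G _ _ => ∀ A B : Subgroup G, Group.IsNilpotent A →
    Group.IsNilpotent B → Fac A B → (A ≠ ⊤ ∨ B ≠ ⊤) →
    ∃ N : Subgroup G, N.Normal ∧ N ≠ ⊤ ∧ (A ≤ N ∨ B ≤ N)) (fun G _ _ ih => ?_) G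
  intro A B hA hB h hp
  by_cases hAt : A = ⊤
  · subst hAt
    obtain ⟨N, h1, h2, h3⟩ := of_top hA (hp.resolve_left (fun h => h rfl))
    exact ⟨N, h1, h2, Or.inr h3⟩
  by_cases hBt : B = ⊤
  · subst hBt
    obtain ⟨N, h1, h2, h3⟩ := of_top hB hAt
    exact ⟨N, h1, h2, Or.inl h3⟩
  by_cases hex : ∃ N : Subgroup G, N.Normal ∧ N ≠ ⊥ ∧ (A ⊔ N ≠ ⊤ ∨ B ⊔ N ≠ ⊤)
  · obtain ⟨N, hN, hN0, hne⟩ := hex
    have key : ∀ X : Subgroup G, X ⊔ N ≠ ⊤ → X.map (QuotientGroup.mk' N) ≠ ⊤ := by
      intro X hX e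
      have := congrArg (comap (QuotientGroup.mk' N)) e
      rw [comap_map_eq, QuotientGroup.ker_mk', comap_top] at this
      exact hX this
    obtain ⟨M, h1, h2, h3⟩ := ih _ (card_quotient_lt hN0) _ _ (isNilpotent_map _ A)
      (isNilpotent_map _ B) (h.map (QuotientGroup.mk'_surjective N)) (hne.imp (key A) (key B))
    refine ⟨M.comap (QuotientGroup.mk' N), inferInstance, fun e => h2 ?_,
      h3.imp map_le_iff_le_comap.1 map_le_iff_le_comap.1⟩
    rw [← map_comap_eq_self_of_surjective (QuotientGroup.mk'_surjective N) M, e,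
      map_top_of_surjective _ (QuotientGroup.mk'_surjective N)]
  exfalso
  push Not at hex
  have hs := kegel_wielandt G A B hA hB h
  have htop : (⊤ : Subgroup G) ≠ ⊥ := fun e => hAt (top_le_iff.1 (e ▸ bot_le))
  obtain ⟨p, N, hp, hNp, hNc, hN0, -, hNn⟩ := exists_pGroup_of_isSolvable htop
  have : Fact p.Prime := ⟨hp⟩
  have hN : N.Normal := normal_of_top_le_normalizer (le_normalizer.trans hNn)
  have hAN := inf_eq_bot hAt (fun N a b => (hex N a b).1) hN0
  have hBN := inf_eq_bot hBt (fun N a b => (hex N a b).2) hN0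
  have c1 := (fac_of_sup_normal (hex N hN hN0).1).card
  have c2 := (fac_of_sup_normal (hex N hN hN0).2).card
  have c3 := h.card
  rw [hAN, card_bot, mul_one] at c1
  rw [hBN, card_bot, mul_one] at c2
  have hpA : p ∣ Nat.card A := by
    have : Nat.card N * Nat.card (A ⊓ B : Subgroup G) = Nat.card A := by
      refine Nat.eq_of_mul_eq_mul_left (Nat.card_pos (α := B)) ?_
      rw [← mul_assoc, ← c2, c3, mul_comm]
    exact this ▸ (dvd_card_of_isPGroup_of_ne_bot hp hNp hN0).mul_right _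
  have hP0 := Op_ne_bot_of_dvd hp hpA
  have hM0 := inf_centralizer_ne_bot_of_isPGroup hNp (Op_isPGroup (p := p) (L := A))
    le_normalizer_of_normal hN0
  have hM : (N ⊓ centralizer (Op p A : Set G)).Normal := by
    refine normal_of_top_le_normalizer ?_
    rw [← (hex N hN hN0).1]
    refine sup_le (le_trans ?_ inf_normalizer_le_normalizer_inf) ?_
    · exact le_inf le_normalizer_of_normal
        (le_normalizer_Op.trans (normalizer_le_normalizer_centralizer _))
    · exact (le_centralizer_iff.1 (inf_le_left.trans (le_centralizer N))).trans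
        (centralizer_le_normalizer _)
  have hP : (Op p A).Normal := by
    refine normal_of_top_le_normalizer ?_
    rw [← (hex _ hM hM0).1]
    exact sup_le le_normalizer_Op (inf_le_right.trans (centralizer_le_normalizer _))
  have := (hex _ hP hP0).1
  rw [sup_of_le_left Op_le] at this
  exact hAt this

/-- Let the finite group G be the product AB of nilpotent subgroups A and B, not both equal to G. Then there is a proper normal subgroup of G containing A or containing B. -/
theorem result {G : Type*} [Group G] [Finite G] (A B : Subgroup G) (hA : Group.IsNilpotent A) (hB : Group.IsNilpotent B) (hAB : ∀ g : G, ∃ a ∈ A, ∃ b ∈ B, g = a * b) (hproper : A ≠ ⊤ ∨ B ≠ ⊤) : ∃ N : Subgroup G, N.Normal ∧ N ≠ ⊤ ∧ (A ≤ N ∨ B ≤ N) := by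
  exact aux G A B hA hB hAB hproper

end Cfsg.Agent.S0565
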