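import Cfsg.Statements.S0567
import Cfsg.Agent.H1.Nilp

set_option autoImplicit false
open Cfsg

namespace Cfsg.Agent.S0567

/-- A subgroup H of a group G is subnormal exactly when, for some m, the subgroup obtained from G by taking the commutator with H m times in succession is contained in H. -/
theorem result {G : Type*} [Group G] (H : Subgroup G) : H.IsSubnormal ↔ ∃ m : ℕ, (fun K : Subgroup G => ⁅K, H⁆)^[m] ⊤ ≤ H := by
  open Subgroup in
  constructor
  · intro h
    have key : ∀ K : Subgroup G, K.IsSubnormal → H ≤ K →
        ∃ m : ℕ, (fun K : Subgroup G => ⁅K, H⁆)^[m] ⊤ ≤ K := by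
      intro K hK
      induction hK with
      | top => exact fun _ => ⟨0, le_top⟩
      | step K L hle _ hN ih =>
        intro hHK
        obtain ⟨m, hm⟩ := ih (hHK.trans hle)
        refine ⟨m + 1, ?_⟩
        rw [Function.iterate_succ_apply']
        refine (commutator_mono hm hHK).trans ?_
        exact le_normalizer_iff_commutator_le_right.1
          ((normal_subgroupOf_iff_le_normalizer hle).1 hN)
    exact key H h le_rfl
  · rintro ⟨m, hm⟩
    have key : ∀ (m : ℕ) (K : Subgroup G), H ≤ normalizer (K : Set G) →
        H1.SnIn ((fun K : Subgroup G => ⁅K, H⁆)^[m] K ⊔ H) (K ⊔ H) := by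
      intro m
      induction m with
      | zero => exact fun K _ => H1.SnIn.refl _
      | succ m ih =>
        intro K hK
        rw [Function.iterate_succ_apply]
        refine (ih _ (normalizer_commutator_ge_right _ _)).trans (H1.SnIn.of_normal ?_ ?_)
        · exact sup_le_sup_right (le_normalizer_iff_commutator_le_left.1 hK) _
        · refine sup_le ?_ (le_sup_right.trans le_normalizer)
          refine H1.le_normalizer_of_conj_le fun x hx => ?_
          rw [smul_sup]
          refine sup_le ((H1.conj_smul_le_of_mem_normalizer le_rfl
            (normalizer_commutator_ge_left _ _ hx)).trans le_sup_left) ?_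
          rintro _ ⟨y, hy, rfl⟩
          change MulAut.conj x y ∈ _
          rw [conj_eq_commutatorElement_mul]
          exact mul_mem_sup (commutator_mem_commutator hx hy) hy
    have := key m ⊤ le_normalizer_of_normal
    rw [sup_eq_right.2 hm, top_sup_eq] at this
    exact this.isSubnormal

end Cfsg.Agent.S0567
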