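import Cfsg.Statements.S0568
import Cfsg.Agent.H2.Systems
import Cfsg.Agent.S0065

set_option autoImplicit false
open Cfsg

namespace Cfsg.Agent.S0568

/-- A non-central minimal normal `q`-subgroup of a solvable group has no nontrivial fixed points
under a Hall `q'`-subgroup. -/
theorem inf_centralizer_hall_eq_bot {G : Type*} [Group G] [Finite G] [Group.IsSolvable G]
    (B : Subgroup G) [B.Normal] (hB0 : B ≠ ⊥)
    (hmin : ∀ L : Subgroup G, L.Normal → L ≤ B → L = ⊥ ∨ L = B) {q : ℕ} (hq : q.Prime)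
    (hBq : IsPGroup q B) (hc : ¬ B ≤ Subgroup.center G) {H : Subgroup G}
    (hH : IsPiHall {r | r ≠ q} H) : B ⊓ Subgroup.centralizer (H : Set G) = ⊥ := by
  set C := Subgroup.centralizer (B : Set G) with hC
  have hCt : C ≠ ⊤ := fun h => hc (Subgroup.centralizer_eq_top_iff_subset.mp h)
  have : Nontrivial (G ⧸ C) := QuotientGroup.nontrivial_iff.mpr hCt
  obtain ⟨R₀, hR₀n, hR₀0, -, r, hr, hR₀⟩ := H2.exists_abelian_pgroup_normal (G := G ⧸ C)
  have hf := QuotientGroup.mk'_surjective C
  set R := R₀.comap (QuotientGroup.mk' C) with hR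
  have h1 : B ⊓ Subgroup.centralizer (R : Set G) = ⊥ := by
    refine (hmin _ inferInstance inf_le_left).resolve_right fun h => hR₀0 ?_
    have h2 : R ≤ C := Subgroup.le_centralizer_iff.mp (h.ge.trans inf_le_right)
    rw [eq_bot_iff]
    intro x hx
    obtain ⟨x, rfl⟩ := hf x
    exact (QuotientGroup.eq_one_iff x).mpr (h2 hx)
  have key : ∀ (π : Set ℕ) (X : Subgroup G), IsPiHall π X → r ∈ π →
      B ⊓ Subgroup.centralizer (X : Set G) = ⊥ := by
    intro π X hX hrπ
    have h2 : R₀ ≤ X.map (QuotientGroup.mk' C) :=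
      H2.normal_le_of_isPiHall (H2.isPiHall_map hf hX) (H2.isPiNum_card_of_isPGroup hr hrπ hR₀)
    have h3 : R ≤ X ⊔ C := by
      have := Subgroup.comap_mono (f := QuotientGroup.mk' C) h2
      rwa [Subgroup.comap_map_eq, QuotientGroup.ker_mk'] at this
    rw [eq_bot_iff, ← h1]
    refine le_inf inf_le_left (Subgroup.le_centralizer_iff.mp (h3.trans (sup_le ?_ ?_)))
    · exact Subgroup.le_centralizer_iff.mp inf_le_right
    · exact Subgroup.centralizer_le inf_le_left
  by_cases hrq : r = q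
  · subst hrq
    have : Fact r.Prime := ⟨hr⟩
    obtain ⟨P, hP⟩ := hBq.exists_le_sylow
    have h2 := key {r} P (H2.isPiHall_sylow P) rfl
    have := P.isPGroup'.isNilpotent
    have h3 : B.subgroupOf P ≠ ⊥ := by
      rw [Ne, Subgroup.subgroupOf_eq_bot, disjoint_iff, inf_eq_left.mpr hP]
      exact hB0
    exfalso
    apply S0065.result (B.subgroupOf (P : Subgroup G)) h3
    rw [eq_bot_iff]
    rintro x ⟨hx1, hx2⟩
    have h4 : (x : G) ∈ B ⊓ Subgroup.centralizer ((P : Subgroup G) : Set G) :=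
      ⟨hx1, fun y hy => congrArg Subtype.val (Subgroup.mem_center_iff.mp hx2 ⟨y, hy⟩)⟩
    rw [h2] at h4
    exact Subtype.ext h4
  · exact key _ H hH hrq


/-- Let D be the system normalizer of a Hall complement system of a finite solvable group G, and let A < B be normal subgroups with no normal subgroup of G strictly between them (a chief factor). If G centralizes B modulo A then B ≤ A ⊔ D (D covers the factor); otherwise B ∩ D ≤ A (D avoids it). -/
theorem result {G : Type*} [Group G] [Finite G] [Group.IsSolvable G] (K : Nat.Primes → Subgroup G) (hK : Cfsg.IsComplementSystem K) (A B : Subgroup G) [A.Normal] [B.Normal] (hAB : A < B) (hchief : ∀ N : Subgroup G, N.Normal → A ≤ N → N ≤ B → N = A ∨ N = B) : (⁅B, (⊤ : Subgroup G)⁆ ≤ A → B ≤ A ⊔ Cfsg.systemNormalizer K) ∧ (¬ ⁅B, (⊤ : Subgroup G)⁆ ≤ A → B ⊓ Cfsg.systemNormalizer K ≤ A) := by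
  have hf := QuotientGroup.mk'_surjective A
  set f := QuotientGroup.mk' A with hfdef
  have hker : f.ker = A := QuotientGroup.ker_mk' A
  have hD := H2.systemNormalizer_map hf hK
  have hcen : ⁅B, (⊤ : Subgroup G)⁆ ≤ A ↔ B.map f ≤ Subgroup.center (G ⧸ A) := by
    rw [← Subgroup.commutator_top_right_eq_bot_iff_le_center,
      ← Subgroup.map_top_of_surjective f hf, ← Subgroup.map_commutator, Subgroup.map_eq_bot_iff,
      hker]
  refine ⟨fun h => ?_, fun h => ?_⟩
  · have h1 := (hcen.mp h).trans (H2.center_le_systemNormalizer fun p => (K p).map f)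
    rwa [hD, Subgroup.map_le_map_iff, hker, sup_comm] at h1
  · have hBn : (B.map f).Normal := Subgroup.Normal.map inferInstance f hf
    have hB0 : B.map f ≠ ⊥ := by
      rw [Ne, Subgroup.map_eq_bot_iff, hker]
      exact not_le_of_gt hAB
    have hmin : ∀ L : Subgroup (G ⧸ A), L.Normal → L ≤ B.map f → L = ⊥ ∨ L = B.map f := by
      intro L hL hLB
      have h1 : L.comap f ≤ B := by
        have := Subgroup.comap_mono (f := f) hLB
        rwa [Subgroup.comap_map_eq, hker, sup_eq_left.mpr hAB.le] at this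
      rw [← Subgroup.map_comap_eq_self_of_surjective hf L]
      rcases hchief (L.comap f) inferInstance (hker.ge.trans (Subgroup.ker_le_comap f L)) h1 with h2 | h2
      · left
        rw [h2, Subgroup.map_eq_bot_iff, hker]
      · right
        rw [h2]
    obtain ⟨-, q, hq, hBq⟩ := H2.minimal_normal_solvable (B.map f) hB0 inferInstance hmin
    have hK' := H2.isComplementSystem_iff.mp (H2.isComplementSystem_map hf hK) ⟨q, hq⟩
    have h1 := inf_centralizer_hall_eq_bot (B.map f) hB0 hmin hq hBq (fun h' => h (hcen.mpr h')) hK'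
    rintro x ⟨hxB, hxD⟩
    have h2 : f x ∈ B.map f ⊓ Subgroup.centralizer (((K ⟨q, hq⟩).map f : Subgroup _) : Set _) := by
      refine ⟨⟨x, hxB, rfl⟩, fun y hy => ?_⟩
      have h3 : f x ∈ Subgroup.normalizer (((K ⟨q, hq⟩).map f : Subgroup _) : Set _) :=
        Subgroup.le_normalizer_map f ⟨x, H2.systemNormalizer_le K _ hxD, rfl⟩
      have h4 : y⁻¹ * (f x * y * (f x)⁻¹) ∈ (K ⟨q, hq⟩).map f :=
        Subgroup.mul_mem _ (Subgroup.inv_mem _ hy) ((Subgroup.mem_normalizer_iff.mp h3 y).mp hy)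
      have h5 : y⁻¹ * (f x * y * (f x)⁻¹) ∈ B.map f := by
        have h6 : f x ∈ B.map f := ⟨x, hxB, rfl⟩
        have := (B.map f).mul_mem (hBn.conj_mem _ h6 y⁻¹) ((B.map f).inv_mem h6)
        simpa [mul_assoc] using this
      have h7 : Disjoint (B.map f) ((K ⟨q, hq⟩).map f) :=
        Subgroup.disjoint_of_coprime_natCard (H2.IsPiNum.coprime (π := {r | r ≠ q}) hK'.1
          (H2.isPiNum_card_of_isPGroup hq (by simp) hBq)).symm
      have h8 := Subgroup.disjoint_def.mp h7 h5 h4
      rw [inv_mul_eq_one, eq_mul_inv_iff_mul_eq] at h8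
      exact h8
    rw [h1, Subgroup.mem_bot] at h2
    exact hker ▸ h2

end Cfsg.Agent.S0568
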