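import Cfsg.Statements.S0570
import Cfsg.Agent.H2.Carter

set_option autoImplicit false
open Cfsg

namespace Cfsg.Agent.S0570

/-- Let G be a finite group with a nilpotent normal subgroup F such that G modulo F is nilpotent (nilpotent length at most two). Then a subgroup of G is a Carter subgroup if and only if it is the system normalizer of some Hall complement system. -/
theorem result {G : Type*} [Group G] [Finite G] (F : Subgroup G) [F.Normal] (hF : Group.IsNilpotent F) (hGF : Group.IsNilpotent (G ⧸ F)) (C : Subgroup G) : Cfsg.IsCarterSubgroup C ↔ ∃ K : Nat.Primes → Subgroup G, Cfsg.IsComplementSystem K ∧ C = Cfsg.systemNormalizer K := by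
  have hsolv : Group.IsSolvable G :=
    (Group.isSolvable_iff_subgroup_quotient F).mpr ⟨inferInstance, inferInstance⟩
  have hf := QuotientGroup.mk'_surjective F
  have key : ∀ C : Subgroup G, Cfsg.IsCarterSubgroup C →
      ∃ K : Nat.Primes → Subgroup G, Cfsg.IsComplementSystem K ∧ C = Cfsg.systemNormalizer K := by
    intro C hC
    have hCn := hC.1
    have htop : C.map (QuotientGroup.mk' F) = ⊤ :=
      H2.IsCarterSubgroup.eq_of_le' (H2.isCarter_map hf hC) le_top inferInstance
    have h : ∀ q : Nat.Primes, ∃ K : Subgroup G, IsPiHall {r | r ≠ q} K ∧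
        C ≤ Subgroup.normalizer (K : Set G) := by
      intro q
      obtain ⟨A, hA⟩ := H2.exists_isPiHall {r | r ≠ q} F
      obtain ⟨B, hB⟩ := H2.exists_isPiHall {r | r ≠ q} C
      have hAn : A.Normal := H2.isPiHall_normal_of_isNilpotent hA
      have hBn : B.Normal := H2.isPiHall_normal_of_isNilpotent hB
      have hA' : (A.map F.subtype).subgroupOf F = A :=
        Subgroup.comap_map_eq_self_of_injective F.subtype_injective _
      have hB' : (B.map C.subtype).subgroupOf C = B :=
        Subgroup.comap_map_eq_self_of_injective C.subtype_injective _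
      have hAG : (A.map F.subtype).Normal := by
        rw [← Subgroup.normalizer_eq_top_iff, eq_top_iff, ← Subgroup.normalizer_eq_top (H := F)]
        refine H2.normalizer_le_normalizer_of_isPiHall (Subgroup.map_subtype_le _) (hA'.symm ▸ hA) ?_
        have : ((A.map F.subtype).subgroupOf F).Normal := hA'.symm ▸ hAn
        exact Subgroup.le_normalizer_of_normal_subgroupOf (Subgroup.map_subtype_le _)
      have hBC : C ≤ Subgroup.normalizer ((B.map C.subtype : Subgroup G) : Set G) := by
        have : ((B.map C.subtype).subgroupOf C).Normal := hB'.symm ▸ hBn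
        exact Subgroup.le_normalizer_of_normal_subgroupOf (Subgroup.map_subtype_le _)
      refine ⟨B.map C.subtype ⊔ A.map F.subtype, ?_,
        hBC.trans Subgroup.normalizer_le_normalizer_sup_normal⟩
      rw [H2.isPiHall_iff] at hA hB ⊢
      refine ⟨H2.isPiNum_card_sup (hB.1.of_dvd (B.card_map_dvd _))
        (hA.1.of_dvd (A.card_map_dvd _)), ?_⟩
      set K := B.map C.subtype ⊔ A.map F.subtype with hK
      rw [← Subgroup.relIndex_mul_index (le_sup_left : K ≤ K ⊔ F)]
      apply H2.IsPiNum.mul
      · have h1 : K.relIndex F * F.relIndex (K ⊔ F) = F.relIndex K * K.relIndex (K ⊔ F) := by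
          rw [← Subgroup.inf_relIndex_right K F, ← Subgroup.inf_relIndex_left K F,
            Subgroup.relIndex_mul_relIndex _ _ _ inf_le_right le_sup_right,
            Subgroup.relIndex_mul_relIndex _ _ _ inf_le_left le_sup_left]
        rw [Subgroup.relIndex_sup_right, mul_comm] at h1
        have h2 : F.relIndex K ≠ 0 := Subgroup.index_ne_zero_of_finite
        rw [← Nat.eq_of_mul_eq_mul_left (Nat.pos_of_ne_zero h2) h1]
        refine hA.2.of_dvd ?_
        rw [← hA']
        exact Subgroup.relIndex_dvd_of_le_left _ le_sup_right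
      · have h1 : (K ⊔ F).index = (K.map (QuotientGroup.mk' F)).index := by
          rw [Subgroup.index_map, QuotientGroup.ker_mk', QuotientGroup.range_mk',
            Subgroup.index_top, mul_one]
        rw [h1]
        refine hB.2.of_dvd ?_
        have hs : Function.Surjective ((QuotientGroup.mk' F).comp C.subtype) := by
          rw [← MonoidHom.range_eq_top, MonoidHom.range_comp, Subgroup.range_subtype, htop]
        refine (Subgroup.index_dvd_of_le ?_).trans (B.index_map_dvd hs)
        rw [← Subgroup.map_map]
        exact Subgroup.map_mono le_sup_left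
    choose K hK hCK using h
    have hK' := H2.isComplementSystem_iff.mpr hK
    exact ⟨K, hK', H2.IsCarterSubgroup.eq_of_le' hC (le_iInf hCK)
      (H2.isNilpotent_systemNormalizer hK')⟩
  refine ⟨key C, ?_⟩
  rintro ⟨K, hK, rfl⟩
  obtain ⟨D, hD⟩ := H2.exists_isCarter G
  obtain ⟨L, hL, rfl⟩ := key D hD
  obtain ⟨g, hg⟩ := H2.complementSystem_conj hL hK
  rw [← funext hg, H2.systemNormalizer_conj_smul]
  exact H2.isCarter_conj_smul hD g

end Cfsg.Agent.S0570
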