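import Cfsg.Statements.S0573
import Cfsg.Agent.H1.Ito

set_option autoImplicit false
open Cfsg

namespace Cfsg.Agent.S0573

open Subgroup
open scoped commutatorElement

/-- if `Z(G) ∩ B = 1` and a nontrivial element of `A` centralizes `G'` we are done -/
theorem aux1 {G : Type*} [Group G] {A B : Subgroup G} [IsMulCommutative A] [IsMulCommutative B]
    (h : H1.Fac A B) (hB : center G ⊓ B = ⊥) {a : G} (ha : a ∈ A) (ha1 : a ≠ 1)
    (haK : a ∈ centralizer (commutator G : Set G)) :
    ∃ N : Subgroup G, N.Normal ∧ N ≠ ⊥ ∧ N ≤ A := by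
  have hn : (A ⊔ commutator G).Normal := Normal.of_commutator_le _ le_sup_right
  refine ⟨centralizer ((A ⊔ commutator G : Subgroup G) : Set G), inferInstance, ?_, ?_⟩
  · intro h0
    have : A ⊔ commutator G ≤ centralizer {a} := by
      refine sup_le (fun x hx => ?_) (fun x hx => ?_)
      · exact mem_centralizer_singleton_iff.2 (setLike_mul_comm (s := A) hx ha)
      · exact mem_centralizer_singleton_iff.2 (haK x hx)
    have h2 : a ∈ centralizer ((A ⊔ commutator G : Subgroup G) : Set G) :=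
      fun x hx => mem_centralizer_singleton_iff.1 (this hx)
    rw [h0] at h2
    exact ha1 h2
  · intro z hz
    obtain ⟨x, hx, y, hy, rfl⟩ := h z
    have hyA : ∀ a' ∈ A, a' * y = y * a' := by
      intro a' ha'
      have h1 := hz a' (mem_sup_left ha')
      rw [← mul_assoc, setLike_mul_comm (s := A) ha' hx, mul_assoc, mul_assoc] at h1
      exact mul_left_cancel h1
    have : y ∈ center G ⊓ B := by
      refine ⟨mem_center_iff.2 fun g => ?_, hy⟩
      obtain ⟨a', ha', b', hb', rfl⟩ := h g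
      rw [mul_assoc, setLike_mul_comm (s := B) hb' hy, ← mul_assoc, hyA a' ha', mul_assoc]
    rw [hB, mem_bot] at this
    rw [this, mul_one]; exact hx

theorem aux2 {G : Type*} [Group G] [Finite G] {A B : Subgroup G} [IsMulCommutative A]
    [IsMulCommutative B] (h : H1.Fac A B) (hK : commutator G ≠ ⊥) :
    ∃ a ∈ A, ∃ b ∈ B, a * b ≠ 1 ∧ a ∈ centralizer (commutator G : Set G) ∧
      b ∈ centralizer (commutator G : Set G) := by
  have hKc : IsMulCommutative (commutator G) := by
    rw [h.commutator_eq]; exact h.commutator_isMulCommutative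
  have := H1.isNilpotent_of_isMulCommutative (commutator G)
  obtain ⟨p, hp, hdvd⟩ := Nat.exists_prime_and_dvd (mt (eq_bot_iff_card _).2 hK)
  have : Fact p.Prime := ⟨hp⟩
  let P₀ : Sylow p (commutator G) := default
  set Kp := (P₀ : Subgroup (commutator G)).map (commutator G).subtype with hKp
  have hKpn : Kp.Normal := H1.normal_of_top_le_normalizer
    (le_normalizer_of_normal.trans (H1.normalizer_le_normalizer_sylow_of_isNilpotent P₀))
  have hKpp : IsPGroup p Kp := P₀.isPGroup'.map _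
  have hKp0 : Kp ≠ ⊥ := by
    rw [Ne, map_eq_bot_iff_of_injective _ (subtype_injective _)]
    exact P₀.ne_bot_of_dvd_card hdvd
  obtain ⟨P, Q, R, hR⟩ := h.exists_sylow p
  have hKR : Kp ≤ R := hKpp.le_sylow_of_normal R
  have h1 := H1.inf_centralizer_ne_bot_of_isPGroup hKpp R.isPGroup' le_normalizer_of_normal hKp0
  obtain ⟨⟨z, hzK, hzR⟩, hz1⟩ := ne_bot_iff_exists_ne_one.1 h1
  have hmemR : ∀ r ∈ (R : Subgroup G), ∃ a ∈ A, ∃ b ∈ B, a ∈ (R : Subgroup G) ∧
      b ∈ (R : Subgroup G) ∧ a * b = r := by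
    intro r hr
    rw [← SetLike.mem_coe, hR] at hr
    obtain ⟨a, ha, b, hb, e⟩ := hr
    refine ⟨a, map_subtype_le _ ha, b, map_subtype_le _ hb, ?_, ?_, e⟩
    · rw [← SetLike.mem_coe, hR]; exact ⟨a, ha, 1, one_mem _, mul_one _⟩
    · rw [← SetLike.mem_coe, hR]; exact ⟨1, one_mem _, b, hb, one_mul _⟩
  obtain ⟨a, ha, b, hb, haR, hbR, rfl⟩ := hmemR z (hKR hzK)
  have hbc : b ∈ centralizer ((R : Subgroup G) : Set G) := by
    intro r hr
    obtain ⟨a', ha', b', hb', haR', -, rfl⟩ := hmemR r hr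
    have h2 := hzR a' haR'
    rw [← mul_assoc, setLike_mul_comm (s := A) ha' ha, mul_assoc, mul_assoc] at h2
    rw [mul_assoc, setLike_mul_comm (s := B) hb' hb, ← mul_assoc, mul_left_cancel h2, mul_assoc]
  have hbK : ∀ g : G, ⁅b, g⁆ ∈ Kp := by
    intro g
    obtain ⟨a', ha', b', hb', rfl⟩ := h g
    rw [commutatorElement_mul_right_eq_mul_conj, commutatorElement_eq_one_iff_mul_comm.2
      (setLike_mul_comm (s := B) hb hb')]
    have e : ⁅b, a'⁆ = a⁻¹ * (a * b) * a * (a' * (a⁻¹ * (a * b)⁻¹ * a) * a'⁻¹) := by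
      have h3 : a * a' = a' * a := setLike_mul_comm (s := A) ha ha'
      have h4 : a * a'⁻¹ = a'⁻¹ * a := setLike_mul_comm (s := A) ha (A.inv_mem ha')
      calc ⁅b, a'⁆ = b * (a' * a) * a⁻¹ * b⁻¹ * a'⁻¹ := by rw [commutatorElement_def]; group
        _ = _ := by rw [← h3]; group
    simp only [mul_one, mul_inv_cancel_right]
    rw [e]
    exact Kp.mul_mem (hKpn.conj_mem' _ hzK a)
      (hKpn.conj_mem _ (hKpn.conj_mem' _ (Kp.inv_mem hzK) a) a')
  have hbC : b ∈ centralizer (commutator G : Set G) := by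
    intro k hk
    -- `k ↦ ⁅b, k⁆` is a homomorphism on the abelian group `G'`
    have hpow : ∀ n : ℕ, ⁅b, k ^ n⁆ = ⁅b, k⁆ ^ n := by
      intro n
      induction n with
      | zero => simp
      | succ n ih =>
        rw [pow_succ', commutatorElement_mul_right_eq_mul_conj, ih, pow_succ', mul_assoc ⁅b, k⁆,
          setLike_mul_comm (s := commutator G) hk (pow_mem (map_subtype_le _ (hbK k)) n)]
        group
    have hk2 : k ^ (P₀ : Subgroup (commutator G)).index ∈ Kp :=
      mem_map_of_mem (commutator G).subtype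
        ((P₀ : Subgroup (commutator G)).pow_index_mem ⟨k, hk⟩)
    have h5 : ⁅b, k⁆ ^ (P₀ : Subgroup (commutator G)).index = 1 := by
      rw [← hpow, commutatorElement_eq_one_iff_mul_comm]
      exact (hbc _ (hKR hk2)).symm
    obtain ⟨j, hj⟩ := hKpp ⟨_, hbK k⟩
    have hj' : ⁅b, k⁆ ^ p ^ j = 1 := congrArg Subtype.val hj
    have hcop : (p ^ j).Coprime (P₀ : Subgroup (commutator G)).index :=
      ((Nat.Prime.coprime_iff_not_dvd hp).2 P₀.not_dvd_index).pow_left j
    have h6 : ⁅b, k⁆ = 1 := (pow_eq_one_iff_of_coprime hcop).1 ⟨hj', h5⟩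
    exact (commutatorElement_eq_one_iff_mul_comm.1 h6).symm
  refine ⟨a, ha, b, hb, fun e => hz1 (Subtype.ext e), ?_, hbC⟩
  exact (mul_mem_cancel_right hbC).1 ((commutator G).le_centralizer (map_subtype_le _ hzK))

/-- If a nontrivial finite group G is the product AB of abelian subgroups A and B, then some nontrivial normal subgroup of G is contained in A or in B. -/
theorem result {G : Type*} [Group G] [Finite G] [Nontrivial G] (A B : Subgroup G) [IsMulCommutative A] [IsMulCommutative B] (hAB : ∀ g : G, ∃ a ∈ A, ∃ b ∈ B, g = a * b) : ∃ N : Subgroup G, N.Normal ∧ N ≠ ⊥ ∧ (N ≤ A ∨ N ≤ B) := by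
  have h : H1.Fac A B := hAB
  have hZ : ∀ X : Subgroup G, (center G ⊓ X).Normal := fun X =>
    ⟨fun n hn g => by rwa [mem_center_iff.1 hn.1 g, mul_inv_cancel_right]⟩
  by_cases hA : center G ⊓ A = ⊥
  swap
  · exact ⟨_, hZ _, hA, Or.inl inf_le_right⟩
  by_cases hB : center G ⊓ B = ⊥
  swap
  · exact ⟨_, hZ _, hB, Or.inr inf_le_right⟩
  by_cases hK : commutator G = ⊥
  · rw [(commutator_eq_bot_iff_center_eq_top G).1 hK, top_inf_eq] at hA hB
    have := h.sup_eq_top
    rw [hA, hB, sup_idem] at this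
    exact absurd this bot_ne_top
  obtain ⟨a, ha, b, hb, hab, haK, hbK⟩ := aux2 h hK
  by_cases ha1 : a = 1
  · have hb1 : b ≠ 1 := by rintro rfl; exact hab (by simp [ha1])
    obtain ⟨N, h1, h2, h3⟩ := aux1 h.symm hA hb hb1 hbK
    exact ⟨N, h1, h2, Or.inr h3⟩
  · obtain ⟨N, h1, h2, h3⟩ := aux1 h hB ha ha1 haK
    exact ⟨N, h1, h2, Or.inl h3⟩

end Cfsg.Agent.S0573
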