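import Cfsg.Statements.S0571
import Cfsg.Agent.H5.Supersolvable
import Cfsg.Agent.S0573

set_option autoImplicit false
open Cfsg

namespace Cfsg.Agent.S0571

/-- If a finite group G is the product AB of two cyclic subgroups (every element is a product ab), then G is supersolvable. -/
theorem result {G : Type*} [Group G] [Finite G] (A B : Subgroup G) [IsCyclic A] [IsCyclic B] (hAB : ∀ g : G, ∃ a ∈ A, ∃ b ∈ B, g = a * b) : Cfsg.IsSupersolvable G := by
  induction hn : Nat.card G using Nat.strong_induction_on generalizing G with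
  | _ n ih =>
    rcases subsingleton_or_nontrivial G with hG | hG
    · exact H5.supersolvable_of_isCyclic
    obtain ⟨N, hN, hb, hle⟩ := S0573.result A B hAB
    have : IsCyclic N := hle.elim (fun h => Subgroup.isCyclic_of_le h) (fun h => Subgroup.isCyclic_of_le h)
    have hA : IsCyclic (A.map (QuotientGroup.mk' N)) :=
      isCyclic_of_surjective _ ((QuotientGroup.mk' N).subgroupMap_surjective A)
    have hB : IsCyclic (B.map (QuotientGroup.mk' N)) :=
      isCyclic_of_surjective _ ((QuotientGroup.mk' N).subgroupMap_surjective B)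
    refine H5.supersolvable_of_quotient_cyclic N (ih _ (hn ▸ H5.card_quotient_lt hb)
      (A.map (QuotientGroup.mk' N)) (B.map (QuotientGroup.mk' N)) (fun g => ?_) rfl)
    obtain ⟨g, rfl⟩ := QuotientGroup.mk'_surjective N g
    obtain ⟨a, ha, b, hb, rfl⟩ := hAB g
    exact ⟨_, ⟨a, ha, rfl⟩, _, ⟨b, hb, rfl⟩, map_mul _ _ _⟩

end Cfsg.Agent.S0571
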