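import Cfsg.Statements.S0574
import Cfsg.Agent.H1.KegelWielandt

set_option autoImplicit false
open Cfsg

namespace Cfsg.Agent.S0574

open Subgroup H1 in
theorem comm_of_abelian_closure {G : Type*} [Group G] {A B Z : Subgroup G} [IsMulCommutative A]
    (h : Fac A B) (hZ : B ≤ centralizer (Z : Set G))
    [IsMulCommutative (normalClosure (Z : Set G))] :
    IsMulCommutative (B ⊓ (A ⊔ normalClosure (Z : Set G)) : Subgroup G) := by
  set V := normalClosure (Z : Set G) with hV
  have hZV : Z ≤ V := le_normalClosure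
  have key : ∀ b ∈ B ⊓ (A ⊔ V), ∃ a ∈ A, ∃ v ∈ V, a * v = b ∧ ∀ w ∈ V, w * a = a * w := by
    intro b hb
    obtain ⟨a, ha, v, hv, rfl⟩ := (mem_sup_of_le_normalizer le_normalizer_of_normal).1 hb.2
    refine ⟨a, ha, v, hv, rfl, ?_⟩
    have h1 : a ∈ centralizer (Z : Set G) :=
      (mul_mem_cancel_right (centralizer_le hZV (le_centralizer V hv))).1 (hZ hb.1)
    have h2 : V ≤ centralizer {a} :=
      (h.symm.mono le_rfl (fun x hx => mem_centralizer_singleton_iff.2
        (setLike_mul_comm (s := A) hx ha))).normalClosure_le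
        (hZ.trans (centralizer_le_normalizer _))
        (fun z hz => mem_centralizer_singleton_iff.2 (h1 z hz))
    exact fun w hw => mem_centralizer_singleton_iff.1 (h2 hw)
  refine le_centralizer_iff_isMulCommutative.1 fun b hb c hc => ?_
  obtain ⟨a, ha, v, hv, rfl, h1⟩ := key b hb
  obtain ⟨a', ha', v', hv', rfl, h2⟩ := key c hc
  have e1 : Commute a' a := setLike_mul_comm (s := A) ha' ha
  have e2 : Commute v' v := setLike_mul_comm (s := V) hv' hv
  have e3 : Commute v' a := h1 v' hv'
  have e4 : Commute a' v := (h2 v hv).symm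
  exact (e1.mul_right e4).mul_left (e3.mul_right e2)

open Subgroup H1 in
theorem commutator_lt {G : Type*} [Group G] [Finite G] [Group.IsSolvable G] {A B : Subgroup G}
    [IsMulCommutative A] (h : Fac A B) (hZ : B ≤ centralizer ((⁅B, B⁆ : Subgroup G) : Set G))
    (hne : ⁅B, B⁆ ≠ ⊥) :
    ⁅B ⊓ (A ⊔ normalClosure ((⁅B, B⁆ : Subgroup G) : Set G)),
      B ⊓ (A ⊔ normalClosure ((⁅B, B⁆ : Subgroup G) : Set G))⁆ < ⁅B, B⁆ := by
  set K := normalClosure ((⁅B, B⁆ : Subgroup G) : Set G) with hK
  refine lt_of_le_of_ne (commutator_mono inf_le_left inf_le_left) fun e => ?_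
  let f := QuotientGroup.mk' ⁅K, K⁆
  have hf : Function.Surjective f := QuotientGroup.mk'_surjective _
  have hKf : normalClosure (((⁅B, B⁆ : Subgroup G).map f : Subgroup _) : Set (G ⧸ ⁅K, K⁆)) =
      K.map f := (map_normalClosure _ _ hf).symm
  have : IsMulCommutative (normalClosure (((⁅B, B⁆ : Subgroup G).map f : Subgroup _) :
      Set (G ⧸ ⁅K, K⁆))) := by
    rw [hKf, ← commutator_self_eq_bot_iff, ← map_commutator, Subgroup.map_eq_bot_iff, QuotientGroup.ker_mk']
  have h1 := comm_of_abelian_closure (Z := (⁅B, B⁆ : Subgroup G).map f) (h.map hf) (by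
    rintro _ ⟨b, hb, rfl⟩ _ ⟨z, hz, rfl⟩
    rw [← map_mul, ← map_mul, hZ hb z hz])
  rw [hKf, ← Subgroup.map_sup, ← commutator_self_eq_bot_iff] at h1
  have h2 : ⁅B, B⁆ ≤ ⁅K, K⁆ := by
    rw [← e, ← QuotientGroup.ker_mk' ⁅K, K⁆, ← Subgroup.map_eq_bot_iff, map_commutator, eq_bot_iff, ← h1]
    exact commutator_mono (map_inf_le _ _ _) (map_inf_le _ _ _)
  have h3 : K ≤ ⁅K, K⁆ := normalClosure_le_normal h2
  have hK0 : K ≠ ⊥ := fun e => hne (le_bot_iff.1 (e ▸ le_normalClosure))
  exact (commutator_self_lt_of_isSolvable hK0).not_ge h3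

theorem length_lt {m n : ℕ} (hn : n ≠ 0) (hd : m ∣ n) (hne : m ≠ n) :
    m.primeFactorsList.length < n.primeFactorsList.length := by
  obtain ⟨k, rfl⟩ := hd
  rw [(Nat.perm_primeFactorsList_mul (left_ne_zero_of_mul hn) (right_ne_zero_of_mul hn)).length_eq,
    List.length_append]
  have : k.primeFactorsList ≠ [] := by
    rw [Ne, Nat.primeFactorsList_eq_nil]
    rintro (rfl | rfl)
    · exact hn (mul_zero _)
    · exact hne (mul_one _).symm
  have := List.length_pos_iff.2 this
  omega

open Subgroup H1 in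
theorem aux (n : ℕ) : ∀ (G : Type*) [Group G] [Finite G] [Group.IsSolvable G] (A B : Subgroup G)
    [IsMulCommutative A], Fac A B → B ≤ centralizer ((⁅B, B⁆ : Subgroup G) : Set G) →
    (Nat.card (⁅B, B⁆ : Subgroup G)).primeFactorsList.length ≤ n →
    derivedSeries G (2 + 2 * n) = ⊥ := by
  induction n with
  | zero =>
    intro G _ _ _ A B _ h hZ hn
    have : ⁅B, B⁆ = ⊥ := by
      rw [Nat.le_zero, List.length_eq_zero_iff, Nat.primeFactorsList_eq_nil] at hn
      exact card_eq_one.1 (hn.resolve_left Nat.card_pos.ne')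
    have := commutator_self_eq_bot_iff.1 this
    exact h.derivedSeries_two
  | succ n ih =>
    intro G _ _ _ A B _ h hZ hn
    by_cases h0 : ⁅B, B⁆ = ⊥
    · rw [show 2 + 2 * (n + 1) = (2 + 2 * n) + 1 + 1 by ring, derivedSeries_succ,
        derivedSeries_succ, ih G A B h hZ (by simp [h0])]
      simp
    have hlt := commutator_lt h hZ h0
    set K := normalClosure ((⁅B, B⁆ : Subgroup G) : Set G) with hK
    have h2 : derivedSeries G 2 ≤ A ⊔ K := by
      refine le_sup_of_le_right ?_
      let f := QuotientGroup.mk' K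
      have hf : Function.Surjective f := QuotientGroup.mk'_surjective _
      have : IsMulCommutative (B.map f) := by
        rw [← commutator_self_eq_bot_iff, ← map_commutator, Subgroup.map_eq_bot_iff, QuotientGroup.ker_mk']
        exact le_normalClosure
      rw [← QuotientGroup.ker_mk' K, ← Subgroup.map_eq_bot_iff, map_derivedSeries_eq hf]
      exact (h.map hf).derivedSeries_two
    set H := A ⊔ K
    have hmap : (⁅B.subgroupOf H, B.subgroupOf H⁆).map H.subtype = ⁅B ⊓ H, B ⊓ H⁆ := by
      rw [map_commutator, subgroupOf_map_subtype]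
    have h3 := ih H (A.subgroupOf H) (B.subgroupOf H) (h.subgroupOf_of_le_left le_sup_left)
      (fun b hb z hz => Subtype.ext (hZ hb z (hlt.le (hmap ▸ mem_map_of_mem _ hz)))) (by
        rw [← card_map_of_injective H.subtype_injective, hmap]
        have := length_lt Nat.card_pos.ne' (card_dvd_of_le hlt.le) (card_lt_of_lt hlt).ne
        omega)
    have h4 : ∀ k, derivedSeries G (2 + k) ≤ (derivedSeries H k).map H.subtype := by
      intro k
      induction k with
      | zero => rwa [derivedSeries_zero, ← MonoidHom.range_eq_map, range_subtype]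
      | succ k ihk =>
        rw [← add_assoc, derivedSeries_succ, derivedSeries_succ, map_commutator]
        exact commutator_mono ihk ihk
    have h5 := h4 (2 + 2 * n)
    rw [h3, Subgroup.map_bot, le_bot_iff] at h5
    rwa [show 2 + 2 * (n + 1) = 2 + (2 + 2 * n) by ring]

/-- Let the finite group G be the product AB of an abelian subgroup A and a subgroup B of nilpotency class at most two, and let Ω be the number of prime factors, with multiplicity, of the order of the commutator subgroup of B. Then the term of index 2(1 + Ω) of the derived series of G is trivial. -/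
theorem result {G : Type*} [Group G] [Finite G] (A B : Subgroup G) [IsMulCommutative A] (hB : commutator ↥B ≤ Subgroup.center ↥B) (hAB : ∀ g : G, ∃ a ∈ A, ∃ b ∈ B, g = a * b) : derivedSeries G (2 * (1 + (Nat.card ↥(commutator ↥B)).primeFactorsList.length)) = ⊥ := by
  have hmap := Subgroup.map_subtype_commutator B
  have hnil : Group.IsNilpotent B := by
    refine ⟨⟨2, ?_⟩⟩
    rw [eq_top_iff]
    intro x _
    rw [Subgroup.mem_upperCentralSeries_succ_iff]
    intro y
    rw [Subgroup.upperCentralSeries_one]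
    exact hB (Subgroup.commutator_mem_commutator (Subgroup.mem_top x) (Subgroup.mem_top y))
  have := H1.kegel_wielandt G A B (H1.isNilpotent_of_isMulCommutative A) hnil hAB
  rw [mul_add, mul_one]
  refine aux _ G A B hAB ?_ ?_
  · rw [← hmap]
    rintro b hb _ ⟨z, hz, rfl⟩
    exact (congrArg Subtype.val (Subgroup.mem_center_iff.1 (hB hz) ⟨b, hb⟩)).symm
  · rw [← hmap, Subgroup.card_map_of_injective B.subtype_injective]

end Cfsg.Agent.S0574
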