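import Cfsg.Statements.S0577
import Cfsg.Agent.H4.Schmidt

set_option autoImplicit false
open Cfsg

namespace Cfsg.Agent.S0577

/-- Let G be a finite minimal non-nilpotent group and Q a normal Sylow q-subgroup of G, and let D be the commutator subgroup of Q regarded in G (a normal subgroup). Then G modulo D is non-abelian and all its proper subgroups are abelian. -/
theorem result {G : Type*} [Group G] [Finite G] (hG : Cfsg.IsMinimalNonNilpotent G) (q : ℕ) [Fact q.Prime] (hq : q ∣ Nat.card G) (Q : Sylow q G) (hQ : (Q : Subgroup G).Normal) (D : Subgroup G) [D.Normal] (hD : D = (commutator ↥(Q : Subgroup G)).map (Q : Subgroup G).subtype) : ¬ IsMulCommutative (G ⧸ D) ∧ ∀ K : Subgroup (G ⧸ D), K ≠ ⊤ → IsMulCommutative K := by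
  obtain ⟨p, q', hp, hq', hpq, P, Q', x, hP, hQ', htop, hx⟩ := H4.schmidt_structure hG
  have := Fact.mk hp
  have := Fact.mk hq'
  have hc : (Q' : Subgroup G).IsComplement' P :=
    Subgroup.isComplement'_of_disjoint_and_mul_eq_univ
      (IsPGroup.disjoint_of_ne q' p hpq.symm _ _ Q'.2 P.2)
      (by rw [← Subgroup.normal_mul, htop, Subgroup.coe_top])
  have hqq : q = q' := by
    obtain ⟨m, hm⟩ := P.2.exists_card_eq
    obtain ⟨n, hn⟩ := Q'.2.exists_card_eq
    rw [← hc.card_mul_card, hm, hn] at hq
    rcases (Nat.Prime.dvd_mul Fact.out).mp hq with h | h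
    · exact (Nat.prime_dvd_prime_iff_eq Fact.out hq').mp ((Fact.out : q.Prime).dvd_of_dvd_pow h)
    · exfalso
      obtain rfl : q = p :=
        (Nat.prime_dvd_prime_iff_eq Fact.out hp).mp ((Fact.out : q.Prime).dvd_of_dvd_pow h)
      have := Sylow.unique_of_normal Q hQ
      obtain rfl : P = Q := Subsingleton.elim _ _
      apply hx
      intro y hy
      exact (Subgroup.commute_of_normal_of_disjoint _ _ hQ' hQ hc.disjoint y x hy
        (hP ▸ Subgroup.mem_zpowers x)).eq
  subst hqq
  have := Sylow.unique_of_normal Q hQ
  obtain rfl : Q' = Q := Subsingleton.elim _ _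
  rw [Subgroup.map_subtype_commutator] at hD
  have hPc : IsMulCommutative (P : Subgroup G) := by rw [hP]; infer_instance
  have hG' : commutator G ≤ Q' := H4.commutator_le_of_sup_eq_top htop
  constructor
  · intro hcomm
    apply hx
    have h1 : commutator G ≤ D := by
      rw [← QuotientGroup.ker_mk' D, ← Subgroup.map_eq_bot_iff, commutator_def,
        Subgroup.map_commutator, Subgroup.commutator_self_eq_bot_iff]
      infer_instance
    have := H4.le_centralizer_of_commutator_le_frattini (A := P) (K := Q')
      Subgroup.le_normalizer_of_normal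
      ((IsPGroup.coprime_card_of_ne p q hpq _ _ P.2 Q'.2).coprime_dvd_right
        (Subgroup.card_subgroup_dvd_card _))
      ((Subgroup.commutator_mono le_top le_top).trans (h1.trans
        (hD.le.trans (H7.commutator_le_map_frattini Q'.2))))
    exact Subgroup.le_centralizer_iff.mp this (hP ▸ Subgroup.mem_zpowers x)
  · intro K hK
    have hs := QuotientGroup.mk'_surjective D
    have hKn : Group.IsNilpotent K := by
      rw [← Subgroup.map_comap_eq_self_of_surjective hs K]
      apply H3.isNilpotent_map
      apply hG.2
      intro h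
      exact hK (Subgroup.comap_injective hs (h.trans (Subgroup.comap_top _).symm))
    apply H4.isMulCommutative_of_isNilpotent hKn
    intro r _ R _ hR
    have hDQ : D ≤ Q' := hD.le.trans (Subgroup.commutator_le_left _ _)
    rw [← Subgroup.commutator_self_eq_bot_iff, eq_bot_iff]
    by_cases hr : r = q
    · subst hr
      have h1 : R.comap (QuotientGroup.mk' D) ≤ Q' := by
        have h2 : IsPGroup r (R.comap (QuotientGroup.mk' D)) :=
          hR.comap_of_ker_isPGroup _ (by rw [QuotientGroup.ker_mk']; exact Q'.2.to_le hDQ)
        obtain ⟨S, hS⟩ := h2.exists_le_sylow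
        rwa [Subsingleton.elim S Q'] at hS
      have h2 : R ≤ (Q' : Subgroup G).map (QuotientGroup.mk' D) := by
        rw [← Subgroup.map_comap_eq_self_of_surjective hs R]
        exact Subgroup.map_mono h1
      refine (Subgroup.commutator_mono h2 h2).trans ?_
      rw [← Subgroup.map_commutator, ← hD, le_bot_iff, Subgroup.map_eq_bot_iff,
        QuotientGroup.ker_mk']
    · have h1 : ⁅R, R⁆ ≤ (Q' : Subgroup G).map (QuotientGroup.mk' D) := by
        refine (Subgroup.commutator_mono le_top le_top).trans (le_trans ?_ (Subgroup.map_mono hG'))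
        rw [commutator_def, Subgroup.map_commutator, Subgroup.map_top_of_surjective _ hs]
      exact (le_inf (H4.commutator_le_left_of_le_normalizer Subgroup.le_normalizer) h1).trans
        (IsPGroup.disjoint_of_ne r q hr _ _ hR (Q'.2.map _)).le_bot

end Cfsg.Agent.S0577
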