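import Cfsg.Statements.S0578
import Cfsg.Agent.H4.Schmidt

set_option autoImplicit false
open Cfsg

namespace Cfsg.Agent.S0578

/-- If in a finite group the normalizer of each abelian subgroup coincides with its centralizer, then the group is abelian. -/
theorem result {G : Type*} [Group G] [Finite G] (h : ∀ A : Subgroup G, IsMulCommutative A → Subgroup.normalizer (A : Set G) = Subgroup.centralizer (A : Set G)) : IsMulCommutative G := by
  have key : ∀ (p : ℕ) [Fact p.Prime] (P : Subgroup G), IsPGroup p P → IsMulCommutative P := by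
    intro p _ P hP
    obtain ⟨A, -, hA⟩ := Finite.exists_le_maximal
      (p := fun A : Subgroup G => A ≤ P ∧ IsMulCommutative A) (a := ⊥) ⟨bot_le, inferInstance⟩
    obtain ⟨hAP, hAc⟩ := hA.prop
    rcases hAP.lt_or_eq with hlt | rfl
    · exfalso
      obtain ⟨x, hx, hxA⟩ := SetLike.exists_of_lt (H8.lt_inf_normalizer_of_lt hP hlt)
      have hxC : x ∈ Subgroup.centralizer (A : Set G) := h A hAc ▸ hx.2
      exact hxA (hA.le_of_ge ⟨sup_le hAP (Subgroup.zpowers_le.mpr hx.1),
        H3.isMulCommutative_sup_zpowers hxC⟩ le_sup_left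
        (Subgroup.mem_sup_right (Subgroup.mem_zpowers x)))
    · exact hAc
  have hnil : Group.IsNilpotent G := H4.isNilpotent_of_forall_hasNormalPComplement fun q hq => by
    have := Fact.mk hq
    obtain ⟨P⟩ : Nonempty (Sylow q G) := inferInstance
    exact H8.hasNormalPComplement_of_normalizer_le_centralizer P (h P (key q P P.2)).le
  apply H4.isMulCommutative_of_top
  exact H4.isMulCommutative_of_isNilpotent inferInstance fun p _ P _ hP => key p P hP

end Cfsg.Agent.S0578
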