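import Cfsg.Statements.S0582
import Cfsg.Agent.H2.Systems

set_option autoImplicit false
open Pointwise
open Cfsg

namespace Cfsg.Agent.S0582

universe u

theorem ss_of_surjective {G Q : Type*} [Group G] [Group Q] (f : G →* Q)
    (hf : Function.Surjective f) (hG : IsSupersolvable G) : IsSupersolvable Q := by
  obtain ⟨n, H, h0, hn, hnorm, hstep⟩ := hG
  refine ⟨n, fun i => (H i).map f, by simp [h0], by simp [hn, Subgroup.map_top_of_surjective f hf],
    fun i => (hnorm i).map f hf, fun i => ?_⟩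
  obtain ⟨g, hg⟩ := hstep i
  exact ⟨f g, by simp only [hg, Subgroup.map_sup, MonoidHom.map_zpowers]⟩

theorem ss_prime_normal {G : Type*} [Group G] [Finite G] [Nontrivial G] (hG : IsSupersolvable G) :
    ∃ N : Subgroup G, N.Normal ∧ (Nat.card N).Prime := by
  obtain ⟨n, H, h0, hn, hnorm, hstep⟩ := hG
  obtain ⟨i, h1, h2, -⟩ := H2.exists_chain_image (MonoidHom.id G) Function.surjective_id H h0 hn
  obtain ⟨g, hg⟩ := hstep i
  rw [MonoidHom.ker_id, le_bot_iff] at h2
  rw [h2, bot_sup_eq] at hg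
  rw [Subgroup.map_id, hg] at h1
  have hn : (Subgroup.zpowers g).Normal := hg ▸ hnorm _
  obtain ⟨r, hr, hrd⟩ := Nat.exists_prime_and_dvd
    ((Subgroup.zpowers g).one_lt_card_iff_ne_bot.mpr h1).ne'
  have : Fact r.Prime := ⟨hr⟩
  obtain ⟨x, hx⟩ := exists_prime_orderOf_dvd_card' r hrd
  refine ⟨Subgroup.zpowers (x : G), ⟨fun y hy a => ?_⟩, by
    rwa [Nat.card_zpowers, Subgroup.orderOf_coe, hx]⟩
  obtain ⟨k, hk⟩ := hn.conj_mem g (Subgroup.mem_zpowers g) a
  obtain ⟨m, hm⟩ := x.2
  obtain ⟨l, rfl⟩ := hy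
  refine ⟨l * k, ?_⟩
  simp only at hk hm ⊢
  rw [← hm, ← zpow_mul, ← zpow_mul, ← conj_zpow, ← hk, ← zpow_mul]
  congr 1
  ring

theorem ss_normal_sylow (p : ℕ) [hp : Fact p.Prime] (n : ℕ) : ∀ (G : Type u) [Group G] [Finite G],
    Nat.card G = n → IsSupersolvable G → (∀ q : ℕ, q.Prime → q ∣ Nat.card G → q ≤ p) →
    ∀ P : Subgroup G, IsPiHall {p} P → P.Normal := by
  induction n using Nat.strongRecOn with | ind n ih => ?_
  rintro G _ _ rfl hG hmax P hP
  rcases subsingleton_or_nontrivial G with hs | hs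
  · rw [Subsingleton.elim P ⊤]; infer_instance
  obtain ⟨N, hNn, hN⟩ := ss_prime_normal hG
  have hN0 : N ≠ ⊥ := N.one_lt_card_iff_ne_bot.mp hN.one_lt
  have hf := QuotientGroup.mk'_surjective N
  have h1 := ih _ (H2.card_quotient_lt_of_ne_bot hN0) (G ⧸ N) rfl (ss_of_surjective _ hf hG)
    (fun q hq hd => hmax q hq (hd.trans N.card_quotient_dvd_card)) _ (H2.isPiHall_map hf hP)
  have h2 : (P ⊔ N).Normal := by
    conv_rhs => rw [← QuotientGroup.ker_mk' N]
    rw [← Subgroup.comap_map_eq]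
    infer_instance
  obtain ⟨S, hS⟩ := H2.exists_sylow_eq_of_isPiHall
    (H2.isPiHall_subgroupOf_of_le hP (le_sup_left : P ≤ P ⊔ N))
  have h3 : (S : Subgroup ↥(P ⊔ N)).index ∣ Nat.card N := by
    have h4 := H2.card_sup_normal_dvd P N
    rw [← (P.subgroupOf (P ⊔ N)).card_mul_index, H2.card_subgroupOf_of_le le_sup_left] at h4
    rw [hS]
    exact Nat.dvd_of_mul_dvd_mul_left Nat.card_pos h4
  have h4 : Nat.card (Sylow p ↥(P ⊔ N)) = 1 := by
    rcases (Nat.dvd_prime hN).mp (S.card_dvd_index.trans h3) with h | h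
    · exact h
    have h5 := card_sylow_modEq_one p ↥(P ⊔ N)
    have h6 := hmax _ hN N.card_subgroup_dvd_card
    rw [← h] at h6
    rcases h6.lt_or_eq with h6 | h6
    · exact Nat.ModEq.eq_of_lt_of_lt h5 h6 hp.out.one_lt
    · exact absurd (dvd_of_eq h6.symm) (not_dvd_card_sylow p ↥(P ⊔ N))
  have : Subsingleton (Sylow p ↥(P ⊔ N)) := (Nat.card_eq_one_iff_unique.mp h4).1
  have h5 : ((S : Subgroup ↥(P ⊔ N)).map (P ⊔ N).subtype).Normal := inferInstance
  rwa [hS, Subgroup.map_subgroupOf_eq_of_le le_sup_left] at h5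

theorem aux (n : ℕ) : ∀ (G : Type u) [Group G] [Finite G] (π : Set ℕ) (H K : Subgroup G),
    Nat.card H = n → IsSupersolvable H → IsSupersolvable K → IsPiHall π H → IsPiHall π K →
    ∃ x : G, MulAut.conj x • H = K := by
  induction n using Nat.strongRecOn with | ind n ih => ?_
  rintro G _ _ π H K rfl hH hK hHh hKh
  have hcard := H2.isPiHall_card_eq hHh hKh
  by_cases hH0 : H = ⊥
  · rw [hH0, Subgroup.card_bot, eq_comm, Subgroup.card_eq_one] at hcard
    exact ⟨1, by rw [hH0, hcard, map_one, one_smul]⟩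
  have hH1 := H.one_lt_card_iff_ne_bot.mpr hH0
  have hne : (Nat.card H).primeFactors.Nonempty := Nat.nonempty_primeFactors.mpr hH1
  set p := (Nat.card H).primeFactors.max' hne with hpdef
  have hpm := Nat.mem_primeFactors.mp ((Nat.card H).primeFactors.max'_mem hne)
  have hp : p.Prime := hpm.1
  have : Fact p.Prime := ⟨hp⟩
  have hmax : ∀ q : ℕ, q.Prime → q ∣ Nat.card H → q ≤ p := fun q hq hd =>
    Finset.le_max' _ _ (Nat.mem_primeFactors.mpr ⟨hq, hd, hpm.2.2⟩)
  have key : ∀ X : Subgroup G, IsSupersolvable X → IsPiHall π X → ∃ S : Sylow p G,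
      (S : Subgroup G) ≤ X ∧ X ≤ Subgroup.normalizer ((S : Subgroup G) : Set G) := by
    intro X hX hXh
    obtain ⟨T⟩ : Nonempty (Sylow p X) := inferInstance
    have hTn := ss_normal_sylow p _ X rfl hX (H2.isPiHall_card_eq hHh hXh ▸ hmax) _
      (H2.isPiHall_sylow T)
    have hT : IsPiHall {p} ((T : Subgroup X).map X.subtype) := by
      refine ⟨H2.IsPiNum.of_dvd (H2.isPiHall_sylow T).1 (Subgroup.card_map_dvd _ _), ?_⟩
      intro s hs hsp hd
      rw [Set.mem_singleton_iff.mp hsp, Subgroup.index_map_subtype, hp.dvd_mul] at hd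
      exact hd.elim T.not_dvd_index (hXh.2 p hp (hHh.1 p hp hpm.2.1))
    obtain ⟨S, hS⟩ := H2.exists_sylow_eq_of_isPiHall hT
    refine ⟨S, hS ▸ Subgroup.map_subtype_le _, ?_⟩
    have h1 := (T : Subgroup X).le_normalizer_map X.subtype
    rwa [Subgroup.normalizer_eq_top, ← MonoidHom.range_eq_map, Subgroup.range_subtype, ← hS] at h1
  obtain ⟨S, hSH, hHS⟩ := key H hH hHh
  obtain ⟨T, hTK, hKT⟩ := key K hK hKh
  obtain ⟨g, hg⟩ := MulAction.exists_smul_eq G S T
  have hg' : MulAut.conj g • (S : Subgroup G) = T := by rw [← hg, Sylow.coe_subgroup_smul]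
  set H' := MulAut.conj g • H with hH'def
  have hTH' : (T : Subgroup G) ≤ H' := by
    rw [← hg']
    exact Subgroup.pointwise_smul_le_pointwise_smul_iff.mpr hSH
  set N := Subgroup.normalizer ((T : Subgroup G) : Set G) with hN
  have hH'N : H' ≤ N := by
    rw [hN, ← hg', H2.normalizer_conj_smul]
    exact Subgroup.pointwise_smul_le_pointwise_smul_iff.mpr hHS
  have hH' : IsSupersolvable H' := ss_of_surjective
    (Subgroup.equivSMul (MulAut.conj g) H).toMonoidHom (MulEquiv.surjective _) hH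
  have hf := QuotientGroup.mk'_surjective ((T : Subgroup G).subgroupOf N)
  set f := QuotientGroup.mk' ((T : Subgroup G).subgroupOf N) with hfdef
  have hss : ∀ X : Subgroup G, X ≤ N → IsSupersolvable X →
      IsSupersolvable ((X.subgroupOf N).map f) := fun X hXN hX =>
    ss_of_surjective _ (f.subgroupMap_surjective _) (ss_of_surjective
      (Subgroup.subgroupOfEquivOfLe hXN).symm.toMonoidHom (MulEquiv.surjective _) hX)
  have hlt : Nat.card ((H'.subgroupOf N).map f) < Nat.card H := by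
    rw [← Subgroup.relIndex_ker, QuotientGroup.ker_mk', Subgroup.relIndex_subgroupOf hH'N,
      ← H2.card_conj_smul H g, ← ((T : Subgroup G).subgroupOf H').card_mul_index,
      H2.card_subgroupOf_of_le hTH']
    refine lt_mul_of_one_lt_left (Nat.pos_of_ne_zero Subgroup.index_ne_zero_of_finite) ?_
    exact (Subgroup.one_lt_card_iff_ne_bot _).mpr
      (T.ne_bot_of_dvd_card (hpm.2.1.trans H.card_subgroup_dvd_card))
  obtain ⟨y, hy⟩ := ih _ hlt _ π _ ((K.subgroupOf N).map f) rfl (hss H' hH'N hH') (hss K hKT hK)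
    (H2.isPiHall_map hf (H2.isPiHall_subgroupOf_of_le (H2.isPiHall_conj_smul hHh g) hH'N))
    (H2.isPiHall_map hf (H2.isPiHall_subgroupOf_of_le hKh hKT))
  obtain ⟨y, rfl⟩ := hf y
  rw [← H2.map_conj_smul] at hy
  have h1 := Subgroup.map_injective_of_ker_le f (by
      rw [QuotientGroup.ker_mk', ← Subgroup.Normal.conj_smul_eq_self y ((T : Subgroup G).subgroupOf N),
        Subgroup.pointwise_smul_le_pointwise_smul_iff]
      exact Subgroup.subgroupOf_mono N hTH')
    (by rw [QuotientGroup.ker_mk']; exact Subgroup.subgroupOf_mono N hTK) hy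
  exact ⟨y * g, by
    rw [← H2.conj_smul_conj_smul]; exact H2.conj_smul_eq_of_subgroupOf hH'N hKT y h1⟩


/-- Let H and K be supersolvable subgroups of a finite group G of the same order, that order being coprime to their index. Then H and K are conjugate in G. -/
theorem result {G : Type*} [Group G] [Finite G] (H K : Subgroup G) (hH : Cfsg.IsSupersolvable H) (hK : Cfsg.IsSupersolvable K) (hcard : Nat.card H = Nat.card K) (hHall : (Nat.card H).Coprime H.index) : ∃ x : G, MulAut.conj x • H = K := by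
  have h := H2.isPiHall_iff_card_eq (H := H) H.card_mul_index.symm Nat.card_pos.ne' hHall
  have h' := H2.isPiHall_iff_card_eq (H := K) H.card_mul_index.symm Nat.card_pos.ne' hHall
  exact aux _ G _ H K rfl hH hK (h.mpr rfl) (h'.mpr hcard.symm)

end Cfsg.Agent.S0582
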