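import Cfsg.Statements.S0586
import Cfsg.Agent.H3.Frattini

set_option autoImplicit false
open Cfsg

namespace Cfsg.Agent.S0586

/-- If the Frattini subgroup of a finite group G is trivial, then the Fitting subgroup of G equals the join of all abelian minimal normal subgroups of G. -/
theorem result {G : Type*} [Group G] [Finite G] (hΦ : frattini G = ⊥) : Cfsg.fittingSubgroup G = sSup {N : Subgroup G | N.Normal ∧ N ≠ ⊥ ∧ IsMulCommutative N ∧ ∀ K : Subgroup G, K.Normal → K ≤ N → K = ⊥ ∨ K = N} := by
  haveI := H3.fitting_normal G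
  haveI := H3.fitting_isNilpotent G
  set S := sSup {N : Subgroup G | N.Normal ∧ N ≠ ⊥ ∧ IsMulCommutative N ∧
    ∀ K : Subgroup G, K.Normal → K ≤ N → K = ⊥ ∨ K = N} with hS
  have hSF : S ≤ fittingSubgroup G := sSup_le fun N hN =>
    haveI := hN.1
    haveI := hN.2.2.1
    H3.le_fitting_of_isMulCommutative
  haveI hSn : S.Normal := Subgroup.sSup_normal _ fun _ h => h.1
  have hF : IsMulCommutative (fittingSubgroup G) := by
    rw [← Subgroup.commutator_self_eq_bot_iff, eq_bot_iff, ← hΦ, ← Subgroup.map_subtype_commutator]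
    exact (Subgroup.map_mono H3.commutator_le_frattini_of_isNilpotent).trans
      (H3.map_frattini_le_frattini _)
  haveI : IsMulCommutative S := Subgroup.le_centralizer_iff_isMulCommutative.mp
    ((hSF.trans (Subgroup.le_centralizer _)).trans (H3.centralizer_anti hSF))
  obtain ⟨H, hH⟩ := H3.exists_isComplement'_of_inf_frattini_eq_bot S (by rw [hΦ, inf_bot_eq])
  have h1 := H3.sup_inf_of_normal_le (H := H) hSF
  rw [sup_comm H S, hH.sup_eq_top, top_inf_eq] at h1
  haveI : (H ⊓ fittingSubgroup G).Normal := by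
    rw [← Subgroup.normalizer_eq_top_iff, eq_top_iff, ← hH.sup_eq_top]
    refine sup_le ?_ ((le_inf Subgroup.le_normalizer Subgroup.le_normalizer_of_normal).trans
      Subgroup.inf_normalizer_le_normalizer_inf)
    exact ((hSF.trans (Subgroup.le_centralizer _)).trans (H3.centralizer_anti inf_le_right)).trans
      (Subgroup.centralizer_le_normalizer _)
  have h2 : H ⊓ fittingSubgroup G = ⊥ := by
    by_contra h
    obtain ⟨M, hMn, hM0, hMN, hmin⟩ := H3.exists_minimal_normal_le _ h
    have hMF := hMN.trans inf_le_right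
    have hMc : IsMulCommutative M := Subgroup.le_centralizer_iff_isMulCommutative.mp
      ((hMF.trans (Subgroup.le_centralizer _)).trans (H3.centralizer_anti hMF))
    have hMS : M ≤ S := le_sSup ⟨hMn, hM0, hMc, hmin⟩
    exact hM0 (le_bot_iff.mp (hH.disjoint.le_bot.trans' (le_inf hMS (hMN.trans inf_le_left))))
  rw [h1, h2, bot_sup_eq]

end Cfsg.Agent.S0586
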