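import Cfsg.Statements.S0587
import Cfsg.Agent.H3.Primitive

set_option autoImplicit false
open Cfsg

namespace Cfsg.Agent.S0587

/-- Let G be a finite group whose largest normal p-subgroup L is nontrivial, and M a maximal subgroup of G with trivial normal core. Then L is elementary abelian, M is a complement to L, L is a minimal normal subgroup of G, the centralizer of L is L, and for every prime q such that the largest normal q-subgroup of M is nontrivial, the order of L is congruent to 1 modulo q and q ≠ p. -/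
theorem result {G : Type*} [Group G] [Finite G] (p : ℕ) [Fact p.Prime] (hL : Cfsg.pCore p G ≠ ⊥) (M : Subgroup G) (hM : IsCoatom M) (hcore : M.normalCore = ⊥) : Cfsg.IsElementaryAbelian p (Cfsg.pCore p G) ∧ Subgroup.IsComplement' (Cfsg.pCore p G) M ∧ (∀ K : Subgroup G, K.Normal → K ≤ Cfsg.pCore p G → K = ⊥ ∨ K = Cfsg.pCore p G) ∧ Subgroup.centralizer ((Cfsg.pCore p G : Subgroup G) : Set G) = Cfsg.pCore p G ∧ ∀ (q : ℕ) [Fact q.Prime], Cfsg.pCore q ↥M ≠ ⊥ → Nat.card (Cfsg.pCore p G) % q = 1 % q ∧ q ≠ p := by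
  have hp : p.Prime := Fact.out
  obtain ⟨h1, h2, h3, r, hr, h4⟩ := H3.nilpotent_normal_of_coreFree hM hcore (pCore p G) hL
    (H3.pCore_isPGroup p G).isNilpotent
  have hpd := H3.dvd_card_of_isPGroup_of_ne_bot (H3.pCore_isPGroup p G) hL
  have hrp : r = p := by
    haveI := Fact.mk hr
    obtain ⟨k, hk⟩ := IsPGroup.iff_card.mp (H3.isPGroup_of_pow_eq_one h4.2)
    rw [hk] at hpd
    exact ((Nat.prime_dvd_prime_iff_eq hp hr).mp (hp.dvd_of_dvd_pow hpd)).symm
  subst hrp
  refine ⟨h4, h2, h3, h1, fun q hq hQ => ?_⟩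
  have hQ0 : (pCore q M).map M.subtype ≠ ⊥ := by
    rwa [Ne, Subgroup.map_eq_bot_iff_of_injective _ M.subtype_injective]
  have hN := H3.normalizer_eq_of_coreFree hM hcore hQ0 (Subgroup.map_subtype_le _)
    (Subgroup.le_normalizer.trans (H3.normalizer_le_normalizer_map_pCore M))
  have h5 := H3.card_modEq_card_inf_centralizer (H3.map_pCore_isPGroup (p := q) M)
    (L := pCore r G) Subgroup.le_normalizer_of_normal
  have h6 : pCore r G ⊓ Subgroup.centralizer
      (((pCore q M).map M.subtype : Subgroup G) : Set G) = ⊥ := by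
    rw [eq_bot_iff, ← h2.disjoint.eq_bot]
    exact inf_le_inf_left _ ((Subgroup.centralizer_le_normalizer _).trans hN.le)
  rw [h6, Subgroup.card_bot] at h5
  refine ⟨h5, ?_⟩
  rintro rfl
  exact hp.one_lt.ne' (Nat.dvd_one.mp ((Nat.ModEq.dvd_iff h5 dvd_rfl).mp hpd))

end Cfsg.Agent.S0587
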