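import Cfsg.Statements.S0588
import Mathlib.GroupTheory.Sylow

set_option autoImplicit false
open Cfsg

namespace Cfsg.Agent.S0588

/-- If a subgroup H of a finite group G contains the centralizer of every non-identity element of H, then the order of H is coprime to its index. -/
theorem result {G : Type*} [Group G] [Finite G] (H : Subgroup G) (h : ∀ x ∈ H, x ≠ 1 → Subgroup.centralizer ({x} : Set G) ≤ H) : (Nat.card H).Coprime H.index := by
  rw [Nat.coprime_comm]
  by_contra hne
  obtain ⟨p, hp, hpi, hpH⟩ := Nat.Prime.not_coprime_iff_dvd.mp hne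
  have : Fact p.Prime := ⟨hp⟩
  -- an element of order `p` in `H`, inside a Sylow subgroup `P` of `G`
  obtain ⟨x, hx⟩ := exists_prime_orderOf_dvd_card' (G := H) p hpH
  have hx1 : (x : G) ≠ 1 := by
    intro h1
    rw [show x = 1 from Subtype.ext h1, orderOf_one] at hx
    exact hp.one_lt.ne hx
  have hpg : IsPGroup p (Subgroup.zpowers (x : G)) :=
    IsPGroup.of_card (n := 1) (by rw [Nat.card_zpowers, Subgroup.orderOf_coe, hx, pow_one])
  obtain ⟨P, hP⟩ := hpg.exists_le_sylow
  have hxP : (x : G) ∈ (P : Subgroup G) := hP (Subgroup.mem_zpowers _)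
  have : Nontrivial P := ⟨⟨⟨x, hxP⟩, 1, fun h1 => hx1 (congrArg Subtype.val h1)⟩⟩
  have := P.isPGroup'.center_nontrivial
  obtain ⟨⟨z, hz⟩, hz1⟩ := exists_ne (1 : Subgroup.center P)
  rw [Subgroup.mem_center_iff] at hz
  have hzH : (z : G) ∈ H := h x x.2 hx1 (Subgroup.mem_centralizer_singleton_iff.mpr
    (congrArg Subtype.val (hz ⟨x, hxP⟩)).symm)
  have hPH : (P : Subgroup G) ≤ H := fun y hy =>
    h z hzH (fun h1 => hz1 (Subtype.ext (Subtype.ext h1)))
      (Subgroup.mem_centralizer_singleton_iff.mpr (congrArg Subtype.val (hz ⟨y, hy⟩)))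
  exact P.not_dvd_index (hpi.trans (Subgroup.index_dvd_of_le hPH))

end Cfsg.Agent.S0588
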