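import Cfsg.Statements.S0592
import Cfsg.Agent.H53.QuadRep

set_option autoImplicit false
open Cfsg

namespace Cfsg.Agent.S0592

/-- Two quadratically acting generators of a linear group that is not a p-group, with the p'-part of the order of their product dividing q - 1, give a homomorphism onto a subgroup of SL(2, q) that is not a p-group. -/
theorem result {K : Type*} [Field K] [Fintype K] {p : ℕ} [Fact p.Prime] [CharP K p] {W : Type*} [AddCommGroup W] [Module K W] [FiniteDimensional K W] [Finite W] [Nontrivial W] (H : Subgroup (W ≃ₗ[K] W)) (a b : W ≃ₗ[K] W) (hH : H = Subgroup.closure {a, b}) (ha : ∀ w : W, a (a w - w) = a w - w) (hb : ∀ w : W, b (b w - w) = b w - w) (hnp : ¬ IsPGroup p H) (hk : ∃ e k : ℕ, orderOf (a * b) = p ^ e * k ∧ k ∣ Fintype.card K - 1) : ∃ φ : H →* Matrix.SpecialLinearGroup (Fin 2) K, ¬ IsPGroup p φ.range := by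
  obtain ⟨e, k, hek, hkd⟩ := hk
  have haH : a ∈ H := hH ▸ Subgroup.subset_closure (by simp)
  have hbH : b ∈ H := hH ▸ Subgroup.subset_closure (by simp)
  haveI : Finite (W ≃ₗ[K] W) := Finite.of_injective (fun f : W ≃ₗ[K] W => (f : W → W))
    DFunLike.coe_injective
  let ρ : Representation K H W :=
    { toFun := fun h => ((h : W ≃ₗ[K] W) : W →ₗ[K] W)
      map_one' := rfl
      map_mul' := fun _ _ => rfl }
  have hgen : Subgroup.closure ({⟨a, haH⟩, ⟨b, hbH⟩} : Set H) = ⊤ := by
    apply Subgroup.map_injective H.subtype_injective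
    rw [MonoidHom.map_closure, ← MonoidHom.range_eq_map, Subgroup.range_subtype,
      Set.image_pair]
    exact hH.symm
  obtain ⟨φ, h1, -⟩ := H53.exists_SL2_hom (p := p) (K := K) (⟨a, haH⟩ : H) ⟨b, hbH⟩ hgen
    (N := p ^ e * k) (hek ▸ (orderOf_pos _).ne')
    (Subtype.ext (by rw [← hek]; exact pow_orderOf_eq_one (a * b)))
    (H53.splits_X_pow_sub_one hkd) ρ ha hb (by
      unfold IsPGroup at hnp
      push Not at hnp
      obtain ⟨g, hg⟩ := hnp
      refine ⟨g, fun k hk => hg k (Subtype.ext (LinearEquiv.toLinearMap_injective hk))⟩)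
  exact ⟨φ, h1⟩

end Cfsg.Agent.S0592
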