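import Cfsg.Statements.S0594
import Cfsg.Agent.H53.Stable

set_option autoImplicit false
open Cfsg

namespace Cfsg.Agent.S0594

/-- For odd p, two quadratic generators of a faithful group that is not a p-group, one of which acts nontrivially on a normal subgroup of order prime to p, force p = 3 and a section isomorphic to SL(2,3). -/
theorem result {G : Type*} [Group G] [Finite G] {p : ℕ} [Fact p.Prime] (hp : p ≠ 2) (V H : Subgroup G) (hV : Cfsg.IsElementaryAbelian p V) (hHV : H ≤ Subgroup.normalizer (V : Set G)) (hf : H ⊓ Subgroup.centralizer (V : Set G) = ⊥) (a b : G) (hab : H = Subgroup.closure {a, b}) (ha : ⁅⁅V, Subgroup.zpowers a⁆, Subgroup.zpowers a⁆ = ⊥) (hb : ⁅⁅V, Subgroup.zpowers b⁆, Subgroup.zpowers b⁆ = ⊥) (hnp : ¬ IsPGroup p H) (Q : Subgroup G) (hQH : Q ≤ H) (hQn : H ≤ Subgroup.normalizer (Q : Set G)) (hQ : (Nat.card Q).Coprime p) (hQa : ⁅Q, Subgroup.zpowers a⁆ ≠ ⊥) : p = 3 ∧ ∃ (K L : Subgroup G) (hL : (L.subgroupOf K).Normal),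 K ≤ H ∧ Nonempty ((K ⧸ L.subgroupOf K) ≃* Matrix.SpecialLinearGroup (Fin 2) (ZMod 3)) := by
  have := hV.1
  have haH : a ∈ H := hab ▸ Subgroup.subset_closure (by simp)
  have hQn' : (Q.subgroupOf H).Normal := Subgroup.normal_subgroupOf_of_le_normalizer hQn
  rw [Ne, Subgroup.commutator_eq_bot_iff_le_centralizer, SetLike.not_le_iff_exists] at hQa
  obtain ⟨x, hx, hxa⟩ := hQa
  rw [H53.mem_centralizer_zpowers] at hxa
  obtain ⟨h1, K, θ, hθ⟩ := H53.three_of_conj hp (H53.pow_eq_one_of_elemAb hV)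
    (H53.actHom V H.subtype fun e => hHV e.2) (H53.actHom_subtype_injective hHV hf)
    (a := ⟨a, haH⟩) (H53.quadAct_actHom V _ _ ha) (Q.subgroupOf H) ⊥ IsPGroup.of_bot
    (fun m hm => ⟨Nat.card Q, hQ, Subgroup.mem_bot.2 (Subtype.ext
      (show (m : G) ^ Nat.card Q = 1 from
        congrArg Subtype.val (pow_card_eq_one' (x := (⟨m, hm⟩ : Q)))))⟩) (x := ⟨x, hQH hx⟩) hx (by
      intro h
      apply hxa
      have h2 : a⁻¹ * (x * a * x⁻¹) = 1 := congrArg Subtype.val h
      rw [inv_mul_eq_one, eq_mul_inv_iff_mul_eq] at h2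
      exact h2)
  exact ⟨h1, H53.section_of_surjective K θ hθ⟩

end Cfsg.Agent.S0594
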