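import Cfsg.Statements.S0617
import Cfsg.Agent.H53.FF2

set_option autoImplicit false
open Cfsg

namespace Cfsg.Agent.S0617

/-- Structure Theorem for failure of factorization: a faithful group generated by best offenders, with self-centralizing p'-core, is a direct product of copies of SL(2, p) (p = 2 or 3), each acting on its own plane in V, which is the direct product of these planes and C_V(H). -/
theorem result {G : Type*} [Group G] [Finite G] {p : ℕ} [Fact p.Prime] (V H : Subgroup G) (hV : Cfsg.IsElementaryAbelian p V) (hHV : H ≤ Subgroup.normalizer (V : Set G)) (hf : H ⊓ Subgroup.centralizer (V : Set G) = ⊥) (hS1 : Subgroup.centralizer (Cfsg.pPrimeCore p ↥H : Set ↥H) ≤ Cfsg.pPrimeCore p ↥H) (hS3 : H = ⨆ A : {A : Subgroup G // A ≤ H ∧ Cfsg.IsBestOffenderOn p V A}, (A : Subgroup G)) (hH1 : H ≠ ⊥) : (p = 2 ∨ p = 3) ∧ (∀ E : {E : Subgroup G // ∃ A : Subgroup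 G, A ≤ H ∧ Cfsg.IsBestOffenderOn p V A ∧ ⁅V, A⁆ ≠ ⊥ ∧ (∀ B : Subgroup G, B ≤ A → Cfsg.IsBestOffenderOn p V B → ⁅V, B⁆ ≠ ⊥ → B = A) ∧ E = ⁅((Cfsg.pPrimeCore p ↥H).map H.subtype), A⁆ ⊔ A}, H ≤ Subgroup.normalizer ((E : Subgroup G) : Set G) ∧ Nonempty (↥(E : Subgroup G) ≃* Matrix.SpecialLinearGroup (Fin 2) (ZMod p)) ∧ Nat.card ↥(⁅V, (E : Subgroup G)⁆) = p ^ 2) ∧ iSupIndep (fun E : {E : Subgroup G // ∃ A : Subgroup G, A ≤ H ∧ Cfsg.IsBestOffenderOn p V A ∧ ⁅V, A⁆ ≠ ⊥ ∧ (∀ B : Subgroup G, B ≤ A → Cfsg.IsBestOffenderOn p V B → ⁅V, B⁆ ≠ ⊥ → B = A) ∧ E = ⁅((Cfsg.pPrimeCore p ↥H).map H.subtype), A⁆ ⊔ A} => (E : Subgroup G)) ∧ (⨆ E : {E : Subgroup G // ∃ A : Subgroup G, A ≤ H ∧ Cfsg.IsBestOffenderOn p V A ∧ ⁅V, A⁆ ≠ ⊥ ∧ (∀ B : Subgroup G, B ≤ A → Cfsg.IsBestOffenderOn p V B → ⁅V, B⁆ ≠ ⊥ → B = A) ∧ E = ⁅((Cfsg.pPrimeCore p ↥H).map H.subtype), A⁆ ⊔ A}, (E : Subgroup G)) =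 H ∧ iSupIndep (fun o : Option {E : Subgroup G // ∃ A : Subgroup G, A ≤ H ∧ Cfsg.IsBestOffenderOn p V A ∧ ⁅V, A⁆ ≠ ⊥ ∧ (∀ B : Subgroup G, B ≤ A → Cfsg.IsBestOffenderOn p V B → ⁅V, B⁆ ≠ ⊥ → B = A) ∧ E = ⁅((Cfsg.pPrimeCore p ↥H).map H.subtype), A⁆ ⊔ A} => o.elim (V ⊓ Subgroup.centralizer (H : Set G)) (fun E => ⁅V, (E : Subgroup G)⁆)) ∧ (V ⊓ Subgroup.centralizer (H : Set G)) ⊔ (⨆ E : {E : Subgroup G // ∃ A : Subgroup G, A ≤ H ∧ Cfsg.IsBestOffenderOn p V A ∧ ⁅V, A⁆ ≠ ⊥ ∧ (∀ B : Subgroup G, B ≤ A → Cfsg.IsBestOffenderOn p V B → ⁅V, B⁆ ≠ ⊥ → B = A) ∧ E = ⁅((Cfsg.pPrimeCore p ↥H).map H.subtype), A⁆ ⊔ A}, ⁅V, (E : Subgroup G)⁆) = V := by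
  have h := H53.ffHyp_of hV hHV hf hS1
  have hg := h.gen_of hS3
  generalize (pPrimeCore p ↥H).map H.subtype = Q at h ⊢
  set I := {E : Subgroup G // ∃ A : Subgroup G, A ≤ H ∧ IsBestOffenderOn p V A ∧ ⁅V, A⁆ ≠ ⊥ ∧
    (∀ B : Subgroup G, B ≤ A → IsBestOffenderOn p V B → ⁅V, B⁆ ≠ ⊥ → B = A) ∧ E = ⁅Q, A⁆ ⊔ A}
  have hI : ∀ E : I, ∃ A, A ≤ H ∧ H53.IsTransv p V A ∧ (E : Subgroup G) = ⁅Q, A⁆ ⊔ A := by
    rintro ⟨E, A, h1, h2, h3, h4, h5⟩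
    exact ⟨A, h1, h.isTransv_of_minOff h1 ⟨h2, h3, h4⟩, h5⟩
  have hI' : ∀ A, A ≤ H → H53.IsTransv p V A → ∃ E : I, (E : Subgroup G) = ⁅Q, A⁆ ⊔ A := by
    intro A h1 t
    obtain ⟨h2, h3, h4⟩ := t.minOff hV.1 (h1.trans hHV)
    exact ⟨⟨_, A, h1, h2, h3, h4, rfl⟩, rfl⟩
  have hEH : ∀ E : I, (E : Subgroup G) ≤ H := fun E => by
    obtain ⟨A, h1, t, h2⟩ := hI E
    exact h2 ▸ h.E_le h1
  have hne : ∀ E E' : I, E' ≠ E →
      (E' : Subgroup G) ≤ Subgroup.centralizer ((⁅V, (E : Subgroup G)⁆ : Subgroup G) : Set G) := by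
    intro E E' hE
    obtain ⟨A, h1, t, h2⟩ := hI E
    obtain ⟨B, h3, t', h4⟩ := hI E'
    rw [h2, h4]
    exact ((h.E_eq_or h1 t h3 t').resolve_left fun h5 =>
      hE (Subtype.ext (h4.trans (h5.symm.trans h2.symm)))).1
  have hsup : ⨆ E : I, (E : Subgroup G) = H := by
    refine le_antisymm (iSup_le hEH) (hg.trans (sSup_le fun A hA => ?_))
    obtain ⟨E, hE⟩ := hI' A hA.1 hA.2
    exact le_iSup_of_le E (hE ▸ le_sup_right)
  have hcomm : ⨆ E : I, ⁅V, (E : Subgroup G)⁆ = ⁅V, H⁆ := by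
    rw [← H53.commutator_iSup_right fun E => (hEH E).trans hHV, hsup]
  refine ⟨?_, fun E => ?_, ?_, hsup, ?_, ?_⟩
  · by_contra hcon
    refine hH1 (eq_bot_iff.2 (hg.trans (sSup_le fun A hA => ?_)))
    exact absurd (h.two_or_three hA.1 hA.2) hcon
  · obtain ⟨A, h1, t, h2⟩ := hI E
    rw [h2]
    exact ⟨h.le_normalizer_E h1 t hg, h.equiv_E h1 t, h.card_comm_E h1 t⟩
  · rw [iSupIndep_def]
    intro E
    refine Disjoint.mono_right (iSup₂_le (hne E)) ?_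
    obtain ⟨A, h1, t, h2⟩ := hI E
    rw [h2, disjoint_iff]
    exact h.faithful_E h1
  · rw [iSupIndep_def]
    rintro (_ | E)
    · refine Disjoint.mono (inf_le_right.trans (H53.centralizer_anti h.hQH)) (iSup₂_le ?_)
        (disjoint_iff.2 (h.centralizer_inf_comm le_rfl))
      rintro (_ | E) hE
      · exact absurd rfl hE
      · obtain ⟨A, h1, t, h2⟩ := hI E
        change ⁅V, (E : Subgroup G)⁆ ≤ _
        rw [h2, ← (h.comm_R h1 t).1]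
        exact Subgroup.commutator_mono le_rfl (h.comm_le_Q h1)
    · refine Disjoint.mono_right (c := Subgroup.centralizer ((E : Subgroup G) : Set G))
        (iSup₂_le ?_) ?_
      · rintro (_ | E') hE
        · exact inf_le_right.trans (H53.centralizer_anti (hEH E))
        · exact Subgroup.le_centralizer_iff.1 (hne E' E fun h1 => hE (by rw [h1]))
      · obtain ⟨A, h1, t, h2⟩ := hI E
        change Disjoint ⁅V, (E : Subgroup G)⁆ _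
        rw [h2, disjoint_iff]
        exact h.comm_E_inf h1 t
  · rw [hcomm]
    refine le_antisymm (sup_le inf_le_left (h.comm_le_V le_rfl)) ?_
    refine (h.comm_sup_centralizer le_rfl).ge.trans (sup_le
      ((Subgroup.commutator_mono le_rfl h.hQH).trans le_sup_right) (le_trans ?_ le_sup_left))
    refine le_inf inf_le_left ?_
    rw [← hsup, H53.centralizer_iSup']
    refine le_iInf fun E => ?_
    obtain ⟨A, h1, t, h2⟩ := hI E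
    rw [h2]
    exact (inf_le_inf_left _ (H53.centralizer_anti (h.comm_le_Q h1))).trans
      (h.centralizer_R_le h1 t)

end Cfsg.Agent.S0617
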