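import Cfsg.Statements.S0618
import Cfsg.Agent.H53.Transp

set_option autoImplicit false
open Cfsg

namespace Cfsg.Agent.S0618

/-- A p-separable group with trivial p'-core in which the Thompson factorization fails has p = 2 or 3, and J(G) induces on the normal closure of Ω₁(Z(S)) a group containing a normal SL(2, p). -/
theorem result {G : Type*} [Group G] [Finite G] {p : ℕ} [Fact p.Prime] (hsep : Cfsg.IsPSolvable p G) (hO : Cfsg.pPrimeCore p G = ⊥) (hnf : ¬ Cfsg.IsThompsonFactorizable p G) : (p = 2 ∨ p = 3) ∧ ∃ E : Subgroup G, Subgroup.centralizer ((⨆ S : Sylow p G, Cfsg.omegaOne p ((S : Subgroup G) ⊓ Subgroup.centralizer ((S : Subgroup G) : Set G))) : Set G) ≤ E ∧ E ≤ Cfsg.thompsonSubgroup p G ⊔ Subgroup.centralizer ((⨆ S : Sylow p G, Cfsg.omegaOne p ((S : Subgroup G) ⊓ Subgroup.centralizer ((S : Subgroup G) : Set G))) : Set G) ∧ Cfsg.thompsonSubgroup p G ⊔ Subgroup.centralizer ((⨆ S : Sylow p G, Cfsg.omegaOne p ((S : Subgroup G) ⊓ Subgroup.centralizer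 ((S : Subgroup G) : Set G))) : Set G) ≤ Subgroup.normalizer (E : Set G) ∧ ∃ hn : ((Subgroup.centralizer ((⨆ S : Sylow p G, Cfsg.omegaOne p ((S : Subgroup G) ⊓ Subgroup.centralizer ((S : Subgroup G) : Set G))) : Set G)).subgroupOf E).Normal, Nonempty ((↥E ⧸ (Subgroup.centralizer ((⨆ S : Sylow p G, Cfsg.omegaOne p ((S : Subgroup G) ⊓ Subgroup.centralizer ((S : Subgroup G) : Set G))) : Set G)).subgroupOf E) ≃* Matrix.SpecialLinearGroup (Fin 2) (ZMod p)) := by
  have hc : Subgroup.centralizer ((⨆ S : Sylow p G, Cfsg.omegaOne p ((S : Subgroup G) ⊓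
      Subgroup.centralizer ((S : Subgroup G) : Set G))) : Set G) =
      Subgroup.centralizer (H53.omegaZ p G : Set G) := by
    rw [H53.omegaZ_def, Subgroup.iSup_eq_closure, Subgroup.centralizer_closure]
    rfl
  rw [hc]
  have := H53.omegaZ_characteristic p G
  have := H51.thompsonSubgroup_characteristic p G
  have hV := H53.elemAb_omegaZ (H53.centralizer_pCore_le hsep hO)
  obtain ⟨Γ, _, _, ι, f, -, T, -⟩ := H53.exists_transp_op (H53.omegaZ p G) (1 : Unit →* MulAut G)
  have h := T.ffHyp hV hsep H53.pCore_quotient_centralizer_omegaZ (thompsonSubgroup p G)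
  have hg := T.thompson_gen hV h
  obtain ⟨A, hA, tA⟩ := T.exists_transv hV h fun h1 => hnf (H53.factorizable_of_le h1)
  obtain ⟨e⟩ := h.equiv_E hA tA
  have h1 := h.le_normalizer_E hA tA hg
  have h2 := h.E_le hA
  refine ⟨h.two_or_three hA tA, Subgroup.comap f _, T.ker_eq ▸ Subgroup.ker_le_comap f _, ?_, ?_,
    H53.exists_quot_equiv _ _ (e.toMonoidHom.comp (f.subgroupComap _)) ?_ fun d => ?_⟩
  · rw [← T.ker_eq, ← Subgroup.comap_map_eq]
    exact Subgroup.comap_mono h2
  · rw [← T.ker_eq, ← Subgroup.comap_map_eq]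
    exact (Subgroup.comap_mono h1).trans (Subgroup.le_normalizer_comap f)
  · refine e.surjective.comp fun y => ?_
    obtain ⟨g, -, hg⟩ := h2 y.2
    exact ⟨⟨g, by rw [Subgroup.mem_comap, hg]; exact y.2⟩, Subtype.ext hg⟩
  · rw [← T.ker_eq, MonoidHom.comp_apply, MulEquiv.coe_toMonoidHom, map_eq_one_iff e e.injective,
      ← Subtype.val_inj]
    rfl

end Cfsg.Agent.S0618
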