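import Cfsg.Statements.S0619
import Cfsg.Agent.H53.Transp

set_option autoImplicit false
open Cfsg

namespace Cfsg.Agent.S0619

/-- For a p-separable group and a normal elementary abelian p-subgroup V with no nontrivial normal p-subgroup modulo its centralizer C, the Thompson subgroup J(G) moves Ω₁(Z(J(C))) only inside V. -/
theorem result {G : Type*} [Group G] [Finite G] {p : ℕ} [Fact p.Prime] (hsep : Cfsg.IsPSolvable p G) (V : Subgroup G) [V.Normal] (hV : Cfsg.IsElementaryAbelian p V) (hO : Cfsg.pCore p (G ⧸ Subgroup.centralizer (V : Set G)) = ⊥) : ⁅Cfsg.omegaOne p (Cfsg.centerThompsonOf p (Subgroup.centralizer (V : Set G))), Cfsg.thompsonSubgroup p G⁆ ≤ V := by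
  have : Finite (V ⋊[MonoidHom.id (MulAut V)] MulAut V) := H4.Ext.finite_semidirect _
  have T := H53.transp_holomorph V
  set C := Subgroup.centralizer (V : Set G)
  have hVC : V ≤ C := H53.le_centralizer_of_le_comm hV.1 le_rfl le_rfl
  have : (omegaOne p (centerThompsonOf p C)).Normal := by
    rw [← Subgroup.normalizer_eq_top_iff, eq_top_iff, ← Subgroup.normalizer_eq_top C]
    exact (H51.normalizer_le_normalizer_centerThompsonOf p C).trans
      (H51.normalizer_le_normalizer_omegaOne _ _)
  rw [thompsonSubgroup, sSup_eq_iSup', H53.commutator_iSup_right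
    fun _ => Subgroup.le_normalizer_of_normal]
  refine iSup_le fun ⟨A, hA⟩ => ?_
  have h1 := T.meas_eq hV hsep hO (H53.bestOffender_of_max hV hA.1 fun B _ hB => hA.2 B hB)
  have hA' : A ∈ H51.maxEA p ⊤ := (H51.maxEA_top (G := G) p).symm ▸ hA
  have h2 : V ⊓ Subgroup.centralizer (A : Set G) = V ⊓ (C ⊓ A) := by
    refine le_antisymm (le_inf inf_le_left (le_inf (inf_le_left.trans hVC)
      (H51.le_of_mem_maxEA hA' le_top (H51.isEA_of_le hV inf_le_left) inf_le_right))) ?_
    exact inf_le_inf_left _ (H53.le_centralizer_of_le_comm hA.1.1 inf_le_right le_rfl)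
  have h3 := H53.card_inf_mul_card_sup (B := V) (C := C ⊓ A) Subgroup.le_normalizer_of_normal
  rw [mul_comm (Nat.card V), ← h1, H53.meas, h2, mul_comm] at h3
  have h4 : V ⊔ (C ⊓ A) ∈ H51.maxEA p C := H51.mem_maxEA_of_le
    (H51.mem_maxEA_of_card_le hA' le_top (H51.isEA_sup hV (H51.isEA_of_le hA.1 inf_le_right)
      inf_le_left) (Nat.eq_of_mul_eq_mul_right Nat.card_pos h3).ge) (sup_le hVC inf_le_left) le_top
  rw [← H51.sInf_maxEA_eq_omegaOne]
  refine (Subgroup.commutator_mono (H51.sInf_maxEA_le h4) le_rfl).trans ?_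
  refine (H4.commutator_le_of_mul_centralizer fun k hk => ?_).trans (Subgroup.commutator_le_left V A)
  obtain ⟨v, hv, c, hc, rfl⟩ :=
    (H53.mem_sup_of_le_normalizer Subgroup.le_normalizer_of_normal).1 hk
  exact ⟨v, hv, c, H53.le_centralizer_of_le_comm hA.1.1 inf_le_right le_rfl hc, rfl⟩

end Cfsg.Agent.S0619
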