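import Cfsg.Statements.S0620
import Cfsg.Agent.H53.Transp

set_option autoImplicit false
open Cfsg

namespace Cfsg.Agent.S0620

/-- Under coprime action of an elementary abelian q-group X on a p-separable group K with trivial p'-core, K is generated by the normalizer of J(S), the centralizer of Ω₁(Z(S)) and the fixed points of X. -/
theorem result {G : Type*} [Group G] [Finite G] {p : ℕ} [Fact p.Prime] {q : ℕ} [Fact q.Prime] (K X : Subgroup G) (hXK : X ≤ Subgroup.normalizer (K : Set G)) (hX : Cfsg.IsElementaryAbelian q X) (hq : ¬ q ∣ Nat.card K) (hsep : Cfsg.IsPSolvable p ↥K) (hO : Cfsg.pPrimeCore p ↥K = ⊥) (S : Sylow p ↥K) : (Subgroup.normalizer (Cfsg.thompsonSubgroupOf p (S : Subgroup ↥K) : Set ↥K) ⊔ Subgroup.centralizer (Cfsg.omegaOne p ((S : Subgroup ↥K) ⊓ Subgroup.centralizer ((S : Subgroup ↥K) : Set ↥K)) : Set ↥K) ⊔ (Subgroup.centralizer (X : Set G)).subgroupOf K) = ⊤ := by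
  have := H53.omegaZ_characteristic p K
  have hJ := H51.thompsonSubgroup_characteristic p K
  have hV := H53.elemAb_omegaZ (H53.centralizer_pCore_le hsep hO)
  obtain ⟨Γ, _, _, ι, f, Y, T, hY, hYV, hYJ, -, hlift, -⟩ :=
    H53.exists_transp_op' hXK (H53.isPGroup_of_elemAb hX) hq (H53.omegaZ p K)
  have h := T.ffHyp hV hsep H53.pCore_quotient_centralizer_omegaZ (thompsonSubgroup p K)
  have h1 := h.le_sylow_sup_fix (T.thompson_gen hV h) hY hYV (hYJ _ hJ)
    ((hYJ _ hJ).trans (H3.normalizer_le_normalizer_map_pPrimeCore _))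
    (fun h1 => hq (h1.trans ((Subgroup.card_map_dvd _ f).trans (Subgroup.card_subgroup_dvd_card _))))
    ((H8.isSylowIn_inf_normal S (thompsonSubgroup p K)).map f)
  rw [eq_top_iff]
  intro g _
  obtain ⟨c, hc, n, hn, rfl⟩ := H53.exists_frattini_thompson S (thompsonSubgroup p K)
    (H6.thompsonSubgroupOf_sylow_le S) g
  refine mul_mem ?_ (Subgroup.mem_sup_left (Subgroup.mem_sup_left hn))
  refine (Subgroup.map_le_map_iff.1 (h1.trans (sup_le (Subgroup.map_mono ?_) ?_))).trans
    (sup_le le_rfl ?_) hc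
  · exact (inf_le_left.trans (Subgroup.le_normalizer.trans
      (H51.normalizer_le_normalizer_thompsonSubgroupOf p _))).trans (le_sup_left.trans le_sup_left)
  · rintro _ ⟨⟨k, -, rfl⟩, hk⟩
    obtain ⟨k', h2, h3⟩ := hlift k hk
    exact ⟨k', Subgroup.mem_sup_right h2, h3⟩
  · rw [T.ker_eq]
    exact (H53.centralizer_anti (H53.le_omegaZ S)).trans (le_sup_right.trans le_sup_left)

end Cfsg.Agent.S0620
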