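import Cfsg.Statements.S0621
import Cfsg.Agent.H53.Transp

set_option autoImplicit false
open Cfsg

namespace Cfsg.Agent.S0621

/-- Let K be p-separable with O_p'(K) = 1, normalized by an elementary abelian q-group X for a prime q not dividing the order of K. If the Thompson factorization fails in K, then p is 2 or 3 and the fixed points of X contain a plane W of order p² and a subgroup inducing SL(2, p) on it. -/
theorem result {G : Type*} [Group G] [Finite G] {p : ℕ} [Fact p.Prime] {q : ℕ} [Fact q.Prime] (K X : Subgroup G) (hXK : X ≤ Subgroup.normalizer (K : Set G)) (hX : Cfsg.IsElementaryAbelian q X) (hq : ¬ q ∣ Nat.card K) (hsep : Cfsg.IsPSolvable p ↥K) (hO : Cfsg.pPrimeCore p ↥K = ⊥) (hnf : ¬ Cfsg.IsThompsonFactorizable p ↥K) : (p = 2 ∨ p = 3) ∧ ∃ W D : Subgroup G, W ≤ K ⊓ Subgroup.centralizer (X : Set G) ∧ D ≤ K ⊓ Subgroup.centralizer (X : Set G) ∧ Cfsg.IsElementaryAbelian p W ∧ Nat.card W = p ^ 2 ∧ D ≤ Subgroup.normalizer (W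 : Set G) ∧ ∃ hn : ((Subgroup.centralizer (W : Set G)).subgroupOf D).Normal, Nonempty ((↥D ⧸ (Subgroup.centralizer (W : Set G)).subgroupOf D) ≃* Matrix.SpecialLinearGroup (Fin 2) (ZMod p)) := by
  have := H53.omegaZ_characteristic p K
  have hJ := H51.thompsonSubgroup_characteristic p K
  have hV := H53.elemAb_omegaZ (H53.centralizer_pCore_le hsep hO)
  obtain ⟨Γ, _, _, ι, f, Y, T, hY, hYV, hYJ, hfix, hlift, hfixV⟩ :=
    H53.exists_transp_op' hXK (H53.isPGroup_of_elemAb hX) hq (H53.omegaZ p K)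
  have h := T.ffHyp hV hsep H53.pCore_quotient_centralizer_omegaZ (thompsonSubgroup p K)
  obtain ⟨A, hA, tA⟩ := T.exists_transv hV h fun h1 => hnf (H53.factorizable_of_le h1)
  obtain ⟨W, hW, hWc, hWn, φ, hφ1, hφ2⟩ := h.exists_diag (T.thompson_gen hV h) hY hYV (hYJ _ hJ)
    ((hYJ _ hJ).trans (H3.normalizer_le_normalizer_map_pPrimeCore _))
    (fun h1 => hq (h1.trans ((Subgroup.card_map_dvd _ f).trans (Subgroup.card_subgroup_dvd_card _))))
    hA tA
  let J := (thompsonSubgroup p K).map f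
  have hWι : (W.comap ι).map ι = W := Subgroup.map_comap_eq_self (hW.trans inf_le_left)
  let D₀ : Subgroup K := J.comap f ⊓ (Subgroup.centralizer (X : Set G)).subgroupOf K
  let e := D₀.equivMapOfInjective K.subtype K.subtype_injective
  let θ₀ : D₀ →* J := (f.comp D₀.subtype).codRestrict J fun d => d.2.1
  refine ⟨h.two_or_three hA tA, ((W.comap ι).map (H53.omegaZ p K).subtype).map K.subtype,
    D₀.map K.subtype, ?_, ?_, ?_, ?_, ?_,
    H53.exists_quot_equiv _ _ (φ.comp (θ₀.comp e.symm.toMonoidHom)) ?_ fun d => ?_⟩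
  · rintro _ ⟨_, ⟨v, hv, rfl⟩, rfl⟩
    exact ⟨(v : K).2, hfixV v (hW hv).2⟩
  · rintro _ ⟨d, hd, rfl⟩
    exact ⟨d.2, hd.2⟩
  · exact H51.isEA_map (H51.isEA_of_le hV (Subgroup.map_subtype_le _)) _
  · rw [H3.card_map_subtype, H3.card_map_subtype, ← Subgroup.card_map_of_injective T.inj, hWι, hWc]
  · refine (Subgroup.map_mono ?_).trans (Subgroup.le_normalizer_map _)
    rw [Subgroup.le_normalizer_iff]
    rintro d hd _ ⟨v, hv, rfl⟩
    refine ⟨MulAut.conjNormal d v, ?_, rfl⟩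
    rw [SetLike.mem_coe, Subgroup.mem_comap, ← T.conj']
    exact H53.conj_mem_of_mem_normalizer (hWn ⟨hd.1, hfix d hd.2⟩) hv
  · intro s
    obtain ⟨⟨_, k, hk, rfl⟩, h1, rfl⟩ := hφ1 s
    obtain ⟨k', h2, h3⟩ := hlift k h1
    refine ⟨e ⟨k', ⟨k, hk, h3.symm⟩, h2⟩, congrArg φ (Subtype.ext ?_)⟩
    rw [MonoidHom.comp_apply, MulEquiv.coe_toMonoidHom, MulEquiv.symm_apply_apply]
    exact h3
  · obtain ⟨d, rfl⟩ := e.surjective d
    rw [MonoidHom.comp_apply, MonoidHom.comp_apply, MulEquiv.coe_toMonoidHom,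
      MulEquiv.symm_apply_apply, hφ2 _ (hfix d d.2.2)]
    conv_lhs => rw [← hWι]
    refine (T.mem_centralizer_iff_map (d : K)).trans ⟨?_, fun h1 w hw => ?_⟩
    · rintro h1 _ ⟨w, hw, rfl⟩
      exact congrArg Subtype.val (h1 w hw)
    · exact Subtype.ext (h1 _ (Subgroup.mem_map_of_mem _ hw))

end Cfsg.Agent.S0621
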