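import Cfsg.Statements.S0627
import Cfsg.Agent.H53.WStable

set_option autoImplicit false
open Cfsg

namespace Cfsg.Agent.S0627

/-- In a p-separable group with p at least 5, the normalizer of W(S) supplements the largest normal subgroup of order prime to p. -/
theorem result {G : Type*} [Group G] [Finite G] {p : ℕ} [Fact p.Prime] (hp : 5 ≤ p) (hsep : Cfsg.IsPSolvable p G) (S : Sylow p G) : Cfsg.pPrimeCore p G ⊔ Subgroup.normalizer (((Cfsg.stableNormalClosure p ↥(S : Subgroup G)).map (S : Subgroup G).subtype) : Set G) = ⊤ := by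
  have hs := QuotientGroup.mk'_surjective (pPrimeCore p G)
  have hk : (Nat.card (QuotientGroup.mk' (pPrimeCore p G)).ker).Coprime p := by
    rw [QuotientGroup.ker_mk']; exact H3.pPrimeCore_coprime p G
  have hq := H53.isPSolvable_quotient hsep (pPrimeCore p G)
  have h1 := H53.stable_normal (H53.isActionPStable_of_isPSolvable hp hq)
    (H53.centralizer_pCore_le hq (H3.pPrimeCore_quotient_pPrimeCore p G)) (S.mapSurjective hs)
  have h2 := H6.normalizer_inducedFunctor_map H53.isCharPFunctor_stable _ hs hk _ S.2
  rw [← Subgroup.normalizer_eq_top_iff, Sylow.coe_mapSurjective] at h1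
  have h3 := h2.symm.trans h1
  have h4 := congrArg (Subgroup.comap (QuotientGroup.mk' (pPrimeCore p G))) h3
  rwa [Subgroup.comap_map_eq, QuotientGroup.ker_mk', Subgroup.comap_top, sup_comm] at h4

end Cfsg.Agent.S0627
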