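import Cfsg.Statements.S0628
import Cfsg.Agent.H53.WStable

set_option autoImplicit false
open Cfsg

namespace Cfsg.Agent.S0628

/-- The normal p-complement Theorem of Thompson in the form with W(S): for odd p, G has a normal p-complement as soon as the normalizer of the characteristic subgroup W(S) of a Sylow p-subgroup S has one. -/
theorem result {G : Type*} [Group G] [Finite G] {p : ℕ} [Fact p.Prime] (hp : p ≠ 2) (S : Sylow p G) (hN : Cfsg.HasNormalPComplement p ↥(Subgroup.normalizer (((Cfsg.stableNormalClosure p ↥(S : Subgroup G)).map (S : Subgroup G).subtype) : Set G))) : Cfsg.HasNormalPComplement p G := by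
  refine H6.npc_of_charFunctor H53.isCharPFunctor_stable (fun _ _ => True) (fun _ _ _ _ => trivial)
    (fun _ _ _ _ _ => trivial) ?_ G trivial S hN
  intro X _ _ _ hC hq P hP
  have : Fact (Nat.Prime 2) := ⟨Nat.prime_two⟩
  obtain ⟨T⟩ : Nonempty (Sylow 2 X) := inferInstance
  exact H53.stable_normal (H53.isActionPStable_of_abTwo hp
    (H53.abTwo_of_sylow T (H6.sylow_comm_of_coatom hq P hP 2 hp.symm T))) hC P

end Cfsg.Agent.S0628
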