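import Cfsg.Statements.S0629
import Cfsg.Agent.H51.PSeries

set_option autoImplicit false
open Cfsg

namespace Cfsg.Agent.S0629

/-- A group in which the centralizer of a Sylow p-subgroup of O_{p',p}(G) is p-solvable is p-constrained. -/
theorem result {G : Type*} [Group G] [Finite G] {p : ℕ} [Fact p.Prime] (P : Sylow p ↥(Cfsg.pPrimePCore p G)) (hsol : Cfsg.IsPSolvable p ↥(Subgroup.centralizer (((P : Subgroup ↥(Cfsg.pPrimePCore p G)).map (Cfsg.pPrimePCore p G).subtype : Subgroup G) : Set G))) : Cfsg.IsPConstrained p G := by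
  have hf := QuotientGroup.mk'_surjective (pPrimeCore p G)
  have hk : (Nat.card (QuotientGroup.mk' (pPrimeCore p G)).ker).Coprime p := by
    rw [QuotientGroup.ker_mk']; exact H3.pPrimeCore_coprime p G
  have hP := H8.isSylowIn_map_subtype P
  rw [H51.isPConstrained_iff]
  refine H51.centralizer_pCore_le_of_isPSolvable_centralizer
    (H3.pPrimeCore_quotient_pPrimeCore p G) ?_
  rw [← H51.IsSylowIn.map_eq_of_comap hf (H3.pCore_isPGroup p _) hP,
    H6.centralizer_map_of_coprime_ker hf hk hP.isPGroup]
  exact H53.isPSolvable_map _ hsol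

end Cfsg.Agent.S0629
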