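import Cfsg.Statements.S0632
import Cfsg.Agent.H51.Constraint

set_option autoImplicit false
open Cfsg

namespace Cfsg.Agent.S0632

/-- For a group with a nontrivial normal p-subgroup, p-stability passes to and from the quotient by the largest normal subgroup of order prime to p. -/
theorem result {G : Type*} [Group G] [Finite G] {p : ℕ} [Fact p.Prime] (hO : Cfsg.pCore p G ≠ ⊥) : Cfsg.IsPStable p G ↔ Cfsg.IsPStable p (G ⧸ Cfsg.pPrimeCore p G) := by
  rw [H51.isPStable_iff_of_ker (QuotientGroup.mk'_surjective _) (QuotientGroup.ker_mk' _),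
    H51.isPStable_iff_of_bot (H3.pPrimeCore_quotient_pPrimeCore p G)]
  have h : pCore p (G ⧸ pPrimeCore p G) ≠ ⊥ := by
    intro h
    have h1 := H3.map_pCore_le (p := p) (QuotientGroup.mk'_surjective (pPrimeCore p G))
    rw [h, le_bot_iff, Subgroup.map_eq_bot_iff, QuotientGroup.ker_mk'] at h1
    exact hO (by rw [← H3.pCore_inf_pPrimeCore p G, inf_eq_left.mpr h1])
  simp only [ne_eq, hO, h, not_false_eq_true]

end Cfsg.Agent.S0632
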