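import Cfsg.Statements.S0633
import Cfsg.Agent.H4.HallHigman

set_option autoImplicit false
open Cfsg

namespace Cfsg.Agent.S0633

/-- Theorem B of Hall and Higman on the minimal polynomial of a p-element of order p^n in a p-solvable linear group on a nonzero vector space in characteristic p with no nontrivial normal p-subgroup: its degree is p^n, except when some p^n₀ - 1 (n₀ ≤ n) is a power of a prime q for which the Sylow q-subgroups are non-abelian, in which case the degree is at least p^(n-n₀)(p^n₀ - 1). -/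
theorem result {F : Type*} [Field F] {p : ℕ} [Fact p.Prime] [CharP F p] {V : Type*} [AddCommGroup V] [Module F V] [FiniteDimensional F V] [Nontrivial V] (H : Subgroup (V ≃ₗ[F] V)) [Finite H] (hsol : Cfsg.IsPSolvable p H) (hOp : Cfsg.pCore p H = ⊥) (x : V ≃ₗ[F] V) (hx : x ∈ H) (n : ℕ) (hn : orderOf x = p ^ n) (r : ℕ) (hr : minpoly F (x : Module.End F V) = (Polynomial.X - 1) ^ r) : r = p ^ n ∨ ∃ n₀ q m : ℕ, 1 ≤ n₀ ∧ n₀ ≤ n ∧ q.Prime ∧ 1 ≤ m ∧ p ^ n₀ - 1 = q ^ m ∧ (∀ Q : Sylow q H, ¬ IsMulCommutative Q) ∧ p ^ (n - n₀) * (p ^ n₀ - 1) ≤ r := by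
  classical
  have hp : p.Prime := Fact.out
  let ρ : Representation F H V := (LinearEquiv.automorphismGroup.toLinearMapMonoidHom).comp H.subtype
  have hρ : Function.Injective ρ := fun a b h =>
    Subtype.ext (LinearEquiv.toLinearMap_injective h)
  have hρx : ρ ⟨x, hx⟩ = (x : Module.End F V) := rfl
  have hint : IsIntegral F (x : Module.End F V) := Algebra.IsIntegral.isIntegral _
  have h0 : ((x : Module.End F V) - 1) ^ r = 0 := by
    have := minpoly.aeval F (x : Module.End F V)
    rw [hr] at this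
    simpa using this
  have hxo : (⟨x, hx⟩ : H) ^ p ^ n = 1 := Subtype.ext (by
    show x ^ p ^ n = 1
    rw [← hn, pow_orderOf_eq_one])
  have hle : r ≤ p ^ n := by
    have h1 : minpoly F (x : Module.End F V) ∣ (Polynomial.X - 1) ^ p ^ n := by
      apply minpoly.dvd
      simp only [map_pow, map_sub, Polynomial.aeval_X, map_one]
      rw [H4.HH.sub_one_pow_char_pow F p, ← hρx, ← map_pow, hxo, map_one, sub_self]
    rw [hr] at h1
    have hne : ((Polynomial.X : Polynomial F) - 1) ≠ 0 := by
      simpa using Polynomial.X_sub_C_ne_zero (1 : F)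
    have hd : ((Polynomial.X : Polynomial F) - 1).natDegree = 1 := by
      simpa using Polynomial.natDegree_X_sub_C (1 : F)
    have := Polynomial.natDegree_le_of_dvd h1 (pow_ne_zero _ hne)
    rwa [Polynomial.natDegree_pow, Polynomial.natDegree_pow, hd, mul_one, mul_one] at this
  cases n with
  | zero =>
    left
    rw [pow_zero] at hle ⊢
    refine le_antisymm hle (Nat.pos_of_ne_zero fun h => ?_)
    rw [h, pow_zero] at h0
    exact one_ne_zero h0
  | succ n =>
    have hx1 : (⟨x, hx⟩ : H) ^ p ^ n ≠ 1 := fun h => by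
      have h1 : x ^ p ^ n = 1 := congrArg Subtype.val h
      have h2 := orderOf_dvd_of_pow_eq_one h1
      rw [hn, Nat.pow_dvd_pow_iff_le_right hp.one_lt] at h2
      omega
    rcases H4.HH.theoremB ρ hρ hsol hOp hxo hx1 r h0 with h | ⟨k, e, q, m, h1, hq, h2, h3, h4,
      Q, -, hQ, -, h5⟩
    · exact Or.inl (le_antisymm hle h)
    · haveI := Fact.mk hq
      refine Or.inr ⟨e + 1, q, m, by omega, by omega, hq, h2, h3,
        H4.HH.not_isMulCommutative_sylow hQ h5, ?_⟩
      rwa [show n + 1 - (e + 1) = k by omega]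

end Cfsg.Agent.S0633
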