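import Cfsg.Statements.S0642
import Cfsg.Agent.H90.Regular

set_option autoImplicit false
open Cfsg

namespace Cfsg.Agent.S0642

open scoped commutatorElement

/-- Among finite 2-groups the regular ones are exactly the abelian ones. -/
theorem result {G : Type*} [Group G] [Finite G] (hG : IsPGroup 2 G) : Cfsg.IsRegularPGroup 2 G ↔ ∀ a b : G, a * b = b * a := by
  constructor
  · intro h
    have hw := H90.weakReg_of_regular h
    by_contra hna
    have hne : commutator G ≠ ⊥ := by
      rw [Ne, commutator_eq_bot_iff]
      exact fun hc => hna fun a b => hc.is_comm.comm a b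
    obtain ⟨K, hKn, -, hKle, hKc, -⟩ := H7.exists_normal_step_down hG (bot_lt_iff_ne_bot.2 hne)
    have hq := hw.quotient K
    have hlt : ¬ commutator G ≤ K := by
      intro hle
      have := Subgroup.card_le_of_le hle
      have h0 : 0 < Nat.card K := Nat.card_pos
      omega
    apply hlt
    rw [commutator_def, Subgroup.commutator_le]
    intro a _ b _
    have h2 : ∀ x y : G, ⁅(x : G ⧸ K), (y : G ⧸ K)⁆ ^ 2 = 1 := by
      intro x y
      rw [← QuotientGroup.mk'_apply, ← QuotientGroup.mk'_apply, ← map_commutatorElement, ← map_pow,
        QuotientGroup.mk'_apply, QuotientGroup.eq_one_iff]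
      have h3 : K.relIndex (commutator G) = 2 := by
        have := H7.card_mul_relIndex hKle
        rw [hKc] at this
        exact Nat.eq_of_mul_eq_mul_left Nat.card_pos this
      have h4 := Subgroup.pow_index_mem (H := K.subgroupOf (commutator G))
        ⟨_, Subgroup.commutator_mem_commutator (Subgroup.mem_top x) (Subgroup.mem_top y)⟩
      rw [← Subgroup.relIndex, h3] at h4
      exact h4
    have h5 := hq.mul_pow_of_comm_pow (h2 a b)
    rw [← QuotientGroup.eq_one_iff, ← QuotientGroup.mk'_apply, map_commutatorElement,
      commutatorElement_eq_one_iff_mul_comm]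
    simp only [pow_two, mul_assoc, mul_right_inj, QuotientGroup.mk'_apply] at h5 ⊢
    simp only [← mul_assoc, mul_left_inj] at h5
    exact h5.symm
  · intro h
    exact ⟨hG, fun a b n => ⟨1, Subgroup.one_mem _, by rw [Commute.mul_pow (h a b), mul_one]⟩⟩

end Cfsg.Agent.S0642
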