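import Cfsg.Statements.S0645
import Cfsg.Agent.H9.CyclicMax

set_option autoImplicit false
open Cfsg

namespace Cfsg.Agent.S0645

/-- Classification of p-groups with a cyclic maximal subgroup, odd p: a non-abelian one of order p^n has generators a of order p^(n-1) and b of order p, b outside the cyclic subgroup generated by a, with b a b⁻¹ = a^(1 + p^(n-2)). -/
theorem result {G : Type*} [Group G] [Finite G] {p : ℕ} [Fact p.Prime] (hp : p ≠ 2) (n : ℕ) (hn : 3 ≤ n) (hG : Nat.card G = p ^ n) (C : Subgroup G) (hC : IsCyclic C) (hCi : C.index = p) (hna : ∃ x y : G, x * y ≠ y * x) : ∃ a b : G, orderOf a = p ^ (n - 1) ∧ orderOf b = p ∧ b ∉ Subgroup.zpowers a ∧ b * a * b⁻¹ = a ^ (1 + p ^ (n - 2)) := by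
  obtain ⟨a, b, rfl, hc, ⟨k, hk⟩, hb⟩ :=
    H9.exists_gens_of_cyclic_index (IsPGroup.of_card hG) hC hCi hna
  have hpp : p.Prime := Fact.out
  obtain ⟨m, rfl⟩ : ∃ m, n = m + 2 := ⟨n - 2, by omega⟩
  have ha : orderOf a = p ^ (m + 1) := by
    have := (Subgroup.zpowers a).index_mul_card
    rw [hCi, hG, Nat.card_zpowers, pow_succ' p (m + 1)] at this
    exact Nat.eq_of_mul_eq_mul_left hpp.pos this
  simp only at hk
  have h1 := H9.dvd_pow_sub_one_of_conj ha hk.symm hb
  push_cast at h1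
  obtain ⟨x, s, h2, h3⟩ := H9.exists_modular_gen hpp (by omega) (fun h => absurd h hp) ha hk.symm
    (H9.dvd_sub_one_of_pow_prime hpp hp h1) hc hb
  have hnc : ¬ Commute (a ^ x * b ^ s) a := by
    intro h
    rw [h.eq, mul_inv_cancel_right, pow_add, pow_one, left_eq_mul, ← orderOf_dvd_iff_pow_eq_one,
      ha] at h3
    exact absurd (Nat.le_of_dvd (pow_pos hpp.pos _) h3)
      (not_le.mpr (Nat.pow_lt_pow_right hpp.one_lt (by omega)))
  refine ⟨a, a ^ x * b ^ s, ha, orderOf_eq_prime h2 ?_, H9.not_mem_zpowers_of_not_commute hnc, h3⟩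
  intro h
  exact hnc (h ▸ Commute.one_left a)

end Cfsg.Agent.S0645
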