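import Cfsg.Statements.S0646
import Cfsg.Agent.H9.CyclicMax

set_option autoImplicit false
open Cfsg

namespace Cfsg.Agent.S0646

/-- Classification of non-abelian 2-groups with a cyclic maximal subgroup: dihedral, generalized quaternion, and for order at least 16 the modular group and the semidihedral group, each given by generators a (of index 2) and b with the stated relations. -/
theorem result {G : Type*} [Group G] [Finite G] (n : ℕ) (hn : 3 ≤ n) (hG : Nat.card G = 2 ^ n) (C : Subgroup G) (hC : IsCyclic C) (hCi : C.index = 2) (hna : ∃ x y : G, x * y ≠ y * x) : ∃ a b : G, orderOf a = 2 ^ (n - 1) ∧ b ∉ Subgroup.zpowers a ∧ ((b ^ 2 = 1 ∧ b * a * b⁻¹ = a⁻¹) ∨ (b ^ 2 = a ^ (2 ^ (n - 2)) ∧ b * a * b⁻¹ = a⁻¹) ∨ (4 ≤ n ∧ b ^ 2 = 1 ∧ b * a * b⁻¹ = a ^ (1 + 2 ^ (n - 2))) ∨ (4 ≤ n ∧ b ^ 2 = 1 ∧ b * a * b⁻¹ = a ^ (2 ^ (n - 2) - 1))) := by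
  obtain ⟨a, b, rfl, hc, hk, hb⟩ :=
    H9.exists_gens_of_cyclic_index (IsPGroup.of_card hG) hC hCi hna
  obtain ⟨m, rfl⟩ : ∃ m, n = m + 2 := ⟨n - 2, by omega⟩
  have ha : orderOf a = 2 ^ (m + 1) := by
    have := (Subgroup.zpowers a).index_mul_card
    rw [hCi, hG, Nat.card_zpowers, pow_succ' 2 (m + 1)] at this
    exact Nat.eq_of_mul_eq_mul_left two_pos this
  obtain ⟨-, c, hcb, h⟩ := H9.cyclic_index_two_cases ha hk hc (by rwa [← pow_two])
  refine ⟨a, c, ha, fun hca => H9.not_mem_zpowers_of_not_commute hc ?_, ?_⟩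
  · have := Subgroup.mul_mem _ (Subgroup.inv_mem _ hcb) hca
    simpa using this
  simp only [pow_two, Nat.add_sub_cancel]
  rcases h with h | h | ⟨h1, h2, h3⟩ | ⟨h1, h2, h3⟩
  · exact Or.inl h
  · exact Or.inr (Or.inl h)
  · refine Or.inr (Or.inr (Or.inr ⟨by omega, h2, ?_⟩))
    rw [h3, inv_mul_eq_iff_eq_mul, ← pow_succ', Nat.sub_add_cancel Nat.one_le_two_pow]
  · exact Or.inr (Or.inr (Or.inl ⟨by omega, h2, h3⟩))

end Cfsg.Agent.S0646
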