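import Cfsg.Statements.S0663
import Cfsg.Agent.H54.Comm
import Cfsg.Agent.H4.CoprimeAction
import Cfsg.Agent.H3.Cores

set_option autoImplicit false
open Cfsg

namespace Cfsg.Agent.S0663

open H54 in
theorem card_iter_le {L : Type*} [Group L] [Finite L] {p : ℕ} [hp : Fact p.Prime] {N T : Subgroup L}
    (hN : IsPGroup p N) (hT : IsPGroup p T) (hTN : T ≤ Subgroup.normalizer (N : Set L)) {n : ℕ}
    (hn : Nat.card N = p ^ n) (i : ℕ) : ∃ m ≤ n - i, Nat.card (Cfsg.iterCommutator N T i) = p ^ m := by
  induction i with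
  | zero => exact ⟨n, le_rfl, hn⟩
  | succ i ih =>
    obtain ⟨m, hm, hc⟩ := ih
    have hp' : IsPGroup p (Cfsg.iterCommutator N T i) := hN.to_le (iterCommutator_le hTN i)
    by_cases h0 : Cfsg.iterCommutator N T i = ⊥
    · refine ⟨0, Nat.zero_le _, ?_⟩
      rw [iterCommutator_succ, h0, Subgroup.commutator_bot_left, Subgroup.card_bot, pow_zero]
    have hlt := H4.commutator_lt_of_isPGroup hT hp' (self_le_normalizer_iterCommutator hTN i) h0
    obtain ⟨k, hk⟩ := IsPGroup.iff_card.mp (hp'.to_le hlt.le)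
    refine ⟨k, ?_, hk⟩
    have h1 : p ^ k < p ^ m := by
      rw [← hk, ← hc]
      exact lt_of_le_of_ne (Subgroup.card_le_of_le hlt.le)
        fun h => hlt.ne (Subgroup.eq_of_le_of_card_ge hlt.le h.ge)
    have := (Nat.pow_lt_pow_iff_right hp.out.one_lt).mp h1
    omega

open H54 in
theorem card_iter_eq {L : Type*} [Group L] [Finite L] {p : ℕ} [hp : Fact p.Prime] {N T : Subgroup L}
    (hN : IsPGroup p N) (hT : IsPGroup p T) (hTN : T ≤ Subgroup.normalizer (N : Set L)) {n : ℕ}
    (hn : Nat.card N = p ^ n) (h : Cfsg.iterCommutator N T (n - 1) ≠ ⊥ ∨ n = 0) (i : ℕ) :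
    Nat.card (Cfsg.iterCommutator N T i) = p ^ (n - i) := by
  obtain ⟨m, hm, hc⟩ := card_iter_le hN hT hTN hn i
  rw [hc]
  congr 1
  by_cases hi : n ≤ i
  · omega
  have h' := h.resolve_right (by omega)
  obtain ⟨k, hk, hc'⟩ := card_iter_le (hN.to_le (iterCommutator_le hTN i)) hT
    (self_le_normalizer_iterCommutator hTN i) hc (n - 1 - i)
  rw [← iterCommutator_add, show i + (n - 1 - i) = n - 1 by omega] at hc'
  have : k ≠ 0 := by
    rintro rfl
    exact h' (Subgroup.card_eq_one.mp hc')
  omega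


/-- A p-group acts uniserially on a p-group N of order p^n exactly when the iterated commutator chain from N has length n; in that case the chain terms are all the invariant subgroups of N and they are normal in N. -/
theorem result {L : Type*} [Group L] [Finite L] {p : ℕ} [Fact p.Prime] (N G : Subgroup L) (hN : IsPGroup p N) (hG : IsPGroup p G) (hGN : G ≤ Subgroup.normalizer (N : Set L)) (n : ℕ) (hn : Nat.card N = p ^ n) : ((∀ H : Subgroup L, H ≤ N → G ≤ Subgroup.normalizer (H : Set L) → H ≠ ⊥ → (⁅H, G⁆).relIndex H = p) ↔ Cfsg.iterCommutator N G (n - 1) ≠ ⊥ ∨ n = 0) ∧ ((∀ H : Subgroup L, H ≤ N → G ≤ Subgroup.normalizer (H : Set L) → H ≠ ⊥ → (⁅H, G⁆).relIndex H = p) → ∀ H : Subgroup L, H ≤ N → G ≤ Subgroup.normalizer (H : Set L) → (∃ i ≤ n, H = Cfsg.iterCommutator N G i) ∧ N ≤ Subgroup.normalizer (H : Set L)) := by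
  have hp : p.Prime := Fact.out
  have hcomm : ∀ H : Subgroup L, G ≤ Subgroup.normalizer (H : Set L) → ⁅H, G⁆ ≤ H := fun H h =>
    H54.iterCommutator_succ_le h 0
  have h1 : (∀ H : Subgroup L, H ≤ N → G ≤ Subgroup.normalizer (H : Set L) → H ≠ ⊥ →
      (⁅H, G⁆).relIndex H = p) → (Cfsg.iterCommutator N G (n - 1) ≠ ⊥ ∨ n = 0) := by
    intro h
    have key : ∀ i ≤ n, Nat.card (Cfsg.iterCommutator N G i) = p ^ (n - i) := by
      intro i
      induction i with
      | zero => exact fun _ => hn
      | succ i ih =>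
        intro hi
        have hc := ih (by omega)
        have hne : Cfsg.iterCommutator N G i ≠ ⊥ := fun h0 => by
          rw [h0, Subgroup.card_bot, eq_comm, Nat.pow_eq_one] at hc
          have := hp.one_lt
          omega
        have h2 := H3.card_mul_relIndex (H54.iterCommutator_succ_le hGN i)
        rw [H54.iterCommutator_succ, h _ (H54.iterCommutator_le hGN i)
          (H54.self_le_normalizer_iterCommutator hGN i) hne, hc,
          show n - i = (n - (i + 1)) + 1 by omega, pow_succ] at h2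
        exact Nat.eq_of_mul_eq_mul_right hp.pos h2
    by_cases h0 : n = 0
    · exact Or.inr h0
    refine Or.inl fun hb => ?_
    have hc := key (n - 1) (by omega)
    rw [hb, Subgroup.card_bot, eq_comm, Nat.pow_eq_one] at hc
    have := hp.one_lt
    omega
  have h2 : (Cfsg.iterCommutator N G (n - 1) ≠ ⊥ ∨ n = 0) → ∀ H : Subgroup L, H ≤ N →
      G ≤ Subgroup.normalizer (H : Set L) →
      (∃ i ≤ n, H = Cfsg.iterCommutator N G i) ∧ N ≤ Subgroup.normalizer (H : Set L) := by
    intro h
    have hc := card_iter_eq hN hG hGN hn h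
    have hPN : N ⊔ G ≤ Subgroup.normalizer (N : Set L) := sup_le Subgroup.le_normalizer hGN
    have hP : IsPGroup p (N ⊔ G : Subgroup L) := by
      rw [sup_comm]; exact hG.to_sup_of_normal_right' hN hGN
    have hnorm : ∀ i, N ⊔ G ≤ Subgroup.normalizer (Cfsg.iterCommutator N G i : Set L) := by
      intro i
      obtain ⟨m, hm, hc'⟩ := card_iter_le hN hP hPN hn i
      have : Cfsg.iterCommutator N G i = Cfsg.iterCommutator N (N ⊔ G) i :=
        Subgroup.eq_of_le_of_card_ge (H54.iterCommutator_mono le_rfl le_sup_right i)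
          (by rw [hc, hc']; exact Nat.pow_le_pow_right hp.pos hm)
      rw [this]
      exact H54.self_le_normalizer_iterCommutator hPN i
    have key : ∀ j ≤ n, ∀ H : Subgroup L, H ≤ N → G ≤ Subgroup.normalizer (H : Set L) →
        Cfsg.iterCommutator N G j ≤ H → ∃ i ≤ j, H = Cfsg.iterCommutator N G i := by
      intro j
      induction j with
      | zero => exact fun _ H hH _ hj => ⟨0, le_rfl, le_antisymm hH hj⟩
      | succ j ih =>
        intro hj H hH hGH hle
        have hHn : H ≤ Subgroup.normalizer (Cfsg.iterCommutator N G j : Set L) :=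
          (hH.trans le_sup_left).trans (hnorm j)
        obtain ⟨i, hi, hiH⟩ := ih (by omega) (H ⊔ Cfsg.iterCommutator N G j)
          (sup_le hH (H54.iterCommutator_le hGN j))
          ((le_inf hGH (le_sup_right.trans (hnorm j))).trans
            (Subgroup.normalizer_inf_normalizer_le_normalizer_sup _ _)) le_sup_right
        have hlow : Cfsg.iterCommutator N G (i + 1) ≤ H := by
          rw [H54.iterCommutator_succ, ← hiH, Subgroup.commutator_le]
          intro x hx g hg
          have hx' : x ∈ ((H ⊔ Cfsg.iterCommutator N G j : Subgroup L) : Set L) := hx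
          rw [Subgroup.coe_mul_of_left_le_normalizer_right _ _ hHn] at hx'
          obtain ⟨a, ha, b, hb, rfl⟩ := hx'
          have e : a * b * g * (a * b)⁻¹ * g⁻¹ = a * (b * g * b⁻¹ * g⁻¹) * (g * a⁻¹ * g⁻¹) := by
            group
          change a * b * g * (a * b)⁻¹ * g⁻¹ ∈ H
          rw [e]
          exact H.mul_mem (H.mul_mem ha (hle (Subgroup.commutator_mem_commutator hb hg)))
            ((Subgroup.mem_normalizer_iff.mp (hGH hg) _).mp (H.inv_mem ha))
        have hup : H ≤ Cfsg.iterCommutator N G i := hiH ▸ le_sup_left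
        obtain ⟨k, hk⟩ := IsPGroup.iff_card.mp (hN.to_le hH)
        have e1 := Subgroup.card_le_of_le hlow
        have e2 := Subgroup.card_le_of_le hup
        rw [hc, hk, Nat.pow_le_pow_iff_right hp.one_lt] at e1
        rw [hc, hk, Nat.pow_le_pow_iff_right hp.one_lt] at e2
        by_cases hk' : k = n - i
        · exact ⟨i, by omega, Subgroup.eq_of_le_of_card_ge hup (by rw [hc, hk, hk'])⟩
        · exact ⟨i + 1, by omega, (Subgroup.eq_of_le_of_card_ge hlow (by
            rw [hc, hk]; exact Nat.pow_le_pow_right hp.pos (by omega))).symm⟩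
    intro H hH hGH
    have hbot : Cfsg.iterCommutator N G n = ⊥ := Subgroup.card_eq_one.mp (by simpa using hc n)
    obtain ⟨i, hi, rfl⟩ := key n le_rfl H hH hGH (hbot ▸ bot_le)
    exact ⟨⟨i, hi, rfl⟩, le_sup_left.trans (hnorm i)⟩
  refine ⟨⟨h1, fun h H hH hGH hne => ?_⟩, fun h => h2 (h1 h)⟩
  obtain ⟨⟨i, hi, rfl⟩, -⟩ := h2 h H hH hGH
  have hc := card_iter_eq hN hG hGN hn h
  have hin : i < n := by
    refine lt_of_le_of_ne hi fun h0 => hne (Subgroup.card_eq_one.mp ?_)
    rw [hc, h0]; simp
  have h3 := H3.card_mul_relIndex (H54.iterCommutator_succ_le hGN i)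
  rw [hc, hc, show n - i = (n - (i + 1)) + 1 by omega, pow_succ] at h3
  exact Nat.eq_of_mul_eq_mul_left (pow_pos hp.pos _) h3

end Cfsg.Agent.S0663
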