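import Cfsg.Statements.S0666
import Cfsg.Agent.S0035
import Cfsg.Agent.H5.Frobenius
import Cfsg.Agent.H53.Stable

set_option autoImplicit false
open Cfsg

namespace Cfsg.Agent.S0666

theorem aux {X V : Type*} [Group X] [Finite X] [CommGroup V] (φ : X →* MulAut V)
    (K H : Subgroup X) [hK : K.Normal]
    (hfpf : ∀ h ∈ H, h ≠ 1 → K ⊓ Subgroup.centralizer {h} = ⊥)
    (hK1 : ∀ v, (∀ k ∈ K, φ k v = v) → v = 1) (hH1 : ∀ v, (∀ h ∈ H, φ h v = v) → v = 1)
    (v : V) : v ^ Nat.card K = 1 := by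
  classical
  have := Fintype.ofFinite K
  have := Fintype.ofFinite H
  have hfix : ∀ (R : Subgroup X) [Fintype R], (∀ v, (∀ k ∈ R, φ k v = v) → v = 1) →
      ∀ w : V, ∏ ρ : R, φ ρ w = 1 := by
    intro R _ hR w
    refine hR _ fun r hr => ?_
    rw [map_prod]
    refine Fintype.prod_equiv (Equiv.mulLeft (⟨r, hr⟩ : R)) _ _ fun ρ => ?_
    simp
  have h1 : ∀ ρ : K, ∏ h : H, φ ((ρ : X) * h * (ρ : X)⁻¹) v = 1 := by
    intro ρ
    have := congrArg (φ ρ) (hfix H hH1 (φ (ρ : X)⁻¹ v))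
    rw [map_prod, map_one] at this
    rw [← this]
    refine Finset.prod_congr rfl fun i _ => ?_
    simp
  have h2 : ∀ h : H, h ≠ 1 → ∏ ρ : K, φ ((ρ : X) * h * (ρ : X)⁻¹) v = 1 := by
    intro h hh
    rw [← hfix K hK1 (φ h v)]
    let f : K → K := fun ρ => ⟨ρ * (h * (ρ : X)⁻¹ * (h : X)⁻¹),
      K.mul_mem ρ.2 (hK.conj_mem _ (K.inv_mem ρ.2) _)⟩
    have hf : Function.Injective f := by
      intro a b hab
      have h3 : (a : X) * (h * (a : X)⁻¹ * (h : X)⁻¹) = b * (h * (b : X)⁻¹ * (h : X)⁻¹) :=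
        congrArg Subtype.val hab
      have h4 : (b : X)⁻¹ * a ∈ K ⊓ Subgroup.centralizer {(h : X)} := by
        refine Subgroup.mem_inf.2 ⟨K.mul_mem (K.inv_mem b.2) a.2,
          Subgroup.mem_centralizer_singleton_iff.2 ?_⟩
        calc (b : X)⁻¹ * a * h = (b : X)⁻¹ * (a * (h * (a : X)⁻¹ * (h : X)⁻¹)) * h * a := by group
          _ = h * ((b : X)⁻¹ * a) := by rw [h3]; group
      rw [hfpf h h.2 (fun e => hh (Subtype.ext e)), Subgroup.mem_bot] at h4
      exact Subtype.ext (inv_mul_eq_one.1 h4).symm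
    refine Fintype.prod_bijective f ⟨hf, Finite.injective_iff_surjective.1 hf⟩ _ _ fun ρ => ?_
    rw [← MulAut.mul_apply, ← map_mul]
    congr 2
    simp [f, mul_assoc]
  have h3 : ∏ ρ : K, ∏ h : H, φ ((ρ : X) * h * (ρ : X)⁻¹) v = 1 := by
    simp only [h1, Finset.prod_const_one]
  rw [Finset.prod_comm, Finset.prod_eq_single 1 (fun h _ hh => h2 h hh) (by simp)] at h3
  simpa using h3

open scoped IsMulCommutative in

/-- A Frobenius group acting on a nontrivial abelian group of order prime to that of its kernel, with the kernel acting without nontrivial fixed points, has a complement with a nontrivial fixed point. -/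
theorem result {G : Type*} [Group G] [Finite G] (V F : Subgroup G) (hVab : IsMulCommutative V) (hV1 : V ≠ ⊥) (hFV : F ≤ Subgroup.normalizer (V : Set G)) (H : Subgroup ↥F) (hH : Cfsg.IsFrobeniusComplement H) (hcop : (Nat.card V).Coprime (Nat.card (Cfsg.frobeniusKernel H))) (hCK : V ⊓ Subgroup.centralizer (Subtype.val '' Cfsg.frobeniusKernel H : Set G) = ⊥) : V ⊓ Subgroup.centralizer ((H.map F.subtype : Subgroup G) : Set G) ≠ ⊥ := by
  obtain ⟨K, hK, hKn, hc⟩ := S0035.result H hH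
  intro hcon
  have hK1 : K ≠ ⊥ := by
    rintro rfl
    exact hH.2.1 (Subgroup.isComplement'_bot_left.1 hc)
  apply hV1
  rw [eq_bot_iff]
  intro v hv
  have h := aux (H53.actHom V F.subtype fun e => hFV e.2) K H
    ((H5.frob_iff_fpf K H hc hK1 hH.1).1 hH) (fun w hw => by
      refine Subtype.ext (Subgroup.mem_bot.1 (hCK ▸ Subgroup.mem_inf.2 ⟨w.2, ?_⟩))
      rintro _ ⟨k, hk, rfl⟩
      rw [← hK] at hk
      exact mul_inv_eq_iff_eq_mul.1 (congrArg Subtype.val (hw k hk))) (fun w hw => by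
      refine Subtype.ext (Subgroup.mem_bot.1 (hcon ▸ Subgroup.mem_inf.2 ⟨w.2, ?_⟩))
      rintro _ ⟨k, hk, rfl⟩
      exact mul_inv_eq_iff_eq_mul.1 (congrArg Subtype.val (hw k hk))) ⟨v, hv⟩
  rw [← hK] at hcop
  have h2 := H53.mem_of_pow_mem_of_coprime (R := ⊥) (Subgroup.mem_bot.2 pow_card_eq_one')
    (Subgroup.mem_bot.2 h) hcop
  exact Subgroup.mem_bot.2 (congrArg Subtype.val (Subgroup.mem_bot.1 h2))

end Cfsg.Agent.S0666
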