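import Cfsg.Statements.S0668
import Mathlib.LinearAlgebra.Dimension.Constructions
import Mathlib.LinearAlgebra.FiniteDimensional.Basic

set_option autoImplicit false
open Cfsg

namespace Cfsg.Agent.S0668

variable {G : Type*} [Group G] {K : Type*} [Field K] {Ω₁ Ω₂ : Type*} [Fintype Ω₁] [Fintype Ω₂]
  [MulAction G Ω₁] [MulAction G Ω₂]

/-- The linear map attached to a function on the orbits of pairs. -/
noncomputable def ofOrbitFun (c : MulAction.orbitRel.Quotient G (Ω₁ × Ω₂) → K) :
    (Ω₁ → K) →ₗ[K] (Ω₂ → K) where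
  toFun f y := ∑ x, c (Quotient.mk'' (x, y)) * f x
  map_add' f₁ f₂ := by ext y; simp [mul_add, Finset.sum_add_distrib]
  map_smul' r f := by
    ext y; simp [Finset.mul_sum, mul_left_comm]

omit [Fintype Ω₁] [Fintype Ω₂] in
theorem mk_smul (g : G) (x : Ω₁) (y : Ω₂) :
    (Quotient.mk'' (g • x, g • y) : MulAction.orbitRel.Quotient G (Ω₁ × Ω₂)) =
      Quotient.mk'' (x, y) :=
  Quotient.sound' ⟨g, rfl⟩

theorem ofOrbitFun_mem (c : MulAction.orbitRel.Quotient G (Ω₁ × Ω₂) → K) :
    ofOrbitFun c ∈ ((Cfsg.permRep K G Ω₁).linHom (Cfsg.permRep K G Ω₂)).invariants := by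
  intro g
  refine LinearMap.ext fun f => funext fun y => ?_
  change ∑ x, c (Quotient.mk'' (x, g⁻¹ • y)) * f (g⁻¹⁻¹ • x) = ∑ x, c (Quotient.mk'' (x, y)) * f x
  refine Fintype.sum_equiv (MulAction.toPerm g) _ _ fun x => ?_
  rw [← mk_smul g x (g⁻¹ • y)]
  simp

/-- The linear map from functions on orbits to intertwiners. -/
noncomputable def toInv : (MulAction.orbitRel.Quotient G (Ω₁ × Ω₂) → K) →ₗ[K]
    ((Cfsg.permRep K G Ω₁).linHom (Cfsg.permRep K G Ω₂)).invariants where
  toFun c := ⟨ofOrbitFun c, ofOrbitFun_mem c⟩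
  map_add' c d := by
    refine Subtype.ext (LinearMap.ext fun f => funext fun y => ?_)
    simp [ofOrbitFun, add_mul, Finset.sum_add_distrib]
  map_smul' r c := by
    refine Subtype.ext (LinearMap.ext fun f => funext fun y => ?_)
    simp [ofOrbitFun, Finset.mul_sum, mul_assoc]

theorem toInv_bijective : Function.Bijective (toInv (G := G) (K := K) (Ω₁ := Ω₁) (Ω₂ := Ω₂)) := by
  classical
  constructor
  · rw [injective_iff_map_eq_zero]
    intro c hc
    funext q
    induction q using Quotient.inductionOn' with | h z => ?_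
    have := congrFun (LinearMap.congr_fun (congrArg Subtype.val hc) (Pi.single z.1 1)) z.2
    simpa [toInv, ofOrbitFun, Pi.single_apply] using this
  · rintro ⟨T, hT⟩
    have key : ∀ (g : G) (x : Ω₁) (y : Ω₂),
        T (Pi.single (g • x) 1) (g • y) = T (Pi.single x 1) y := by
      intro g x y
      have h1 := congrFun (LinearMap.congr_fun (hT g) (Pi.single (g • x) 1)) (g • y)
      rw [← h1]
      change T (fun z => (Pi.single (g • x) (1 : K) : Ω₁ → K) (g⁻¹⁻¹ • z)) (g⁻¹ • g • y) = _
      rw [inv_smul_smul]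
      have : (fun z => (Pi.single (g • x) (1 : K) : Ω₁ → K) (g⁻¹⁻¹ • z)) = Pi.single x 1 := by
        funext z
        simp [Pi.single_apply]
      rw [this]
    refine ⟨Quotient.lift (fun z : Ω₁ × Ω₂ => T (Pi.single z.1 1) z.2) ?_, ?_⟩
    · rintro a b ⟨g, rfl⟩
      exact key g b.1 b.2
    · refine Subtype.ext (LinearMap.ext fun f => funext fun y => ?_)
      change ∑ x, T (Pi.single x 1) y * f x = T f y
      conv_rhs => rw [pi_eq_sum_univ' f]
      simp only [map_sum, map_smul, Finset.sum_apply, Pi.smul_apply, smul_eq_mul]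
      exact Finset.sum_congr rfl fun x _ => mul_comm _ _

/-- The equivariant linear maps between the permutation modules of two finite `G`-sets form a space whose dimension is the number of `G`-orbits on the product of the two sets. -/
theorem result {G : Type*} [Group G] {K : Type*} [Field K] {Ω₁ Ω₂ : Type*} [Fintype Ω₁] [Fintype Ω₂] [MulAction G Ω₁] [MulAction G Ω₂] : Module.finrank K ((Cfsg.permRep K G Ω₁).linHom (Cfsg.permRep K G Ω₂)).invariants = Nat.card (MulAction.orbitRel.Quotient G (Ω₁ × Ω₂)) := by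
  classical
  have : Fintype (MulAction.orbitRel.Quotient G (Ω₁ × Ω₂)) := Fintype.ofFinite _
  rw [← (LinearEquiv.ofBijective _ (toInv_bijective (G := G) (K := K) (Ω₁ := Ω₁) (Ω₂ := Ω₂))).finrank_eq,
    Module.finrank_fintype_fun_eq_card, Nat.card_eq_fintype_card]

end Cfsg.Agent.S0668
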