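import Cfsg.Statements.S0677
import Cfsg.Agent.H59.PrimeDeg2

set_option autoImplicit false
open Cfsg

namespace Cfsg.Agent.S0677

open H59

section
variable {p : ℕ} [hp : Fact p.Prime] {G : Type*} [Group G] {Ω : Type*} [MulAction G Ω]

theorem exists_fixed_of_isAff [Finite G] {e : ZMod p ≃ Ω} (H : Subgroup G)
    (hH : ¬ p ∣ Nat.card H) (h : ∀ g : G, IsAff e g) : ∃ a : Ω, ∀ k ∈ H, k • a = a := by
  classical
  have : Fintype H := Fintype.ofFinite H
  have hn : (Fintype.card H : ZMod p) ≠ 0 := by
    rwa [Ne, ZMod.natCast_eq_zero_iff, ← Nat.card_eq_fintype_card]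
  refine ⟨e ((∑ k : H, e.symm ((k : G) • e 0)) / Fintype.card H), fun k hk => ?_⟩
  obtain ⟨a, b, hab⟩ := h k
  rw [hab]
  congr 1
  have h1 : ∑ j : H, e.symm ((j : G) • e 0) = ∑ j : H, (a * e.symm ((j : G) • e 0) + b) := by
    refine (Fintype.sum_equiv (Equiv.mulLeft (⟨k, hk⟩ : H)) _ _ fun j => ?_).symm
    rw [eq_comm, Equiv.symm_apply_eq, ← hab]
    simp [mul_smul]
  rw [Finset.sum_add_distrib, ← Finset.mul_sum, Finset.sum_const, Finset.card_univ,
    nsmul_eq_mul] at h1
  field_simp
  linear_combination -h1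

theorem parity (hp2 : p ≠ 2) (S : Finset (ZMod p)) (m : ZMod p) (hS : ∀ c ∈ S, m - c ∈ S) :
    (S.card : ZMod 2) = if m / 2 ∈ S then 1 else 0 := by
  have h2 := two_ne_zero_zmod hp2
  have h1 : ∑ c ∈ S.erase (m / 2), (1 : ZMod 2) = 0 := by
    refine Finset.sum_involution (fun c _ => m - c) (fun _ _ => by decide) ?_ ?_ ?_
    · intro c hc _ h
      apply (Finset.mem_erase.mp hc).1
      field_simp
      linear_combination -h
    · intro c hc
      obtain ⟨hc1, hc2⟩ := Finset.mem_erase.mp hc
      refine Finset.mem_erase.mpr ⟨fun h => hc1 ?_, hS c hc2⟩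
      field_simp at h ⊢
      linear_combination -h
    · intro c _
      ring
  rw [Finset.sum_const, nsmul_eq_mul, mul_one] at h1
  split_ifs with h
  · rw [← Finset.card_erase_add_one h, Nat.cast_succ, h1, zero_add]
  · rwa [Finset.erase_eq_of_notMem h] at h1

theorem exists_fixed_of_neg [Finite G] (hp2 : p ≠ 2) {t s : G} {e : ZMod p ≃ Ω}
    (he : ∀ x, t • e x = e (x + 1)) (hs : ∀ x, s • e x = e (-x)) (htp : t ^ p = 1)
    (h2t : MulAction.IsMultiplyPretransitive G Ω 2)
    (H : Subgroup G) (hH : H.index = p) (hH' : ¬ p ∣ Nat.card H) :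
    ∃ a : Ω, ∀ k ∈ H, k • a = a := by
  classical
  have h2 := two_ne_zero_zmod hp2
  have ht1 : t ≠ 1 := by
    rintro rfl
    have := he 0
    rw [one_smul, zero_add] at this
    exact zero_ne_one (e.injective this)
  have htH : t • ((1 : G) : G ⧸ H) ≠ ((1 : G) : G ⧸ H) := by
    intro h
    rw [MulAction.Quotient.smul_coe, smul_eq_mul, mul_one, QuotientGroup.eq, mul_one,
      inv_mem_iff] at h
    apply hH'
    rw [← orderOf_eq_prime htp ht1]
    exact Subgroup.orderOf_dvd_natCard H h
  obtain ⟨e', he0, he'⟩ := exists_coord (G := G) (Ω := G ⧸ H) (p := p) hH htp htH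
  let I : G ⧸ H → Ω → Prop := fun q w => ∃ k : G, (k : G ⧸ H) = q ∧ k • e 0 = w
  have hI : ∀ (g : G) q w, I (g • q) (g • w) ↔ I q w := by
    intro g q w
    constructor
    · rintro ⟨k, h1, h3⟩
      refine ⟨g⁻¹ * k, ?_, by rw [mul_smul, h3, inv_smul_smul]⟩
      rw [← smul_eq_mul, ← MulAction.Quotient.smul_coe, h1, inv_smul_smul]
    · rintro ⟨k, h1, h3⟩
      refine ⟨g * k, ?_, by rw [mul_smul, h3]⟩
      rw [← smul_eq_mul, ← MulAction.Quotient.smul_coe, h1]
  have hIt : ∀ c y, I (e' c) (e y) ↔ I (e' 0) (e (y - c)) := by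
    intro c y
    rw [← hI (t ^ c.val) (e' 0), pow_smul_coord he, pow_smul_coord he', ZMod.natCast_zmod_val,
      zero_add, sub_add_cancel]
  obtain ⟨c₀, hc₀⟩ := e'.surjective (s • e' 0)
  have hneg : ∀ x, I (e' 0) (e x) ↔ I (e' 0) (e (-x - c₀)) := by
    intro x
    rw [← hI s, ← hc₀, hs, hIt]
  have : Fintype (G ⧸ H) := Fintype.ofFinite _
  let N : Ω → Ω → ℕ := fun w w' => (Finset.univ.filter fun q => I q w ∧ I q w').card
  have hN : ∀ (g : G) w w', N (g • w) (g • w') = N w w' := by
    intro g w w'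
    refine (Finset.card_equiv (MulAction.toPerm g) fun q => ?_).symm
    simp [hI]
  have hpar : ∀ d : ZMod p, (N (e 0) (e d) : ZMod 2) =
      if I (e' 0) (e (-((d + c₀) / 2))) then 1 else 0 := by
    intro d
    have h1 : N (e 0) (e d) =
        (Finset.univ.filter fun c => I (e' 0) (e (-c)) ∧ I (e' 0) (e (d - c))).card := by
      refine (Finset.card_equiv e' fun c => ?_).symm
      simp [hIt c]
    rw [h1, parity hp2 _ (d + c₀)]
    · congr 1
      simp only [Finset.mem_filter, Finset.mem_univ, true_and, eq_iff_iff, and_iff_left_iff_imp]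
      intro h
      rw [hneg] at h
      convert h using 2
      field_simp
      ring
    · intro c hc
      simp only [Finset.mem_filter, Finset.mem_univ, true_and] at hc ⊢
      refine ⟨?_, ?_⟩
      · convert (hneg _).mp hc.2 using 2
        ring
      · convert (hneg _).mp hc.1 using 2
        ring
  rw [MulAction.is_two_pretransitive_iff] at h2t
  have hall : ∀ x y, x ≠ -(c₀ / 2) → y ≠ -(c₀ / 2) → I (e' 0) (e x) → I (e' 0) (e y) := by
    intro x y hx hy hIx
    have hx' : e 0 ≠ e (-2 * x - c₀) := by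
      intro h
      apply hx
      have := e.injective h
      field_simp
      linear_combination this
    have hy' : e 0 ≠ e (-2 * y - c₀) := by
      intro h
      apply hy
      have := e.injective h
      field_simp
      linear_combination this
    obtain ⟨g, hg1, hg2⟩ := h2t hx' hy'
    have h1 := hN g (e 0) (e (-2 * x - c₀))
    rw [hg1, hg2] at h1
    have h3 := hpar (-2 * x - c₀)
    have h4 := hpar (-2 * y - c₀)
    rw [show -((-2 * x - c₀ + c₀) / 2) = x by field_simp; ring, if_pos hIx] at h3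
    rw [show -((-2 * y - c₀ + c₀) / 2) = y by field_simp; ring, h1, h3] at h4
    by_contra hcon
    rw [if_neg hcon] at h4
    exact one_ne_zero h4
  have hHI : ∀ k ∈ H, ∀ w, I (e' 0) (k • w) ↔ I (e' 0) w := by
    intro k hk w
    rw [← hI k (e' 0) w]
    congr! 1
    rw [he0, MulAction.Quotient.smul_coe, smul_eq_mul, mul_one, QuotientGroup.eq]
    simpa using hk
  refine ⟨e (-(c₀ / 2)), fun k hk => ?_⟩
  by_contra hne
  obtain ⟨y, hy⟩ := e.surjective (k • e (-(c₀ / 2)))
  have hy' : y ≠ -(c₀ / 2) := by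
    rintro rfl
    exact hne hy.symm
  have hiff : I (e' 0) (e y) ↔ I (e' 0) (e (-(c₀ / 2))) := by rw [hy, hHI k hk]
  have h0 : I (e' 0) (e 0) := ⟨1, he0.symm, one_smul _ _⟩
  have hy2 : I (e' 0) (e y) := by
    by_cases h : (0 : ZMod p) = -(c₀ / 2)
    · rw [hiff, ← h]; exact h0
    · exact hall 0 y h hy' h0
  have hevery : ∀ w, I (e' 0) w := by
    intro w
    obtain ⟨x, rfl⟩ := e.surjective w
    by_cases h : x = -(c₀ / 2)
    · rw [h, ← hiff]; exact hy2
    · exact hall y x hy' h hy2
  have : MulAction.IsPretransitive H Ω := by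
    rw [MulAction.isPretransitive_iff_base (e 0)]
    intro w
    obtain ⟨k, hk1, hk2⟩ := hevery w
    rw [he0, QuotientGroup.eq, mul_one, inv_mem_iff] at hk1
    exact ⟨⟨k, hk1⟩, hk2⟩
  exact hH' (prime_dvd_card_of_transitive (Ω := Ω) (by rw [← Nat.card_congr e, Nat.card_zmod]))

end

/-- In a transitive permutation group of prime degree `p` whose Sylow `p`-normaliser has even order, the point stabilisers are the only subgroups of index `p`. -/
theorem result {α : Type*} [Fintype α] [DecidableEq α] {p : ℕ} [Fact p.Prime] (hα : Fintype.card α = p) (G : Subgroup (Equiv.Perm α)) [MulAction.IsPretransitive G α] (P : Sylow p G) (heven : Even (Nat.card (Subgroup.normalizer ((P : Subgroup G) : Set G)))) (H : Subgroup G) (hH : H.index = p) : ∃ a : α, H = MulAction.stabilizer G a := by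
  have hcard : Nat.card α = p := by rw [Nat.card_eq_fintype_card, hα]
  have hp : p.Prime := Fact.out
  have hH' : ¬ p ∣ Nat.card H := by
    intro h
    apply not_sq_dvd_card (G := G) hcard
    rw [← H.card_mul_index, hH, pow_two]
    exact Nat.mul_dvd_mul_right h p
  have key : ∃ a : α, ∀ k ∈ H, k • a = a := by
    by_cases hp2 : p = 2
    · subst hp2
      obtain ⟨t, e, -, -, -⟩ := exists_coord_sylow hcard P
      exact exists_fixed_of_isAff (e := e) H hH' fun g => isAff_of_eq_two g
    obtain ⟨t, s, e, he, hs⟩ := exists_coord_neg hcard hp2 P heven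
    rcases isAff_or_two_pretransitive he with h | h
    · exact exists_fixed_of_isAff H hH' h
    refine exists_fixed_of_neg hp2 he hs ?_ h H hH hH'
    refine eq_of_smul_eq_smul (α := α) fun x => ?_
    obtain ⟨y, rfl⟩ := e.surjective x
    rw [pow_smul_coord he, ZMod.natCast_self, add_zero, one_smul]
  obtain ⟨a, ha⟩ := key
  refine ⟨a, Subgroup.eq_of_le_of_card_ge (fun k hk => ha k hk) (le_of_eq ?_)⟩
  have h1 := (MulAction.stabilizer G a).card_mul_index
  rw [MulAction.index_stabilizer_of_transitive, hcard, ← H.card_mul_index, hH] at h1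
  exact Nat.eq_of_mul_eq_mul_right hp.pos h1

end Cfsg.Agent.S0677
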