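import Mathlib
import Cfsg.Statements.S0681

set_option autoImplicit false
open Cfsg

namespace Cfsg.Agent.S0681

section
variable {F : Type*} [Cfsg.NearField F]

theorem nf_zero_mul (a : F) : (0 : F) * a = 0 := by
  have h := NearField.right_distrib (0 : F) 0 a
  rw [add_zero] at h
  exact left_eq_add.mp h

theorem nf_neg_mul (a b : F) : (-a) * b = -(a * b) := by
  have h := NearField.right_distrib (-a) a b
  rw [neg_add_cancel, nf_zero_mul] at h
  exact eq_neg_of_add_eq_zero_left h.symm

theorem nf_sub_mul (a b c : F) : (a - b) * c = a * c - b * c := by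
  rw [sub_eq_add_neg, NearField.right_distrib, nf_neg_mul, ← sub_eq_add_neg]

theorem nf_mul_ne_zero {a b : F} (ha : a ≠ 0) (hb : b ≠ 0) : a * b ≠ 0 := by
  intro h
  obtain ⟨c, hc, -⟩ := NearField.exists_inv b hb
  apply ha
  calc a = a * (b * c) := by rw [hc, mul_one]
    _ = 0 := by rw [← mul_assoc, h, nf_zero_mul]

theorem nf_mul_left_cancel {a x y : F} (ha : a ≠ 0) (h : a * x = a * y) : x = y := by
  obtain ⟨c, -, hc⟩ := NearField.exists_inv a ha
  calc x = (c * a) * x := by rw [hc, one_mul]
    _ = (c * a) * y := by rw [mul_assoc, h, ← mul_assoc]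
    _ = y := by rw [hc, one_mul]

/-- the affine map as a permutation -/
noncomputable def affPerm (a b : F) (ha : a ≠ 0) : Equiv.Perm F where
  toFun x := x * a + b
  invFun y := (y - b) * (NearField.exists_inv a ha).choose
  left_inv x := by
    have h := (NearField.exists_inv a ha).choose_spec.1
    simp only [add_sub_cancel_right, mul_assoc, h, mul_one]
  right_inv y := by
    have h := (NearField.exists_inv a ha).choose_spec.2
    simp only [mul_assoc, h, mul_one, sub_add_cancel]

/-- the affine group -/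
def affGroup (F : Type*) [Cfsg.NearField F] : Subgroup (Equiv.Perm F) where
  carrier := {σ | ∃ a b : F, a ≠ 0 ∧ ∀ x : F, σ x = x * a + b}
  one_mem' := ⟨1, 0, NearField.zero_ne_one.symm, fun x => by simp⟩
  mul_mem' := by
    rintro σ τ ⟨a, b, ha, hσ⟩ ⟨c, d, hc, hτ⟩
    refine ⟨c * a, d * a + b, nf_mul_ne_zero hc ha, fun x => ?_⟩
    simp only [Equiv.Perm.coe_mul, Function.comp_apply, hσ, hτ, NearField.right_distrib,
      mul_assoc, add_assoc]
  inv_mem' := by
    rintro σ ⟨a, b, ha, hσ⟩
    obtain ⟨c, hc1, hc2⟩ := NearField.exists_inv a ha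
    have hc : c ≠ 0 := by
      rintro rfl
      rw [NearField.mul_zero] at hc1
      exact NearField.zero_ne_one hc1
    refine ⟨c, (-b) * c, hc, fun x => ?_⟩
    apply σ.injective
    rw [Equiv.Perm.inv_def, Equiv.apply_symm_apply, hσ, ← NearField.right_distrib, mul_assoc, hc2,
      mul_one, add_assoc, neg_add_cancel, add_zero]

end

/-- The affine maps `x ↦ x * a + b`, `a ≠ 0`, of a near-field form a sharply doubly transitive permutation group. -/
theorem result {F : Type*} [Cfsg.NearField F] : ∃ H : Subgroup (Equiv.Perm F), (∀ σ : Equiv.Perm F, σ ∈ H ↔ ∃ a b : F, a ≠ 0 ∧ ∀ x : F, σ x = x * a + b) ∧ MulAction.IsMultiplyPretransitive H F 2 ∧ ∀ x : Fin 2 ↪ F, MulAction.stabilizer H x = ⊥ := by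
  refine ⟨affGroup F, fun σ => Iff.rfl, ?_, ?_⟩
  · rw [MulAction.is_two_pretransitive_iff]
    intro a b c d hab hcd
    have h1 : a - b ≠ 0 := sub_ne_zero.mpr hab
    have h2 : c - d ≠ 0 := sub_ne_zero.mpr hcd
    obtain ⟨u, hu1, hu2⟩ := NearField.exists_inv (a - b) h1
    have hu : u ≠ 0 := by
      rintro rfl
      rw [NearField.mul_zero] at hu1
      exact NearField.zero_ne_one hu1
    have hm : u * (c - d) ≠ 0 := nf_mul_ne_zero hu h2
    refine ⟨⟨affPerm (u * (c - d)) (-(b * (u * (c - d))) + d) hm, _, _, hm, fun x => rfl⟩, ?_, ?_⟩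
    · change a * (u * (c - d)) + (-(b * (u * (c - d))) + d) = c
      rw [← add_assoc, ← sub_eq_add_neg, ← nf_sub_mul, ← mul_assoc, hu1, one_mul, sub_add_cancel]
    · change b * (u * (c - d)) + (-(b * (u * (c - d))) + d) = d
      rw [← add_assoc, add_neg_cancel, zero_add]
  · intro x
    rw [eq_bot_iff]
    rintro ⟨σ, a, b, ha, hσ⟩ hx
    rw [MulAction.mem_stabilizer_iff] at hx
    have h0 : x 0 * a + b = x 0 := by
      have := congrArg (fun y : Fin 2 ↪ F => y 0) hx
      rw [← hσ]; exact this
    have h1 : x 1 * a + b = x 1 := by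
      have := congrArg (fun y : Fin 2 ↪ F => y 1) hx
      rw [← hσ]; exact this
    have hne : x 0 - x 1 ≠ 0 := sub_ne_zero.mpr (x.injective.ne (by decide))
    have ha1 : a = 1 := by
      apply nf_mul_left_cancel hne
      rw [mul_one, nf_sub_mul]
      conv_rhs => rw [← h0, ← h1]
      rw [add_sub_add_right_eq_sub]
    subst ha1
    have hb : b = 0 := by
      rw [mul_one] at h0
      exact add_eq_left.mp h0
    subst hb
    rw [Subgroup.mem_bot]
    ext y
    simp [hσ]

end Cfsg.Agent.S0681
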