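import Cfsg.Statements.S0682
import Cfsg.Agent.H61.Sharp2
import Cfsg.Agent.S0681

set_option autoImplicit false
open Cfsg

namespace Cfsg.Agent.S0682

open Cfsg.Agent.H61

/-- A finite near-field has prime-power order; its additive group is commutative of prime exponent. -/
theorem result {F : Type*} [Cfsg.NearField F] [Finite F] : ∃ p j : ℕ, p.Prime ∧ 1 ≤ j ∧ Nat.card F = p ^ j ∧ (∀ x y : F, x + y = y + x) ∧ ∀ x : F, p • x = 0 := by
  obtain ⟨H, hH, h2, hsharp⟩ := Cfsg.Agent.S0681.result (F := F)
  have : Nontrivial F := ⟨⟨0, 1, NearField.zero_ne_one⟩⟩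
  have h : IsSharp2 H F := IsSharp2.of_stabilizer hsharp
  obtain ⟨p, j, hp, hj, hcard, hpow⟩ := h.kernel_exists_prime
  -- translations
  let t : F → H := fun b => ⟨Equiv.addRight b, (hH _).2 ⟨1, b, NearField.zero_ne_one.symm,
    fun x => by simp⟩⟩
  have ht : ∀ b x : F, t b • x = x + b := fun b x => rfl
  have htK : ∀ b, t b ∈ h.kernel := by
    intro b
    by_cases hb : b = 0
    · left
      subst hb
      apply Subtype.ext
      ext x
      simp [t]
    · right
      intro a ha
      rw [ht] at ha
      exact hb (add_eq_left.mp ha)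
  have htpow : ∀ (b : F) (n : ℕ), (t b ^ n) • (0 : F) = n • b := by
    intro b n
    induction n with
    | zero => simp
    | succ n ih => rw [pow_succ', mul_smul, ih, ht, succ_nsmul]
  refine ⟨p, j, hp, hj, hcard, fun x y => ?_, fun x => ?_⟩
  · have := congrArg (fun g : H => g • (0 : F)) (h.kernel_comm (htK y) (htK x))
    simpa only [mul_smul, ht, zero_add] using this
  · rw [← htpow, hpow _ (htK x), one_smul]

end Cfsg.Agent.S0682
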