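import Cfsg.Statements.S0683
import Cfsg.Agent.H61.Sharp2

set_option autoImplicit false
open Cfsg

namespace Cfsg.Agent.S0683

open Cfsg.Agent.H61

theorem aux {G α : Type*} [Group G] [MulAction G α] [Finite α] [Nontrivial α] (h : IsSharp2 G α) :
    ∃ _ : Cfsg.NearField α, (∀ g : G, ∃ a b : α, a ≠ 0 ∧ ∀ x : α, g • x = x * a + b) ∧
      ∀ a b : α, a ≠ 0 → ∃ g : G, ∀ x : α, g • x = x * a + b := by
  classical
  obtain ⟨o, i, hoi⟩ := exists_pair_ne α
  choose t htK ht using h.kernel_exists_smul_eq o
  have tmul : ∀ a b, t (t b • a) = t b * t a := fun a b =>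
    h.kernel_eq_of_smul_eq (htK _) (h.kernel.mul_mem (htK _) (htK _)) (a := o)
      (by rw [ht, mul_smul, ht])
  have t_o : t o = 1 := h.kernel_eq_of_smul_eq (htK _) h.kernel.one_mem (a := o)
      (by rw [ht, one_smul])
  have hm : ∀ a : α, a ≠ o → ∃ g : G, g • o = o ∧ g • i = a := fun a ha =>
    h.trans o i o a hoi ha.symm
  choose m hmo hmi using hm
  have mconj : ∀ (g : G), g • o = o → ∀ b, t (g • b) = g * t b * g⁻¹ := fun g hg b =>
    h.kernel_eq_of_smul_eq (htK _) (h.kernel_normal.conj_mem _ (htK _) _) (a := o)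
      (by rw [ht, mul_smul, mul_smul, inv_smul_eq_iff.mpr hg.symm, ht])
  have mne : ∀ a (ha : a ≠ o) x, x ≠ o → m a ha • x ≠ o := by
    intro a ha x hx hh
    exact hx (smul_left_cancel (m a ha) (hh.trans (hmo a ha).symm))
  have mmul : ∀ a (ha : a ≠ o) b (hb : b ≠ o), m (m b hb • a) (mne b hb a ha) = m b hb * m a ha :=
    fun a ha b hb => h.eq_of_smul_eq hoi (by rw [hmo, mul_smul, hmo, hmo])
      (by rw [hmi, mul_smul, hmi])
  have mi : m i hoi.symm = 1 := h.eq_of_smul_eq hoi (by rw [hmo, one_smul]) (by rw [hmi, one_smul])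
  let _ : Zero α := ⟨o⟩
  let _ : Add α := ⟨fun x y => t y • x⟩
  let _ : Neg α := ⟨fun x => (t x)⁻¹ • o⟩
  let _ : One α := ⟨i⟩
  let _ : Mul α := ⟨fun x a => if ha : a = o then o else m a ha • x⟩
  have add_def : ∀ x y : α, x + y = t y • x := fun _ _ => rfl
  have mul_def : ∀ x a : α, x * a = if ha : a = o then o else m a ha • x := fun _ _ => rfl
  have mul_def' : ∀ (x a : α) (ha : a ≠ o), x * a = m a ha • x := fun x a ha => dif_neg ha
  have mul_o : ∀ x : α, x * o = o := fun x => dif_pos rfl
  let AG : AddGroup α := AddGroup.ofLeftAxioms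
    (fun a b c => by rw [add_def, add_def, add_def, add_def, tmul, mul_smul])
    (fun a => ht a)
    (fun a => by change t a • (t a)⁻¹ • o = o; rw [smul_inv_smul])
  let MM : Monoid α :=
    { mul_assoc := by
        intro x a b
        by_cases hb : b = o
        · rw [hb, mul_o, mul_o, mul_o]
        · by_cases ha : a = o
          · rw [ha, mul_o, mul_def' o b hb, hmo, mul_o]
          · rw [mul_def' _ b hb, mul_def' _ a ha, mul_def' a b hb, mul_def' _ _ (mne b hb a ha),
              mmul a ha b hb, mul_smul]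
      one_mul := by
        intro a
        by_cases ha : a = o
        · rw [ha, mul_o]
        · rw [mul_def' _ a ha]; exact hmi a ha
      mul_one := by
        intro a
        change a * i = a
        rw [mul_def' a i hoi.symm, mi, one_smul] }
  let NF : Cfsg.NearField α :=
    { AG, MM with
      right_distrib := by
        intro a b c
        change (a + b) * c = a * c + b * c
        by_cases hc : c = o
        · rw [hc, mul_o, mul_o, mul_o, add_def, ht]
        · rw [mul_def' _ c hc, mul_def' _ c hc, mul_def' _ c hc, add_def, add_def,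
            mconj _ (hmo c hc), mul_smul, mul_smul, inv_smul_smul]
      mul_zero := mul_o
      zero_ne_one := hoi
      exists_inv := by
        intro a ha
        have ha' : a ≠ o := ha
        have hb : (m a ha')⁻¹ • i ≠ o := by
          intro hh
          rw [inv_smul_eq_iff, hmo] at hh
          exact hoi hh.symm
        have hmb : m _ hb = (m a ha')⁻¹ := h.eq_of_smul_eq hoi
          (by rw [hmo, eq_inv_smul_iff, hmo]) (by rw [hmi])
        refine ⟨(m a ha')⁻¹ • i, ?_, ?_⟩
        · change a * _ = i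
          rw [mul_def' _ _ hb, hmb, inv_smul_eq_iff, hmi]
        · change _ * a = i
          rw [mul_def' _ _ ha', smul_inv_smul] }
  refine ⟨NF, fun g => ?_, fun a b ha => ?_⟩
  · have h1 : ((t (g • o))⁻¹ * g) • o = o := by rw [mul_smul, inv_smul_eq_iff, ht]
    have h2 : ((t (g • o))⁻¹ * g) • i ≠ o := by
      intro hh
      exact hoi (smul_left_cancel _ (h1.trans hh.symm))
    refine ⟨_, g • o, h2, fun x => ?_⟩
    change g • x = t (g • o) • (x * _)
    rw [mul_def' _ _ h2, h.eq_of_smul_eq hoi ((hmo _ h2).trans h1.symm) (hmi _ h2), ← mul_smul,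
      mul_inv_cancel_left]
  · refine ⟨t b * m a ha, fun x => ?_⟩
    change _ = t b • (x * a)
    rw [mul_def' _ _ ha, mul_smul]

/-- A finite sharply doubly transitive permutation group is the affine group of a near-field: the permuted set carries a near-field structure for which the group consists exactly of the maps `x ↦ x * a + b` with `a ≠ 0`. -/
theorem result {α : Type*} [Fintype α] [DecidableEq α] (H : Subgroup (Equiv.Perm α)) [MulAction.IsMultiplyPretransitive H α 2] (hsharp : ∀ x : Fin 2 ↪ α, MulAction.stabilizer H x = ⊥) (h2 : 2 ≤ Fintype.card α) : ∃ _ : Cfsg.NearField α, ∀ σ : Equiv.Perm α, σ ∈ H ↔ ∃ a b : α, a ≠ 0 ∧ ∀ x : α, σ x = x * a + b := by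
  have : Nontrivial α := Fintype.one_lt_card_iff_nontrivial.mp h2
  obtain ⟨NF, h1, h3⟩ := aux (IsSharp2.of_stabilizer hsharp)
  refine ⟨NF, fun σ => ⟨fun hσ => h1 ⟨σ, hσ⟩, ?_⟩⟩
  rintro ⟨a, b, ha, hσ⟩
  obtain ⟨g, hg⟩ := h3 a b ha
  have : σ = g.1 := Equiv.ext fun x => (hσ x).trans (hg x).symm
  rw [this]
  exact g.2

end Cfsg.Agent.S0683
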