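import Cfsg.Statements.S0684
import Cfsg.Agent.H61.RegLin

set_option autoImplicit false
open Cfsg

namespace Cfsg.Agent.S0684

/-- Point stabiliser of a sharply doubly transitive group not of semilinear type: a maximal normal abelian subgroup `A` of a linear group `H` that is regular on non-zero vectors and has no irreducible cyclic normal subgroup is cyclic and reducible, and the order of `A` divides `p ^ k - 1` for `k` the dimension of a minimal `A`-invariant subspace. -/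
theorem result {p : ℕ} [Fact p.Prime] {V : Type*} [AddCommGroup V] [Module (ZMod p) V] [Finite V] (H : Subgroup (V ≃ₗ[ZMod p] V)) (hreg : ∀ v w : V, v ≠ 0 → w ≠ 0 → ∃! h : H, (h : V ≃ₗ[ZMod p] V) v = w) (hI : ∀ A : Subgroup H, A.Normal → IsCyclic A → ∃ W : Submodule (ZMod p) V, W ≠ ⊥ ∧ W ≠ ⊤ ∧ ∀ a ∈ A, ∀ v ∈ W, ((a : H) : V ≃ₗ[ZMod p] V) v ∈ W) (A : Subgroup H) (hAn : A.Normal) (hAc : IsMulCommutative A) (hAmax : ∀ B : Subgroup H, B.Normal → IsMulCommutative B → A ≤ B → B = A) : IsCyclic A ∧ ∃ W : Submodule (ZMod p) V, W ≠ ⊥ ∧ W ≠ ⊤ ∧ (∀ a ∈ A, ∀ v ∈ W, ((a : H) : V ≃ₗ[ZMod p] V) v ∈ W) ∧ (∀ W' : Submodule (ZMod p) V, W' ≤ W → (∀ a ∈ A, ∀ v ∈ W', ((a : H) : V ≃ₗ[ZMod p] V) v ∈ W') → W' = ⊥ ∨ W' = W) ∧ Nat.card A ∣ p ^ Module.finrank (ZMod p) W - 1 := by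
  have h := H61.IsRL.of_subgroup H hreg
  have : Nontrivial V := H61.nontrivial_of_not_irrOn
    (H61.not_irrOn_of_submodule (hI ⊥ inferInstance inferInstance))
  have hc := h.isCyclic_of_comm A ((H61.comm_iff_isMulCommutative A).mp hAc)
  obtain ⟨W₀, h1, h2, h3⟩ := hI A hAn hc
  have : Finite (Submodule (ZMod p) V) := Finite.of_injective _ SetLike.coe_injective
  obtain ⟨W, ⟨h4, h5, h6⟩, h7⟩ := (wellFounded_lt (α := Submodule (ZMod p) V)).has_min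
    {W | W ≠ ⊥ ∧ W ≤ W₀ ∧ ∀ a ∈ A, ∀ v ∈ W, ((a : H) : V ≃ₗ[ZMod p] V) v ∈ W} ⟨W₀, h1, le_rfl, h3⟩
  refine ⟨hc, W, h4, fun e => h2 (top_le_iff.mp (e ▸ h5)), h6, fun W' h8 h9 => ?_, ?_⟩
  · by_cases h0 : W' = ⊥
    · exact Or.inl h0
    · exact Or.inr (eq_of_le_of_not_lt h8 (h7 W' ⟨h0, h8.trans h5, h9⟩))
  · have := h.card_dvd A W.toAddSubgroup h6
    have e : Nat.card W = Nat.card (ZMod p) ^ Module.finrank (ZMod p) W :=
      Module.natCard_eq_pow_finrank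
    rw [Nat.card_zmod] at e
    rwa [← e]

end Cfsg.Agent.S0684
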