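import Cfsg.Statements.S0686
import Cfsg.Agent.H61.RegLin3

set_option autoImplicit false
open Cfsg

namespace Cfsg.Agent.S0686

/-- In a linear group over the prime field that is regular on non-zero vectors and has no irreducible cyclic normal subgroup, let `A` be a maximal normal abelian subgroup and `N` a normal subgroup centralising `A` that is minimal among non-abelian normal subgroups centralising `A`. Then `N` is quaternion of order 8 or isomorphic to `SL(2,5)`. -/
theorem result {p : ℕ} [Fact p.Prime] {V : Type*} [AddCommGroup V] [Module (ZMod p) V] [Finite V] (H : Subgroup (V ≃ₗ[ZMod p] V)) (hreg : ∀ v w : V, v ≠ 0 → w ≠ 0 → ∃! h : H, (h : V ≃ₗ[ZMod p] V) v = w) (hI : ∀ A : Subgroup H, A.Normal → IsCyclic A → ∃ W : Submodule (ZMod p) V, W ≠ ⊥ ∧ W ≠ ⊤ ∧ ∀ a ∈ A, ∀ v ∈ W, ((a : H) : V ≃ₗ[ZMod p] V) v ∈ W) (A : Subgroup H) (hAn : A.Normal) (hAc : IsMulCommutative A) (hAmax : ∀ B : Subgroup H, B.Normal → IsMulCommutative B → A ≤ B → B = A) (N : Subgroup H) (hNn : N.Normal) (hNle : N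 ≤ Subgroup.centralizer (A : Set H)) (hNna : ¬ IsMulCommutative N) (hNmin : ∀ M : Subgroup H, M.Normal → M ≤ N → ¬ IsMulCommutative M → M = N) : Nonempty (N ≃* QuaternionGroup 2) ∨ Nonempty (N ≃* Matrix.SpecialLinearGroup (Fin 2) (ZMod 5)) := by
  have h := H61.IsRL.of_subgroup H hreg
  have : Nontrivial V := H61.nontrivial_of_not_irrOn
    (H61.not_irrOn_of_submodule (hI ⊥ inferInstance inferInstance))
  have hN := fun hc => hNna ((H61.comm_iff_isMulCommutative N).mpr hc)
  by_cases hp : ⁅N, N⁆ = N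
  · exact Or.inr (h.sl25_of_perfect N hp (by rintro rfl; exact hN (by simp)))
  · exact Or.inl (h.quaternion_of_min A N ((H61.comm_iff_isMulCommutative A).mp hAc)
      (fun B hB hB' => hAmax B hB ((H61.comm_iff_isMulCommutative B).mpr hB')) hNle hN
      (fun M hM hMN hM' => hNmin M hM hMN fun hc =>
        hM' ((H61.comm_iff_isMulCommutative M).mp hc)) hp)

end Cfsg.Agent.S0686
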