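import Cfsg.Statements.S0691
import Cfsg.Agent.H61.RegMat

set_option autoImplicit false
open Cfsg

namespace Cfsg.Agent.S0691

def tab : ℕ := 0x40830821020811020821000410c30440c10430420420021031041041010c40830c00c30c30c40c30420c20010010010800c20020c0100000

def ent (x y : ZMod 5) : ℕ := (tab >>> (18 * (x.val * 5 + y.val))) % 262144

def T (x y : ZMod 5) : ZMod 5 × ZMod 5 := ((ent x y % 64 : ℕ), (ent x y / 64 % 64 : ℕ))

def D (x y : ZMod 5) : ℕ := ent x y / 4096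

theorem hA' : ∀ x y : ZMod 5, (x ≠ 0 ∨ y ≠ 0) →
    T (2 * x + 0 * y) (0 * x + -2 * y) =
      (2 * (T x y).1 + 0 * (T x y).2, 0 * (T x y).1 + -2 * (T x y).2) := by
  decide +kernel

theorem hB' : ∀ x y : ZMod 5, (x ≠ 0 ∨ y ≠ 0) →
    T (0 * x + -1 * y) (1 * x + 0 * y) =
      (0 * (T x y).1 + -1 * (T x y).2, 1 * (T x y).1 + 0 * (T x y).2) := by
  decide +kernel

theorem hC' : ∀ x y : ZMod 5, (x ≠ 0 ∨ y ≠ 0) →
    T (1 * x + 2 * y) (1 * x + -2 * y) =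
      (1 * (T x y).1 + 2 * (T x y).2, 1 * (T x y).1 + -2 * (T x y).2) := by
  decide +kernel

theorem hD' : ∀ x y : ZMod 5, (x ≠ 0 ∨ y ≠ 0) → (x = 1 ∧ y = 0) ∨
      D (2 * x + 0 * y) (0 * x + -2 * y) < D x y ∨
      D (0 * x + -1 * y) (1 * x + 0 * y) < D x y ∨
      D (1 * x + 2 * y) (1 * x + -2 * y) < D x y := by
  decide +kernel

theorem hT' : T 1 0 = (0, 1) := by decide +kernel

/-- An exceptional sharply doubly transitive group of degree 5^2: the listed matrices generate a subgroup of GL(2,5) of order 24 acting regularly on the non-zero vectors. -/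
theorem result (A : Matrix.GeneralLinearGroup (Fin 2) (ZMod 5)) (B : Matrix.GeneralLinearGroup (Fin 2) (ZMod 5)) (C : Matrix.GeneralLinearGroup (Fin 2) (ZMod 5)) (hA : (A : Matrix (Fin 2) (Fin 2) (ZMod 5)) = !![2, 0; 0, -2]) (hB : (B : Matrix (Fin 2) (Fin 2) (ZMod 5)) = !![0, -1; 1, 0]) (hC : (C : Matrix (Fin 2) (Fin 2) (ZMod 5)) = !![1, 2; 1, -2]) : Nat.card (Subgroup.closure ({A, B, C} : Set (Matrix.GeneralLinearGroup (Fin 2) (ZMod 5)))) = 24 ∧ ∀ v w : Fin 2 → ZMod 5, v ≠ 0 → w ≠ 0 → ∃! h : Subgroup.closure ({A, B, C} : Set (Matrix.GeneralLinearGroup (Fin 2) (ZMod 5))), Matrix.mulVec ((h : Matrix.GeneralLinearGroup (Fin 2) (ZMod 5)) : Matrix (Fin 2) (Fin 2) (ZMod 5)) v = w := by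
  have : Fact (Nat.Prime 5) := ⟨by norm_num⟩
  have eA : A 0 0 = 2 ∧ A 0 1 = 0 ∧ A 1 0 = 0 ∧ A 1 1 = -2 :=
    ⟨congrFun (congrFun hA 0) 0, congrFun (congrFun hA 0) 1, congrFun (congrFun hA 1) 0,
      congrFun (congrFun hA 1) 1⟩
  have eB : B 0 0 = 0 ∧ B 0 1 = -1 ∧ B 1 0 = 1 ∧ B 1 1 = 0 :=
    ⟨congrFun (congrFun hB 0) 0, congrFun (congrFun hB 0) 1, congrFun (congrFun hB 1) 0,
      congrFun (congrFun hB 1) 1⟩
  have eC : C 0 0 = 1 ∧ C 0 1 = 2 ∧ C 1 0 = 1 ∧ C 1 1 = -2 :=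
    ⟨congrFun (congrFun hC 0) 0, congrFun (congrFun hC 0) 1, congrFun (congrFun hC 1) 0,
      congrFun (congrFun hC 1) 1⟩
  have := H61.regular_of_table (F := ZMod 5) {A, B, C} T D hT' (by
    intro g hg
    rcases hg with rfl | rfl | rfl
    · rw [eA.1, eA.2.1, eA.2.2.1, eA.2.2.2]
      exact hA'
    · rw [eB.1, eB.2.1, eB.2.2.1, eB.2.2.2]
      exact hB'
    · rw [eC.1, eC.2.1, eC.2.2.1, eC.2.2.2]
      exact hC') (by
    intro x y hxy
    rcases hD' x y hxy with h | h | h | h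
    · exact Or.inl h
    · refine Or.inr ⟨A, by simp, ?_⟩
      rw [eA.1, eA.2.1, eA.2.2.1, eA.2.2.2]
      exact h
    · refine Or.inr ⟨B, by simp, ?_⟩
      rw [eB.1, eB.2.1, eB.2.2.1, eB.2.2.2]
      exact h
    · refine Or.inr ⟨C, by simp, ?_⟩
      rw [eC.1, eC.2.1, eC.2.2.1, eC.2.2.2]
      exact h)
  rw [ZMod.card] at this
  exact this

end Cfsg.Agent.S0691
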