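import Cfsg.Statements.S0694
import Mathlib

set_option autoImplicit false
open Cfsg

namespace Cfsg.Agent.S0694

theorem two_odd {q i : ℕ} (hq : 1 < q) (h2 : 2 ∣ q - 1) (hi : Odd i) :
    padicValNat 2 (q ^ i - 1) = padicValNat 2 (q - 1) := by
  obtain ⟨s, rfl⟩ : ∃ s, q = s + 1 := ⟨q - 1, by omega⟩
  rw [← geom_sum_mul_add, Nat.add_sub_cancel, Nat.add_sub_cancel] at *
  have hodd : Odd (∑ k ∈ Finset.range i, (s + 1) ^ k) := by
    rw [Finset.odd_sum_iff_odd_card_odd, Finset.filter_true_of_mem fun k _ =>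
      Odd.pow (Even.add_one (even_iff_two_dvd.mpr h2)), Finset.card_range]
    exact hi
  rw [padicValNat.mul hodd.pos.ne' (by omega),
    padicValNat.eq_zero_of_not_dvd (Nat.two_dvd_ne_zero.mpr (Nat.odd_iff.mp hodd)), zero_add]

theorem key {q i r : ℕ} (hq : 1 < q) (hr : r.Prime) (h : r ∣ q - 1) (hi : i ≠ 0) :
    padicValNat r (q - 1) + padicValNat r i ≤ padicValNat r (q ^ i - 1) ∧
    ((r ≠ 2 ∨ 4 ∣ q - 1 ∨ Odd i) →
      padicValNat r (q ^ i - 1) = padicValNat r (q - 1) + padicValNat r i) ∧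
    (r = 2 → ¬ 4 ∣ q - 1 → Even i →
      padicValNat r (q - 1) + padicValNat r i + 1 ≤ padicValNat r (q ^ i - 1)) := by
  have := Fact.mk hr
  have hrq : ¬ r ∣ q := fun h' => hr.one_lt.ne' (Nat.dvd_one.mp (by
    have := Nat.dvd_sub h' h
    rwa [show q - (q - 1) = 1 by omega] at this))
  rcases hr.eq_two_or_odd' with rfl | hodd
  · rcases Nat.even_or_odd i with he | ho
    · have h1 := padicValNat.pow_two_sub_one hq hrq hi he
      have h2 : 1 ≤ padicValNat 2 (q + 1) :=
        (padicValNat_dvd_iff_le (by omega)).mp (by omega)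
      refine ⟨by omega, fun h' => ?_, fun _ h4 _ => ?_⟩
      · have h4 : 4 ∣ q - 1 := (h'.resolve_left (by simp)).resolve_right
          (Nat.not_odd_iff_even.mpr he)
        have h3 : ¬ 2 ≤ padicValNat 2 (q + 1) := fun h =>
          absurd ((padicValNat_dvd_iff_le (by omega)).mpr h) (by omega)
        omega
      · have h3 : 2 ≤ padicValNat 2 (q + 1) :=
          (padicValNat_dvd_iff_le (by omega)).mp (by omega)
        omega
    · have h1 := two_odd hq h ho
      have h2 : padicValNat 2 i = 0 :=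
        padicValNat.eq_zero_of_not_dvd (Nat.two_dvd_ne_zero.mpr (Nat.odd_iff.mp ho))
      exact ⟨by omega, fun _ => by omega, fun _ _ he => absurd he (Nat.not_even_iff_odd.mpr ho)⟩
  · have h1 := padicValNat.pow_sub_pow (p := r) hodd hq h hrq hi
    rw [one_pow] at h1
    exact ⟨by omega, fun _ => h1, fun e => by rw [e] at hodd; exact absurd hodd (by decide)⟩

theorem dvd_iff {a b : ℕ} (ha : a ≠ 0) (hb : b ≠ 0) :
    a ∣ b ↔ ∀ r : ℕ, r.Prime → padicValNat r a ≤ padicValNat r b := by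
  rw [← Nat.factorization_prime_le_iff_dvd ha hb]
  exact forall₂_congr fun r hr => by rw [Nat.factorization_def _ hr, Nat.factorization_def _ hr]

theorem mod_iff {q n i : ℕ} (hq : 1 < q) (hn : n ≠ 0) (hi : i ≠ 0) :
    q ^ i ≡ 1 [MOD n * (q - 1)] ↔ ∀ r : ℕ, r.Prime → r ∣ n →
      padicValNat r n + padicValNat r (q - 1) ≤ padicValNat r (q ^ i - 1) := by
  have h1 : 1 < q ^ i := Nat.one_lt_pow hi hq
  have h2 : q - 1 ≠ 0 := by omega
  have h3 : q ^ i - 1 ≠ 0 := by omega
  rw [Nat.ModEq.comm, Nat.modEq_iff_dvd' h1.le, dvd_iff (mul_ne_zero hn h2) h3]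
  refine forall₂_congr fun r hr => ?_
  have := Fact.mk hr
  rw [padicValNat.mul hn h2]
  refine ⟨fun h _ => h, fun h => ?_⟩
  by_cases hd : r ∣ n
  · exact h hd
  · rw [padicValNat.eq_zero_of_not_dvd hd, zero_add]
    exact (dvd_iff h2 h3).mp (Nat.sub_one_dvd_pow_sub_one q i) r hr

theorem mod_of {q n i : ℕ} (hq : 1 < q) (hn : n ≠ 0) (hi : i ≠ 0) (hni : n ∣ i)
    (h : ∀ r : ℕ, r.Prime → r ∣ n → r ∣ q - 1) : q ^ i ≡ 1 [MOD n * (q - 1)] :=
  (mod_iff hq hn hi).mpr fun r hr hd => by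
    have h1 := (key hq hr (h r hr hd) hi).1
    have h2 := (dvd_iff hn hi).mp hni r hr
    omega

/-- The Dickson pair condition: for a prime power `q` and `n > 1`, (every prime factor of `n` divides `q - 1`, and `4 ∣ n → 4 ∣ q - 1`) holds exactly when `q ^ n ≡ 1` modulo `n * (q - 1)` but `q ^ i` is not, for `0 < i < n`. -/
theorem result (q n : ℕ) (hq : IsPrimePow q) (hn : 1 < n) : ((∀ r : ℕ, r.Prime → r ∣ n → r ∣ q - 1) ∧ (4 ∣ n → 4 ∣ q - 1)) ↔ (q ^ n ≡ 1 [MOD n * (q - 1)] ∧ ∀ i : ℕ, 0 < i → i < n → ¬ q ^ i ≡ 1 [MOD n * (q - 1)]) := by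
  have hq1 : 1 < q := hq.one_lt
  have hn0 : n ≠ 0 := by omega
  constructor
  · rintro ⟨h1, h2⟩
    refine ⟨mod_of hq1 hn0 hn0 dvd_rfl h1, fun i hi hin h => ?_⟩
    refine absurd (Nat.le_of_dvd hi ((dvd_iff hn0 hi.ne').mpr fun r hr => ?_)) (by omega)
    have := Fact.mk hr
    by_cases hd : r ∣ n
    · have h3 := (mod_iff hq1 hn0 hi.ne').mp h r hr hd
      by_cases hc : r ≠ 2 ∨ 4 ∣ q - 1 ∨ Odd i
      · have := (key hq1 hr (h1 r hr hd) hi.ne').2.1 hc
        omega
      · push Not at hc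
        obtain ⟨rfl, h4, ho⟩ := hc
        have h5 : ¬ 2 ≤ padicValNat 2 n := fun h => h4 (h2 ((padicValNat_dvd_iff_le hn0).mpr h))
        have h6 : 1 ≤ padicValNat 2 i := (padicValNat_dvd_iff_le hi.ne').mp
          (by simpa using even_iff_two_dvd.mp (Nat.not_odd_iff_even.mp ho))
        omega
    · rw [padicValNat.eq_zero_of_not_dvd hd]
      exact Nat.zero_le _
  · rintro ⟨h1, h2⟩
    have h3 : ∀ r : ℕ, r.Prime → r ∣ n → r ∣ q - 1 := by
      intro r hr hd
      by_contra hrq
      have key2 : ∀ m : ℕ, m ≠ 0 → m ∣ n → ∃ i, 0 < i ∧ i ≤ m ∧ (r ∣ m → i < m) ∧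
          q ^ i ≡ 1 [MOD m * (q - 1)] := by
        intro m hm hmn
        obtain ⟨a, b, hab, ha, hb⟩ : ∃ a b : ℕ, m = a * b ∧
            (∀ s : ℕ, s.Prime → s ∣ a → s ∣ q - 1) ∧ b.Coprime (q - 1) ∧ b.Coprime a := by
          clear hmn
          induction m using Nat.recOnPosPrimePosCoprime with
          | zero => exact absurd rfl hm
          | one => exact ⟨1, 1, rfl, fun s hs h => absurd (Nat.dvd_one.mp h) hs.one_lt.ne',
              by simp, by simp⟩
          | prime_pow p k hp hk =>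
            by_cases hpq : p ∣ q - 1
            · exact ⟨p ^ k, 1, by simp, fun s hs h => by
                rwa [(Nat.prime_dvd_prime_iff_eq hs hp).mp (hs.dvd_of_dvd_pow h)], by simp, by simp⟩
            · exact ⟨1, p ^ k, by simp, fun s hs h => absurd (Nat.dvd_one.mp h) hs.one_lt.ne',
                Nat.Coprime.pow_left _ ((Nat.Prime.coprime_iff_not_dvd hp).mpr hpq), by simp⟩
          | coprime x y hx hy hxy ihx ihy =>
            obtain ⟨a, b, rfl, ha, hb, -⟩ := ihx (by omega)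
            obtain ⟨c, d, rfl, hc, hd, -⟩ := ihy (by omega)
            have hac : ∀ s : ℕ, s.Prime → s ∣ a * c → s ∣ q - 1 := fun s hs h =>
              ((Nat.Prime.dvd_mul hs).mp h).elim (ha s hs) (hc s hs)
            refine ⟨a * c, b * d, by ring, hac, Nat.Coprime.mul_left hb hd, ?_⟩
            refine Nat.Coprime.symm (Nat.coprime_of_dvd fun s hs h1 h2 => ?_)
            exact hs.one_lt.ne' (Nat.eq_one_of_dvd_coprimes
              (Nat.Coprime.mul_left hb hd) h2 (hac s hs h1))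
        have ha0 : a ≠ 0 := by rintro rfl; simp at hab; exact hm hab
        have hb0 : b ≠ 0 := by rintro rfl; simp at hab; exact hm hab
        have hφ : 0 < b.totient := Nat.totient_pos.mpr (Nat.pos_of_ne_zero hb0)
        refine ⟨a * b.totient, Nat.mul_pos (Nat.pos_of_ne_zero ha0) hφ, ?_, fun hrm => ?_, ?_⟩
        · rw [hab]
          exact Nat.mul_le_mul_left _ (Nat.totient_le b)
        · rw [hab]
          refine Nat.mul_lt_mul_of_pos_left (Nat.totient_lt b ?_) (Nat.pos_of_ne_zero ha0)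
          by_contra hb1
          obtain rfl : b = 1 := by omega
          exact hrq (ha r hr (by simpa [hab] using hrm))
        · rw [hab, mul_comm a b, mul_assoc,
            ← Nat.modEq_and_modEq_iff_modEq_mul (Nat.Coprime.mul_right hb.2 hb.1)]
          refine ⟨?_, mod_of hq1 ha0 (mul_ne_zero ha0 hφ.ne') (dvd_mul_right _ _) ha⟩
          have hbn : b ∣ n * (q - 1) :=
            ((Dvd.intro_left a hab.symm).trans hmn).trans (dvd_mul_right _ _)
          have hcop : q.Coprime b := by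
            refine (Nat.coprime_pow_left_iff (Nat.pos_of_ne_zero hn0) q b).mp ?_
            exact Nat.Coprime.symm (by
              rw [Nat.coprime_iff_gcd_eq_one, Nat.gcd_comm, (h1.of_dvd hbn).gcd_eq]
              simp)
          rw [mul_comm, pow_mul]
          simpa using (Nat.ModEq.pow_totient hcop).pow a
      obtain ⟨i, hi, -, hlt, h⟩ := key2 n hn0 dvd_rfl
      exact h2 i hi (hlt hd) h
    refine ⟨h3, fun h4 => ?_⟩
    by_contra h5
    obtain ⟨k, rfl⟩ := h4
    have hk : k ≠ 0 := by omega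
    refine h2 (2 * k) (by omega) (by omega) ((mod_iff hq1 hn0 (by omega)).mpr fun r hr hd => ?_)
    have := Fact.mk hr
    have e : padicValNat r (4 * k) = padicValNat r 2 + padicValNat r (2 * k) := by
      rw [← padicValNat.mul (by omega) (by omega), ← mul_assoc, show 2 * 2 = 4 from rfl]
    by_cases h2 : r = 2
    · have := (key hq1 hr (h3 r hr hd) (show 2 * k ≠ 0 by omega)).2.2 h2 h5 (even_two_mul k)
      subst h2
      rw [padicValNat_self] at e
      omega
    · have := (key hq1 hr (h3 r hr hd) (show 2 * k ≠ 0 by omega)).1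
      rw [padicValNat.eq_zero_of_not_dvd (fun h => h2
        ((Nat.prime_dvd_prime_iff_eq hr Nat.prime_two).mp h))] at e
      omega

end Cfsg.Agent.S0694
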