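import Cfsg.Statements.S0701
import Cfsg.Agent.H60.Centralizer

set_option autoImplicit false
open Cfsg

namespace Cfsg.Agent.S0701

/-- The centraliser in the full symmetric group of a transitive permutation group `G` is semiregular, and it is transitive if and only if `G` is regular. -/
theorem result {α : Type*} (G : Subgroup (Equiv.Perm α)) [MulAction.IsPretransitive G α] : (∀ c ∈ Subgroup.centralizer (G : Set (Equiv.Perm α)), ∀ a : α, c a = a → c = 1) ∧ (MulAction.IsPretransitive (Subgroup.centralizer (G : Set (Equiv.Perm α))) α ↔ ∀ a : α, MulAction.stabilizer G a = ⊥) := by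
  refine ⟨fun c hc a ha => ?_, fun h a => ?_, fun h => ⟨fun a b => ?_⟩⟩
  · exact H60.perm_eq_one_of_commute_of_fix (G := G) c ((H60.mem_centralizer_perm_iff G c).1 hc) ha
  · rw [eq_bot_iff]
    intro g hg
    rw [Subgroup.mem_bot]
    apply Subtype.ext
    refine H60.eq_one_of_commute_transitive (Subgroup.centralizer (G : Set (Equiv.Perm α)))
      (fun n hn => ?_) (a := a) hg
    exact Subgroup.mem_centralizer_iff.1 hn _ g.2
  · obtain ⟨c, hc, hab⟩ := H60.exists_perm_commute_of_stabilizer_eq (G := G) (a := a) (b := b)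
      (by rw [h a, h b])
    exact ⟨⟨c, (H60.mem_centralizer_perm_iff G c).2 hc⟩, hab⟩

end Cfsg.Agent.S0701
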