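import Cfsg.Statements.S0702
import Cfsg.Agent.H60.Centralizer

set_option autoImplicit false
open Cfsg

namespace Cfsg.Agent.S0702

open MulAction in
theorem mem_norm_iff {G α : Type*} [Group G] [MulAction G α] (a : α) (n : G) :
    n ∈ Subgroup.normalizer ((stabilizer G a : Subgroup G) : Set G) ↔
      stabilizer G a = stabilizer G (n⁻¹ • a) := by
  rw [Subgroup.mem_normalizer_iff]
  constructor
  · intro h
    ext g
    rw [h g, mem_stabilizer_iff, mem_stabilizer_iff, mul_smul, mul_smul, ← eq_inv_smul_iff (g := n)]
  · intro h g
    conv_lhs => rw [h]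
    rw [mem_stabilizer_iff, mem_stabilizer_iff, mul_smul, mul_smul, ← eq_inv_smul_iff (g := n)]

/-- For a transitive permutation group `G` on a finite set, the centraliser of `G` in the symmetric group is isomorphic to `N_G(G_ω)/G_ω`, and its orbit of `ω` is the set of fixed points of `G_ω`. -/
theorem result {α : Type*} [Finite α] (G : Subgroup (Equiv.Perm α)) [MulAction.IsPretransitive G α] (a : α) : Nonempty (Subgroup.centralizer (G : Set (Equiv.Perm α)) ≃* Subgroup.normalizer ((MulAction.stabilizer G a : Subgroup G) : Set G) ⧸ (MulAction.stabilizer G a).subgroupOf (Subgroup.normalizer ((MulAction.stabilizer G a : Subgroup G) : Set G))) ∧ MulAction.orbit (Subgroup.centralizer (G : Set (Equiv.Perm α))) a = MulAction.fixedPoints (MulAction.stabilizer G a) α := by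
  classical
  have hG : Finite G := inferInstance
  constructor
  · have h1 : ∀ n : Subgroup.normalizer ((MulAction.stabilizer G a : Subgroup G) : Set G),
        ∃ c : Subgroup.centralizer (G : Set (Equiv.Perm α)), (c : Equiv.Perm α) a = (n : G)⁻¹ • a := by
      intro n
      obtain ⟨c, hc, hca⟩ := H60.exists_perm_commute_of_stabilizer_eq ((mem_norm_iff a (n : G)).1 n.2)
      exact ⟨⟨c, (H60.mem_centralizer_perm_iff G c).2 hc⟩, hca⟩
    choose f hf using h1
    have inj : ∀ c c' : Subgroup.centralizer (G : Set (Equiv.Perm α)),
        (c : Equiv.Perm α) a = (c' : Equiv.Perm α) a → c = c' := by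
      intro c c' h
      have : ((c'⁻¹ * c : Subgroup.centralizer (G : Set (Equiv.Perm α))) : Equiv.Perm α) = 1 :=
        H60.perm_eq_one_of_commute_of_fix (G := G) _
          ((H60.mem_centralizer_perm_iff G _).1 (c'⁻¹ * c).2) (a := a) (by simp [h])
      have h2 : c'⁻¹ * c = 1 := Subtype.ext this
      exact (inv_mul_eq_one.1 h2).symm
    let φ : Subgroup.normalizer ((MulAction.stabilizer G a : Subgroup G) : Set G) →*
        Subgroup.centralizer (G : Set (Equiv.Perm α)) := MonoidHom.mk' f (fun n m => by
      apply inj
      rw [hf, Subgroup.coe_mul, Subgroup.coe_mul, Equiv.Perm.mul_apply, hf,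
        (H60.mem_centralizer_perm_iff G _).1 (f n).2, hf, mul_inv_rev, mul_smul])
    have hsurj : Function.Surjective φ := by
      intro c
      obtain ⟨g, hg⟩ := MulAction.exists_smul_eq G a ((c : Equiv.Perm α) a)
      have hc := (H60.mem_centralizer_perm_iff G _).1 c.2
      have : g⁻¹ ∈ Subgroup.normalizer ((MulAction.stabilizer G a : Subgroup G) : Set G) := by
        rw [mem_norm_iff, inv_inv, hg]
        ext x
        rw [MulAction.mem_stabilizer_iff, MulAction.mem_stabilizer_iff, ← hc,
          (c : Equiv.Perm α).injective.eq_iff]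
      refine ⟨⟨g⁻¹, this⟩, inj _ _ ?_⟩
      show (f _ : Equiv.Perm α) a = _
      rw [hf, inv_inv, hg]
    have hker : φ.ker = (MulAction.stabilizer G a).subgroupOf _ := by
      ext n
      rw [MonoidHom.mem_ker, Subgroup.mem_subgroupOf, MulAction.mem_stabilizer_iff]
      constructor
      · intro h
        have h2 := hf n
        have h3 : f n = 1 := h
        rw [h3, eq_inv_smul_iff] at h2
        exact h2
      · intro h
        apply inj
        show (f _ : Equiv.Perm α) a = _
        rw [hf, inv_smul_eq_iff]
        exact h.symm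
    exact ⟨((QuotientGroup.quotientMulEquivOfEq hker.symm).trans
      (QuotientGroup.quotientKerEquivOfSurjective φ hsurj)).symm⟩
  · ext b
    rw [MulAction.mem_orbit_iff, MulAction.mem_fixedPoints]
    constructor
    · rintro ⟨c, rfl⟩ g
      have hc := (H60.mem_centralizer_perm_iff G _).1 c.2
      have := hc g a
      rw [g.2] at this
      exact this.symm
    · intro h
      have hle : MulAction.stabilizer G a ≤ MulAction.stabilizer G b := fun g hg => h ⟨g, hg⟩
      have heq : MulAction.stabilizer G a = MulAction.stabilizer G b := by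
        apply Subgroup.eq_of_le_of_card_ge hle
        have h1 := H60.natCard_eq_mul_of_transitive (G := G) a
        have h2 := H60.natCard_eq_mul_of_transitive (G := G) b
        have : Nonempty α := ⟨a⟩
        have hpos : 0 < Nat.card α := Nat.card_pos
        exact (Nat.eq_of_mul_eq_mul_left hpos (h2.symm.trans h1)).le
      obtain ⟨c, hc, hca⟩ := H60.exists_perm_commute_of_stabilizer_eq heq
      exact ⟨⟨c, (H60.mem_centralizer_perm_iff G c).2 hc⟩, hca⟩

end Cfsg.Agent.S0702
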