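import Cfsg.Statements.S0703
import Cfsg.Agent.H60.Centralizer
import Mathlib.GroupTheory.Perm.Cycle.Type

set_option autoImplicit false
open Cfsg

namespace Cfsg.Agent.S0703

/-- An abelian transitive minimal normal subgroup `M` of a permutation group on a finite set is self-centralising in the symmetric group, regular, elementary abelian, and is the unique minimal normal subgroup. -/
theorem result {α : Type*} [Finite α] (G : Subgroup (Equiv.Perm α)) (M : Subgroup G) [M.Normal] (hM : M ≠ ⊥) (hmin : ∀ L : Subgroup G, L.Normal → L ≤ M → L = ⊥ ∨ L = M) (hab : IsMulCommutative M) (htrans : MulAction.IsPretransitive M α) : Subgroup.centralizer ((M.map G.subtype : Subgroup (Equiv.Perm α)) : Set (Equiv.Perm α)) = M.map G.subtype ∧ (∀ a : α, MulAction.stabilizer M a = ⊥) ∧ (∃ p : ℕ, p.Prime ∧ ∀ m ∈ M, m ^ p = 1) ∧ ∀ L : Subgroup G, L.Normal → L ≠ ⊥ → (∀ L' : Subgroup G, L'.Normal → L' ≤ L → L' = ⊥ ∨ L' = L) → L = M := by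
  have hcomm : ∀ m ∈ M, ∀ n ∈ M, m * n = n * m := fun m hm n hn =>
    congrArg Subtype.val (hab.is_comm.comm ⟨m, hm⟩ ⟨n, hn⟩)
  have hcent : ∀ c : Equiv.Perm α, (∀ (g : M) (x : α), c (g • x) = g • c x) →
      c ∈ M.map G.subtype := by
    intro c hc
    obtain ⟨n, hn, h⟩ := H60.exists_eq_of_commute_of_commute_transitive M M hcomm c hc
    exact ⟨n, hn, (Equiv.ext h).symm⟩
  refine ⟨?_, H60.stabilizer_eq_bot_of_commute_transitive M M hcomm, ?_, ?_⟩
  · apply le_antisymm
    · intro c hc
      exact hcent c ((H60.mem_centralizer_map_subtype_iff G M c).1 hc)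
    · rintro _ ⟨m, hm, rfl⟩
      rw [Subgroup.mem_centralizer_iff]
      rintro _ ⟨n, hn, rfl⟩
      exact congrArg Subtype.val (hcomm n hn m hm)
  · obtain ⟨p, hp, hpd⟩ := Nat.exists_prime_and_dvd (n := Nat.card M)
      (fun h => hM (Subgroup.eq_bot_of_card_eq M h))
    have := Fact.mk hp
    obtain ⟨x, hx⟩ := exists_prime_orderOf_dvd_card' p hpd
    let L : Subgroup G :=
      { carrier := {g | g ∈ M ∧ g ^ p = 1}
        one_mem' := ⟨M.one_mem, one_pow _⟩
        mul_mem' := by
          rintro a b ⟨ha, ha'⟩ ⟨hb, hb'⟩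
          refine ⟨M.mul_mem ha hb, ?_⟩
          rw [Commute.mul_pow (hcomm a ha b hb), ha', hb', one_mul]
        inv_mem' := by
          rintro a ⟨ha, ha'⟩
          exact ⟨M.inv_mem ha, by rw [inv_pow, ha', inv_one]⟩ }
    have hL : L.Normal := ⟨by
      rintro a ⟨ha, ha'⟩ g
      exact ⟨Subgroup.Normal.conj_mem inferInstance a ha g, by rw [conj_pow, ha']; simp⟩⟩
    refine ⟨p, hp, fun m hm => ?_⟩
    rcases hmin L hL (fun a ha => ha.1) with h | h
    · exfalso
      have : (x : G) ∈ L := ⟨x.2, by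
        rw [← Subgroup.coe_pow, ← hx, pow_orderOf_eq_one]; rfl⟩
      rw [h, Subgroup.mem_bot] at this
      have h1 : x = 1 := Subtype.ext this
      rw [h1, orderOf_one] at hx
      exact hp.one_lt.ne hx
    · rw [← h] at hm
      exact hm.2
  · intro L hL hL0 hLmin
    by_contra hLM
    have hc := H60.commute_of_minimal_normal_ne L M hL0 hLmin hmin hLM
    have hle : L ≤ M := by
      intro l hl
      obtain ⟨m, hm, h⟩ := hcent (l : Equiv.Perm α) (fun g x => by
        show (l * g : G) • x = ((g : G) * l) • x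
        rw [hc l hl g g.2])
      have : m = l := Subtype.ext h
      exact this ▸ hm
    rcases hmin L hL hle with h | h
    · exact hL0 h
    · exact hLM h

end Cfsg.Agent.S0703
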