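import Cfsg.Statements.S0704
import Cfsg.Agent.H60.Centralizer

set_option autoImplicit false
open Cfsg

namespace Cfsg.Agent.S0704

theorem cent_eq {α : Type*} (G : Subgroup (Equiv.Perm α)) (M N : Subgroup G)
    [MulAction.IsPretransitive M α] [MulAction.IsPretransitive N α]
    (h : ∀ m ∈ M, ∀ n ∈ N, m * n = n * m) :
    Subgroup.centralizer ((M.map G.subtype : Subgroup (Equiv.Perm α)) : Set (Equiv.Perm α)) =
      N.map G.subtype := by
  apply le_antisymm
  · intro c hc
    obtain ⟨n, hn, h'⟩ := H60.exists_eq_of_commute_of_commute_transitive M N h c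
      ((H60.mem_centralizer_map_subtype_iff G M c).1 hc)
    exact ⟨n, hn, (Equiv.ext h').symm⟩
  · rintro _ ⟨n, hn, rfl⟩
    rw [Subgroup.mem_centralizer_iff]
    rintro _ ⟨m, hm, rfl⟩
    exact congrArg Subtype.val (h m hm n hn)

theorem le_of_commute {α : Type*} (G : Subgroup (Equiv.Perm α)) (M N L : Subgroup G)
    [MulAction.IsPretransitive M α] [MulAction.IsPretransitive N α]
    (h : ∀ m ∈ M, ∀ n ∈ N, m * n = n * m) (hL : ∀ m ∈ M, ∀ l ∈ L, m * l = l * m) : L ≤ N := by
  intro l hl
  have : (l : Equiv.Perm α) ∈ N.map G.subtype := by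
    rw [← cent_eq G M N h, Subgroup.mem_centralizer_iff]
    rintro _ ⟨m, hm, rfl⟩
    exact congrArg Subtype.val (hL m hm l hl)
  obtain ⟨n, hn, h'⟩ := this
  have : n = l := Subtype.ext h'
  exact this ▸ hn

theorem iso_of_commute {G α : Type*} [Group G] [MulAction G α] (M N : Subgroup G)
    [MulAction.IsPretransitive M α] [MulAction.IsPretransitive N α]
    (h : ∀ m ∈ M, ∀ n ∈ N, m * n = n * m) (a : α) (hM : MulAction.stabilizer M a = ⊥)
    (hN : MulAction.stabilizer N a = ⊥) : Nonempty (M ≃* N) := by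
  have injN : ∀ n n' : N, (n : G) • a = (n' : G) • a → n = n' := by
    intro n n' hn
    have : n'⁻¹ * n ∈ MulAction.stabilizer N a := by
      rw [MulAction.mem_stabilizer_iff, mul_smul, inv_smul_eq_iff]; exact hn
    rw [hN, Subgroup.mem_bot, inv_mul_eq_one] at this
    exact this.symm
  have injM : ∀ n n' : M, (n : G) • a = (n' : G) • a → n = n' := by
    intro n n' hn
    have : n'⁻¹ * n ∈ MulAction.stabilizer M a := by
      rw [MulAction.mem_stabilizer_iff, mul_smul, inv_smul_eq_iff]; exact hn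
    rw [hM, Subgroup.mem_bot, inv_mul_eq_one] at this
    exact this.symm
  choose f hf using fun m : M => MulAction.exists_smul_eq N a ((m : G)⁻¹ • a)
  replace hf : ∀ m : M, (f m : G) • a = (m : G)⁻¹ • a := hf
  let φ : M →* N := MonoidHom.mk' f (fun m m' => by
    apply injN
    rw [hf, Subgroup.coe_mul, Subgroup.coe_mul, mul_smul, hf, mul_inv_rev, mul_smul, ← hf,
      ← mul_smul, ← mul_smul, h _ (M.inv_mem m'.2) _ (f m).2])
  refine ⟨MulEquiv.ofBijective φ ⟨fun m m' hm => ?_, fun n => ?_⟩⟩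
  · have h1 : f m = f m' := hm
    have h2 := hf m
    rw [h1, hf] at h2
    exact (inv_injective (injM m'⁻¹ m⁻¹ h2)).symm
  · obtain ⟨m, hm⟩ := MulAction.exists_smul_eq M a ((n : G) • a)
    refine ⟨m⁻¹, injN _ _ ?_⟩
    show (f m⁻¹ : G) • a = _
    rw [hf, Subgroup.coe_inv, inv_inv]
    exact hm

/-- Two distinct transitive minimal normal subgroups `M`, `N` of a permutation group are regular, non-abelian, isomorphic, each other's centraliser in the symmetric group, and the only minimal normal subgroups. -/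
theorem result {α : Type*} (G : Subgroup (Equiv.Perm α)) (M N : Subgroup G) [M.Normal] [N.Normal] (hM : M ≠ ⊥) (hN : N ≠ ⊥) (hMmin : ∀ L : Subgroup G, L.Normal → L ≤ M → L = ⊥ ∨ L = M) (hNmin : ∀ L : Subgroup G, L.Normal → L ≤ N → L = ⊥ ∨ L = N) (hMN : M ≠ N) (hMt : MulAction.IsPretransitive M α) (hNt : MulAction.IsPretransitive N α) : (∀ a : α, MulAction.stabilizer M a = ⊥) ∧ (∀ a : α, MulAction.stabilizer N a = ⊥) ∧ ¬ IsMulCommutative M ∧ Nonempty (M ≃* N) ∧ Subgroup.centralizer ((M.map G.subtype : Subgroup (Equiv.Perm α)) : Set (Equiv.Perm α)) = N.map G.subtype ∧ Subgroup.centralizer ((N.map G.subtype : Subgroup (Equiv.Perm α)) : Set (Equiv.Perm α)) = M.map G.subtype ∧ ∀ L : Subgroup G, L.Normal → L ≠ ⊥ → (∀ L' : Subgroup G, L'.Normal → L' ≤ L → L' = ⊥ ∨ L' = L) → L = M ∨ L = N := by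
  have hc := H60.commute_of_minimal_normal_ne M N hM hMmin hNmin hMN
  have hc' : ∀ n ∈ N, ∀ m ∈ M, n * m = m * n := fun n hn m hm => (hc m hm n hn).symm
  have hMr := H60.stabilizer_eq_bot_of_commute_transitive (α := α) M N hc
  have hNr := H60.stabilizer_eq_bot_of_commute_transitive (α := α) N M hc'
  refine ⟨hMr, hNr, fun hab => ?_, ?_, cent_eq G M N hc, cent_eq G N M hc', ?_⟩
  · have hle : M ≤ N := le_of_commute G M N M hc (fun m hm n hn =>
      congrArg Subtype.val (hab.is_comm.comm ⟨m, hm⟩ ⟨n, hn⟩))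
    rcases hNmin M inferInstance hle with h | h
    · exact hM h
    · exact hMN h
  · rcases isEmpty_or_nonempty α with hα | ⟨⟨a⟩⟩
    · exact absurd (Subsingleton.elim _ _) hM
    · exact iso_of_commute M N hc a (hMr a) (hNr a)
  · intro L hL hL0 hLmin
    by_cases hLM : L = M
    · exact Or.inl hLM
    right
    have h1 := H60.commute_of_minimal_normal_ne L M hL0 hLmin hMmin hLM
    have hle : L ≤ N := le_of_commute G M N L hc (fun m hm l hl => (h1 l hl m hm).symm)
    exact (hNmin L hL hle).resolve_left hL0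

end Cfsg.Agent.S0704
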