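import Cfsg.Statements.S0705
import Cfsg.Agent.H60.MultiTrans

set_option autoImplicit false
open scoped Pointwise
open Cfsg

namespace Cfsg.Agent.S0705

theorem exists_perm_of_mapsTo {α : Type*} [Fintype α] [DecidableEq α] (G : Subgroup (Equiv.Perm α))
    {k : ℕ}
    (hgen : ∀ s : Finset α, s.card = k + 1 → ∀ σ : Equiv.Perm ↥s, ∃ g ∈ G, ∀ x : ↥s, g (x : α) = σ x)
    (s : Finset α) (hs : s.card = k + 1) (τ : Equiv.Perm α) (hτ : ∀ x, τ x ∈ s ↔ x ∈ s) :
    ∃ g ∈ G, ∀ x ∈ s, g x = τ x := by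
  obtain ⟨g, hg, h⟩ := hgen s hs (τ.subtypePerm hτ)
  exact ⟨g, hg, fun x hx => h ⟨x, hx⟩⟩

/-- A generously `k`-transitive permutation group (every `(k+1)`-subset has its full symmetric group induced by the setwise stabiliser) of degree greater than `k` is `k`-transitive, and for a `k`-subset the setwise and pointwise stabilisers have the same orbits outside it. -/
theorem result {α : Type*} [Fintype α] [DecidableEq α] (G : Subgroup (Equiv.Perm α)) {k : ℕ} (hk : k < Fintype.card α) (hgen : ∀ s : Finset α, s.card = k + 1 → ∀ σ : Equiv.Perm ↥s, ∃ g ∈ G, ∀ x : ↥s, g (x : α) = σ x) : MulAction.IsMultiplyPretransitive G α k ∧ ∀ s : Finset α, s.card = k → ∀ a b : α, a ∉ s → b ∉ s → (∃ g ∈ G, g • s = s ∧ g a = b) → ∃ g ∈ G, (∀ x ∈ s, g x = x) ∧ g a = b := by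
  have key := exists_perm_of_mapsTo G hgen
  constructor
  · -- transitivity on sets of at most `k` points
    have h1 : ∀ (t : Finset α), t.card ≤ k → ∀ a b : α, a ∈ t → b ∉ t →
        ∃ g ∈ G, (∀ x ∈ t, x ≠ a → g x = x) ∧ g a = b := by
      intro t ht a b ha hb
      obtain ⟨s, hs1, hs2⟩ := Finset.exists_superset_card_eq (s := insert b t) (n := k + 1)
        (by rw [Finset.card_insert_of_notMem hb]; omega) hk
      have has : a ∈ s := hs1 (Finset.mem_insert_of_mem ha)
      have hbs : b ∈ s := hs1 (Finset.mem_insert_self _ _)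
      obtain ⟨g, hg, h⟩ := key s hs2 (Equiv.swap a b) (fun x => by
        rw [Equiv.swap_apply_def]; split_ifs <;> simp_all)
      refine ⟨g, hg, fun x hx hxa => ?_, by rw [h a has, Equiv.swap_apply_left]⟩
      rw [h x (hs1 (Finset.mem_insert_of_mem hx)),
        Equiv.swap_apply_of_ne_of_ne hxa (fun h : x = b => hb (h ▸ hx))]
    apply H60.isMultiplyPretransitive_of_forall_fix
    intro s hs a b ha hb
    by_cases hab : a = b
    · exact ⟨1, fun _ _ => one_smul _ _, by rw [one_smul, hab]⟩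
    obtain ⟨g, hg, h2, h3⟩ := h1 (insert a s) (by rw [Finset.card_insert_of_notMem ha]; omega)
      a b (Finset.mem_insert_self _ _) (by simp [hb, Ne.symm hab])
    exact ⟨⟨g, hg⟩, fun x hx => h2 x (Finset.mem_insert_of_mem hx) (fun h => ha (h ▸ hx)), h3⟩
  · rintro s hs a b ha hb ⟨g, hg, hgs, hgab⟩
    have hmem : ∀ x, g x ∈ s ↔ x ∈ s := by
      intro x
      conv_lhs => rw [← hgs]
      exact Finset.smul_mem_smul_finset_iff g
    -- the permutation acting as `g⁻¹` on `s` and trivially elsewhere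
    let τ : Equiv.Perm α := Equiv.Perm.ofSubtype (g.subtypePerm hmem)⁻¹
    have hτ1 : ∀ x ∈ s, τ (g x) = x := by
      intro x hx
      have : τ (g x) = (((g.subtypePerm hmem)⁻¹ ⟨g x, (hmem x).2 hx⟩ : s) : α) :=
        Equiv.Perm.ofSubtype_apply_of_mem _ _
      rw [this]
      have h2 : (⟨g x, (hmem x).2 hx⟩ : s) = g.subtypePerm hmem ⟨x, hx⟩ := rfl
      rw [h2]; simp
    have hτ2 : ∀ x, x ∉ s → τ x = x := fun x hx => Equiv.Perm.ofSubtype_apply_of_not_mem _ hx
    have hτ3 : ∀ x, τ x ∈ s ↔ x ∈ s := fun x => Equiv.Perm.ofSubtype_apply_mem_iff_mem _ x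
    obtain ⟨u, hu, h⟩ := key (insert b s) (by rw [Finset.card_insert_of_notMem hb, hs]) τ (by
      intro x
      by_cases hx : x ∈ s
      · simp [hx, (hτ3 x).2 hx]
      · rw [hτ2 x hx])
    refine ⟨u * g, G.mul_mem hu hg, fun x hx => ?_, ?_⟩
    · rw [Equiv.Perm.mul_apply, h _ (Finset.mem_insert_of_mem ((hmem x).2 hx)), hτ1 x hx]
    · rw [Equiv.Perm.mul_apply, hgab, h _ (Finset.mem_insert_self _ _), hτ2 b hb]

end Cfsg.Agent.S0705
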