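import Cfsg.Statements.S0707
import Cfsg.Agent.H60.Centralizer
import Mathlib.GroupTheory.SpecificGroups.Cyclic

set_option autoImplicit false
open Cfsg

namespace Cfsg.Agent.S0707

/-- In a primitive permutation group, distinct points have distinct stabilisers unless the group is regular of prime degree. -/
theorem result {α : Type*} (G : Subgroup (Equiv.Perm α)) [MulAction.IsPreprimitive G α] (h : ¬ (Nat.card α).Prime ∨ ∃ a : α, MulAction.stabilizer G a ≠ ⊥) {a b : α} (hab : a ≠ b) : MulAction.stabilizer G a ≠ MulAction.stabilizer G b := by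
  intro hst
  have : Nontrivial α := ⟨⟨a, b, hab⟩⟩
  have hmax := MulAction.IsPreprimitive.isCoatom_stabilizer_of_isPreprimitive G a
  obtain ⟨g, hg⟩ := MulAction.exists_smul_eq G a b
  have hgN : g ∈ Subgroup.normalizer ((MulAction.stabilizer G a : Subgroup G) : Set G) := by
    rw [Subgroup.mem_normalizer_iff'']
    intro x
    conv_lhs => rw [hst]
    rw [MulAction.mem_stabilizer_iff, MulAction.mem_stabilizer_iff, mul_smul, mul_smul, hg,
      inv_smul_eq_iff, hg]
  have hN : Subgroup.normalizer ((MulAction.stabilizer G a : Subgroup G) : Set G) = ⊤ := by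
    apply hmax.2
    refine lt_of_le_of_ne Subgroup.le_normalizer (fun h => hab ?_)
    rw [← h, MulAction.mem_stabilizer_iff] at hgN
    rw [← hgN, hg]
  have hnormal : (MulAction.stabilizer G a).Normal := Subgroup.normalizer_eq_top_iff.1 hN
  have hall : ∀ c : α, ∀ x ∈ MulAction.stabilizer G a, x • c = c := by
    intro c x hx
    obtain ⟨y, rfl⟩ := MulAction.exists_smul_eq G a c
    have := hnormal.conj_mem x hx y⁻¹
    rw [MulAction.mem_stabilizer_iff, inv_inv, mul_smul, mul_smul, inv_smul_eq_iff] at this
    exact this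
  have hbot : MulAction.stabilizer G a = ⊥ := by
    rw [eq_bot_iff]
    intro x hx
    rw [Subgroup.mem_bot]
    apply Subtype.ext
    ext c
    exact hall c x hx
  rcases h with h | ⟨c, hc⟩
  · apply h
    rw [← H60.natCard_eq_of_regular a hbot]
    rw [hbot] at hmax
    have hnt : Nontrivial G := by
      by_contra hh
      rw [not_nontrivial_iff_subsingleton] at hh
      exact hmax.1 (Subsingleton.elim _ _)
    have hcyc : IsCyclic G := by
      obtain ⟨x, hx⟩ := exists_ne (1 : G)
      refine ⟨⟨x, fun y => ?_⟩⟩
      have : Subgroup.zpowers x = ⊤ := hmax.2 _ (by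
        rw [bot_lt_iff_ne_bot]; simpa using hx)
      have hy : y ∈ Subgroup.zpowers x := this ▸ Subgroup.mem_top y
      exact hy
    letI : CommGroup G := IsCyclic.commGroup
    have : IsSimpleGroup G := ⟨fun H _ => by
      by_cases hH : H = ⊥
      · exact Or.inl hH
      · exact Or.inr (hmax.2 H (bot_lt_iff_ne_bot.2 hH))⟩
    exact IsSimpleGroup.prime_card
  · apply hc
    obtain ⟨y, rfl⟩ := MulAction.exists_smul_eq G a c
    rw [MulAction.stabilizer_smul_eq_stabilizer_map_conj, hbot, Subgroup.map_bot]

end Cfsg.Agent.S0707
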