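import Cfsg.Statements.S0709
import Mathlib
import Cfsg.Agent.H60.MultiTrans

set_option autoImplicit false
open Cfsg

namespace Cfsg.Agent.S0709

/-- one step of a transitive extension -/
theorem ext_step {P : Type*} [Group P] {A B : Subgroup P} {r s : P} (hAB : A ≤ B) (hr : r ∈ B)
    (hB : ∀ g ∈ B, g ∈ A ∨ ∃ a ∈ A, ∃ b ∈ A, g = a * r * b)
    (hn : ∀ a ∈ A, s * a * s⁻¹ ∈ A) (hs : s ^ 2 ∈ A) (hrs : (r * s) ^ 3 ∈ A) :
    ∀ g ∈ Subgroup.closure ((B : Set P) ∪ {s}), g ∈ B ∨ ∃ a ∈ B, ∃ b ∈ B, g = a * s * b := by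
  have hn' : ∀ a ∈ A, s⁻¹ * a * s ∈ A := by
    intro a ha
    have := A.mul_mem (A.mul_mem (A.inv_mem hs) (hn a ha)) hs
    convert this using 1
    rw [pow_two]; group
  have key : ∀ g ∈ B, s * g * s ∈ B ∨ ∃ a ∈ B, ∃ b ∈ B, s * g * s = a * s * b := by
    intro g hg
    rcases hB g hg with h | ⟨a, ha, b, hb, rfl⟩
    · left
      have := A.mul_mem (hn g h) hs
      convert hAB this using 1
      rw [pow_two]; group
    · right
      refine ⟨(s * a * s⁻¹) * r⁻¹ * (r * s) ^ 3, B.mul_mem (B.mul_mem (hAB (hn a ha)) (B.inv_mem hr))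
        (hAB hrs), (s ^ 2)⁻¹ * r⁻¹ * (s⁻¹ * b * s), B.mul_mem (B.mul_mem (B.inv_mem (hAB hs))
        (B.inv_mem hr)) (hAB (hn' b hb)), ?_⟩
      rw [pow_two, pow_three]; group
  let C : Subgroup P :=
    { carrier := {g | g ∈ B ∨ ∃ a ∈ B, ∃ b ∈ B, g = a * s * b}
      one_mem' := Or.inl B.one_mem
      mul_mem' := by
        rintro x y (hx | ⟨a, ha, b, hb, rfl⟩) (hy | ⟨c, hc, d, hd, rfl⟩)
        · exact Or.inl (B.mul_mem hx hy)
        · exact Or.inr ⟨x * c, B.mul_mem hx hc, d, hd, by group⟩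
        · exact Or.inr ⟨a, ha, b * y, B.mul_mem hb hy, by group⟩
        · rcases key (b * c) (B.mul_mem hb hc) with h | ⟨u, hu, v, hv, h⟩
          · left
            convert B.mul_mem (B.mul_mem ha h) hd using 1
            group
          · right
            refine ⟨a * u, B.mul_mem ha hu, v * d, B.mul_mem hv hd, ?_⟩
            calc a * s * b * (c * s * d) = a * (s * (b * c) * s) * d := by group
              _ = _ := by rw [h]; group
      inv_mem' := by
        rintro x (hx | ⟨a, ha, b, hb, rfl⟩)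
        · exact Or.inl (B.inv_mem hx)
        · exact Or.inr ⟨b⁻¹, B.inv_mem hb, (s ^ 2)⁻¹ * a⁻¹,
            B.mul_mem (B.inv_mem (hAB hs)) (B.inv_mem ha), by rw [pow_two]; group⟩ }
  intro g hg
  have : Subgroup.closure ((B : Set P) ∪ {s}) ≤ C := by
    rw [Subgroup.closure_le]
    rintro x (hx | rfl)
    · exact Or.inl hx
    · exact Or.inr ⟨1, B.one_mem, 1, B.one_mem, by group⟩
  exact this hg

/-- Witt's Lemma for constructing transitive extensions. Points `q 1, …, q t` (`t ≥ 2`) of a finite set are given; `G` fixes `q i` for `i ≥ 3` and is doubly transitive on the remaining points; `s 1 ∈ G` swaps `q 1, q 2`; for `2 ≤ i ≤ t-1`, `s i` swaps `q i, q (i+1)` and fixes the other `q j`; with `H` the stabiliser of `q 1, q 2` in `G`: `s i ^ 2 ∈ H`, `(s i * s (i+1)) ^ 3 ∈ H`, `(s i * s j) ^ 2 ∈ H` for `j ≥ i + 2`, and `s i` (`i ≥ 2`) normalises the stabiliser of `q 2` in `G`. Then `G` and the `s i` generate a `t`-transitive group whose pointwise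 stabiliser of the `q`'s is `H`. -/
theorem result {α : Type*} [Fintype α] [DecidableEq α] (t : ℕ) (ht : 2 ≤ t) (q : ℕ → α) (hq : ∀ i j : ℕ, 1 ≤ i → i ≤ t → 1 ≤ j → j ≤ t → q i = q j → i = j) (G : Subgroup (Equiv.Perm α)) (hfix : ∀ g ∈ G, ∀ i : ℕ, 3 ≤ i → i ≤ t → g (q i) = q i) (h2 : ∀ a b c d : α, (∀ i, 3 ≤ i → i ≤ t → a ≠ q i ∧ b ≠ q i ∧ c ≠ q i ∧ d ≠ q i) → a ≠ b → c ≠ d → ∃ g ∈ G, g a = c ∧ g b = d) (s : ℕ → Equiv.Perm α) (hs1 : s 1 ∈ G) (hs1q : s 1 (q 1) = q 2 ∧ s 1 (q 2) = q 1) (hsq : ∀ i : ℕ, 2 ≤ i → i + 1 ≤ t → s i (q i) = q (i + 1) ∧ s i (q (i + 1)) = q i ∧ ∀ j : ℕ, 1 ≤ j → j ≤ t → j ≠ i → j ≠ i + 1 → s i (q j) = q j) (H : Subgroup (Equiv.Perm α)) (hH : H = G ⊓ MulAction.stabilizer (Equiv.Perm α) (q 1) ⊓ MulAction.stabilizer (Equiv.Perm α) (q 2)) (hsq2 : ∀ i : ℕ, 1 ≤ i → i + 1 ≤ t → s i ^ 2 ∈ H) (hbraid : ∀ i : ℕ, 1 ≤ i → i + 2 ≤ t → (s i * s (i + 1)) ^ 3 ∈ H) (hcomm : ∀ i j : ℕ, 1 ≤ i → i + 2 ≤ j → j + 1 ≤ t → (s i * s j) ^ 2 ∈ H ∧ (s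 j * s i) ^ 2 ∈ H) (hnorm : ∀ i : ℕ, 2 ≤ i → i + 1 ≤ t → ∀ g ∈ G ⊓ MulAction.stabilizer (Equiv.Perm α) (q 2), s i * g * (s i)⁻¹ ∈ G ⊓ MulAction.stabilizer (Equiv.Perm α) (q 2)) : MulAction.IsMultiplyPretransitive ↥(Subgroup.closure ((G : Set (Equiv.Perm α)) ∪ {x | ∃ i : ℕ, 2 ≤ i ∧ i + 1 ≤ t ∧ x = s i})) α t ∧ Subgroup.closure ((G : Set (Equiv.Perm α)) ∪ {x | ∃ i : ℕ, 2 ≤ i ∧ i + 1 ≤ t ∧ x = s i}) ⊓ fixingSubgroup (Equiv.Perm α) {x | ∃ i : ℕ, 1 ≤ i ∧ i ≤ t ∧ x = q i} = H := by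
  set G₁ := G ⊓ MulAction.stabilizer (Equiv.Perm α) (q 2) with hG₁
  let K : ℕ → Subgroup (Equiv.Perm α) := fun k =>
    Subgroup.closure ((G₁ : Set (Equiv.Perm α)) ∪ {x | ∃ i : ℕ, 1 ≤ i ∧ i < k ∧ x = s i})
  have hHG₁ : H ≤ G₁ := by rw [hH]; exact inf_le_inf_right _ inf_le_left
  have hG₁K : ∀ k, G₁ ≤ K k := fun k g hg => Subgroup.subset_closure (Or.inl hg)
  have hsK : ∀ k i, 1 ≤ i → i < k → s i ∈ K k := fun k i h1 h2 =>
    Subgroup.subset_closure (Or.inr ⟨i, h1, h2, rfl⟩)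
  have hmono : ∀ k l, k ≤ l → K k ≤ K l := fun k l hkl => Subgroup.closure_mono (by
    rintro x (hx | ⟨i, h1, h2, rfl⟩)
    · exact Or.inl hx
    · exact Or.inr ⟨i, h1, by omega, rfl⟩)
  have hK1 : K 1 = G₁ := le_antisymm (by
    rw [Subgroup.closure_le]
    rintro x (hx | ⟨i, h1, h2, rfl⟩)
    · exact hx
    · omega) (hG₁K 1)
  have hKsucc : ∀ k, 1 ≤ k → K (k + 1) = Subgroup.closure ((K k : Set (Equiv.Perm α)) ∪ {s k}) := by
    intro k hk
    apply le_antisymm
    · rw [Subgroup.closure_le]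
      rintro x (hx | ⟨i, h1, h2, rfl⟩)
      · exact Subgroup.subset_closure (Or.inl (hG₁K k hx))
      · by_cases hik : i = k
        · exact Subgroup.subset_closure (Or.inr (by rw [hik]; rfl))
        · exact Subgroup.subset_closure (Or.inl (hsK k i h1 (by omega)))
    · rw [Subgroup.closure_le]
      rintro x (hx | rfl)
      · exact hmono k (k + 1) (by omega) hx
      · exact hsK _ _ hk (by omega)
  have hswap : ∀ i, 1 ≤ i → i + 1 ≤ t → s i (q (i + 1)) = q i := by
    intro i h1 h2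
    rcases Nat.lt_or_ge i 2 with h | h
    · obtain rfl : i = 1 := by omega
      exact hs1q.2
    · exact (hsq i h h2).2.1
  have hfixK : ∀ k j, 1 ≤ k → k < j → j ≤ t → ∀ g ∈ K k, g (q j) = q j := by
    intro k j hk h1 h2 g hg
    have : K k ≤ MulAction.stabilizer (Equiv.Perm α) (q j) := by
      rw [Subgroup.closure_le]
      rintro x (hx | ⟨i, h3, h4, rfl⟩)
      · rcases Nat.lt_or_ge j 3 with h | h
        · obtain rfl : j = 2 := by omega
          exact hx.2
        · exact hfix x hx.1 j h h2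
      · rcases Nat.lt_or_ge i 2 with h | h
        · obtain rfl : i = 1 := by omega
          exact hfix _ hs1 j (by omega) h2
        · exact (hsq i h (by omega)).2.2 j (by omega) h2 (by omega) (by omega)
    exact this hg
  have hnormK : ∀ k, 1 ≤ k → k + 2 ≤ t → ∀ a ∈ K k, s (k + 1) * a * (s (k + 1))⁻¹ ∈ K k := by
    intro k hk hkt a ha
    have : K k ≤ (K k).comap (MulAut.conj (s (k + 1))).toMonoidHom := by
      rw [Subgroup.closure_le]
      rintro x (hx | ⟨i, h3, h4, rfl⟩)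
      · exact hG₁K k (hnorm (k + 1) (by omega) (by omega) x hx)
      · show s (k + 1) * s i * (s (k + 1))⁻¹ ∈ K k
        have h5 := hG₁K k (hHG₁ (hcomm i (k + 1) h3 (by omega) (by omega)).2)
        have h6 := hG₁K k (hHG₁ (hsq2 (k + 1) (by omega) (by omega)))
        convert (K k).mul_mem ((K k).mul_mem h5 ((K k).inv_mem (hsK k i h3 h4)))
          ((K k).inv_mem h6) using 1
        rw [pow_two, pow_two]; group
    exact this ha
  have htrans : ∀ k, 1 ≤ k → k ≤ t → ∀ a b : α, (∀ j, k < j → j ≤ t → a ≠ q j) →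
      (∀ j, k < j → j ≤ t → b ≠ q j) → ∃ g ∈ K k, g a = b := by
    intro k hk
    induction k, hk using Nat.le_induction with
    | base =>
      intro _ a b ha hb
      obtain ⟨g, hg, h1, h3⟩ := h2 (q 2) a (q 2) b (fun i h1 h2 =>
        ⟨fun h => by have := hq 2 i (by omega) ht (by omega) h2 h; omega, ha i (by omega) h2,
          fun h => by have := hq 2 i (by omega) ht (by omega) h2 h; omega, hb i (by omega) h2⟩)
        (ha 2 (by omega) ht).symm (hb 2 (by omega) ht).symm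
      exact ⟨g, hG₁K 1 ⟨hg, h1⟩, h3⟩
    | succ k hk ih =>
      intro hkt
      have key : ∀ a : α, (∀ j, k + 1 < j → j ≤ t → a ≠ q j) → ∃ g ∈ K (k + 1), g a = q k := by
        intro a ha
        by_cases h : a = q (k + 1)
        · exact ⟨s k, hsK _ _ hk (by omega), by rw [h, hswap k hk hkt]⟩
        · obtain ⟨g, hg, h1⟩ := ih (by omega) a (q k) (fun j h1 h2 => by
            rcases Nat.eq_or_lt_of_le h1 with rfl | h3
            · exact h
            · exact ha j h3 h2) (fun j h1 h2 h3 => by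
              have := hq k j hk (by omega) (by omega) h2 h3; omega)
          exact ⟨g, hmono k _ (by omega) hg, h1⟩
      intro a b ha hb
      obtain ⟨g, hg, h1⟩ := key a ha
      obtain ⟨g', hg', h3⟩ := key b hb
      exact ⟨g'⁻¹ * g, (K _).mul_mem ((K _).inv_mem hg') hg, by
        rw [Equiv.Perm.mul_apply, h1, ← h3]; simp⟩
  -- double coset decomposition from the stabiliser property
  have hdc : ∀ k, 1 ≤ k → k + 1 ≤ t → ∀ L : Subgroup (Equiv.Perm α), K (k + 1) ≤ L →
      (∀ j, k + 1 < j → j ≤ t → ∀ g ∈ L, g (q j) = q j) →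
      (∀ g ∈ L, g (q (k + 1)) = q (k + 1) → g ∈ K k) →
      ∀ g ∈ L, g ∈ K k ∨ ∃ a ∈ K k, ∃ b ∈ K k, g = a * s k * b := by
    intro k hk hkt L hKL hL1 hL2 g hg
    by_cases h : g (q (k + 1)) = q (k + 1)
    · exact Or.inl (hL2 g hg h)
    right
    obtain ⟨a, ha, h1⟩ := htrans k hk (by omega) (q k) (g (q (k + 1))) (fun j h1 h2 h3 => by
      have := hq k j hk (by omega) (by omega) h2 h3; omega) (fun j h1 h2 => by
        rcases Nat.eq_or_lt_of_le h1 with rfl | h3
        · exact h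
        · rw [← hL1 j h3 h2 g hg]
          intro h4
          have := hq _ _ (by omega) hkt (by omega) h2 (g.injective h4)
          omega)
    refine ⟨a, ha, (a * s k)⁻¹ * g, hL2 _ (L.mul_mem (L.inv_mem (L.mul_mem
      (hKL (hmono k _ (by omega) ha)) (hKL (hsK _ _ hk (by omega))))) hg) ?_, by group⟩
    rw [Equiv.Perm.mul_apply, Equiv.Perm.inv_eq_iff_eq, Equiv.Perm.mul_apply, hswap k hk hkt, h1]
  have hK2G : K 2 ≤ G := by
    rw [Subgroup.closure_le]
    rintro x (hx | ⟨i, h3, h4, rfl⟩)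
    · exact hx.1
    · obtain rfl : i = 1 := by omega
      exact hs1
  have hGK2 : G ≤ K 2 := by
    intro g hg
    rcases hdc 1 le_rfl ht G hK2G (fun j h1 h2 g hg => hfix g hg j h1 h2)
      (fun g hg h => hG₁K 1 ⟨hg, h⟩) g hg with h | ⟨a, ha, b, hb, rfl⟩
    · exact hmono 1 2 (by omega) h
    · exact (K 2).mul_mem ((K 2).mul_mem (hmono 1 2 (by omega) ha) (hsK 2 1 le_rfl (by omega)))
        (hmono 1 2 (by omega) hb)
  have hstab : ∀ k, 1 ≤ k → k + 1 ≤ t → ∀ g ∈ K (k + 1), g (q (k + 1)) = q (k + 1) → g ∈ K k := by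
    intro k hk
    induction k, hk using Nat.le_induction with
    | base => exact fun _ g hg h => hG₁K 1 ⟨hK2G hg, h⟩
    | succ k hk ih =>
      intro hkt g hg h
      rw [hKsucc _ (by omega)] at hg
      rcases ext_step (hmono k (k + 1) (by omega)) (hsK _ k hk (by omega))
        (hdc k hk (by omega) _ le_rfl (fun j h1 h2 => hfixK _ j (by omega) h1 h2) (ih (by omega)))
        (hnormK k hk hkt) (hG₁K k (hHG₁ (hsq2 (k + 1) (by omega) hkt)))
        (hG₁K k (hHG₁ (hbraid k hk hkt))) g hg with h1 | ⟨a, ha, b, hb, rfl⟩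
      · exact h1
      · exfalso
        rw [Equiv.Perm.mul_apply, Equiv.Perm.mul_apply, hfixK _ _ (by omega) (by omega) hkt b hb,
          hswap _ (by omega) hkt] at h
        have h1 := hfixK _ _ (by omega) (by omega) hkt a ha
        have := hq _ _ (by omega) (by omega) (by omega) hkt (a.injective (h.trans h1.symm))
        omega
  have hKt : Subgroup.closure ((G : Set (Equiv.Perm α)) ∪
      {x | ∃ i : ℕ, 2 ≤ i ∧ i + 1 ≤ t ∧ x = s i}) = K t := by
    apply le_antisymm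
    · rw [Subgroup.closure_le]
      rintro x (hx | ⟨i, h1, h2, rfl⟩)
      · exact hmono 2 t ht (hGK2 hx)
      · exact hsK t i (by omega) h2
    · rw [Subgroup.closure_le]
      rintro x (hx | ⟨i, h1, h2, rfl⟩)
      · exact Subgroup.subset_closure (Or.inl hx.1)
      · rcases Nat.lt_or_ge i 2 with h | h
        · obtain rfl : i = 1 := by omega
          exact Subgroup.subset_closure (Or.inl hs1)
        · exact Subgroup.subset_closure (Or.inr ⟨i, h, h2, rfl⟩)
  rw [hKt]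
  constructor
  · have : ∀ j, j ≤ t → MulAction.IsMultiplyPretransitive (K t) α j := by
      intro j
      induction j with
      | zero => exact fun _ => MulAction.is_zero_pretransitive
      | succ j ih =>
        intro hj
        refine H60.isMultiplyPretransitive_succ_of_fix (ih (by omega))
          ((Finset.Ioc (t - j) t).image q) ?_ (fun a b ha hb => ?_)
        · rw [Finset.card_image_of_injOn, Nat.card_Ioc]
          · omega
          · intro x hx y hy hxy
            simp only [Finset.coe_Ioc, Set.mem_Ioc] at hx hy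
            exact hq x y (by omega) hx.2 (by omega) hy.2 hxy
        · simp only [Finset.mem_image, Finset.mem_Ioc, not_exists, not_and, and_imp] at ha hb
          obtain ⟨g, hg, h1⟩ := htrans (t - j) (by omega) (by omega) a b
            (fun i h1 h2 h => ha i h1 h2 h.symm) (fun i h1 h2 h => hb i h1 h2 h.symm)
          refine ⟨⟨g, hmono _ _ (by omega) hg⟩, fun x hx => ?_, h1⟩
          obtain ⟨i, hi, rfl⟩ := Finset.mem_image.1 hx
          rw [Finset.mem_Ioc] at hi
          exact hfixK _ i (by omega) hi.1 hi.2 g hg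
    exact this t le_rfl
  · apply le_antisymm
    · rintro g ⟨hg, hgq⟩
      have hgq' : ∀ i, 1 ≤ i → i ≤ t → g (q i) = q i := fun i h1 h2 =>
        (mem_fixingSubgroup_iff _).1 hgq (q i) ⟨i, h1, h2, rfl⟩
      have : ∀ j, j + 1 ≤ t → g ∈ K (t - j) := by
        intro j
        induction j with
        | zero => exact fun _ => hg
        | succ j ih =>
          intro hj
          have h1 := ih (by omega)
          rw [show t - j = t - (j + 1) + 1 by omega] at h1
          exact hstab _ (by omega) (by omega) g h1 (hgq' _ (by omega) (by omega))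
      have h1 := this (t - 1) (by omega)
      rw [show t - (t - 1) = 1 by omega, hK1] at h1
      rw [hH]
      exact ⟨⟨h1.1, hgq' 1 le_rfl (by omega)⟩, h1.2⟩
    · intro g hg
      refine ⟨hG₁K t (hHG₁ hg), (mem_fixingSubgroup_iff _).2 ?_⟩
      rintro _ ⟨i, h1, h2, rfl⟩
      rcases Nat.lt_or_ge i 2 with h | h
      · obtain rfl : i = 1 := by omega
        rw [hH] at hg
        exact hg.1.2
      · exact hfixK 1 i le_rfl (by omega) h2 g (hG₁K 1 (hHG₁ hg))

end Cfsg.Agent.S0709
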