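import Cfsg.Statements.S0710
import Mathlib
import Cfsg.Agent.S0989

set_option autoImplicit false
open Cfsg

namespace Cfsg.Agent.S0710

/-- No transitive permutation group on 13 points has order `13 * 12 * 11 * 10 * 9 * 8`. -/
theorem result {α : Type*} [Fintype α] [DecidableEq α] (hα : Fintype.card α = 13) (G : Subgroup (Equiv.Perm α)) [MulAction.IsPretransitive G α] : Nat.card G ≠ 13 * 12 * 11 * 10 * 9 * 8 := by
  intro hG
  have : Fact (Nat.Prime 13) := ⟨by norm_num⟩
  obtain ⟨P⟩ : Nonempty (Sylow 13 G) := inferInstance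
  have hPc : Nat.card P = 13 := by
    rw [P.card_eq_multiplicity, hG]
    decide +kernel
  let Q : Sylow 13 (Equiv.Perm α) := Sylow.ofCard ((P : Subgroup G).map G.subtype) (by
    rw [Subgroup.card_map_of_injective (Subgroup.subtype_injective _), hPc, Nat.card_perm,
      Nat.card_eq_fintype_card, hα]
    decide +kernel)
  have hN := S0989.result 13 (Or.inl hα) Q
  have h1 : Nat.card (Subgroup.normalizer ((P : Subgroup G) : Set G)) ∣ 13 * (13 - 1) := by
    rw [← hN, ← Subgroup.card_map_of_injective (f := G.subtype) (Subgroup.subtype_injective _)]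
    exact Subgroup.card_dvd_of_le (Subgroup.le_normalizer_map _)
  have h2 := card_sylow_modEq_one 13 G
  rw [P.card_eq_index_normalizer] at h2
  have h3 := (Subgroup.normalizer ((P : Subgroup G) : Set G)).index_mul_card
  have h4 : 13 ∣ Nat.card (Subgroup.normalizer ((P : Subgroup G) : Set G)) := by
    exact hPc.symm.dvd.trans (Subgroup.card_dvd_of_le Subgroup.le_normalizer)
  rw [hG] at h3
  change (Subgroup.normalizer ((P : Subgroup G) : Set G)).index ≡ 1 [MOD 13] at h2
  generalize (Subgroup.normalizer ((P : Subgroup G) : Set G)).index = n at h2 h3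
  obtain ⟨d, hd⟩ := h4
  rw [hd] at h1 h3
  have h5 : d ∣ 12 := Nat.dvd_of_mul_dvd_mul_left (by norm_num) h1
  have h6 : d ≤ 12 := Nat.le_of_dvd (by norm_num) h5
  unfold Nat.ModEq at h2
  interval_cases d <;> omega

end Cfsg.Agent.S0710
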