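import Cfsg.Statements.S0714
import Mathlib
import Cfsg.Agent.H59.PermMod
import Cfsg.Agent.H59.Trans3

set_option autoImplicit false
open Cfsg

namespace Cfsg.Agent.S0714

open H59

theorem single_sub_mem {α : Type*} [Fintype α] [DecidableEq α] (hα : 5 ≤ Fintype.card α) {K : Type*}
    [Field K] (W : Subrepresentation (Cfsg.permRep K (alternatingGroup α) α)) {f : α → K}
    (hf : f ∈ W.toSubmodule) {a b : α} (hab : f a ≠ f b) (x y : α) :
    (Pi.single x 1 - Pi.single y 1 : α → K) ∈ W.toSubmodule := by
  have hab' : a ≠ b := fun h => hab (h ▸ rfl)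
  have hcomp : ∀ σ : Equiv.Perm α, σ ∈ alternatingGroup α → ∀ u ∈ W.toSubmodule,
      (fun z => u (σ z)) ∈ W.toSubmodule := by
    intro σ hσ u hu
    exact W.apply_mem_toSubmodule (⟨σ, hσ⟩ : alternatingGroup α)⁻¹ hu
  have hcard : 2 < (Finset.univ \ {a, b} : Finset α).card := by
    rw [Finset.card_sdiff_of_subset (Finset.subset_univ _), Finset.card_univ, Finset.card_pair hab']
    omega
  obtain ⟨c, d, e, hc, hd, he, hcd, hce, hde⟩ := Finset.two_lt_card_iff.mp hcard
  simp only [Finset.mem_sdiff, Finset.mem_univ, Finset.mem_insert, Finset.mem_singleton, true_and,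
    not_or] at hc hd he
  obtain ⟨hca, hcb⟩ := hc
  obtain ⟨hda, hdb⟩ := hd
  obtain ⟨hea, heb⟩ := he
  have hac := Ne.symm hca
  have hbc := Ne.symm hcb
  have had := Ne.symm hda
  have hbd := Ne.symm hdb
  have hae := Ne.symm hea
  have hbe := Ne.symm heb
  have hba := Ne.symm hab'
  have hdc := Ne.symm hcd
  have hec := Ne.symm hce
  have hed := Ne.symm hde
  have hev : ∀ {p q r s : α}, p ≠ q → r ≠ s →
      Equiv.swap p q * Equiv.swap r s ∈ alternatingGroup α := by
    intro p q r s h1 h2
    simp [Equiv.Perm.mem_alternatingGroup, Equiv.Perm.sign_swap h1, Equiv.Perm.sign_swap h2]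
  have h1 := W.toSubmodule.sub_mem (hcomp _ (hev hab' hcd) f hf) hf
  have h2 := W.toSubmodule.add_mem h1 (hcomp _ (hev (Ne.symm heb) hcd) _ h1)
  have h3 := W.toSubmodule.smul_mem (f b - f a)⁻¹ h2
  have hne : f b - f a ≠ 0 := sub_ne_zero.mpr hab.symm
  have h4 : (Pi.single a 2 - Pi.single b 1 - Pi.single e 1 : α → K) ∈ W.toSubmodule := by
    convert h3 using 1
    funext z
    rw [Pi.smul_apply, smul_eq_mul, eq_inv_mul_iff_mul_eq₀ hne]
    simp only [Pi.sub_apply, Pi.add_apply, Equiv.Perm.mul_apply, Pi.single_apply]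
    by_cases za : z = a
    · subst za
      simp [Equiv.swap_apply_def, *]
      ring
    by_cases zb : z = b
    · subst zb
      simp [Equiv.swap_apply_def, *]
    by_cases zc : z = c
    · subst zc
      simp [Equiv.swap_apply_def, *]
    by_cases zd : z = d
    · subst zd
      simp [Equiv.swap_apply_def, *]
    by_cases ze : z = e
    · subst ze
      simp [Equiv.swap_apply_def, *]
    simp [Equiv.swap_apply_def, *]
  have h3t : MulAction.IsMultiplyPretransitive (alternatingGroup α) α 3 := by
    have := alternatingGroup.isMultiplyPretransitive α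
    refine MulAction.isMultiplyPretransitive_of_le (n := Nat.card α - 2) ?_ ?_
    · rw [Nat.card_eq_fintype_card]; omega
    · omega
  have h2t : MulAction.IsMultiplyPretransitive (alternatingGroup α) α 2 :=
    MulAction.isMultiplyPretransitive_of_le (n := 3) (by norm_num)
      (by rw [Nat.card_eq_fintype_card]; omega)
  obtain ⟨g, ga, gb, ge⟩ := is_three_pretransitive_iff.mp h3t hab' (Ne.symm hea) (Ne.symm heb)
    (Ne.symm hca) (Ne.symm hea) hce
  have h5 := W.apply_mem_toSubmodule g h4
  simp only [map_sub, permRep_single, ga, gb, ge] at h5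
  have h6 : (Pi.single c 1 - Pi.single b 1 : α → K) ∈ W.toSubmodule := by
    convert W.toSubmodule.sub_mem h4 h5 using 1
    abel
  by_cases hxy : x = y
  · rw [hxy, sub_self]; exact W.toSubmodule.zero_mem
  obtain ⟨k, k1, k2⟩ := MulAction.is_two_pretransitive_iff.mp h2t hcb hxy
  have h7 := W.apply_mem_toSubmodule k h6
  simpa only [map_sub, permRep_single, k1, k2] using h7

/-- Over any field, the permutation module of the alternating group of degree at least 5 has exactly four invariant subspaces: zero, the constant functions, the functions with coordinate sum zero, and everything. -/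
theorem result {α : Type*} [Fintype α] [DecidableEq α] (hα : 5 ≤ Fintype.card α) {K : Type*} [Field K] (W : Subrepresentation (Cfsg.permRep K (alternatingGroup α) α)) : W.toSubmodule = ⊥ ∨ W = Cfsg.permConstants K (alternatingGroup α) α ∨ W = Cfsg.permSumZero K (alternatingGroup α) α ∨ W.toSubmodule = ⊤ := by
  have : Nonempty α := Fintype.card_pos_iff.mp (by omega)
  obtain ⟨a₀⟩ := this
  by_cases hconst : ∀ f ∈ W.toSubmodule, ∀ a b, f a = f b
  · by_cases hbot : W.toSubmodule = ⊥
    · exact Or.inl hbot
    right; left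
    refine Subrepresentation.toSubmodule_injective (le_antisymm ?_ ?_)
    · intro f hf
      exact (mem_permConstants_iff f).mpr ⟨f a₀, fun x => hconst f hf x a₀⟩
    · obtain ⟨w, hw, hw0⟩ := Submodule.exists_mem_ne_zero_of_ne_bot hbot
      obtain ⟨a, ha⟩ := Function.ne_iff.mp hw0
      intro f hf
      obtain ⟨c, hc⟩ := (mem_permConstants_iff f).mp hf
      have : f = (c * (w a)⁻¹) • w := by
        funext x
        have ha' : w a ≠ 0 := ha
        rw [Pi.smul_apply, hconst w hw x a, hc, smul_eq_mul, mul_assoc, inv_mul_cancel₀ ha', mul_one]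
      rw [this]
      exact W.toSubmodule.smul_mem _ hw
  push Not at hconst
  obtain ⟨f, hf, a, b, hab⟩ := hconst
  have key : ∀ u : α → K, u - (∑ x, u x) • Pi.single a₀ 1 ∈ W.toSubmodule := by
    intro u
    have : u - (∑ x, u x) • Pi.single a₀ 1 =
        ∑ x, u x • (Pi.single x 1 - Pi.single a₀ 1 : α → K) := by
      simp only [smul_sub, Finset.sum_sub_distrib, ← Finset.sum_smul]
      rw [← pi_eq_sum_univ' u]
    rw [this]
    exact Submodule.sum_mem _ fun x _ => W.toSubmodule.smul_mem _ (single_sub_mem hα W hf hab x a₀)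
  right; right
  by_cases hle : W.toSubmodule ≤ (permSumZero K (alternatingGroup α) α).toSubmodule
  · left
    refine Subrepresentation.toSubmodule_injective (le_antisymm hle fun u hu => ?_)
    have := key u
    rw [mem_permSumZero_iff] at hu
    simpa [hu] using this
  · right
    obtain ⟨w, hw, hw'⟩ := SetLike.not_le_iff_exists.mp hle
    rw [mem_permSumZero_iff] at hw'
    have h1 : (Pi.single a₀ 1 : α → K) ∈ W.toSubmodule := by
      have := W.toSubmodule.smul_mem (∑ x, w x)⁻¹ (W.toSubmodule.sub_mem hw (key w))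
      simpa [smul_smul, inv_mul_cancel₀ hw'] using this
    rw [eq_top_iff]
    intro u _
    have := W.toSubmodule.add_mem (key u) (W.toSubmodule.smul_mem (∑ x, u x) h1)
    simpa using this

end Cfsg.Agent.S0714
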