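import Cfsg.Statements.S0715
import Cfsg.Agent.H59.Spectral

set_option autoImplicit false
open Cfsg

namespace Cfsg.Agent.S0715

attribute [local instance] H11.fintypeIrr

/-- If a natural number `f` divides the degree of every non-principal irreducible constituent of the permutation character of a transitive group, then `f` divides every non-trivial subdegree. -/
theorem result {G : Type*} [Group G] [Fintype G] {Ω : Type*} [Fintype Ω] [MulAction G Ω] [MulAction.IsPretransitive G Ω] (f : ℕ) (hf : ∀ χ : G → ℂ, Cfsg.IsIrrCharacter G χ → χ ≠ (fun _ => 1) → Cfsg.classInner (fun g : G => (Nat.card (MulAction.fixedBy Ω g) : ℂ)) χ ≠ 0 → ∃ m : ℕ, χ 1 = (f : ℂ) * m) (a b : Ω) (hab : b ≠ a) : f ∣ Nat.card (MulAction.orbit (MulAction.stabilizer G a) b) := by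
  classical
  have : Nonempty Ω := ⟨a⟩
  set k := Nat.card (MulAction.orbit (MulAction.stabilizer G a) b) with hk
  have hA : H59.IsInv G (H59.orbMat G ℂ a b) := H59.isInv_orbMat a b
  have htr : (H59.orbMat G ℂ a b).trace = 0 := by
    simp [Matrix.trace, H59.orbMat_diag hab]
  rw [hA.trace_eq_sum] at htr
  let one : IrrCharacter G := ⟨fun _ => 1, H11.isIrrCharacter_one⟩
  rw [← Finset.add_sum_erase _ _ (Finset.mem_univ one)] at htr
  have h1 : H59.coef G (H59.orbMat G ℂ a b) one * (one : G → ℂ) 1 = k := by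
    change H59.coef G (H59.orbMat G ℂ a b) (fun _ => 1) * 1 = k
    rw [hA.coef_principal a, H59.orbMat_row_sum, mul_one]
  have h2 : ∀ χ ∈ Finset.univ.erase one, ∃ θ : ℂ, IsIntegral ℤ θ ∧
      H59.coef G (H59.orbMat G ℂ a b) χ * (χ : G → ℂ) 1 = f * θ := by
    intro χ hχ
    have hne : (χ : G → ℂ) ≠ fun _ => 1 := fun h =>
      (Finset.mem_erase.1 hχ).1 (Subtype.ext h)
    by_cases h0 : classInner (H11.permChar G Ω) χ = 0
    · exact ⟨0, isIntegral_zero, by rw [hA.coef_eq_zero χ.2 h0]; simp⟩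
    · obtain ⟨m, hm⟩ := hf χ χ.2 hne h0
      refine ⟨H59.coef G (H59.orbMat G ℂ a b) χ * m, ?_, by rw [hm]; ring⟩
      refine (hA.isIntegral_coef χ.2 fun x y => ?_).mul (isIntegral_natCast m)
      by_cases h : ∃ g : G, g • a = x ∧ g • b = y
      · exact ⟨1, by rw [H59.orbMat_of_mem h]; simp⟩
      · exact ⟨0, by rw [H59.orbMat_of_not_mem h]; simp⟩
  choose! θ hθ hθ' using h2
  rw [h1, Finset.sum_congr rfl hθ', ← Finset.mul_sum] at htr
  have h3 : IsIntegral ℤ (∑ χ ∈ Finset.univ.erase one, θ χ) := IsIntegral.sum _ hθ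
  set t := ∑ χ ∈ Finset.univ.erase one, θ χ
  rcases Nat.eq_zero_or_pos f with rfl | hf0
  · have : (k : ℂ) = 0 := by simpa using htr
    have : k = 0 := by exact_mod_cast this
    rw [this]
  · have hf1 : (f : ℂ) ≠ 0 := by exact_mod_cast hf0.ne'
    have h4 : t = algebraMap ℚ ℂ (-(k : ℚ) / f) := by
      simp only [map_div₀, map_neg, map_natCast]
      field_simp
      linear_combination htr
    rw [h4, isIntegral_algebraMap_iff (algebraMap ℚ ℂ).injective] at h3
    obtain ⟨z, hz⟩ := IsIntegrallyClosed.isIntegral_iff.1 h3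
    have hf2 : (f : ℚ) ≠ 0 := by exact_mod_cast hf0.ne'
    have h5 : (k : ℤ) = f * (-z) := by
      have : (z : ℚ) = -(k : ℚ) / f := by simpa using hz
      have : (k : ℚ) = f * (-z) := by rw [this]; field_simp
      exact_mod_cast this
    exact Int.natCast_dvd_natCast.1 ⟨-z, h5⟩

end Cfsg.Agent.S0715
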