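import Cfsg.Statements.S0716
import Cfsg.Agent.H59.Orbits
import Cfsg.Agent.S0715
import Cfsg.Agent.S0669

set_option autoImplicit false
open Cfsg

namespace Cfsg.Agent.S0716

attribute [local instance] H11.fintypeIrr

theorem setup {G : Type*} [Group G] [Fintype G] {Ω : Type*} [Fintype Ω] [MulAction G Ω]
    [MulAction.IsPretransitive G Ω] (a : Ω) :
    ∃ (one : IrrCharacter G) (m : IrrCharacter G → ℕ), (one : G → ℂ) = (fun _ => 1) ∧
      m one = 1 ∧ (∀ ψ : IrrCharacter G, classInner (H11.permChar G Ω) ψ = m ψ) ∧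
      (Fintype.card Ω : ℂ) = ∑ ψ : IrrCharacter G, m ψ * (ψ : G → ℂ) 1 ∧
      Nat.card (MulAction.orbitRel.Quotient (MulAction.stabilizer G a) Ω) =
        ∑ ψ : IrrCharacter G, m ψ ^ 2 := by
  have : Nonempty Ω := ⟨a⟩
  obtain ⟨m, hm, hm'⟩ := H11.exists_eq_sum_nat (H11.isCharacter_permChar (G := G) Ω)
  refine ⟨⟨fun _ => 1, H11.isIrrCharacter_one⟩, m, rfl, ?_, hm, ?_, ?_⟩
  · have := hm ⟨fun _ => 1, H11.isIrrCharacter_one⟩
    rw [H11.classInner_permChar_one_of_isPretransitive] at this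
    exact_mod_cast this.symm
  · have := congrFun hm' 1
    rw [H11.permChar_one, Nat.card_eq_fintype_card] at this
    rw [this]
    simp [Finset.sum_apply]
  · have := H11.classInner_permChar_permChar (G := G) Ω Ω
    rw [S0669.result a, H11.classInner_eq_sum
      (H11.isClassFunction_of_isCharacter (H11.isCharacter_permChar (G := G) Ω))] at this
    simp only [hm, map_natCast, ← sq] at this
    exact_mod_cast this.symm

theorem partA {G : Type*} [Group G] [Fintype G] {Ω : Type*} [Fintype Ω] [MulAction G Ω]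
    [MulAction.IsPretransitive G Ω] (a : Ω) (f : ℕ)
    (hf : ∀ χ : G → ℂ, IsIrrCharacter G χ → χ ≠ (fun _ => 1) →
      classInner (H11.permChar G Ω) χ ≠ 0 → χ 1 = f) :
    (∀ χ : G → ℂ, IsIrrCharacter G χ → classInner (H11.permChar G Ω) χ = 0 ∨
      classInner (H11.permChar G Ω) χ = 1) ∧
    ∀ b : Ω, b ≠ a → Nat.card (MulAction.orbit (MulAction.stabilizer G a) b) = f := by
  classical
  obtain ⟨one, m, hone, hm1, hm, hn, hr⟩ := setup (G := G) a
  have hdvd : ∀ b, b ≠ a → f ∣ Nat.card (MulAction.orbit (MulAction.stabilizer G a) b) :=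
    fun b hb => S0715.result f (fun χ h1 h2 h3 => ⟨1, by rw [hf χ h1 h2 h3]; simp⟩) a b hb
  have hne : ∀ χ ∈ Finset.univ.erase one, (χ : G → ℂ) ≠ fun _ => 1 := fun χ hχ h =>
    (Finset.mem_erase.1 hχ).1 (Subtype.ext (h.trans hone.symm))
  rcases Nat.eq_zero_or_pos f with rfl | hf0
  · refine ⟨fun χ hχ => ?_, fun b hb => Nat.eq_zero_of_zero_dvd (hdvd b hb)⟩
    by_cases h1 : χ = fun _ => 1
    · right
      rw [h1, ← hone, hm, hm1, Nat.cast_one]
    · left
      by_contra h0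
      obtain ⟨n, hn, hn'⟩ := H11.exists_pos_degree hχ
      rw [hf χ hχ h1 h0] at hn'
      exact hn.ne (by exact_mod_cast hn')
  have h1 : Fintype.card Ω = 1 + f * ∑ ψ ∈ Finset.univ.erase one, m ψ := by
    rw [← Finset.add_sum_erase _ _ (Finset.mem_univ one), hm1, hone,
      Finset.sum_congr rfl (g := fun ψ => (f : ℂ) * m ψ)] at hn
    · rw [← Finset.mul_sum] at hn
      exact_mod_cast (by simpa using hn :
        (Fintype.card Ω : ℂ) = 1 + f * ∑ ψ ∈ Finset.univ.erase one, (m ψ : ℂ))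
    · intro ψ hψ
      by_cases h0 : classInner (H11.permChar G Ω) ψ = 0
      · rw [← hm, h0]; simp
      · rw [hf ψ ψ.2 (hne ψ hψ) h0, mul_comm]
  have h2 := H59.card_orbits_eq_sum_inv (H := MulAction.stabilizer G a) (Ω := Ω) ℚ
  rw [hr, ← Finset.add_sum_erase _ _ (Finset.mem_univ one),
    ← Finset.add_sum_erase _ _ (Finset.mem_univ a), H59.card_orbit_stabilizer_self, hm1] at h2
  push_cast at h2
  have hf1 : (0 : ℚ) < f := by exact_mod_cast hf0
  have h3 : ∀ b ∈ Finset.univ.erase a,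
      ((Nat.card (MulAction.orbit (MulAction.stabilizer G a) b) : ℚ))⁻¹ ≤ (f : ℚ)⁻¹ := by
    intro b hb
    refine inv_anti₀ hf1 ?_
    exact_mod_cast Nat.le_of_dvd (H59.card_orbit_pos b) (hdvd b (Finset.mem_erase.1 hb).1)
  have h4 : ∑ _b ∈ Finset.univ.erase a, (f : ℚ)⁻¹ = ∑ ψ ∈ Finset.univ.erase one, (m ψ : ℚ) := by
    rw [Finset.sum_const, Finset.card_erase_of_mem (Finset.mem_univ a), Finset.card_univ, h1,
      Nat.add_sub_cancel_left, nsmul_eq_mul]
    push_cast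
    field_simp
  have h5 : ∀ ψ ∈ Finset.univ.erase one, (m ψ : ℚ) ≤ (m ψ : ℚ) ^ 2 := fun ψ _ => by
    exact_mod_cast Nat.le_self_pow two_ne_zero _
  have h6 := Finset.sum_le_sum h3
  have h7 := Finset.sum_le_sum h5
  have h8 := (Finset.sum_eq_sum_iff_of_le h3).1 (by linarith)
  have h9 := (Finset.sum_eq_sum_iff_of_le h5).1 (by linarith)
  refine ⟨fun χ hχ => ?_, fun b hb => ?_⟩
  · by_cases h1 : (⟨χ, hχ⟩ : IrrCharacter G) = one
    · right
      have := hm ⟨χ, hχ⟩
      rw [h1, hm1] at this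
      rw [show χ = (one : G → ℂ) from congrArg Subtype.val h1, this, Nat.cast_one]
    · have h10 := h9 ⟨χ, hχ⟩ (Finset.mem_erase.2 ⟨h1, Finset.mem_univ _⟩)
      have h11 : m ⟨χ, hχ⟩ = m ⟨χ, hχ⟩ ^ 2 := by exact_mod_cast h10
      have h12 := hm ⟨χ, hχ⟩
      have : m ⟨χ, hχ⟩ = 0 ∨ m ⟨χ, hχ⟩ = 1 := by
        rcases Nat.lt_or_ge (m ⟨χ, hχ⟩) 2 with h | h
        · omega
        · nlinarith
      rcases this with h | h
      · left; rw [h] at h12; simpa using h12
      · right; rw [h] at h12; simpa using h12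
  · have := h8 b (Finset.mem_erase.2 ⟨hb, Finset.mem_univ _⟩)
    exact_mod_cast inv_injective this

/-- (a) If all non-principal irreducible constituents of the permutation character of a transitive group have the same degree `f`, the character is multiplicity-free and all non-trivial subdegrees equal `f`. (b) A transitive group of rank at most 5 has multiplicity-free permutation character. -/
theorem result {G : Type*} [Group G] [Fintype G] {Ω : Type*} [Fintype Ω] [MulAction G Ω] [MulAction.IsPretransitive G Ω] (a : Ω) : ((f : ℕ) → (∀ χ : G → ℂ, Cfsg.IsIrrCharacter G χ → χ ≠ (fun _ => 1) → Cfsg.classInner (fun g : G => (Nat.card (MulAction.fixedBy Ω g) : ℂ)) χ ≠ 0 → χ 1 = f) → (∀ χ : G → ℂ, Cfsg.IsIrrCharacter G χ → Cfsg.classInner (fun g : G => (Nat.card (MulAction.fixedBy Ω g) : ℂ)) χ = 0 ∨ Cfsg.classInner (fun g : G => (Nat.card (MulAction.fixedBy Ω g) : ℂ)) χ = 1) ∧ ∀ b : Ω, b ≠ a → Nat.card (MulAction.orbit (MulAction.stabilizer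 G a) b) = f) ∧ (Nat.card (MulAction.orbitRel.Quotient (MulAction.stabilizer G a) Ω) ≤ 5 → ∀ χ : G → ℂ, Cfsg.IsIrrCharacter G χ → Cfsg.classInner (fun g : G => (Nat.card (MulAction.fixedBy Ω g) : ℂ)) χ = 0 ∨ Cfsg.classInner (fun g : G => (Nat.card (MulAction.fixedBy Ω g) : ℂ)) χ = 1) := by
  classical
  refine ⟨fun f hf => partA a f hf, fun hr χ hχ => ?_⟩
  change classInner (H11.permChar G Ω) χ = 0 ∨ classInner (H11.permChar G Ω) χ = 1
  obtain ⟨one, m, hone, hm1, hm, -, hr'⟩ := setup (G := G) a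
  have h12 := hm ⟨χ, hχ⟩
  rcases Nat.lt_or_ge (m ⟨χ, hχ⟩) 2 with h | h
  · have : m ⟨χ, hχ⟩ = 0 ∨ m ⟨χ, hχ⟩ = 1 := by omega
    rcases this with h | h
    · left; rw [h] at h12; simpa using h12
    · right; rw [h] at h12; simpa using h12
  · have hne : (⟨χ, hχ⟩ : IrrCharacter G) ≠ one := fun h' => by
      rw [h', hm1] at h; omega
    obtain ⟨n, -, hn⟩ := H11.exists_pos_degree hχ
    refine (partA a n fun ψ hψ h1 h0 => ?_).1 χ hχ
    by_contra h3
    have hne2 : (⟨ψ, hψ⟩ : IrrCharacter G) ≠ ⟨χ, hχ⟩ := fun h' => by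
      rw [show ψ = χ from congrArg Subtype.val h'] at h3
      exact h3 hn
    have hne3 : (⟨ψ, hψ⟩ : IrrCharacter G) ≠ one := fun h' =>
      h1 ((congrArg Subtype.val h').trans hone)
    have h4 : m ⟨ψ, hψ⟩ ≠ 0 := fun h' => h0 (by have := hm ⟨ψ, hψ⟩; rw [h'] at this; simpa using this)
    have h5 : ∑ ξ ∈ ({one, ⟨χ, hχ⟩, ⟨ψ, hψ⟩} : Finset (IrrCharacter G)), m ξ ^ 2 ≤
        ∑ ξ, m ξ ^ 2 := Finset.sum_le_sum_of_subset (Finset.subset_univ _)
    rw [Finset.sum_insert (by simp [hne.symm, hne3.symm]), Finset.sum_pair hne2.symm, hm1] at h5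
    have h6 : 1 ≤ m ⟨ψ, hψ⟩ := Nat.one_le_iff_ne_zero.2 h4
    nlinarith

end Cfsg.Agent.S0716
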