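import Cfsg.Statements.S0717
import Cfsg.Agent.H59.MultFree

set_option autoImplicit false
open Cfsg

namespace Cfsg.Agent.S0717

open scoped ComplexConjugate Matrix in
theorem isIrr_conj {G : Type*} [Group G] [Fintype G] {χ : G → ℂ} (hχ : IsIrrCharacter G χ) :
    IsIrrCharacter G (fun g => conj (χ g)) := H11.isIrrCharacter_conj hχ

/-- All suborbits of a transitive group are self-paired (every pair of points is interchanged by some group element) if and only if the permutation character is multiplicity-free and each of its irreducible constituents is real-valued. -/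
theorem result {G : Type*} [Group G] [Fintype G] {Ω : Type*} [Fintype Ω] [MulAction G Ω] [MulAction.IsPretransitive G Ω] : (∀ a b : Ω, ∃ g : G, g • a = b ∧ g • b = a) ↔ ∀ χ : G → ℂ, Cfsg.IsIrrCharacter G χ → Cfsg.classInner (fun g : G => (Nat.card (MulAction.fixedBy Ω g) : ℂ)) χ ≠ 0 → Cfsg.classInner (fun g : G => (Nat.card (MulAction.fixedBy Ω g) : ℂ)) χ = 1 ∧ ∀ g : G, (starRingEnd ℂ) (χ g) = χ g := by
  classical
  change _ ↔ ∀ χ : G → ℂ, IsIrrCharacter G χ → classInner (H11.permChar G Ω) χ ≠ 0 →
    classInner (H11.permChar G Ω) χ = 1 ∧ _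
  constructor
  · intro h χ hχ h0
    have hsymm : ∀ A : Matrix Ω Ω ℂ, H59.IsInv G A → A.transpose = A := fun A hA => by
      ext a b
      obtain ⟨g, h1, h2⟩ := h a b
      rw [Matrix.transpose_apply, ← hA g a b, h1, h2]
    have hmf : ∀ ψ : G → ℂ, IsIrrCharacter G ψ → classInner (H11.permChar G Ω) ψ = 0 ∨
        classInner (H11.permChar G Ω) ψ = 1 := fun ψ hψ =>
      H59.multFree_of_isInv_comm (fun A B hA hB => by
        rw [← hsymm _ (hA.mul hB), Matrix.transpose_mul, hsymm _ hA, hsymm _ hB]) hψ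
    refine ⟨(hmf χ hχ).resolve_left h0, ?_⟩
    have hE : H59.IsInv G (H59.grpMat Ω fun g => χ g⁻¹) :=
      H59.isInv_grpMat (H11.isClassFunction_comp_inv (H11.isClassFunction_of_irr hχ))
    have h1 := hE.coef_transpose (H11.isCharacter_of_irr hχ)
    rw [hsymm _ hE, H59.coef_grpMat_inv hχ hχ, H59.coef_grpMat_inv hχ (isIrr_conj hχ),
      H11.classInner_irr_self hχ] at h1
    by_contra hne
    have h2 : (fun g => (starRingEnd ℂ) (χ g)) ≠ χ := fun h => hne (congrFun h)
    rw [H11.classInner_irr_of_ne (isIrr_conj hχ) hχ h2] at h1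
    obtain ⟨n, hn, hn'⟩ := H11.exists_pos_degree hχ
    have hG : (Nat.card G : ℂ) ≠ 0 := by exact_mod_cast Nat.card_pos.ne'
    have hn0 : (n : ℂ) ≠ 0 := by exact_mod_cast hn.ne'
    simp [hn', h0, hG, hn.ne'] at h1
  · intro h a b
    have hmf : ∀ ψ : G → ℂ, IsIrrCharacter G ψ → classInner (H11.permChar G Ω) ψ = 0 ∨
        classInner (H11.permChar G Ω) ψ = 1 := fun ψ hψ => by
      by_cases h0 : classInner (H11.permChar G Ω) ψ = 0
      · exact Or.inl h0
      · exact Or.inr (h ψ hψ h0).1
    have hA : H59.IsInv G (H59.orbMat G ℂ a b) := H59.isInv_orbMat a b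
    have h1 : (H59.orbMat G ℂ a b).transpose - H59.orbMat G ℂ a b = 0 := by
      refine (hA.transpose.sub hA).eq_zero_of_coef hmf fun χ hχ => ?_
      by_cases h0 : classInner (H11.permChar G Ω) χ = 0
      · exact (hA.transpose.sub hA).coef_eq_zero hχ h0
      · rw [H59.coef_sub, hA.coef_transpose (H11.isCharacter_of_irr hχ), funext (h χ hχ h0).2,
          sub_self]
    have h2 := congrFun (congrFun h1 a) b
    rw [Matrix.sub_apply, Matrix.transpose_apply, H59.orbMat_self, Matrix.zero_apply] at h2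
    by_contra hne
    rw [H59.orbMat_of_not_mem hne] at h2
    simp at h2

end Cfsg.Agent.S0717
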