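import Cfsg.Statements.S0718
import Cfsg.Agent.H59.MultFree

set_option autoImplicit false
open Cfsg

namespace Cfsg.Agent.S0718

/-- Multiplicity-freeness of the permutation character is equivalent to commutativity of the centraliser ring, i.e. of the algebra of `G`-equivariant endomorphisms of the complex permutation module. -/
theorem result {G : Type*} [Group G] [Fintype G] {Ω : Type*} [Fintype Ω] [MulAction G Ω] : (∀ χ : G → ℂ, Cfsg.IsIrrCharacter G χ → Cfsg.classInner (fun g : G => (Nat.card (MulAction.fixedBy Ω g) : ℂ)) χ = 0 ∨ Cfsg.classInner (fun g : G => (Nat.card (MulAction.fixedBy Ω g) : ℂ)) χ = 1) ↔ ∀ S T : (Ω → ℂ) →ₗ[ℂ] (Ω → ℂ), S ∈ ((Cfsg.permRep ℂ G Ω).linHom (Cfsg.permRep ℂ G Ω)).invariants → T ∈ ((Cfsg.permRep ℂ G Ω).linHom (Cfsg.permRep ℂ G Ω)).invariants → S ∘ₗ T = T ∘ₗ S := by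
  classical
  have key : ∀ S : (Ω → ℂ) →ₗ[ℂ] (Ω → ℂ),
      S ∈ ((Cfsg.permRep ℂ G Ω).linHom (Cfsg.permRep ℂ G Ω)).invariants ↔
        ∀ g : G, S * H11.permRep G Ω g = H11.permRep G Ω g * S := by
    intro S
    rw [Representation.mem_invariants]
    refine (Representation.mem_linHom_invariants_iff_isIntertwining
      (ρ := Cfsg.permRep ℂ G Ω) (σ := Cfsg.permRep ℂ G Ω) S).trans ?_
    constructor
    · intro h g
      exact LinearMap.ext fun v => h.isIntertwining g v
    · intro h
      exact ⟨fun g v => LinearMap.congr_fun (h g) v⟩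
  constructor
  · intro h S T hS hT
    apply LinearMap.toMatrix'.injective
    rw [LinearMap.toMatrix'_comp, LinearMap.toMatrix'_comp]
    exact (H59.isInv_toMatrix'_of_commute ((key S).1 hS)).mul_comm_of_multFree
      (H59.isInv_toMatrix'_of_commute ((key T).1 hT)) h
  · intro h χ hχ
    have := H59.multFree_of_comm (H11.permRep G Ω)
      (fun S T hS hT => h S T ((key S).2 hS) ((key T).2 hT)) hχ
    rwa [← H59.permChar_eq_character] at this

end Cfsg.Agent.S0718
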