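import Cfsg.Statements.S0719
import Cfsg.Agent.H59.MultFree
import Cfsg.Agent.H59.PrimBlock

set_option autoImplicit false
open Cfsg

namespace Cfsg.Agent.S0719

open MulAction Matrix

attribute [local instance] H11.fintypeIrr

theorem arith (m k T r s : ℤ) (hk : 1 ≤ k) (hkm : k ≤ m - 1) (hr : r = k + m * T)
    (hs : s = T - r) (h2 : k ^ 2 + (m - 1) * r ^ 2 + m * s ^ 2 = 2 * m * k) :
    k = 1 ∨ ∃ a : ℕ, 0 < a ∧ m = 2 * a ^ 2 + 2 * a + 1 ∧ k = a * (2 * a + 1) := by
  have hm : 2 ≤ m := by omega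
  have hs2 : 0 ≤ m * s ^ 2 := by positivity
  rcases lt_trichotomy T 0 with hT | hT | hT
  · rcases eq_or_lt_of_le (show T ≤ -1 by omega) with hT | hT
    · right
      subst hT
      obtain ⟨a, ha⟩ : ∃ a : ℕ, m - k - 1 = a := ⟨(m - k - 1).toNat, by omega⟩
      have hk' : k = m - a - 1 := by omega
      have h3 : m * (m - (2 * a ^ 2 + 2 * a + 1)) = 0 := by
        subst hs hr hk'
        linear_combination -h2
      have h4 : m = 2 * a ^ 2 + 2 * a + 1 := by
        rcases mul_eq_zero.1 h3 with h | h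
        · omega
        · linarith
      refine ⟨a, ?_, h4, by rw [hk', h4]; ring⟩
      rcases Nat.eq_zero_or_pos a with rfl | h
      · simp at h4; omega
      · exact h
    · exfalso
      have h3 : r ≤ -(m + 1) := by nlinarith
      have h4 : (m + 1) ^ 2 ≤ r ^ 2 := by nlinarith
      have h5 : (m - 1) * (m + 1) ^ 2 ≤ (m - 1) * r ^ 2 :=
        mul_le_mul_of_nonneg_left h4 (by omega)
      nlinarith
  · left
    subst hT
    have h3 : 2 * m * k * (k - 1) = 0 := by
      subst hs hr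
      linear_combination h2
    rcases mul_eq_zero.1 h3 with h | h
    · have : 0 < 2 * m * k := by positivity
      omega
    · omega
  · exfalso
    have h3 : k + m ≤ r := by nlinarith
    have h4 : (k + m) ^ 2 ≤ r ^ 2 := by nlinarith
    have h5 : r ^ 2 ≤ (m - 1) * r ^ 2 := by nlinarith [sq_nonneg r]
    nlinarith [sq_nonneg (k - m)]

theorem decomp {G : Type*} [Group G] {Ω : Type*} [Fintype Ω] [DecidableEq Ω] [MulAction G Ω]
    [IsPretransitive G Ω] {a b c : Ω} (hb : b ≠ a) (hc : c ≠ a)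
    (hbc : c ∉ orbit (stabilizer G a) b)
    (h : ∀ y, y = a ∨ y ∈ orbit (stabilizer G a) b ∨ y ∈ orbit (stabilizer G a) c)
    {M : Matrix Ω Ω ℂ} (hM : H59.IsInv G M) :
    M = M a a • (1 : Matrix Ω Ω ℂ) + M a b • H59.orbMat G ℂ a b +
      M a c • ((Matrix.of fun _ _ => (1 : ℂ)) - 1 - H59.orbMat G ℂ a b) := by
  have hN : H59.IsInv G (M a a • (1 : Matrix Ω Ω ℂ) + M a b • H59.orbMat G ℂ a b +
      M a c • ((Matrix.of fun _ _ => (1 : ℂ)) - 1 - H59.orbMat G ℂ a b)) :=
    ((H59.isInv_one.smul _).add ((H59.isInv_orbMat a b).smul _)).add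
      ((((H59.isInv_const _).sub H59.isInv_one).sub (H59.isInv_orbMat a b)).smul _)
  have hst : ∀ N : Matrix Ω Ω ℂ, H59.IsInv G N → ∀ (k : stabilizer G a) (z : Ω),
      N a ((fun k : stabilizer G a => k • z) k) = N a z := fun N hN k z => by
    have h1 : (k : G) • a = a := k.2
    have h2 := hN k a z
    rwa [h1] at h2
  ext x y
  obtain ⟨g, rfl⟩ := exists_smul_eq G a x
  obtain ⟨z, rfl⟩ : ∃ z, y = g • z := ⟨g⁻¹ • y, (smul_inv_smul _ _).symm⟩
  rw [hM, hN]
  rcases h z with rfl | ⟨k, rfl⟩ | ⟨k, rfl⟩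
  · simp [H59.orbMat_diag hb]
  · rw [hst _ hM, hst _ hN]
    simp [H59.orbMat_self, hb.symm]
  · rw [hst _ hM, hst _ hN]
    simp [H59.orbMat_of_not_mem (mt (H59.exists_pair_iff_mem_orbit a b c).1 hbc), hc.symm]

theorem orbMat_nat {G : Type*} [Group G] {Ω : Type*} [MulAction G Ω] (a b x y : Ω) :
    H59.orbMat G ℂ a b x y = 0 ∨ H59.orbMat G ℂ a b x y = 1 := by
  by_cases h : ∃ g : G, g • a = x ∧ g • b = y
  · exact Or.inr (H59.orbMat_of_mem h)
  · exact Or.inl (H59.orbMat_of_not_mem h)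

theorem main {G : Type*} [Group G] [Fintype G] {Ω : Type*} [Fintype Ω] [MulAction G Ω]
    (hprim : IsPreprimitive G Ω) {m : ℕ} (hm : Fintype.card Ω = 2 * m) (a b c : Ω)
    (hb : b ≠ a) (hc : c ≠ a) (hbc : c ∉ orbit (stabilizer G a) b)
    (h : ∀ y, y = a ∨ y ∈ orbit (stabilizer G a) b ∨ y ∈ orbit (stabilizer G a) c)
    (hkm : Nat.card (orbit (stabilizer G a) b) + 1 ≤ m)
    (χ₁ χ₂ : G → ℂ) (h₁ : IsIrrCharacter G χ₁) (h₂ : IsIrrCharacter G χ₂)
    (hπ : H11.permChar G Ω = fun g => 1 + χ₁ g + χ₂ g) (hd₁ : χ₁ 1 = (m : ℂ) - 1)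
    (hd₂ : χ₂ 1 = m) : ∃ u : ℕ, 0 < u ∧ m = 2 * u ^ 2 + 2 * u + 1 ∧
      Nat.card (orbit (stabilizer G a) b) = u * (2 * u + 1) := by
  classical
  have : Nonempty Ω := ⟨a⟩
  have hcard := H59.card_eq_of_suborbits a b c (fun k : stabilizer G a => k.2) hb hc hbc h
  set k := Nat.card (orbit (stabilizer G a) b) with hk
  set l := Nat.card (orbit (stabilizer G a) c) with hl
  have hk0 : 0 < k := H59.card_orbit_pos b
  have hl0 : 0 < l := H59.card_orbit_pos c
  set A := H59.orbMat G ℂ a b with hAdef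
  have hA : H59.IsInv G A := H59.isInv_orbMat a b
  have hπ' : H11.permChar G Ω = (fun _ => 1) + χ₁ + χ₂ := hπ
  have h12 : χ₁ ≠ χ₂ := fun h => by
    rw [h, hd₂] at hd₁
    simp [eq_sub_iff_add_eq] at hd₁
  have hone := H11.classInner_permChar_one_of_isPretransitive (G := G) Ω
  rw [hπ', H11.classInner_add_left, H11.classInner_add_left,
    H11.classInner_irr_self H11.isIrrCharacter_one] at hone
  have h10 : χ₁ ≠ fun _ => 1 := fun h' => by
    have h3 : χ₂ ≠ fun _ => 1 := fun h'' => h12 (h'.trans h''.symm)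
    rw [H11.classInner_irr_of_ne h₂ H11.isIrrCharacter_one h3, h',
      H11.classInner_irr_self H11.isIrrCharacter_one] at hone
    norm_num at hone
  have h20 : χ₂ ≠ fun _ => 1 := fun h' => by
    rw [H11.classInner_irr_of_ne h₁ H11.isIrrCharacter_one h10, h',
      H11.classInner_irr_self H11.isIrrCharacter_one] at hone
    norm_num at hone
  have hp1 : classInner (H11.permChar G Ω) χ₁ = 1 := by
    rw [hπ', H11.classInner_add_left, H11.classInner_add_left,
      H11.classInner_irr_of_ne H11.isIrrCharacter_one h₁ h10.symm,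
      H11.classInner_irr_of_ne h₂ h₁ h12.symm, H11.classInner_irr_self h₁]
    simp
  have hp2 : classInner (H11.permChar G Ω) χ₂ = 1 := by
    rw [hπ', H11.classInner_add_left, H11.classInner_add_left,
      H11.classInner_irr_of_ne H11.isIrrCharacter_one h₂ h20.symm,
      H11.classInner_irr_of_ne h₁ h₂ h12, H11.classInner_irr_self h₂]
    simp
  have htr : ∀ M : Matrix Ω Ω ℂ, H59.IsInv G M → 2 * m * M a a =
      ∑ y, M a y + H59.coef G M χ₁ * (m - 1) + H59.coef G M χ₂ * m := by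
    intro M hM
    have e1 : M.trace = 2 * m * M a a := by
      simp only [Matrix.trace, Matrix.diag_apply]
      rw [Finset.sum_congr rfl fun x _ => hM.diag x a]
      simp [hm]
    rw [← e1, hM.trace_eq_sum, ← Finset.sum_subset (Finset.subset_univ
      ({⟨_, H11.isIrrCharacter_one⟩, ⟨χ₁, h₁⟩, ⟨χ₂, h₂⟩} : Finset (IrrCharacter G))),
      Finset.sum_insert, Finset.sum_pair]
    · change H59.coef G M (fun _ => 1) * 1 + (H59.coef G M χ₁ * χ₁ 1 + H59.coef G M χ₂ * χ₂ 1) = _
      rw [hM.coef_principal a, hd₁, hd₂]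
      ring
    · exact fun h => h12 (congrArg Subtype.val h)
    · simp only [Finset.mem_insert, Finset.mem_singleton, not_or]
      exact ⟨fun h => h10 (congrArg Subtype.val h).symm, fun h => h20 (congrArg Subtype.val h).symm⟩
    · intro ψ _ hψ
      simp only [Finset.mem_insert, Finset.mem_singleton, not_or] at hψ
      rw [hM.coef_eq_zero ψ.2, zero_mul]
      rw [hπ', H11.classInner_add_left, H11.classInner_add_left,
        H11.classInner_irr_of_ne H11.isIrrCharacter_one ψ.2 fun h => hψ.1 (Subtype.ext h.symm),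
        H11.classInner_irr_of_ne h₁ ψ.2 fun h => hψ.2.1 (Subtype.ext h.symm),
        H11.classInner_irr_of_ne h₂ ψ.2 fun h => hψ.2.2 (Subtype.ext h.symm)]
      simp
  have hrow : ∑ y, A a y = k := H59.orbMat_row_sum a b
  have hmC : (2 * m : ℂ) = 1 + k + l := by exact_mod_cast hm.symm.trans hcard
  have hrowM : ∀ M : Matrix Ω Ω ℂ, H59.IsInv G M → ∑ y, M a y = M a a + M a b * k + M a c * l := by
    intro M hM
    conv_lhs => rw [decomp hb hc hbc h hM]
    simp only [Matrix.add_apply, Matrix.smul_apply, Matrix.sub_apply, smul_eq_mul,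
      Finset.sum_add_distrib, ← Finset.mul_sum, Finset.sum_sub_distrib, ← hAdef, hrow,
      Matrix.of_apply, Matrix.one_apply]
    simp [hm]
    left
    linear_combination hmC
  have hsymm : Aᵀ = A := by
    have e1 : ∑ y, Aᵀ a y = k := by
      have e2 : ∑ x, ∑ y, Aᵀ x y = ∑ x, ∑ y, A x y := Finset.sum_comm
      rw [Finset.sum_congr rfl fun x _ => hA.transpose.row_sum x a,
        Finset.sum_congr rfl fun x _ => hA.row_sum x a, Finset.sum_const, Finset.sum_const,
        nsmul_eq_mul, nsmul_eq_mul, hrow] at e2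
      exact mul_left_cancel₀ (by exact_mod_cast Fintype.card_ne_zero) e2
    rw [hrowM _ hA.transpose] at e1
    have e0 : A a a = 0 := H59.orbMat_diag hb a
    have hk1 : (k : ℂ) ≠ 0 := by exact_mod_cast hk0.ne'
    have hl1 : (l : ℂ) ≠ 0 := by exact_mod_cast hl0.ne'
    simp only [Matrix.transpose_apply, e0] at e1
    have e3 : A b a = 1 ∧ A c a = 0 := by
      rcases orbMat_nat (G := G) a b b a with e3 | e3 <;>
      rcases orbMat_nat (G := G) a b c a with e4 | e4 <;>
      rw [← hAdef] at e3 e4 <;> rw [e3, e4] at e1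
      · exact absurd (by simpa using e1.symm) hk1
      · have : l = k := by exact_mod_cast (by simpa using e1 : (l : ℂ) = k)
        omega
      · exact ⟨e3, e4⟩
      · exact absurd (by simpa using e1) hl1
    rw [decomp hb hc hbc h hA.transpose]
    simp only [Matrix.transpose_apply, e0, e3.1, e3.2]
    simp [hAdef]
  have hsymm' : ∀ x y, A y x = A x y := fun x y => congrFun (congrFun hsymm x) y
  have hdiag : (A * A) a a = k := by
    rw [Matrix.mul_apply, ← hrow]
    refine Finset.sum_congr rfl fun y _ => ?_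
    rw [hsymm' a y]
    rcases orbMat_nat (G := G) a b a y with e | e <;> rw [← hAdef] at e <;> simp [e]
  have hint : ∀ x y, ∃ n : ℤ, (A * A) x y = n := fun x y => by
    rw [Matrix.mul_apply]
    refine Finset.sum_induction _ (fun z : ℂ => ∃ n : ℤ, z = n) ?_ ⟨0, by simp⟩ ?_
    · rintro _ _ ⟨n, rfl⟩ ⟨n', rfl⟩
      exact ⟨n + n', by simp⟩
    · intro z _
      rcases orbMat_nat (G := G) a b x z with e | e <;>
      rcases orbMat_nat (G := G) a b z y with e' | e' <;> rw [← hAdef] at e e' <;> rw [e, e']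
      exacts [⟨0, by simp⟩, ⟨0, by simp⟩, ⟨0, by simp⟩, ⟨1, by simp⟩]
  obtain ⟨lam, hlam⟩ := hint a b
  obtain ⟨mu, hmu⟩ := hint a c
  have hquad : ∀ χ, IsIrrCharacter G χ → χ ≠ (fun _ => 1) → classInner (H11.permChar G Ω) χ = 1 →
      H59.coef G A χ ^ 2 = k + lam * H59.coef G A χ - mu - mu * H59.coef G A χ := by
    intro χ hχ hne hp
    rw [← hA.coef_mul_self hχ hp, decomp hb hc hbc h (hA.mul hA), hdiag, hlam, hmu, H59.coef_add,
      H59.coef_add, H59.coef_smul, H59.coef_smul, H59.coef_smul, H59.coef_sub, H59.coef_sub,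
      H59.coef_one, hp]
    have : H59.coef G (Matrix.of fun (_ _ : Ω) => (1 : ℂ)) χ = 0 := by
      rw [H59.coef, H59.trc_const]
      have e : (fun _ : G => (Fintype.card Ω : ℂ) * 1) = (Fintype.card Ω : ℂ) • fun _ => 1 := by
        ext; simp
      rw [e, H11.classInner_smul_left,
        H11.classInner_irr_of_ne H11.isIrrCharacter_one hχ hne.symm, mul_zero]
    rw [this]
    ring
  have hrow2 : ∑ y, (A * A) a y = k ^ 2 := by
    simp only [Matrix.mul_apply]
    rw [Finset.sum_comm]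
    simp only [← Finset.mul_sum]
    rw [Finset.sum_congr rfl fun x _ => congrArg _ ((hA.row_sum x a).trans hrow),
      ← Finset.sum_mul, hrow, sq]
  have q1 := hquad χ₁ h₁ h10 hp1
  have q2 := hquad χ₂ h₂ h20 hp2
  have t1 := htr A hA
  have t2 := htr (A * A) (hA.mul hA)
  rw [hA.coef_mul_self h₁ hp1, hA.coef_mul_self h₂ hp2, hdiag, hrow2] at t2
  rw [hrow, show A a a = 0 from H59.orbMat_diag hb a, mul_zero] at t1
  set r := H59.coef G A χ₁
  set s := H59.coef G A χ₂
  have hrs : r ≠ s := fun e => by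
    rw [← e] at t1 t2
    have e1 : (2 * m * k : ℂ) * (k - (2 * m - 1)) = 0 := by
      linear_combination (-(2 * m - 1)) * t2 + ((2 * m - 1) * r - k) * t1
    have e2 : (2 * m * k : ℤ) * (k - (2 * m - 1)) = 0 := by exact_mod_cast e1
    rcases mul_eq_zero.1 e2 with e | e
    · have : (0 : ℤ) < 2 * m * k := by
        have : 0 < m := by omega
        positivity
      omega
    · omega
  have hT : r + s = lam - mu := by
    have : (r - s) * (r + s - (lam - mu)) = 0 := by linear_combination q1 - q2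
    rcases mul_eq_zero.1 this with e | e
    · exact absurd (sub_eq_zero.1 e) hrs
    · exact sub_eq_zero.1 e
  have hr : r = ((k + m * (lam - mu) : ℤ) : ℂ) := by
    push_cast
    linear_combination t1 + m * hT
  have hs : s = ((lam - mu - (k + m * (lam - mu)) : ℤ) : ℂ) := by
    push_cast
    push_cast at hr
    linear_combination hT - hr
  rw [hr, hs] at t2
  have t3 : (k : ℤ) ^ 2 + (m - 1) * (k + m * (lam - mu)) ^ 2 +
      m * (lam - mu - (k + m * (lam - mu))) ^ 2 = 2 * m * k := by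
    have : ((k : ℤ) ^ 2 + (m - 1) * (k + m * (lam - mu)) ^ 2 +
      m * (lam - mu - (k + m * (lam - mu))) ^ 2 : ℂ) = 2 * m * k := by
      push_cast at t2 ⊢
      linear_combination -t2
    exact_mod_cast this
  rcases arith m k (lam - mu) _ _ (by omega) (by omega) rfl rfl t3 with e | ⟨u, hu, e1, e2⟩
  · have e1 : k = 1 := by exact_mod_cast e
    have e2 : l = 1 := H59.card_orbit_eq_one_of_primitive hprim hb e1 a c
    omega
  · exact ⟨u, hu, by exact_mod_cast e1, by exact_mod_cast e2⟩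

/-- Groups of Wielandt type: if a primitive group of degree `2m` has rank 3 and permutation character `1 + χ₁ + χ₂` with irreducible `χ₁, χ₂` of degrees `m - 1` and `m`, then `m = 2a² + 2a + 1` for some positive integer `a` and the two non-trivial subdegrees are `a(2a+1)` and `(a+1)(2a+1)`. -/
theorem result {G : Type*} [Group G] [Fintype G] {Ω : Type*} [Fintype Ω] [MulAction G Ω] (hprim : MulAction.IsPreprimitive G Ω) {m : ℕ} (hm : Fintype.card Ω = 2 * m) (a₀ : Ω) (hrank : Nat.card (MulAction.orbitRel.Quotient (MulAction.stabilizer G a₀) Ω) = 3) (χ₁ χ₂ : G → ℂ) (h₁ : Cfsg.IsIrrCharacter G χ₁) (h₂ : Cfsg.IsIrrCharacter G χ₂) (hπ : (fun g : G => (Nat.card (MulAction.fixedBy Ω g) : ℂ)) = fun g => 1 + χ₁ g + χ₂ g) (hd₁ : χ₁ 1 = (m : ℂ) - 1) (hd₂ : χ₂ 1 = m) : ∃ a : ℕ, 0 < a ∧ m = 2 * a ^ 2 + 2 * a + 1 ∧ ∀ b : Ω, b ≠ a₀ → Nat.card (MulAction.orbit (MulAction.stabilizer G a₀) b) = a * (2 * a + 1) ∨ Nat.card (MulAction.orbit (MulAction.stabilizer G a₀) b) = (a +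 1) * (2 * a + 1) := by
  obtain ⟨b, c, hb, hc, hbc, h⟩ := H59.exists_suborbits_of_rank_three a₀
    (fun k : stabilizer G a₀ => k.2) hrank
  have hcb : b ∉ orbit (stabilizer G a₀) c := fun h' => hbc (by
    rw [orbit_eq_iff.2 h']; exact mem_orbit_self c)
  have hcard := H59.card_eq_of_suborbits a₀ b c (fun k : stabilizer G a₀ => k.2) hb hc hbc h
  have key : ∀ u k l : ℕ, 2 * m = 1 + k + l → m = 2 * u ^ 2 + 2 * u + 1 → k = u * (2 * u + 1) →
      l = (u + 1) * (2 * u + 1) := by
    intro u k l h1 h2 h3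
    subst h2 h3
    nlinarith
  rw [hm] at hcard
  by_cases hk : Nat.card (orbit (stabilizer G a₀) b) + 1 ≤ m
  · obtain ⟨u, hu, e1, e2⟩ := main hprim hm a₀ b c hb hc hbc h hk χ₁ χ₂ h₁ h₂ hπ hd₁ hd₂
    refine ⟨u, hu, e1, fun y hy => ?_⟩
    rcases h y with h' | h' | h'
    · exact absurd h' hy
    · left; rw [orbit_eq_iff.2 h', e2]
    · right; rw [orbit_eq_iff.2 h', key u _ _ hcard e1 e2]
  · obtain ⟨u, hu, e1, e2⟩ := main hprim hm a₀ c b hc hb hcb (fun y => by
      rcases h y with h' | h' | h' <;> simp [h']) (by omega) χ₁ χ₂ h₁ h₂ hπ hd₁ hd₂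
    refine ⟨u, hu, e1, fun y hy => ?_⟩
    rcases h y with h' | h' | h'
    · exact absurd h' hy
    · right; rw [orbit_eq_iff.2 h']; exact key u _ _ (by omega) e1 e2
    · left; rw [orbit_eq_iff.2 h', e2]

end Cfsg.Agent.S0719
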