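import Cfsg.Statements.S0726
import Mathlib

set_option autoImplicit false
open Cfsg

namespace Cfsg.Agent.S0726

/-- The left and right regular permutation representations of a group are each other's centralisers in the symmetric group: the centraliser of the left regular image is the right regular image, and a transitive subgroup centralising the left regular image is the whole right regular image. -/
theorem result {G : Type*} [Group G] : Subgroup.centralizer ((MulAction.toPermHom G G).range : Set (Equiv.Perm G)) = (MulAction.toPermHom Gᵐᵒᵖ G).range ∧ ∀ H : Subgroup (Equiv.Perm G), H ≤ Subgroup.centralizer ((MulAction.toPermHom G G).range : Set (Equiv.Perm G)) → MulAction.IsPretransitive H G → H = (MulAction.toPermHom Gᵐᵒᵖ G).range := by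
  have key : ∀ c : Equiv.Perm G,
      c ∈ Subgroup.centralizer ((MulAction.toPermHom G G).range : Set (Equiv.Perm G)) ↔
        ∀ x, c x = x * c 1 := by
    intro c
    rw [Subgroup.mem_centralizer_iff]
    constructor
    · intro h x
      have := DFunLike.congr_fun (h _ ⟨x, rfl⟩) 1
      simpa using this.symm
    · rintro h _ ⟨g, rfl⟩
      ext x
      simp only [Equiv.Perm.mul_apply, MulAction.toPermHom_apply, MulAction.toPerm_apply,
        smul_eq_mul]
      rw [h x, h (g * x), mul_assoc]
  have h1 : Subgroup.centralizer ((MulAction.toPermHom G G).range : Set (Equiv.Perm G)) =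
      (MulAction.toPermHom Gᵐᵒᵖ G).range := by
    ext c
    rw [key]
    constructor
    · intro h
      exact ⟨MulOpposite.op (c 1), Equiv.ext fun x => (h x).symm⟩
    · rintro ⟨g, rfl⟩ x
      simp
  refine ⟨h1, fun H hH ht => ?_⟩
  rw [← h1]
  refine le_antisymm hH (fun c hc => ?_)
  obtain ⟨h, hh⟩ := ht.exists_smul_eq 1 (c 1)
  have : (h : Equiv.Perm G) = c := by
    ext x
    rw [(key _).1 hc x, (key _).1 (hH h.2) x, ← hh]; rfl
  exact this ▸ h.2

end Cfsg.Agent.S0726
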