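import Cfsg.Statements.S0732
import Cfsg.Agent.H61.PrimeKer
import Cfsg.Agent.H61.ZassFeit
import Cfsg.Agent.H28.Transport

set_option autoImplicit false
open Cfsg

namespace Cfsg.Agent.S0732

/-- A transitive permutation group on `p + 1` points (`p` prime) of order `(p+1) p d` with `d < p` is isomorphic to `PGL(2,p)` with `d = p - 1`, or to `PSL(2,p)` with `2d = p - 1`, or else `p + 1 = 2^q` for a prime `q`, `d = 1` or `d = q`, and the group is permutation-isomorphic to a group of semi-affine maps `x ↦ a φ(x) + b` of the field with `2^q` elements. -/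
theorem result {α : Type*} [Fintype α] [DecidableEq α] {p d : ℕ} (hp : p.Prime) (hα : Fintype.card α = p + 1) (G : Subgroup (Equiv.Perm α)) [MulAction.IsPretransitive G α] (hG : Nat.card G = (p + 1) * p * d) (hd : d < p) : (d = p - 1 ∧ Nonempty (G ≃* Matrix.ProjGenLinGroup (Fin 2) (ZMod p))) ∨ (2 * d = p - 1 ∧ Nonempty (G ≃* Matrix.ProjectiveSpecialLinearGroup (Fin 2) (ZMod p))) ∨ (∃ q : ℕ, q.Prime ∧ p + 1 = 2 ^ q ∧ (d = 1 ∨ d = q) ∧ ∃ e : α ≃ GaloisField 2 q, ∀ g : G, (e.symm.trans (((g : Equiv.Perm α)).trans e)) ∈ Cfsg.semiaffineGroup (GaloisField 2 q)) := by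
  have := Fact.mk hp
  have hΩ : Nat.card α = p + 1 := by rwa [Nat.card_eq_fintype_card]
  have hf : ∀ g : G, (∀ a : α, g • a = a) → g = 1 := fun g hg => Subtype.ext (Equiv.ext hg)
  have hker := H61.exists_isKer_of_prime hf hp hΩ hG hd
  have h := H61.isZ_of_prime_kernel hf hp hker
  have hp2 := hp.two_le
  have : Nontrivial α := Finite.one_lt_card_iff_nontrivial.mp (by omega)
  obtain ⟨o, w, ho⟩ := exists_pair_ne α
  obtain ⟨σ, -, hF⟩ := hker w
  have hcomm : ∀ u ∈ Subgroup.zpowers σ, ∀ v ∈ Subgroup.zpowers σ, u * v = v * u := by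
    rintro _ ⟨k, rfl⟩ _ ⟨l, rfl⟩
    exact zpow_mul_comm σ k l
  have hH : Nat.card (H61.stab2 G w o) = d := by
    have := h.card_eq ho.symm
    rw [hG, hΩ, mul_assoc, add_tsub_cancel_right] at this
    exact (Nat.eq_of_mul_eq_mul_left hp.pos (Nat.eq_of_mul_eq_mul_left (by omega) this)).symm
  by_cases hd1 : d = p - 1
  · left
    have hs := h.isSharp3_of_card ho.symm (by omega)
    obtain ⟨K, _, _, hK, ⟨e⟩⟩ : ∃ (K : Type) (_ : Field K) (_ : Fintype K), Fintype.card K = p ∧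
        Nonempty (G ≃* Matrix.ProjGenLinGroup (Fin 2) K) := by
      by_cases h2 : p = 2
      · obtain ⟨K, _, _, hK, e⟩ := hs.iso_PGL_of_odd (by omega) (by rw [hΩ, h2]; decide)
        exact ⟨K, inferInstance, inferInstance, by omega, e⟩
      · obtain ⟨K, _, _, hK, e⟩ := hs.iso_PGL_of_odd_exponent (f := 1) hp h2 odd_one
          (by rw [hΩ, pow_one])
        exact ⟨K, inferInstance, inferInstance, by rw [hK, pow_one], e⟩
    exact ⟨hd1, ⟨e.trans (H28.pglEquiv (ZMod.ringEquivOfPrime K hp hK).symm (Fin 2))⟩⟩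
  right
  by_cases hZ : Cfsg.IsZassenhausGroup G α
  · left
    obtain ⟨h1, K, _, _, -, hK, ⟨e⟩⟩ := (H61.zass_abelian_kernel hZ ho hF hcomm).resolve_left
      (by omega)
    exact ⟨by omega, ⟨e.trans (H28.pslEquiv
      (ZMod.ringEquivOfPrime K hp (by omega)).symm (Fin 2))⟩⟩
  right
  obtain ⟨N, hN, ht, hs⟩ := h.exists_regular_normal_of_not_zass hZ
  obtain ⟨K, _, _, f, hdvd, hg⟩ := h.semiaffine_of_regular ho hF hcomm N ht hs
  have hK : Fintype.card K = p + 1 := by rw [← Nat.card_eq_fintype_card, Nat.card_congr f, hΩ]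
  have hd0 : 0 < d := hH ▸ Nat.card_pos
  have hpo : Odd p := hp.odd_of_ne_two (by omega)
  obtain ⟨r, _, q, hr, hq⟩ := FiniteField.card' K
  have hr2 : r = 2 := by
    have : 2 ∣ r ^ (q : ℕ) := by rw [← hq, hK]; exact hpo.add_one.two_dvd
    exact ((Nat.prime_dvd_prime_iff_eq Nat.prime_two hr).mp
      (Nat.prime_two.dvd_of_dvd_pow this)).symm
  subst hr2
  have hqp : (q : ℕ).Prime := (Nat.prime_of_pow_sub_one_prime (a := 2) (n := q) (by
    intro e
    rw [e] at hq
    omega) (by rw [← hq, hK]; exact hp)).2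
  rw [H61.natCard_ringEquiv Nat.prime_two (by rw [Nat.card_eq_fintype_card, hq]), hH] at hdvd
  have := Fintype.ofFinite (GaloisField 2 q)
  let ι : K ≃+* GaloisField 2 q := FiniteField.ringEquivOfCardEq (by
    rw [hq, ← Nat.card_eq_fintype_card, GaloisField.card _ _ hqp.ne_zero])
  refine ⟨q, hqp, by rw [← hq, hK], (Nat.dvd_prime hqp).mp hdvd, f.symm.trans ι.toEquiv,
    fun g => ?_⟩
  obtain ⟨c, b, τ, hc, hτ⟩ := hg g
  refine ⟨Units.mk0 (ι c) (by simpa using hc), ι b, (ι.symm.trans τ).trans ι, fun x => ?_⟩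
  change ι (f.symm (g • f (ι.symm x))) = ι c * ι (τ (ι.symm x)) + ι b
  rw [hτ, f.symm_apply_apply, map_add, map_mul]

end Cfsg.Agent.S0732
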