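import Cfsg.Statements.S0733
import Mathlib
import Cfsg.Agent.H60.PrimElem

set_option autoImplicit false
open Cfsg

namespace Cfsg.Agent.S0733

/-- A permutation group of affine type — generated by the translations of a finite vector space `V` over `ZMod p` together with a group `G₀` of linear automorphisms — is primitive on `V` if and only if `G₀` is irreducible on `V`. -/
theorem result {p : ℕ} [Fact p.Prime] {V : Type*} [AddCommGroup V] [Module (ZMod p) V] [Finite V] [Nontrivial V] (G₀ : Subgroup (V ≃ₗ[ZMod p] V)) (G : Subgroup (Equiv.Perm V)) (hG : ∀ σ : Equiv.Perm V, σ ∈ G ↔ ∃ g ∈ G₀, ∃ b : V, ∀ x : V, σ x = (g : V ≃ₗ[ZMod p] V) x + b) : MulAction.IsPreprimitive G V ↔ ∀ W : Submodule (ZMod p) V, (∀ g ∈ G₀, ∀ v ∈ W, (g : V ≃ₗ[ZMod p] V) v ∈ W) → W = ⊥ ∨ W = ⊤ := by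
  have htr : ∀ b : V, Equiv.addRight b ∈ G := fun b => (hG _).2 ⟨1, G₀.one_mem, b, fun x => rfl⟩
  constructor
  · intro h W hW
    rcases H60.subsingleton_or_univ_of_isPreprimitive h (B := (W : Set V)) (by
      intro σ a ha hσa c hc
      obtain ⟨g, hg, b, hb⟩ := (hG σ).1 σ.2
      have h1 : (σ : Equiv.Perm V) a ∈ W := hσa
      show (σ : Equiv.Perm V) c ∈ W
      rw [hb] at h1 ⊢
      exact W.add_mem (hW g hg c hc) ((W.add_mem_iff_right (hW g hg a ha)).1 h1)) with h1 | h1
    · left
      rw [Submodule.eq_bot_iff]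
      exact fun x hx => h1 hx W.zero_mem
    · right
      rw [eq_top_iff]
      intro x _
      have : x ∈ (W : Set V) := h1 ▸ Set.mem_univ x
      exact this
  · intro h
    have : MulAction.IsPretransitive G V := ⟨fun a b => ⟨⟨_, htr (b - a)⟩, by
      show a + (b - a) = b
      abel⟩⟩
    refine MulAction.IsPreprimitive.of_isTrivialBlock_base (0 : V) (fun {B} h0 hB => ?_)
    have hadd : ∀ a ∈ B, ∀ b ∈ B, a + b ∈ B := fun a ha b hb =>
      H60.IsBlock.smul_mem_of_smul_mem hB (g := ⟨_, htr b⟩) h0 (by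
        show 0 + b ∈ B
        rwa [zero_add]) ha
    have hn : ∀ (n : ℕ), ∀ a ∈ B, n • a ∈ B := by
      intro n a ha
      induction n with
      | zero => rwa [zero_smul]
      | succ n ih => rw [succ_nsmul]; exact hadd _ ih _ ha
    let W : Submodule (ZMod p) V :=
      { carrier := B
        zero_mem' := h0
        add_mem' := fun {a b} ha hb => hadd a ha b hb
        smul_mem' := fun c a ha => by
          rw [← ZMod.natCast_zmod_val c, Nat.cast_smul_eq_nsmul]
          exact hn _ a ha }
    rcases h W (fun g hg v hv =>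
      H60.IsBlock.smul_mem_of_smul_mem hB (g := ⟨(g : V ≃ₗ[ZMod p] V).toEquiv,
        (hG _).2 ⟨g, hg, 0, fun x => (add_zero _).symm⟩⟩) h0 (by
          show (g : V ≃ₗ[ZMod p] V) 0 ∈ B
          rwa [map_zero]) hv) with h1 | h1
    · left
      intro a ha b hb
      have ha' : a ∈ W := ha
      have hb' : b ∈ W := hb
      rw [h1, Submodule.mem_bot] at ha' hb'
      rw [ha', hb']
    · right
      rw [Set.eq_univ_iff_forall]
      intro x
      have : x ∈ W := h1 ▸ Submodule.mem_top
      exact this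

end Cfsg.Agent.S0733
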