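import Cfsg.Statements.S0734
import Mathlib
import Cfsg.Agent.H60.PrimElem

set_option autoImplicit false
open Cfsg

namespace Cfsg.Agent.S0734

/-- Higman's criterion for primitivity: a transitive action on a finite set is primitive if and only if every non-trivial orbital graph (edges = images of a fixed pair of distinct points) is connected. -/
theorem result {G : Type*} [Group G] {Ω : Type*} [Finite Ω] [MulAction G Ω] [MulAction.IsPretransitive G Ω] [Nontrivial Ω] : MulAction.IsPreprimitive G Ω ↔ ∀ a b : Ω, a ≠ b → (SimpleGraph.fromRel fun x y : Ω => ∃ g : G, g • a = x ∧ g • b = y).Connected := by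
  constructor
  · intro h a b hab
    set Γ := SimpleGraph.fromRel fun x y : Ω => ∃ g : G, g • a = x ∧ g • b = y with hΓ
    have hadj : ∀ (g : G) (x y : Ω), Γ.Adj x y → Γ.Adj (g • x) (g • y) := by
      intro g x y hxy
      rw [SimpleGraph.fromRel_adj] at hxy ⊢
      refine ⟨fun h => hxy.1 (MulAction.injective g h), ?_⟩
      rcases hxy.2 with ⟨u, rfl, rfl⟩ | ⟨u, rfl, rfl⟩
      · exact Or.inl ⟨g * u, mul_smul _ _ _, mul_smul _ _ _⟩
      · exact Or.inr ⟨g * u, mul_smul _ _ _, mul_smul _ _ _⟩
    have hreach : ∀ (g : G) (x y : Ω), Γ.Reachable x y → Γ.Reachable (g • x) (g • y) :=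
      fun g x y hxy => hxy.map ⟨fun x => g • x, fun h => hadj g _ _ h⟩
    rcases H60.subsingleton_or_univ_of_isPreprimitive h (B := {y | Γ.Reachable a y})
      (fun g x hx hgx y hy => hgx.trans (hreach g _ _ (hx.symm.trans hy))) with h1 | h1
    · exact absurd (h1 (SimpleGraph.Reachable.refl a) (SimpleGraph.Adj.reachable
        ((SimpleGraph.fromRel_adj _ _ _).2 ⟨hab, Or.inl ⟨1, one_smul _ _, one_smul _ _⟩⟩))) hab
    · have h2 : ∀ y, Γ.Reachable a y := fun y => by
        have : y ∈ {y | Γ.Reachable a y} := h1 ▸ Set.mem_univ y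
        exact this
      exact ⟨fun x y => (h2 x).symm.trans (h2 y)⟩
  · intro h
    refine ⟨fun {B} hB => ?_⟩
    rcases B.subsingleton_or_nontrivial with h1 | ⟨a, ha, b, hb, hab⟩
    · exact Or.inl h1
    right
    rw [Set.eq_univ_iff_forall]
    intro y
    have := (h a b hab).preconnected a y
    rw [SimpleGraph.reachable_iff_reflTransGen] at this
    induction this with
    | refl => exact ha
    | tail _ hxy ih =>
      rw [SimpleGraph.fromRel_adj] at hxy
      rcases hxy.2 with ⟨u, rfl, rfl⟩ | ⟨u, rfl, rfl⟩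
      · exact H60.IsBlock.smul_mem_of_smul_mem hB ha ih hb
      · exact H60.IsBlock.smul_mem_of_smul_mem hB hb ih ha

end Cfsg.Agent.S0734
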