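import Cfsg.Statements.S0735
import Cfsg.Agent.H60.Homog

set_option autoImplicit false
open Cfsg

namespace Cfsg.Agent.S0735

/-- A 2-homogeneous permutation group (transitive on 2-subsets) of even order is doubly transitive; a non-trivial 2-homogeneous group is primitive. -/
theorem result {α : Type*} [Fintype α] [DecidableEq α] (G : Subgroup (Equiv.Perm α)) (h2 : MulAction.IsPretransitive G (Set.powersetCard α 2)) (hα : 3 ≤ Fintype.card α) : (Even (Nat.card G) → MulAction.IsMultiplyPretransitive G α 2) ∧ (G ≠ ⊥ → MulAction.IsPreprimitive G α) := by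
  constructor
  · intro hev
    have : Fact (Nat.Prime 2) := ⟨Nat.prime_two⟩
    obtain ⟨t, ht⟩ := exists_prime_orderOf_dvd_card' (G := G) 2 hev.two_dvd
    have ht2 : ∀ x : α, t • t • x = x := fun x => by
      rw [← mul_smul, ← pow_two, ← ht, pow_orderOf_eq_one, one_smul]
    obtain ⟨a, ha⟩ : ∃ a : α, t • a ≠ a := by
      by_contra h
      push Not at h
      rw [H60.eq_one_of_forall_smul_eq h, orderOf_one] at ht
      omega
    have key : ∀ c d : α, c ≠ d → ∃ g : G, g • a = c ∧ g • t • a = d := by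
      intro c d hcd
      obtain ⟨g, h | h⟩ := H60.homog_two h2 ha.symm hcd
      · exact ⟨g, h⟩
      · exact ⟨g * t, by rw [mul_smul, h.2], by rw [mul_smul, ht2, h.1]⟩
    rw [MulAction.is_two_pretransitive_iff]
    intro b c d e hbc hde
    obtain ⟨g, h1, h3⟩ := key b c hbc
    obtain ⟨g', h4, h5⟩ := key d e hde
    exact ⟨g' * g⁻¹, by rw [mul_smul, ← h1, inv_smul_smul, h4],
      by rw [mul_smul, ← h3, inv_smul_smul, h5]⟩
  · intro hG
    obtain ⟨t, ht⟩ := Subgroup.ne_bot_iff_exists_ne_one.1 hG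
    obtain ⟨a, ha⟩ : ∃ a : α, t • a ≠ a := by
      by_contra h
      push Not at h
      exact ht (H60.eq_one_of_forall_smul_eq h)
    apply MulAction.IsPreprimitive.of_isTrivialBlock_of_notMem_fixedPoints (a := a)
      (fun h => ha (h t))
    intro B haB hB
    rcases B.subsingleton_or_nontrivial with h1 | h1
    · exact Or.inl h1
    right
    obtain ⟨b, hb, hba⟩ := h1.exists_ne a
    rw [Set.eq_univ_iff_forall]
    intro c
    by_cases hc : c = a
    · rwa [hc]
    obtain ⟨g, h | h⟩ := H60.homog_two h2 hba.symm (Ne.symm hc)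
    · exact h.2 ▸ H60.IsBlock.smul_mem_of_smul_mem hB haB (h.1.symm ▸ haB) hb
    · exact h.1 ▸ H60.IsBlock.smul_mem_of_smul_mem hB hb (h.2.symm ▸ haB) haB

end Cfsg.Agent.S0735
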