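import Cfsg.Statements.S0737
import Cfsg.Agent.H61.Kantor
import Cfsg.Agent.H60.Homog
import Cfsg.Agent.S0205

set_option autoImplicit false
open Cfsg

namespace Cfsg.Agent.S0737

/-- A non-trivial 2-homogeneous permutation group that is not doubly transitive has odd order and degree `p^f ≡ 3 (mod 4)`, and is permutation-isomorphic to a group of semi-affine transformations `x ↦ a φ(x) + b` of the field with `p^f` elements containing all translations. -/
theorem result {α : Type*} [Fintype α] [DecidableEq α] (G : Subgroup (Equiv.Perm α)) (hne : G ≠ ⊥) (h2 : MulAction.IsPretransitive G (Set.powersetCard α 2)) (hn2 : ¬ MulAction.IsMultiplyPretransitive G α 2) : Odd (Nat.card G) ∧ ∃ (p f : ℕ) (_ : Fact p.Prime), p ≠ 2 ∧ Fintype.card α = p ^ f ∧ p ^ f % 4 = 3 ∧ ∃ e : α ≃ GaloisField p f, (∀ g : G, e.symm.trans (((g : Equiv.Perm α)).trans e) ∈ Cfsg.semiaffineGroup (GaloisField p f)) ∧ ∀ b : GaloisField p f, ∃ g : G, ∀ x : α, e ((g : Equiv.Perm α) x) = e x + b := by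
  have h2' := fun a b c d (hab : a ≠ b) (hcd : c ≠ d) => H60.homog_two h2 hab hcd
  have hf : ∀ g : G, (∀ a : α, g • a = a) → g = 1 := fun g hg => Subtype.ext (Equiv.ext hg)
  have hodd : Odd (Nat.card G) := by
    by_contra he
    obtain ⟨t, ht1, ht⟩ := H61.exists_involution_of_even (Nat.not_odd_iff_even.mp he)
    obtain ⟨a, ha⟩ : ∃ a : α, t • a ≠ a := by
      by_contra hh
      push Not at hh
      exact ht1 (hf t hh)
    exact hn2 (H61.two_trans_of_homog_swap h2' (t := t) ha.symm rfl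
      (by rw [← mul_smul, ht, one_smul]))
  have : Nontrivial G := (Subgroup.nontrivial_iff_ne_bot G).mpr hne
  obtain ⟨F, _, _, f, h4, h5, h6⟩ :=
    H61.kantor_solvable hf h2' hn2 hodd (Cfsg.Agent.S0205.result hodd)
  obtain ⟨p, _, n, hp, hn⟩ := FiniteField.card' F
  have := Fact.mk hp
  have := Fintype.ofFinite (GaloisField p n)
  let ι : F ≃+* GaloisField p n := FiniteField.ringEquivOfCardEq (by
    rw [hn, ← Nat.card_eq_fintype_card, GaloisField.card _ _ n.ne_zero])
  refine ⟨hodd, p, n, inferInstance, ?_, by rw [← hn, Fintype.card_congr f], hn ▸ h4,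
    f.symm.trans ι.toEquiv, fun g => ?_, fun b => ?_⟩
  · rintro rfl
    have : 2 ∣ Fintype.card F := hn ▸ dvd_pow_self 2 n.ne_zero
    omega
  · obtain ⟨c, b, τ, hc, hτ⟩ := h5 g
    refine ⟨Units.mk0 (ι c) (by simpa using hc), ι b, (ι.symm.trans τ).trans ι, fun x => ?_⟩
    change ι (f.symm (g • f (ι.symm x))) = ι c * ι (τ (ι.symm x)) + ι b
    rw [hτ, f.symm_apply_apply, map_add, map_mul]
  · obtain ⟨g, hg⟩ := h6 (ι.symm b)
    refine ⟨g, fun x => ?_⟩
    obtain ⟨x, rfl⟩ := f.surjective x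
    change ι (f.symm (g • f x)) = ι (f.symm (f x)) + b
    rw [hg, f.symm_apply_apply, f.symm_apply_apply, map_add, ι.apply_symm_apply]

end Cfsg.Agent.S0737
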