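import Cfsg.Statements.S0739
import Cfsg.Agent.H61.ZassOdd

set_option autoImplicit false
open Cfsg

namespace Cfsg.Agent.S0739

/-- In a finite Zassenhaus group whose two-point stabiliser `H = G_{a,b}` has odd order `d`, and which has no normal `q`-complement for any prime `q ∣ d`, `H` is cyclic, `C_G(H) = H`, and every element swapping `a` and `b` inverts each element of `H`. -/
theorem result {G Ω : Type*} [Group G] [Finite G] [MulAction G Ω] [Fintype Ω] (hZ : Cfsg.IsZassenhausGroup G Ω) {a b : Ω} (hab : a ≠ b) (hodd : Odd (Nat.card ↥(MulAction.stabilizer G a ⊓ MulAction.stabilizer G b))) (hnil : ∀ q : ℕ, q.Prime → q ∣ Nat.card ↥(MulAction.stabilizer G a ⊓ MulAction.stabilizer G b) → ¬ ∃ N : Subgroup G, N.Normal ∧ N.index = q ^ (Nat.card G).factorization q) : IsCyclic ↥(MulAction.stabilizer G a ⊓ MulAction.stabilizer G b) ∧ Subgroup.centralizer ((MulAction.stabilizer G a ⊓ MulAction.stabilizer G b : Subgroup G) : Set G) = MulAction.stabilizer G a ⊓ MulAction.stabilizer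 G b ∧ ∀ s : G, s • a = b → s • b = a → ∀ h ∈ MulAction.stabilizer G a ⊓ MulAction.stabilizer G b, s * h * s⁻¹ = h⁻¹ := by
  have h := H61.IsZ.of_zass hZ
  obtain ⟨h1, h2⟩ := h.cyclic_inverted_of_odd hab hodd hnil
  refine ⟨h1, le_antisymm ?_ ?_, h2⟩
  · intro g hg
    obtain ⟨x, hx, hx1⟩ : ∃ x ∈ H61.stab2 G a b, x ≠ 1 := by
      by_contra hh
      push Not at hh
      exact H61.stab2_ne_bot_of_zass hZ hab ((Subgroup.eq_bot_iff_forall _).mpr hh)
    have hc : g * x * g⁻¹ = x := by rw [← hg x hx]; simp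
    rcases h.mem_pairStab_of_conj_mem hab hx hx1 (g := g) (by rw [hc]; exact hx) with h3 | h3
    · exact h3
    · exfalso
      have h4 := h2 g h3.1 h3.2 x hx
      rw [hc] at h4
      have h5 : orderOf (⟨x, hx⟩ : H61.stab2 G a b) ∣ Nat.card (H61.stab2 G a b) :=
        orderOf_dvd_natCard _
      rw [← Subgroup.orderOf_coe, orderOf_eq_prime (p := 2)
        (by rw [pow_two]; exact mul_eq_one_iff_eq_inv.mpr h4) hx1] at h5
      exact (Nat.not_even_iff_odd.mpr hodd) (even_iff_two_dvd.mpr h5)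
  · intro g hg x hx
    exact congrArg Subtype.val (h1.isMulCommutative.is_comm.comm ⟨x, hx⟩ ⟨g, hg⟩)

end Cfsg.Agent.S0739
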