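import Cfsg.Statements.S0740
import Cfsg.Agent.H61.ZassBasic

set_option autoImplicit false
open Cfsg

namespace Cfsg.Agent.S0740

/-- In a finite Zassenhaus group any two points `a ≠ b` are swapped by an involution; every such involution has exactly one fixed point when the degree is odd and 0 or 2 fixed points when the degree is even; and if the two-point stabiliser has even order, some such involution has exactly 2 fixed points. -/
theorem result {G Ω : Type*} [Group G] [Finite G] [MulAction G Ω] [Fintype Ω] (hZ : Cfsg.IsZassenhausGroup G Ω) {a b : Ω} (hab : a ≠ b) : (∃ s : G, orderOf s = 2 ∧ s • a = b ∧ s • b = a) ∧ (∀ s : G, orderOf s = 2 → s • a = b → s • b = a → (Odd (Fintype.card Ω) → Nat.card (MulAction.fixedBy Ω s) = 1) ∧ (Even (Fintype.card Ω) → Nat.card (MulAction.fixedBy Ω s) = 0 ∨ Nat.card (MulAction.fixedBy Ω s) = 2)) ∧ (Even (Fintype.card Ω) → Even (Nat.card ↥(MulAction.stabilizer G a ⊓ MulAction.stabilizer G b)) → ∃ s : G, orderOf s = 2 ∧ s • a = b ∧ s • b = a ∧ Nat.card (MulAction.fixedBy Ω s) = 2) := by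
  have h := H61.IsZ.of_zass hZ
  have hord : ∀ s : G, s * s = 1 → s • a = b → orderOf s = 2 := by
    intro s hs hsa
    refine orderOf_eq_prime (by rw [pow_two, hs]) ?_
    rintro rfl
    exact hab (by simpa using hsa)
  refine ⟨?_, ?_, ?_⟩
  · obtain ⟨s, h1, h2, h3⟩ := h.exists_swap_involution hab
    exact ⟨s, hord s h1 h2, h2, h3⟩
  · intro s hs h1 h2
    have hs1 : s ≠ 1 := by
      rintro rfl
      simp at hs
    have hle := h.card_fixedBy_le hs1
    have hmod := H61.card_fixedBy_modEq (Ω := Ω) (g := s) (p := 2) (by rw [← hs, pow_orderOf_eq_one])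
    rw [Nat.card_eq_fintype_card, Nat.ModEq] at hmod
    constructor
    · intro ho
      rw [Nat.odd_iff] at ho
      omega
    · intro he
      rw [Nat.even_iff] at he
      omega
  · intro _ he
    obtain ⟨s, h1, h2, h3, h4⟩ := h.exists_swap_involution_of_even hab he
    exact ⟨s, hord s h1 h2, h2, h3, h4⟩

end Cfsg.Agent.S0740
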