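import Cfsg.Statements.S0744
import Cfsg.Agent.H60.Homog
import Cfsg.Agent.H60.NormalMulti

set_option autoImplicit false
open Cfsg

namespace Cfsg.Agent.S0744

/-- If for some `k > 1` the pointwise stabilisers of all `(k-1)`-subsets have the same order `> 1` and those of all `k`-subsets have the same order, then the group is `(k-1)`-transitive. -/
theorem result {α : Type*} [Fintype α] [DecidableEq α] (G : Subgroup (Equiv.Perm α)) {k : ℕ} (hk : 1 < k) (hkn : k ≤ Fintype.card α) (l m : ℕ) (hl : 1 < l) (hkm1 : ∀ s : Finset α, s.card = k - 1 → Nat.card (fixingSubgroup G (s : Set α)) = l) (hkm : ∀ s : Finset α, s.card = k → Nat.card (fixingSubgroup G (s : Set α)) = m) : MulAction.IsMultiplyPretransitive G α (k - 1) := by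
  have hc : Nat.card α = Fintype.card α := Nat.card_eq_fintype_card
  have hle : ∀ (s : Finset α) (a : α),
      fixingSubgroup G ((insert a s : Finset α) : Set α) ≤ fixingSubgroup G (s : Set α) :=
    fun s a => fixingSubgroup_antitone G α (by simp)
  obtain ⟨s₀, -, hs₀⟩ := Finset.exists_subset_card_eq (s := (Finset.univ : Finset α)) (n := k - 1)
    (by rw [Finset.card_univ]; omega)
  have hins : ∀ s : Finset α, s.card = k - 1 → ∀ a, a ∉ s →
      Nat.card (fixingSubgroup G ((insert a s : Finset α) : Set α)) = m := fun s hs a ha =>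
    hkm _ (by rw [Finset.card_insert_of_notMem ha]; omega)
  obtain ⟨a₀, ha₀⟩ := H60.exists_not_mem_finset s₀ (by omega)
  have hml : m ∣ l := by
    rw [← hins s₀ hs₀ a₀ ha₀, ← hkm1 s₀ hs₀]
    exact Subgroup.card_dvd_of_le (hle _ _)
  obtain ⟨d, hd⟩ := hml
  have hd1 : d ≠ 1 := by
    rintro rfl
    rw [mul_one] at hd
    have : fixingSubgroup G (s₀ : Set α) = ⊥ := by
      rw [eq_bot_iff]
      intro g hg
      rw [Subgroup.mem_bot]
      apply H60.eq_one_of_forall_smul_eq (α := α)
      intro x
      by_cases hx : x ∈ s₀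
      · exact (mem_fixingSubgroup_iff G).1 hg x hx
      · rw [← Subgroup.eq_of_le_of_card_ge (hle s₀ x)
          (by rw [hins s₀ hs₀ x hx, hkm1 s₀ hs₀, hd])] at hg
        exact (mem_fixingSubgroup_iff G).1 hg x (by simp)
    have h1 := hkm1 s₀ hs₀
    rw [this, Subgroup.card_bot] at h1
    omega
  obtain ⟨p, hp, hpd⟩ := Nat.exists_prime_and_dvd hd1
  have := Fact.mk hp
  refine H60.gleason hp (by omega) (fun s hs => ?_)
  obtain ⟨P⟩ : Nonempty (Sylow p (fixingSubgroup G (s : Set α))) := inferInstance
  refine ⟨(P : Subgroup _).map (fixingSubgroup G (s : Set α)).subtype, P.isPGroup'.map _, ?_⟩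
  ext x
  constructor
  · intro hx
    by_contra hxs
    apply P.not_dvd_index
    have h1 : (P : Subgroup _) ≤ (fixingSubgroup G ((insert x s : Finset α) : Set α)).subgroupOf
        (fixingSubgroup G (s : Set α)) := by
      intro g hg
      rw [Subgroup.mem_subgroupOf, mem_fixingSubgroup_iff]
      intro y hy
      rcases Finset.mem_insert.1 hy with rfl | hy
      · exact hx ⟨g, g, hg, rfl⟩
      · exact (mem_fixingSubgroup_iff G).1 g.2 y hy
    refine hpd.trans (Dvd.dvd.trans ?_ (Subgroup.index_dvd_of_le h1))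
    have h2 := H3.card_mul_relIndex (hle s x)
    rw [hins s hs x hxs, hkm1 s hs, hd] at h2
    have hm : 0 < m := Nat.pos_of_ne_zero (by rintro rfl; omega)
    exact (Nat.eq_of_mul_eq_mul_left hm h2).symm.dvd
  · rintro hx ⟨_, g, hg, rfl⟩
    exact (mem_fixingSubgroup_iff G).1 g.2 x hx

end Cfsg.Agent.S0744
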