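import Cfsg.Statements.S0745
import Cfsg.Agent.H60.LWCount
import Cfsg.Agent.S0735
import Cfsg.Agent.S0744
import Cfsg.Agent.H61.Sharp2

set_option autoImplicit false
open Cfsg

namespace Cfsg.Agent.S0745

theorem arith1 {r m h : ℕ} (h1 : r * h = m + 1) (h2 : 2 ≤ r) (h3 : r ∣ 2) (h4 : r * m ∣ 6)
    (h5 : h % 2 = 1) (h6 : 2 ≤ m) : False := by
  obtain rfl : r = 2 := le_antisymm (Nat.le_of_dvd (by norm_num) h3) h2
  have := Nat.le_of_dvd (by norm_num) h4
  have : m ≤ 3 := by omega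
  interval_cases m <;> omega

theorem arith2 {r m h : ℕ} (h1 : r * h = m + 1) (h2 : 2 ≤ r) (h3 : r ∣ 6) (h4 : r * m ∣ 24)
    (h5 : h % 2 = 1) (h6 : 2 ≤ m) : (m = 2 ∧ h = 1) ∨ (m = 8 ∧ h = 3) := by
  have h7 := Nat.le_of_dvd (by norm_num) h3
  have h8 := Nat.le_of_dvd (by norm_num) h4
  have h9 : m ≤ 12 := by nlinarith
  interval_cases r <;> interval_cases m <;> omega

theorem arith3 {r m h : ℕ} (h1 : r * h = m + 1) (h2 : 2 ≤ r) (h3 : r ∣ 24) (h4 : r * m ∣ 120)
    (h5 : h % 2 = 1) (h6 : 2 ≤ m) : (m = 5 ∧ h = 3) ∨ (m = 2 ∧ h = 1) ∨ (m = 8 ∧ h = 3) ∨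
      (m = 20 ∧ h = 7) ∨ (m = 3 ∧ h = 1) ∨ (m = 5 ∧ h = 1) := by
  have h7 := Nat.le_of_dvd (by norm_num) h3
  have h8 := Nat.le_of_dvd (by norm_num) h4
  have h9 : m ≤ 60 := by nlinarith
  have h10 : r = 2 ∨ r = 3 ∨ r = 4 ∨ r = 6 ∨ r = 8 ∨ r = 12 ∨ r = 24 := by
    interval_cases r <;> omega
  rcases h10 with rfl | rfl | rfl | rfl | rfl | rfl | rfl <;> interval_cases m <;> omega

/-- Let `G` have degree `n` and `3 ≤ k ≤ n`; suppose `G` is `(k-2)`-transitive but not `(k-1)`-transitive, and is `(k-1)`-homogeneous and `k`-homogeneous. Then `k = n` and `G` is the alternating group, or `n = 5, k = 4, |G| = 20`, or `n = 6, k = 5, |G| = 120`, or `n = 9, k = 5, |G| ∈ {504, 1512}`. -/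
theorem result {α : Type*} [Fintype α] [DecidableEq α] (G : Subgroup (Equiv.Perm α)) {k : ℕ} (hk : 3 ≤ k) (hkn : k ≤ Fintype.card α) (ht : MulAction.IsMultiplyPretransitive G α (k - 2)) (hnt : ¬ MulAction.IsMultiplyPretransitive G α (k - 1)) (hh1 : MulAction.IsPretransitive G (Set.powersetCard α (k - 1))) (hh : MulAction.IsPretransitive G (Set.powersetCard α k)) : (k = Fintype.card α ∧ G = alternatingGroup α) ∨ (Fintype.card α = 5 ∧ k = 4 ∧ Nat.card G = 20) ∨ (Fintype.card α = 6 ∧ k = 5 ∧ Nat.card G = 120) ∨ (Fintype.card α = 9 ∧ k = 5 ∧ (Nat.card G = 504 ∨ Nat.card G = 1512)) := by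
  obtain ⟨t, rfl⟩ : ∃ t, k = t + 2 := ⟨k - 2, by omega⟩
  rw [Nat.add_sub_cancel] at ht
  rw [show t + 2 - 1 = t + 1 by omega] at hnt hh1
  rw [← Nat.card_eq_fintype_card] at hkn ⊢
  obtain ⟨m, hm⟩ : ∃ m, Nat.card α = t + 1 + m := Nat.exists_eq_add_of_le (by omega)
  obtain ⟨s, hs⟩ := H60.exists_finset_card_eq (α := α) (m := t) (by omega)
  obtain ⟨s1, hs1⟩ := H60.exists_finset_card_eq (α := α) (m := t + 1) (by omega)
  obtain ⟨s2, hs2⟩ := H60.exists_finset_card_eq (α := α) (m := t + 2) (by omega)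
  have hsh : ∀ (g : G) (u : Finset α), u.card = t + 1 → (∀ x ∈ u, g • x = x) → g = 1 := by
    intro g u hu hg
    by_contra hg1
    refine hnt (S0744.result G (k := t + 2) (by omega) (by rwa [← Nat.card_eq_fintype_card])
      _ _ ?_ (fun v hv => H60.card_fixingSubgroup_eq_of_homog hh1 hv hu)
      (fun v hv => H60.card_fixingSubgroup_eq_of_homog hh hv hs2))
    rw [Finite.one_lt_card_iff_nontrivial]
    exact ⟨⟨g, (mem_fixingSubgroup_iff G).2 hg⟩, 1, fun h => hg1 (congrArg Subtype.val h)⟩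
  have hs' : (s : Set α).ncard = t := by rw [Set.ncard_coe_finset, hs]
  have hcard := H60.card_eq_descFactorial_mul ht hs'
  obtain ⟨a, ⟨r, ha⟩, ha'⟩ := H60.card_eq_choose_mul (by omega) hh1 hsh
  obtain ⟨b, ⟨q, hb⟩, hb'⟩ := H60.card_eq_choose_mul hkn hh (H60.eq_one_of_fix_of_le (by omega) hsh)
  have hodd : Odd (Nat.card (fixingSubgroup G (s : Set α))) := by
    rw [← Nat.not_even_iff_odd]
    intro hev
    rcases (show t = 1 ∨ 2 ≤ t by omega) with rfl | h2
    · exact hnt ((S0735.result G hh1 (by rwa [← Nat.card_eq_fintype_card])).1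
        (hcard ▸ hev.mul_left _))
    obtain ⟨z, -, hz⟩ := H60.exists_induce_of_tr (G := G) hs1 fun a ha b hb hab =>
      H60.exists_tr_of_even h2 (fun u hu => by
        rwa [H60.card_fixingSubgroup_eq ht (s := u) (by rw [Set.ncard_coe_finset, hu]) hs'])
        (fun g _ hg => by
          obtain ⟨u, hu, hu'⟩ := Set.exists_subset_card_eq (n := t + 1) hg
          exact hsh g u.toFinite.toFinset (by rw [← Set.ncard_eq_toFinset_card, hu'])
            fun x hx => hu (by simpa using hx)) hs1 ha hb hab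
    exact hnt (H60.isMultiplyPretransitive_of_homog_of_induce hh1 z hz)
  set h := Nat.card (fixingSubgroup G (s : Set α)) with hh'
  have hpos : 0 < (Nat.card α).descFactorial t := Nat.descFactorial_pos.2 (by omega)
  have e1 : (Nat.card α).descFactorial (t + 1) = (m + 1) * (Nat.card α).descFactorial t := by
    rw [Nat.descFactorial_succ]; congr 1; omega
  have e2 : (Nat.card α).descFactorial (t + 2) = m * (Nat.card α).descFactorial (t + 1) := by
    rw [Nat.descFactorial_succ]; congr 1; omega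
  have hr : r * h = m + 1 := Nat.eq_of_mul_eq_mul_right hpos (by
    rw [← e1, Nat.descFactorial_eq_factorial_mul_choose _ (t + 1), ha, mul_assoc, mul_comm h,
      ← hcard, ha']
    ring)
  have hq : q = r * m := Nat.eq_of_mul_eq_mul_right (Nat.mul_pos hodd.pos hpos) (by
    calc q * (h * (Nat.card α).descFactorial t) = (Nat.card α).descFactorial (t + 2) := by
          rw [mul_comm h, ← hcard, hb', Nat.descFactorial_eq_factorial_mul_choose, hb]; ring
      _ = _ := by rw [e2, e1, ← hr]; ring)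
  have hr2 : 2 ≤ r := by
    by_contra h1
    have h2 : r = 1 := by
      rcases r with _ | _ | r <;> omega
    refine hnt (H60.isMultiplyPretransitive_of_card_eq (by omega) hsh ?_)
    rw [hcard, e1, ← hr, h2, one_mul, mul_comm]
  have hr1 : r ∣ (t + 1).factorial := Dvd.intro_left _ ha.symm
  have hrm : r * m ∣ (t + 2).factorial := hq ▸ Dvd.intro_left _ hb.symm
  have hA : alternatingGroup α ≤ G → MulAction.IsMultiplyPretransitive G α (Nat.card α - 2) :=
    fun hA => by
    have := alternatingGroup.isMultiplyPretransitive α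
    refine ⟨fun x y => ?_⟩
    obtain ⟨g, hg⟩ := this.exists_smul_eq x y
    exact ⟨⟨g, hA g.2⟩, hg⟩
  rcases (show m = 1 ∨ 2 ≤ m by omega) with rfl | hm2
  · refine Or.inl ⟨by omega, ?_⟩
    have h1 := IsMultiplyPretransitive.alternatingGroup_le α G
      (by rwa [show Nat.card α - 2 = t by omega])
    by_contra hne
    have h2 : G = ⊤ := by
      have := Fact.mk Nat.prime_two
      have : Nontrivial α := Finite.one_lt_card_iff_nontrivial.1 (by omega)
      rcases (Nat.dvd_prime Nat.prime_two).1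
        (alternatingGroup.index_eq_two (α := α) ▸ Subgroup.index_dvd_of_le h1) with h2 | h2
      · exact Subgroup.index_eq_one.1 h2
      · exact absurd (Equiv.Perm.eq_alternatingGroup_of_index_eq_two h2) hne
    apply hnt
    refine ⟨fun x y => ?_⟩
    obtain ⟨g, hg⟩ := (Equiv.Perm.isMultiplyPretransitive α (t + 1)).exists_smul_eq x y
    exact ⟨⟨g, h2 ▸ Subgroup.mem_top g⟩, hg⟩
  right
  have SL : ∀ p c : ℕ, p.Prime → t + 1 ≤ p → Nat.card α < 2 * p → Nat.card G = p * c →
      ∃ d, d ∣ p - 1 ∧ c ≡ d [MOD p] := fun p c hp h1 h2 h3 =>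
    H60.exists_dvd_modEq_of_card_eq hp h2 h3 (H60.eq_one_of_fix_of_le h1 hsh)
  rw [Nat.odd_iff] at hodd
  rcases (show t = 1 ∨ t = 2 ∨ t = 3 ∨ 4 ≤ t by omega) with rfl | rfl | rfl | h4
  · exact (arith1 hr hr2 hr1 hrm hodd hm2).elim
  · rcases arith2 hr hr2 hr1 hrm hodd hm2 with ⟨rfl, h1⟩ | ⟨rfl, h1⟩ <;> rw [hm, h1] at hcard
    · exact Or.inl ⟨hm, rfl, hcard⟩
    · obtain ⟨d, hd, hd'⟩ := SL 11 30 (by norm_num) (by norm_num) (by omega) hcard
      have := Nat.le_of_dvd (by norm_num) hd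
      unfold Nat.ModEq at hd'
      interval_cases d <;> omega
  · rcases arith3 hr hr2 hr1 hrm hodd hm2 with ⟨rfl, h1⟩ | ⟨rfl, h1⟩ | ⟨rfl, h1⟩ | ⟨rfl, h1⟩ |
      ⟨rfl, h1⟩ | ⟨rfl, h1⟩ <;> rw [hm, h1] at hcard
    · exact Or.inr (Or.inr ⟨hm, rfl, Or.inr hcard⟩)
    · exact Or.inr (Or.inl ⟨hm, rfl, hcard⟩)
    · obtain ⟨d, hd, hd'⟩ := SL 11 360 (by norm_num) (by norm_num) (by omega) hcard
      have := Nat.le_of_dvd (by norm_num) hd
      unfold Nat.ModEq at hd'
      interval_cases d <;> omega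
    · obtain ⟨d, hd, hd'⟩ := SL 23 3696 (by norm_num) (by norm_num) (by omega) hcard
      have := Nat.le_of_dvd (by norm_num) hd
      unfold Nat.ModEq at hd'
      interval_cases d <;> omega
    · exfalso
      have hsh3 : ∀ (g : G) (u : Finset α), u.card = 1 + 2 → (∀ x ∈ u, g • x = x) → g = 1 := by
        intro g u hu hg
        rw [hh', H60.card_fixingSubgroup_eq ht hs' (t := u) (by rw [Set.ncard_coe_finset, hu]),
          Subgroup.card_eq_one] at h1
        exact Subgroup.mem_bot.1 (h1 ▸ (mem_fixingSubgroup_iff G).2 hg)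
      obtain ⟨u, hu⟩ := H60.exists_finset_card_eq (α := α) (m := 1) (by omega)
      have h2 := H60.natCard_ofFixingSubgroup (G := G) (u : Set α)
      rw [Set.ncard_coe_finset, hu] at h2
      have := SubMulAction.ofFixingSubgroup.isMultiplyPretransitive G (n := 3) (m := 2) (u : Set α)
        (by rw [Set.ncard_coe_finset, hu])
      have : Nontrivial (SubMulAction.ofFixingSubgroup G (u : Set α)) :=
        Finite.one_lt_card_iff_nontrivial.1 (by omega)
      obtain ⟨p, j, hp, hj, h3, -⟩ := (H61.IsSharp2.of_stabilizer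
        (H60.stabilizer_eq_bot_of_fix_finset (H60.sharp_fixing hsh3 u hu))).kernel_exists_prime
      have h4 : p ^ j = 6 := by omega
      have h5 := (Nat.prime_dvd_prime_iff_eq Nat.prime_two hp).1
        (Nat.prime_two.dvd_of_dvd_pow (n := j) (by omega))
      have h6 := (Nat.prime_dvd_prime_iff_eq Nat.prime_three hp).1
        (Nat.prime_three.dvd_of_dvd_pow (n := j) (by omega))
      omega
    · exact Or.inr (Or.inr ⟨hm, rfl, Or.inl hcard⟩)
  exfalso
  obtain ⟨l, rfl⟩ := Nat.exists_eq_add_of_le' h4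
  rw [← Nat.odd_iff] at hodd
  rcases H60.hall_add ht (fun g u hu hg hgu => by
    have h2 := H60.pow_card_eq_one_of_mem ((mem_fixingSubgroup_iff G).2 hgu)
    obtain ⟨j, hj⟩ := hodd
    rwa [H60.card_fixingSubgroup_eq ht (s := u) (by rw [Set.ncard_coe_finset, hu]) hs', ← hh', hj,
      pow_succ, pow_mul, pow_two, hg, one_pow, one_mul] at h2) with h1 | ⟨h1, h2⟩
  · have := hA (H60.alternatingGroup_le_of_small G ht (by omega) h1 hs hodd)
    exact hnt (MulAction.isMultiplyPretransitive_of_le (n := Nat.card α - 2) (by omega) (by omega))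
  · have h3 : h = 1 := by
      rw [hh', Subgroup.card_eq_one, eq_bot_iff]
      exact fun g hg => h2 g s hs ((mem_fixingSubgroup_iff G).1 hg)
    obtain rfl : r = 7 := by rw [h3] at hr; omega
    have h5 := (Nat.Prime.dvd_factorial (by norm_num)).1 hr1
    obtain ⟨l, rfl⟩ := Nat.exists_eq_add_of_le' (show 2 ≤ l by omega)
    have := H60.sharp_add_six_degree (m := l) ht (by omega) h2
    omega

end Cfsg.Agent.S0745
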