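import Cfsg.Statements.S0746
import Cfsg.Agent.S0745
import Cfsg.Agent.H60.HomogDown

set_option autoImplicit false
open Cfsg

namespace Cfsg.Agent.S0746

/-- The Livingstone–Wagner Theorem, first form: a `k`-homogeneous group of degree `n` with `4 ≤ 2k ≤ n` is `(k-1)`-transitive. -/
theorem result {α : Type*} [Fintype α] [DecidableEq α] (G : Subgroup (Equiv.Perm α)) {k : ℕ} (hk : 2 ≤ k) (hkn : 2 * k ≤ Fintype.card α) (hh : MulAction.IsPretransitive G (Set.powersetCard α k)) : MulAction.IsMultiplyPretransitive G α (k - 1) := by
  have key : ∀ j, j + 2 ≤ k → MulAction.IsMultiplyPretransitive G α (j + 1) := by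
    intro j
    induction j with
    | zero =>
      intro _
      obtain ⟨z⟩ : Nonempty (Fin 1 ↪ α) :=
        Function.Embedding.nonempty_of_card_le (by rw [Fintype.card_fin]; omega)
      exact H60.isMultiplyPretransitive_of_homog_of_induce
        (H60.homog_of_le (by omega) hh le_rfl (by omega)) z fun σ =>
        ⟨1, fun i => by rw [one_smul, Subsingleton.elim (α := Fin 1) (σ i) i]⟩
    | succ j ih =>
      intro hj
      by_contra hnt
      have := S0745.result G (k := j + 3) (by omega) (by omega) (ih (by omega)) hnt
        (H60.homog_of_le (by omega) hh (by omega) (by omega))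
        (H60.homog_of_le (by omega) hh (by omega) (by omega))
      omega
  obtain ⟨j, rfl⟩ := Nat.exists_eq_add_of_le' hk
  exact key j le_rfl

end Cfsg.Agent.S0746
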