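import Cfsg.Statements.S0748
import Cfsg.Agent.S0746

set_option autoImplicit false
open Cfsg

namespace Cfsg.Agent.S0748

/-- The Livingstone–Wagner Theorem: a `k`-homogeneous permutation group of degree `n` with `10 ≤ 2k ≤ n` is `k`-transitive. -/
theorem result {α : Type*} [Fintype α] [DecidableEq α] (G : Subgroup (Equiv.Perm α)) {k : ℕ} (hk : 5 ≤ k) (hkn : 2 * k ≤ Fintype.card α) (hh : MulAction.IsPretransitive G (Set.powersetCard α k)) : MulAction.IsMultiplyPretransitive G α k := by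
  obtain ⟨m, rfl⟩ : ∃ m, k = m + 4 + 1 := ⟨k - 5, by omega⟩
  have ht : MulAction.IsMultiplyPretransitive G α (m + 4) := S0746.result G (by omega) hkn hh
  rw [← Nat.card_eq_fintype_card] at hkn
  obtain ⟨z, hz⟩ := H60.exists_induce_alt (by omega) (by omega) ht
  by_contra hnt
  have key : ∀ (Δ : Finset α) (a b : α) (g : G), Δ.card = m + 4 + 1 → a ∈ Δ → b ∈ Δ → a ≠ b →
      ¬ H60.Tr Δ a b g := by
    intro Δ a b g hΔ ha hb hab hg
    obtain ⟨u, hu⟩ := H60.isPretransitive_powersetCard_iff.1 hh Δ (Finset.univ.map z) hΔ (by simp)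
    obtain ⟨i, -, hi⟩ := Finset.mem_map.1 (hu ▸ Finset.smul_mem_smul_finset ha)
    obtain ⟨j, -, hj⟩ := Finset.mem_map.1 (hu ▸ Finset.smul_mem_smul_finset hb)
    have hij : i ≠ j := fun h => hab (smul_left_cancel u (by rw [← hi, ← hj, h]))
    have hs : ∀ l, (u * g * u⁻¹) • z l = z (Equiv.swap i j l) := by
      intro l
      by_cases h1 : l = i
      · rw [h1, hi, mul_smul, inv_smul_smul, mul_smul, hg.1, Equiv.swap_apply_left, hj]
      by_cases h2 : l = j
      · rw [h2, hj, mul_smul, inv_smul_smul, mul_smul, hg.2.1, Equiv.swap_apply_right, hi]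
      rw [Equiv.swap_apply_of_ne_of_ne h1 h2, mul_smul, mul_smul, hg.2.2, smul_inv_smul]
      · rw [Finset.inv_smul_mem_iff, hu]
        exact Finset.mem_map_of_mem z (Finset.mem_univ l)
      · rw [Ne, inv_smul_eq_iff, ← hi]
        exact z.injective.ne h1
      · rw [Ne, inv_smul_eq_iff, ← hj]
        exact z.injective.ne h2
    refine hnt (H60.isMultiplyPretransitive_of_homog_of_induce hh z fun σ => ?_)
    rcases Int.units_eq_one_or (Equiv.Perm.sign σ) with h | h
    · exact hz σ h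
    · obtain ⟨v, hv⟩ := hz (σ * Equiv.swap i j) (by simp [h, hij])
      exact ⟨v * (u * g * u⁻¹), fun l => by rw [mul_smul, hs, hv]; simp⟩
  rcases H60.hall_add ht (fun t s hs htt hts => by
    by_contra ht1
    obtain ⟨a, ha⟩ : ∃ a : α, t • a ≠ a := by
      by_contra h
      exact ht1 (eq_of_smul_eq_smul (α := α) fun a => by
        rw [one_smul]; exact not_not.1 fun h' => h ⟨a, h'⟩)
    obtain ⟨u, hu, hu'⟩ := Finset.exists_subset_card_eq (s := s) (n := m + 3) (by omega)
    have h1 : a ∉ u := fun h => ha (hts a (hu h))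
    have h2 : t • a ∉ u := fun h => ha (smul_left_cancel t (hts _ (hu h)))
    refine key (insert a (insert (t • a) u)) a (t • a) t ?_ (by simp) (by simp) ha.symm
      ⟨rfl, H60.invol_smul_smul htt a, fun c hc h3 h4 => hts c (hu (by simpa [h3, h4] using hc))⟩
    rw [Finset.card_insert_of_notMem (by simp [ha.symm, h1]), Finset.card_insert_of_notMem h2, hu'])
    with h | ⟨h, hsh⟩
  · omega
  obtain ⟨s, hs⟩ := H60.exists_finset_card_eq (α := α) (m := m + 4) (by omega)
  obtain ⟨a, ha, b, hb, hab⟩ := Finset.one_lt_card.1 (show 1 < s.card by omega)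
  obtain ⟨g, hg⟩ := H60.exists_tr ht hs ha hb
  have h1 := H60.ncard_modEq_fixedBy Nat.prime_two (g := g)
    (by rw [pow_two]; exact hsh _ s hs (hg.mul_fix hg)) (s : Set α)ᶜ fun x hx =>
    H60.smul_notMem_of_mapsTo (hg.smul_mem ha hb) hx
  rw [Set.ncard_compl, Set.ncard_coe_finset, Nat.ModEq] at h1
  obtain ⟨w, hw, hw'⟩ : ((s : Set α)ᶜ ∩ MulAction.fixedBy α g).Nonempty := by
    rw [← Set.ncard_pos]; omega
  refine key (insert w s) a b g (by rw [Finset.card_insert_of_notMem hw, hs]) (by simp [ha])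
    (by simp [hb]) hab ⟨hg.1, hg.2.1, fun c hc h2 h3 => ?_⟩
  rcases Finset.mem_insert.1 hc with rfl | hc
  exacts [hw', hg.2.2 c hc h2 h3]

end Cfsg.Agent.S0748
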