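import Cfsg.Statements.S0752
import Cfsg.Agent.H27.AltBasis

set_option autoImplicit false
open Cfsg

namespace Cfsg.Agent.S0752

/-- Classification of alternating forms: for an alternating bilinear form B on a finite-dimensional space over any field there is a basis indexed by (Fin m ⊕ Fin m) ⊕ Fin k such that B (e_i, f_j) = δ_ij, the e's are pairwise orthogonal, the f's are pairwise orthogonal, and the last k basis vectors are orthogonal to everything (they span the radical). -/
theorem result {F V : Type*} [Field F] [AddCommGroup V] [Module F V] [FiniteDimensional F V] (B : LinearMap.BilinForm F V) (hA : B.IsAlt) : ∃ (m k : ℕ) (b : Module.Basis ((Fin m ⊕ Fin m) ⊕ Fin k) F V), (∀ i j : Fin m, B (b (Sum.inl (Sum.inl i))) (b (Sum.inl (Sum.inr j))) = if i = j then 1 else 0) ∧ (∀ i j : Fin m, B (b (Sum.inl (Sum.inl i))) (b (Sum.inl (Sum.inl j))) = 0) ∧ (∀ i j : Fin m, B (b (Sum.inl (Sum.inr i))) (b (Sum.inl (Sum.inr j))) = 0) ∧ (∀ (j : Fin k) (v : V), B (b (Sum.inr j)) v = 0) := by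
  obtain ⟨m, e, f, h, hr⟩ := H27.exists_isHyp_radical hA
  set W := Submodule.span F (Set.range (Sum.elim e f)) with hW
  let r := Module.finBasis F (B.orthogonal W)
  have hc := h.isCompl hA
  have hr_span : Submodule.span F (Set.range fun j => (r j : V)) = B.orthogonal W := by
    have := congrArg (Submodule.map (B.orthogonal W).subtype) r.span_eq
    rw [Submodule.map_span, Submodule.map_subtype_top, ← Set.range_comp] at this
    exact this
  have hli : LinearIndependent F (Sum.elim (Sum.elim e f) fun j => (r j : V)) := by
    refine LinearIndependent.sum_type (h.linearIndependent hA)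
      (r.linearIndependent.map' (B.orthogonal W).subtype (Submodule.ker_subtype _)) ?_
    rw [hr_span]
    exact hc.disjoint
  have hsp : ⊤ ≤ Submodule.span F (Set.range (Sum.elim (Sum.elim e f) fun j => (r j : V))) := by
    rw [Set.Sum.elim_range, Submodule.span_union, hr_span, hc.sup_eq_top]
  refine ⟨m, _, Module.Basis.mk hli hsp, fun i j => ?_, fun i j => ?_, fun i j => ?_, fun j v => ?_⟩
  · simpa using h.ef i j
  · simpa using h.ee i j
  · simpa using h.ff i j
  · simpa using hr _ (r j).2 v

end Cfsg.Agent.S0752
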