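import Cfsg.Statements.S0756
import Cfsg.Agent.H79.QuadDisc

set_option autoImplicit false
open Cfsg

namespace Cfsg.Agent.S0756

/-- Classification of symmetric bilinear forms over finite fields of odd characteristic: if B is non-degenerate symmetric on V of dimension n + 1 and α is a fixed non-square of F, there is an orthogonal basis b_0, ..., b_n with B(b_i, b_i) = 1 for i < n and B(b_n, b_n) ∈ {1, α}. -/
theorem result {F V : Type*} [Field F] [Finite F] [AddCommGroup V] [Module F V] [FiniteDimensional F V] (h2 : (2 : F) ≠ 0) (B : LinearMap.BilinForm F V) (hS : B.IsSymm) (hB : B.Nondegenerate) {n : ℕ} (hn : Module.finrank F V = n + 1) (α : F) (hα : ¬ IsSquare α) : ∃ b : Module.Basis (Fin (n + 1)) F V, (∀ i j, i ≠ j → B (b i) (b j) = 0) ∧ (∀ i, i ≠ Fin.last n → B (b i) (b i) = 1) ∧ (B (b (Fin.last n)) (b (Fin.last n)) = 1 ∨ B (b (Fin.last n)) (b (Fin.last n)) = α) := by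
  classical
  let b₀ : Module.Basis (Fin (n + 1)) F V := Module.finBasisOfFinrankEq F V hn
  have nB := H79.nd_toQuad h2 hS hB
  have d₀ := (H79.nd_iff_det_gram _ b₀).mp nB
  have hα0 : α ≠ 0 := by rintro rfl; exact hα IsSquare.zero
  obtain ⟨c, hc, hsq⟩ : ∃ c : F, (c = 1 ∨ c = α) ∧
      IsSquare (2 ^ (n + 1) * c * (H79.gram (LinearMap.BilinMap.toQuadraticMap B) b₀).det) := by
    by_cases h : IsSquare (2 ^ (n + 1) * (H79.gram (LinearMap.BilinMap.toQuadraticMap B) b₀).det)
    · exact ⟨1, Or.inl rfl, by simpa using h⟩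
    · refine ⟨α, Or.inr rfl, ?_⟩
      convert H79.isSquare_mul_of_not h hα using 1
      ring
  have hc0 : c ≠ 0 := by rcases hc with rfl | rfl; exacts [one_ne_zero, hα0]
  let d : Fin (n + 1) → F := fun i => if i = Fin.last n then c else 1
  let D : LinearMap.BilinForm F (Fin (n + 1) → F) := Matrix.toBilin' (Matrix.diagonal d)
  have hM : LinearMap.BilinForm.toMatrix (Pi.basisFun F _) D = Matrix.diagonal d := by
    ext i j; simp [D, Matrix.toBilin'_single]
  have hdet : (Matrix.diagonal d).det = c := by simp [d]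
  have hDS : D.IsSymm := ⟨fun x y => by
    simp [D, Matrix.toBilin'_apply', dotProduct, Matrix.mulVec_diagonal, mul_comm, mul_left_comm]⟩
  have hDN : D.Nondegenerate := by
    rw [LinearMap.BilinForm.nondegenerate_iff_det_ne_zero (Pi.basisFun F _), hM, hdet]; exact hc0
  obtain ⟨g, hg⟩ := H79.iso_of_isSquare_det h2 _ (H79.nd_toQuad h2 hDS hDN) _ nB
    (Pi.basisFun F _) b₀ rfl (by
      rw [H79.gram_toQuad hDS, hM, Matrix.det_smul, hdet, Fintype.card_fin]; exact hsq)
  have hp : ∀ i j, B (g (Pi.single i 1)) (g (Pi.single j 1)) = Matrix.diagonal d i j := by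
    intro i j
    have := H79.polar_of_isometry g.toLinearMap hg (Pi.single i 1) (Pi.single j 1)
    rw [H79.polar_toQuad hS, H79.polar_toQuad hDS] at this
    have h3 := mul_left_cancel₀ h2 this
    simpa [D, Matrix.toBilin'_single] using h3
  refine ⟨(Pi.basisFun F _).map g, fun i j hij => ?_, fun i hi => ?_, ?_⟩
  · simp [hp, Matrix.diagonal_apply_ne _ hij]
  · simp [hp, d, hi]
  · simpa [hp, d] using hc

end Cfsg.Agent.S0756
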