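import Cfsg.Statements.S0757


set_option autoImplicit false
open Cfsg

namespace Cfsg.Agent.S0757

/-- The two diagonal forms Σ x_i^2 and Σ_(i<n) x_i^2 + α x_n^2 on F^(n+1), with α a non-square and 2 ≠ 0 in F, are inequivalent quadratic forms (so over a finite field of odd order there are exactly two classes of non-singular symmetric bilinear forms in each dimension). -/
theorem result {F : Type*} [Field F] (h2 : (2 : F) ≠ 0) (n : ℕ) (α : F) (hα : ¬ IsSquare α) : ¬ (QuadraticMap.weightedSumSquares F (fun _ : Fin (n + 1) => (1 : F))).Equivalent (QuadraticMap.weightedSumSquares F (fun i : Fin (n + 1) => if i = Fin.last n then α else (1 : F))) := by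
  rintro ⟨e⟩
  apply hα
  have : Invertible (2 : F) := invertibleOfNonzero h2
  set Q₁ := QuadraticMap.weightedSumSquares F (fun _ : Fin (n + 1) => (1 : F)) with hQ₁
  set Q₂ := QuadraticMap.weightedSumSquares F
    (fun i : Fin (n + 1) => if i = Fin.last n then α else (1 : F)) with hQ₂
  have hcomp : Q₁ = Q₂.comp (e.toLinearEquiv : (Fin (n + 1) → F) →ₗ[F] (Fin (n + 1) → F)) := by
    ext x
    exact (e.map_app x).symm
  have hd : ∀ w : Fin (n + 1) → F,
      QuadraticForm.discr' (QuadraticMap.weightedSumSquares F w) = ∏ i, w i := by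
    intro w
    have : QuadraticForm.toMatrix' (QuadraticMap.weightedSumSquares F w) = Matrix.diagonal w := by
      ext i j
      rw [QuadraticForm.toMatrix', LinearMap.toMatrix₂'_apply]
      apply mul_left_cancel₀ h2
      have h3 := QuadraticMap.two_nsmul_associated F (QuadraticMap.weightedSumSquares F w)
      have h4 := congrArg (fun B => B (Pi.single i 1) (Pi.single j 1)) h3
      simp only [LinearMap.smul_apply, nsmul_eq_mul, Nat.cast_ofNat,
        QuadraticMap.polarBilin_apply_apply] at h4
      rw [h4, QuadraticMap.polar]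
      simp only [QuadraticMap.weightedSumSquares_apply, ← Finset.sum_sub_distrib, Pi.add_apply,
        smul_eq_mul]
      have : ∀ k, w k * ((Pi.single i (1 : F) : Fin (n + 1) → F) k + (Pi.single j (1 : F) : Fin (n + 1) → F) k) *
          ((Pi.single i (1 : F) : Fin (n + 1) → F) k + (Pi.single j (1 : F) : Fin (n + 1) → F) k) - 
          w k * ((Pi.single i (1 : F) : Fin (n + 1) → F) k * (Pi.single i (1 : F) : Fin (n + 1) → F) k) -
          w k * ((Pi.single j (1 : F) : Fin (n + 1) → F) k * (Pi.single j (1 : F) : Fin (n + 1) → F) k) =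
          2 * w k * (Pi.single i (1 : F) : Fin (n + 1) → F) k * (Pi.single j (1 : F) : Fin (n + 1) → F) k := by
        intro k; ring
      simp only [← mul_assoc] at this ⊢
      simp only [this]
      by_cases hij : i = j
      · subst hij
        simp [Pi.single_apply]
      · simp [Pi.single_apply, hij, Ne.symm hij]
    rw [QuadraticForm.discr', this, Matrix.det_diagonal]
  have h1 := congrArg QuadraticForm.discr' hcomp
  rw [QuadraticForm.discr'_comp] at h1
  set d := (LinearMap.toMatrix' (e.toLinearEquiv : (Fin (n + 1) → F) →ₗ[F] (Fin (n + 1) → F))).det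
  clear_value d
  rw [hQ₁, hQ₂, hd, hd] at h1
  simp only [Finset.prod_const_one, Finset.prod_ite_eq', Finset.mem_univ, if_true] at h1
  have hd0 : d ≠ 0 := by rintro h; rw [h] at h1; simp at h1
  exact ⟨d⁻¹, by field_simp; linear_combination -h1⟩

end Cfsg.Agent.S0757
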