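import Cfsg.Statements.S0758


set_option autoImplicit false
open Cfsg

namespace Cfsg.Agent.S0758

/-- For a finite field F of odd order q and a non-square α: the form x² + y² is isotropic iff q ≡ 1 mod 4, and the form x² + α y² is isotropic iff q ≡ 3 mod 4. -/
theorem result {F : Type*} [Field F] [Fintype F] (h2 : (2 : F) ≠ 0) (α : F) (hα : ¬ IsSquare α) : ((∃ x y : F, (x ≠ 0 ∨ y ≠ 0) ∧ x ^ 2 + y ^ 2 = 0) ↔ Fintype.card F % 4 = 1) ∧ ((∃ x y : F, (x ≠ 0 ∨ y ≠ 0) ∧ x ^ 2 + α * y ^ 2 = 0) ↔ Fintype.card F % 4 = 3) := by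
  have hchar : ringChar F ≠ 2 := by
    intro h
    apply h2
    have := (ringChar.spec F 2).2 (by rw [h])
    exact_mod_cast this
  have hodd : Fintype.card F % 2 = 1 := FiniteField.odd_card_of_char_ne_two hchar
  have hα0 : α ≠ 0 := by rintro rfl; exact hα ⟨0, by simp⟩
  have key : ∀ β : F, β ≠ 0 →
      ((∃ x y : F, (x ≠ 0 ∨ y ≠ 0) ∧ x ^ 2 + β * y ^ 2 = 0) ↔ IsSquare (-β)) := by
    intro β hβ
    constructor
    · rintro ⟨x, y, hxy, h⟩
      have hy : y ≠ 0 := by
        rintro rfl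
        simp at h hxy
        exact hxy h
      exact ⟨x / y, by field_simp; linear_combination -h⟩
    · rintro ⟨c, hc⟩
      exact ⟨c, 1, Or.inr one_ne_zero, by linear_combination -hc⟩
  classical
  have h1 : IsSquare (-1 : F) ↔ Fintype.card F % 4 = 1 := by
    rw [FiniteField.isSquare_neg_one_iff]; omega
  constructor
  · rw [← h1, ← key 1 one_ne_zero]
    simp
  · rw [key α hα0]
    have hq : IsSquare (-α) ↔ ¬ IsSquare (-1 : F) := by
      rw [← quadraticChar_one_iff_isSquare (neg_ne_zero.2 hα0), ← quadraticChar_neg_one_iff_not_isSquare,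
        ← neg_one_mul, map_mul, quadraticChar_neg_one_iff_not_isSquare.2 hα]
      constructor <;> intro h <;> linarith
    rw [hq, h1]; omega

end Cfsg.Agent.S0758
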