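import Cfsg.Statements.S0759
import Cfsg.Agent.H79.QuadDisc

set_option autoImplicit false
open Cfsg

namespace Cfsg.Agent.S0759

/-- Type of the orthonormal form: over a finite field of odd order q and for m ≥ 1, the quadratic form Σ_(i<2m) x_i² on F^(2m) admits an m-dimensional subspace on which it vanishes identically if and only if it is not the case that q ≡ 3 (mod 4) and m is odd. -/
theorem result {F : Type*} [Field F] [Fintype F] (h2 : (2 : F) ≠ 0) (m : ℕ) (hm : 1 ≤ m) : (∃ W : Submodule F (Fin (2 * m) → F), Module.finrank F W = m ∧ ∀ w ∈ W, ∑ i, w i ^ 2 = 0) ↔ ¬ (Fintype.card F % 4 = 3 ∧ Odd m) := by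
  let B : LinearMap.BilinForm F (Fin (2 * m) → F) := Matrix.toBilin' 1
  have hB : ∀ x y, B x y = ∑ i, x i * y i := by
    intro x y; simp [B, Matrix.toBilin'_apply', dotProduct]
  have hS : B.IsSymm := ⟨fun x y => by simp [hB, mul_comm]⟩
  have hM : LinearMap.BilinForm.toMatrix (Pi.basisFun F _) B = 1 := by
    ext i j; simp [hB, Pi.single_apply, Matrix.one_apply, eq_comm]
  have hN : B.Nondegenerate := by
    rw [LinearMap.BilinForm.nondegenerate_iff_det_ne_zero (Pi.basisFun F _), hM]; simp
  have h1 := H79.isPlus_toQuad_iff h2 hS (k := m) (by simp)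
  have h3 := H79.exists_isotropic_iff_isSquare h2 hS hN (k := m) (Pi.basisFun F _) (by simp)
  rw [hM, Matrix.det_one, mul_one, H79.isSquare_neg_one_pow_iff, ← h1] at h3
  rw [← h3]
  constructor
  · rintro ⟨W, hW, hW'⟩
    exact ⟨W, by simp [hW], fun w hw => by simpa [hB, pow_two] using hW' w hw⟩
  · rintro ⟨W, hW, hW'⟩
    exact ⟨W, by simpa using hW, fun w hw => by simpa [hB, pow_two] using hW' w hw⟩

end Cfsg.Agent.S0759
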