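import Cfsg.Statements.S0760
import Cfsg.Agent.H79.QuadWitt

set_option autoImplicit false
open Cfsg

namespace Cfsg.Agent.S0760

/-- Witt index is well defined: if Q is a quadratic form on a finite-dimensional space V over a finite field with non-degenerate polar form, and W₁, W₂ are subspaces on which Q vanishes that are maximal with this property, then W₁ and W₂ have the same dimension, and twice this dimension is at most dim V. -/
theorem result {F V : Type*} [Field F] [Finite F] [AddCommGroup V] [Module F V] [FiniteDimensional F V] (Q : QuadraticForm F V) (hQ : (QuadraticMap.polarBilin Q).Nondegenerate) (W₁ W₂ : Submodule F V) (h₁ : ∀ w ∈ W₁, Q w = 0) (h₂ : ∀ w ∈ W₂, Q w = 0) (hmax₁ : ∀ W : Submodule F V, W₁ ≤ W → (∀ w ∈ W, Q w = 0) → W = W₁) (hmax₂ : ∀ W : Submodule F V, W₂ ≤ W → (∀ w ∈ W, Q w = 0) → W = W₂) : Module.finrank F W₁ = Module.finrank F W₂ ∧ 2 * Module.finrank F W₁ ≤ Module.finrank F V := by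
  have hnd := (H79.nd_iff Q).mp hQ
  exact ⟨le_antisymm (H79.finrank_le_of_ts Q W₂ W₁ (H79.mem_of_maximal_ts h₂ hmax₂) h₁)
    (H79.finrank_le_of_ts Q W₁ W₂ (H79.mem_of_maximal_ts h₁ hmax₁) h₂),
    H79.two_mul_finrank_le_of_ts hnd h₁⟩

end Cfsg.Agent.S0760
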