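import Cfsg.Statements.S0761
import Cfsg.Agent.H27.AltWitt

set_option autoImplicit false
open Cfsg

namespace Cfsg.Agent.S0761

/-- Hyperbolic partners: let B be a non-degenerate bilinear form on a finite-dimensional space, either alternating, or symmetric with 2 ≠ 0. If Z is a subspace on which B vanishes, x ∉ Z is isotropic and orthogonal to Z, then there is an isotropic y with B x y = 1 which is orthogonal to Z. -/
theorem result {F V : Type*} [Field F] [AddCommGroup V] [Module F V] [FiniteDimensional F V] (B : LinearMap.BilinForm F V) (hB : B.Nondegenerate) (hform : B.IsAlt ∨ (B.IsSymm ∧ (2 : F) ≠ 0)) (x : V) (Z : Submodule F V) (hxZ : x ∉ Z) (hx : B x x = 0) (hxz : ∀ z ∈ Z, B x z = 0) (hZ : ∀ z ∈ Z, ∀ z' ∈ Z, B z z' = 0) : ∃ y : V, B y y = 0 ∧ B x y = 1 ∧ ∀ z ∈ Z, B z y = 0 := by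
  have hR : B.IsRefl := hform.elim (fun h => h.isRefl) (fun h => h.1.isRefl)
  obtain ⟨w, hwZ, hw⟩ := H27.exists_orth_ne_zero hB hR Z hxZ
  have hw' : ∀ z ∈ Z, B z w = 0 := fun z hz => hwZ z hz
  rcases hform with hA | ⟨hS, h2⟩
  · refine ⟨(B x w)⁻¹ • w, hA.self_eq_zero _, by simp [inv_mul_cancel₀ hw], fun z hz => ?_⟩
    simp [hw' z hz]
  · refine ⟨(B x w)⁻¹ • w - (B w w / (2 * (B x w) ^ 2)) • x, ?_, ?_, fun z hz => ?_⟩
    · simp only [map_sub, map_smul, LinearMap.sub_apply, LinearMap.smul_apply, smul_eq_mul, hx,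
        hS.eq w x]
      field_simp
      ring
    · simp [hx, inv_mul_cancel₀ hw]
    · simp [hw' z hz, hR _ _ (hxz z hz)]

end Cfsg.Agent.S0761
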