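import Cfsg.Statements.S0763
import Cfsg.Agent.H79.QuadClass

set_option autoImplicit false
open Cfsg

namespace Cfsg.Agent.S0763

/-- Binary quadratic forms in characteristic two over a finite field: if Q is a quadratic form on a 2-dimensional space whose polar form is non-degenerate, then either there are vectors v, w with Q v = Q w = 0 and polar value 1 (Q is xy in these coordinates), or there are v, w and μ with Q v = 1, Q w = μ, polar value 1 and x² + x + μ without roots in F (Q is x² + xy + μy²). -/
theorem result {F V : Type*} [Field F] [Finite F] [CharP F 2] [AddCommGroup V] [Module F V] (Q : QuadraticForm F V) (h2 : Module.finrank F V = 2) (hQ : (QuadraticMap.polarBilin Q).Nondegenerate) : (∃ v w : V, LinearIndependent F ![v, w] ∧ Q v = 0 ∧ Q w = 0 ∧ QuadraticMap.polar Q v w = 1) ∨ (∃ (v w : V) (μ : F), LinearIndependent F ![v, w] ∧ (∀ x : F, x ^ 2 + x + μ ≠ 0) ∧ Q v = 1 ∧ Q w = μ ∧ QuadraticMap.polar Q v w = 1) := by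
  have : FiniteDimensional F V := Module.finite_of_finrank_pos (by omega)
  have hnd := (H79.nd_iff _).mp hQ
  by_cases han : Q.Anisotropic
  · obtain ⟨ζ, hζ⟩ := H79.exists_aniso F
    obtain ⟨x, y, hxy, hx, hp, hy⟩ := H79.exists_pair_of_anisotropic Q han h2 hζ
    exact Or.inr ⟨x, y, ζ, hxy, H79.aniso_one_iff.mp hζ, hx, hy, hp⟩
  · obtain ⟨x, hx0, hx⟩ := (QuadraticMap.not_anisotropic_iff_exists Q).mp han
    obtain ⟨y, hy, hxy⟩ := hnd.exists_hyperbolic_partner hx0 hx
    refine Or.inl ⟨x, y, ?_, hx, hy, hxy⟩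
    rw [LinearIndependent.pair_iff]
    intro s t hst
    have h1 := congrArg (QuadraticMap.polar Q x) hst
    have h3 := congrArg (fun z => QuadraticMap.polar Q z y) hst
    simp [hx, hy, hxy] at h1 h3
    exact ⟨h3, h1⟩

end Cfsg.Agent.S0763
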