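import Cfsg.Statements.S0769


set_option autoImplicit false
open Cfsg

namespace Cfsg.Agent.S0769

/-- The lower triangular matrix with diagonal `d` and entries `b` below it. -/
def lowerMat {F : Type*} [Field F] {n : ℕ} (d : Fin n → Fˣ)
    (b : {x : Fin n × Fin n // x.1 < x.2} → F) : Matrix (Fin n) (Fin n) F :=
  fun i j => if i = j then (d i : F) else if h : j < i then b ⟨(j, i), h⟩ else 0

theorem lowerMat_lower {F : Type*} [Field F] {n : ℕ} (d : Fin n → Fˣ)
    (b : {x : Fin n × Fin n // x.1 < x.2} → F) : (lowerMat d b).IsLowerTriangular := by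
  intro i j hij
  have hij' : i < j := hij
  simp [lowerMat, hij'.ne, hij'.not_gt]

/-- Order of the Borel subgroup of GL_n(q): the invertible lower-triangular n × n matrices over a field with q elements number q^(n(n-1)/2) (q-1)^n (unitriangular part times the diagonal torus). -/
theorem result {F : Type*} [Field F] [Fintype F] {q : ℕ} (hF : Fintype.card F = q) (n : ℕ) : Nat.card {g : Matrix.GeneralLinearGroup (Fin n) F // ∀ i j : Fin n, i < j → (g : Matrix (Fin n) (Fin n) F) i j = 0} = q ^ (n * (n - 1) / 2) * (q - 1) ^ n := by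
  classical
  let φ : (Fin n → Fˣ) × ({x : Fin n × Fin n // x.1 < x.2} → F) →
      {g : Matrix.GeneralLinearGroup (Fin n) F //
        ∀ i j : Fin n, i < j → (g : Matrix (Fin n) (Fin n) F) i j = 0} := fun x =>
    ⟨Matrix.GeneralLinearGroup.mkOfDetNeZero (lowerMat x.1 x.2) (by
      rw [Matrix.det_of_isLowerTriangular _ (lowerMat_lower x.1 x.2)]
      exact Finset.prod_ne_zero_iff.2 fun i _ => by simp [lowerMat]),
      fun i j hij => lowerMat_lower x.1 x.2 hij⟩
  have hφ : Function.Bijective φ := by
    constructor
    · rintro ⟨d, b⟩ ⟨d', b'⟩ h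
      have h' : lowerMat d b = lowerMat d' b' :=
        congrArg (fun g => ((g.1 : Matrix.GeneralLinearGroup (Fin n) F) :
          Matrix (Fin n) (Fin n) F)) h
      refine Prod.ext (funext fun i => Units.ext ?_) (funext fun x => ?_)
      · simpa [lowerMat] using congrFun (congrFun h' i) i
      · simpa [lowerMat, x.2, x.2.ne'] using congrFun (congrFun h' x.1.2) x.1.1
    · rintro ⟨g, hg⟩
      have hdet := g.det_ne_zero
      rw [Matrix.det_of_isLowerTriangular _ (fun i j hij => hg i j hij)] at hdet
      refine ⟨⟨fun i => Units.mk0 _ (Finset.prod_ne_zero_iff.1 hdet i (Finset.mem_univ _)),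
        fun x => (g : Matrix (Fin n) (Fin n) F) x.1.2 x.1.1⟩, Subtype.ext (Units.ext ?_)⟩
      ext i j
      change lowerMat _ _ i j = _
      rcases lt_trichotomy i j with h | rfl | h
      · rw [hg i j h]
        exact lowerMat_lower _ _ h
      · simp [lowerMat]
      · simp [lowerMat, h, h.ne']
  rw [← Nat.card_eq_of_bijective φ hφ, Nat.card_prod, Nat.card_fun, Nat.card_fun,
    Nat.card_units, Nat.card_eq_fintype_card (α := F), hF, Nat.card_eq_fintype_card (α := Fin n),
    Fintype.card_fin, Nat.card_eq_fintype_card, Fintype.card_subtype,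
    Fintype.card_product_filter_lt, Fintype.card_fin, Nat.choose_two_right, mul_comm]

end Cfsg.Agent.S0769
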