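import Cfsg.Statements.S0770


set_option autoImplicit false
open Cfsg

namespace Cfsg.Agent.S0770

/-- For a field with at least 3 elements, an invertible matrix normalises the subgroup of invertible diagonal matrices of GL_n if and only if it is monomial (exactly one non-zero entry in each row). -/
theorem result {F : Type*} [Field F] (hF : ∃ a : F, a ≠ 0 ∧ a ≠ 1) (n : ℕ) (g : Matrix.GeneralLinearGroup (Fin n) F) : g ∈ Subgroup.normalizer ((Units.map (Matrix.diagonalRingHom (Fin n) F).toMonoidHom).range : Subgroup (Matrix.GeneralLinearGroup (Fin n) F)) ↔ ∀ i : Fin n, ∃! j : Fin n, (g : Matrix (Fin n) (Fin n) F) i j ≠ 0 := by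
  classical
  obtain ⟨a, ha0, ha1⟩ := hF
  have hmem : ∀ x : Matrix.GeneralLinearGroup (Fin n) F,
      x ∈ (Units.map (Matrix.diagonalRingHom (Fin n) F).toMonoidHom).range ↔
        ∃ d : Fin n → F, (x : Matrix (Fin n) (Fin n) F) = Matrix.diagonal d := by
    intro x
    constructor
    · rintro ⟨d, rfl⟩
      exact ⟨d, rfl⟩
    · rintro ⟨d, hd⟩
      have hdet := x.det_ne_zero
      rw [hd, Matrix.det_diagonal, Finset.prod_ne_zero_iff] at hdet
      refine ⟨⟨d, fun i => (d i)⁻¹, funext fun i => mul_inv_cancel₀ (hdet i (Finset.mem_univ _)),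
        funext fun i => inv_mul_cancel₀ (hdet i (Finset.mem_univ _))⟩, Units.ext hd.symm⟩
  have hrow : ∀ i : Fin n, ∃ j : Fin n, (g : Matrix (Fin n) (Fin n) F) i j ≠ 0 := by
    intro i
    by_contra h
    push Not at h
    exact g.det_ne_zero (Matrix.det_eq_zero_of_row_eq_zero i h)
  have hconj : ∀ (x : Matrix.GeneralLinearGroup (Fin n) F) (d' : Fin n → F),
      ((g * x * g⁻¹ : Matrix.GeneralLinearGroup (Fin n) F) : Matrix (Fin n) (Fin n) F) =
        Matrix.diagonal d' ↔ (g : Matrix (Fin n) (Fin n) F) * x =
          Matrix.diagonal d' * (g : Matrix (Fin n) (Fin n) F) := by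
    intro x d'
    rw [Units.val_mul, Units.val_mul, Units.mul_inv_eq_iff_eq_mul]
  constructor
  · intro hg i
    refine existsUnique_of_exists_of_unique (hrow i) fun j k hj hk => ?_
    by_contra hjk
    let d : Fin n → F := fun l => if l = j then a else 1
    have hd : (Matrix.diagonal d).det ≠ 0 := by
      rw [Matrix.det_diagonal, Finset.prod_ne_zero_iff]
      intro l _
      by_cases hl : l = j <;> simp [d, hl, ha0]
    have hx := (Subgroup.mem_normalizer_iff.1 hg
      (Matrix.GeneralLinearGroup.mkOfDetNeZero _ hd)).1 ((hmem _).2 ⟨d, rfl⟩)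
    obtain ⟨d', hd'⟩ := (hmem _).1 hx
    rw [hconj] at hd'
    change (g : Matrix (Fin n) (Fin n) F) * Matrix.diagonal d = _ at hd'
    have h1 := congrFun (congrFun hd' i) j
    have h2 := congrFun (congrFun hd' i) k
    rw [Matrix.mul_diagonal, Matrix.diagonal_mul, mul_comm] at h1 h2
    have h1' := mul_right_cancel₀ hj h1
    have h2' := mul_right_cancel₀ hk h2
    simp only [d, if_true, if_neg (Ne.symm hjk)] at h1' h2'
    exact ha1 (h1'.trans h2'.symm)
  · intro hg
    choose σ hσ hσu using hg
    have hσs : Function.Surjective σ := by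
      intro j
      by_contra h
      push Not at h
      refine g.det_ne_zero (Matrix.det_eq_zero_of_column_eq_zero j fun i => ?_)
      by_contra hij
      exact h i (hσu i j hij).symm
    have hσb : Function.Bijective σ := Finite.surjective_iff_bijective.1 hσs
    have hcomm : ∀ d : Fin n → F, (g : Matrix (Fin n) (Fin n) F) * Matrix.diagonal d =
        Matrix.diagonal (fun i => d (σ i)) * (g : Matrix (Fin n) (Fin n) F) := by
      intro d
      ext i j
      rw [Matrix.mul_diagonal, Matrix.diagonal_mul, mul_comm]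
      by_cases hij : (g : Matrix (Fin n) (Fin n) F) i j = 0
      · rw [hij, mul_zero, mul_zero]
      · rw [hσu i j hij]
    rw [Subgroup.mem_normalizer_iff]
    intro x
    rw [hmem, hmem]
    constructor
    · rintro ⟨d, hd⟩
      exact ⟨fun i => d (σ i), by rw [hconj, hd, hcomm]⟩
    · rintro ⟨d', hd'⟩
      rw [hconj] at hd'
      let e := Equiv.ofBijective σ hσb
      refine ⟨fun j => d' (e.symm j), ?_⟩
      have h := hcomm fun j => d' (e.symm j)
      have he : ∀ i, e.symm (σ i) = i := fun i => e.symm_apply_apply i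
      simp only [he] at h
      exact (Units.mul_right_inj g).1 (hd'.trans h.symm)

end Cfsg.Agent.S0770
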