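import Cfsg.Statements.S0773
import Cfsg.Agent.H32.LinParabolic

set_option autoImplicit false
open Cfsg

namespace Cfsg.Agent.S0773

/-- The stabilisers in GL_n(F), F finite, of the coordinate subspaces of dimensions k and n − k are isomorphic groups, but when 2k ≠ n (and 0 < k < n) no element of GL_n conjugates one onto the other. -/
theorem result {F : Type*} [Field F] [Finite F] (n k : ℕ) (hk0 : 0 < k) (hkn : k < n) (h2 : 2 * k ≠ n) : Nonempty (↥(Cfsg.stabilizing (Cfsg.glToMat (Fin n) F) {v : Fin n → F | ∀ i : Fin n, k ≤ (i : ℕ) → v i = 0}) ≃* ↥(Cfsg.stabilizing (Cfsg.glToMat (Fin n) F) {v : Fin n → F | ∀ i : Fin n, n - k ≤ (i : ℕ) → v i = 0})) ∧ ∀ g : Matrix.GeneralLinearGroup (Fin n) F, (Cfsg.stabilizing (Cfsg.glToMat (Fin n) F) {v : Fin n → F | ∀ i : Fin n, k ≤ (i : ℕ) → v i = 0}).map (MulAut.conj g).toMonoidHom ≠ Cfsg.stabilizing (Cfsg.glToMat (Fin n) F) {v : Fin n → F | ∀ i : Fin n, n - k ≤ (i : ℕ) → v i = 0} := by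
  rw [H32.stabilizing_coord_eq, H32.stabilizing_coord_eq]
  constructor
  · refine ⟨H32.mulEquivOfMemIff ((H32.invTranspose (Fin n) F).trans (Geo.glReindex Fin.revPerm))
      _ _ fun g => ?_⟩
    rw [MulEquiv.trans_apply, H32.glReindex_mem_iff]
    have : (fun i : Fin n => ((Fin.revPerm i : Fin n) : ℕ) < n - k) =
        fun i : Fin n => ¬ (i : ℕ) < k := by
      ext i
      have := i.2
      simp only [Fin.revPerm_apply, Fin.val_rev, eq_iff_iff]
      omega
    rw [this, H32.invTranspose_mem_iff]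
  · intro g hg
    rw [H32.subspaceStabilizer_map_conj] at hg
    have h := H32.eq_of_subspaceStabilizer_inf_le
      (H32.coordSub_ne_bot (F := F) (p := fun i : Fin n => (i : ℕ) < n - k)
        (i := ⟨0, hk0.trans hkn⟩) (Nat.sub_pos_of_lt hkn))
      (H32.coordSub_ne_top (F := F) (p := fun i : Fin n => (i : ℕ) < n - k)
        (i := ⟨n - k, by omega⟩) (lt_irrefl _)) (inf_le_left.trans hg.le)
    have h2 := congrArg (fun W : Submodule F (Fin n → F) => Module.finrank F W) h
    simp only [H32.finrank_map_GL] at h2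
    rw [H32.finrank_coordSub_fin hkn.le, H32.finrank_coordSub_fin (Nat.sub_le n k)] at h2
    omega

end Cfsg.Agent.S0773
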