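import Cfsg.Statements.S0774
import Cfsg.Agent.H27.AltStab

set_option autoImplicit false
open Cfsg

namespace Cfsg.Agent.S0774

open Module in
theorem card_flag {F V : Type*} [Field F] [Fintype F] [AddCommGroup V] [Module F V]
    [FiniteDimensional F V] {B : LinearMap.BilinForm F V} (hB : B.Nondegenerate) (hA : B.IsAlt)
    {m : ℕ} (hm : finrank F V = 2 * m) (W : ℕ → Submodule F V) (x : ℕ → V) (hW0 : W 0 = ⊥)
    (hW : ∀ k < m, W (k + 1) = W k ⊔ F ∙ x k) (hx : ∀ k < m, x k ∉ W k)
    (hiso : ∀ u ∈ W m, ∀ v ∈ W m, B u v = 0) :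
    Nat.card ↥(⨅ k : Fin m, H27.stab B (W (k + 1))) =
      Fintype.card F ^ (m ^ 2) * (Fintype.card F - 1) ^ m := by
  have : Finite V := Module.finite_of_finite F
  set q := Fintype.card F with hq
  have hmono : ∀ j k, j ≤ k → k ≤ m → W j ≤ W k := by
    intro j k hjk hk
    induction k with
    | zero => rw [Nat.le_zero.1 hjk]
    | succ k ih =>
      rcases hjk.eq_or_lt with rfl | h
      · exact le_rfl
      · exact (ih (by omega) (by omega)).trans (by rw [hW k (by omega)]; exact le_sup_left)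
  have hdim : ∀ k ≤ m, finrank F (W k) = k := by
    intro k hk
    induction k with
    | zero => rw [hW0, finrank_bot]
    | succ k ih =>
      rw [hW k (by omega), Submodule.finrank_sup_span_singleton (hx k (by omega)), ih (by omega)]
  let P : ℕ → Subgroup (H27.isomGroup B) := fun j =>
    H27.fixer B (W j) ⊓ ⨅ k : Fin m, H27.stab B (W (k + 1))
  have step : ∀ j < m, Nat.card (P j) = Nat.card (P (j + 1)) * (q ^ (j + 1) - q ^ j) := by
    intro j hj
    have hxj : x j ∈ W (j + 1) := by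
      rw [hW j hj]; exact Submodule.mem_sup_right (Submodule.mem_span_singleton_self _)
    have hc : ((W (j + 1) : Set V) \ W j).ncard = q ^ (j + 1) - q ^ j := by
      rw [Set.ncard_sdiff (hmono j (j + 1) (by omega) (by omega)), H27.ncard_submodule,
        H27.ncard_submodule, hdim j hj.le, hdim (j + 1) hj]
    rw [← hc]
    refine H27.card_eq_mul_of_orbit _ _ (x j) _ (fun g => ?_) (fun g hg => ⟨?_, fun h => ?_⟩)
      (fun y hy => ?_)
    · simp only [P, Subgroup.mem_inf, hW j hj, H27.mem_fixer_sup_span]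
      exact and_right_comm
    · exact ((Subgroup.mem_iInf.1 hg.2 ⟨j, hj⟩) (x j)).1 hxj
    · exact hx j hj ((H27.fixer_le_stab B _ hg.1 (x j)).2 h)
    · obtain ⟨l, hl1, hl0⟩ := Submodule.exists_dual_map_eq_bot_of_notMem (hx j hj) inferInstance
      have hl0' : ∀ w ∈ W j, l w = 0 := fun w hw =>
        (Submodule.mem_bot F).1 (hl0 ▸ Submodule.mem_map_of_mem hw)
      have hly : l y ≠ 0 := by
        have h1 := hy.1
        rw [hW j hj] at h1
        obtain ⟨w, hw, z, hz, rfl⟩ := Submodule.mem_sup.1 h1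
        obtain ⟨a, rfl⟩ := Submodule.mem_span_singleton.1 hz
        rw [map_add, hl0' w hw, zero_add, map_smul, smul_eq_mul]
        refine mul_ne_zero ?_ hl1
        rintro rfl
        exact hy.2 (by simpa using hw)
      let φ : V →ₗ[F] V := LinearMap.id + ((l (x j))⁻¹ • l).smulRight (y - x j)
      have hφ : ∀ v, φ v = v + ((l (x j))⁻¹ * l v) • (y - x j) := fun v => rfl
      have hφW : ∀ k, j + 1 ≤ k → k ≤ m → ∀ v ∈ W k, φ v ∈ W k := fun k h1 h2 v hv => by
        rw [hφ]
        exact (W k).add_mem hv ((W k).smul_mem _ (hmono _ _ h1 h2 ((W _).sub_mem hy.1 hxj)))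
      have hφ0 : ∀ v ∈ W j, φ v = v := fun v hv => by rw [hφ, hl0' v hv]; simp
      obtain ⟨g, -, hgI, hg⟩ := H27.witt_abs hB hA ⊤ (W m) (fun _ _ => Subgroup.mem_top _) φ
        (fun v _ h => by
          have h1 := congrArg l h
          rw [hφ, map_add, map_smul, map_sub, map_zero, smul_eq_mul] at h1
          have h2 : l v * ((l (x j))⁻¹ * l y) = 0 := by
            rw [← h1]; field_simp; ring
          have h3 : l v = 0 := (mul_eq_zero.1 h2).resolve_right (mul_ne_zero (inv_ne_zero hl1) hly)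
          rw [hφ, h3] at h
          simpa using h)
        (fun u hu v hv => (hiso _ (hφW m hj le_rfl u hu) _ (hφW m hj le_rfl v hv)).trans
          (hiso u hu v hv).symm)
      refine ⟨⟨g, hgI⟩, ⟨fun u hu => ?_, Subgroup.mem_iInf.2 fun k => ?_⟩, ?_⟩
      · exact (hg u (hmono _ _ hj.le le_rfl hu)).trans (hφ0 u hu)
      · refine H27.mem_stab_of_le fun u hu => ?_
        change g u ∈ _
        rw [hg u (hmono _ _ k.2 le_rfl hu)]
        by_cases hk : j ≤ k
        · exact hφW _ (by omega) k.2 u hu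
        · rw [hφ0 u (hmono _ _ (by omega) hj.le hu)]
          exact hu
      · change g (x j) = y
        rw [hg _ (hmono _ _ hj le_rfl hxj), hφ, inv_mul_cancel₀ hl1]
        simp
  have chain : ∀ j ≤ m, Nat.card (P 0) = Nat.card (P j) * ∏ i ∈ Finset.range j, (q ^ (i + 1) - q ^ i) := by
    intro j hj
    induction j with
    | zero => simp
    | succ j ih => rw [ih (by omega), step j hj, Finset.prod_range_succ]; ring
  have hP0 : P 0 = ⨅ k : Fin m, H27.stab B (W (k + 1)) := by
    simp only [P, hW0, H27.fixer_bot, top_inf_eq]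
  have hPm : P m = H27.fixer B (W m) := by
    refine inf_eq_left.2 (le_iInf fun k g hg => H27.fixer_le_stab B _ fun u hu => ?_)
    exact hg u (hmono _ _ k.2 le_rfl hu)
  rw [← hP0, chain m le_rfl, hPm, H27.card_fixer_of_isotropic hB hA hm m _ (hdim m le_rfl) hiso,
    Nat.sub_self, H27.spOrder_zero, mul_zero, add_zero, mul_one, ← hq]
  clear_value q
  clear * -
  induction m with
  | zero => simp
  | succ m ih =>
    have e4 : (m + 1) * (m + 1 + 1) / 2 = m * (m + 1) / 2 + (m + 1) := by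
      rw [show (m + 1) * (m + 1 + 1) = m * (m + 1) + (m + 1) * 2 by ring,
        Nat.add_mul_div_right _ _ (by norm_num)]
    have e5 : q ^ (m + 1) - q ^ m = q ^ m * (q - 1) := by rw [Nat.mul_sub_one, pow_succ]
    rw [e4, Finset.prod_range_succ, e5, pow_add, show (m + 1) ^ 2 = m ^ 2 + (m + 1) + m by ring,
      pow_add, pow_add, pow_succ (q - 1)]
    calc _ = (q ^ (m * (m + 1) / 2) * ∏ i ∈ Finset.range m, (q ^ (i + 1) - q ^ i)) *
        (q ^ (m + 1) * q ^ m * (q - 1)) := by ring
      _ = _ := by rw [ih]; ring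

/-- The coordinate flag. -/
def flag (m : ℕ) (F : Type*) [Field F] (k : ℕ) : Submodule F (Fin m ⊕ Fin m → F) where
  carrier := {v | (∀ i : Fin m, k ≤ (i : ℕ) → v (Sum.inl i) = 0) ∧ ∀ i : Fin m, v (Sum.inr i) = 0}
  zero_mem' := ⟨fun _ _ => rfl, fun _ => rfl⟩
  add_mem' {a b} ha hb := ⟨fun i hi => by simp [ha.1 i hi, hb.1 i hi],
    fun i => by simp [ha.2 i, hb.2 i]⟩
  smul_mem' c a ha := ⟨fun i hi => by simp [ha.1 i hi], fun i => by simp [ha.2 i]⟩

theorem mem_flag {m : ℕ} {F : Type*} [Field F] {k : ℕ} {v : Fin m ⊕ Fin m → F} :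
    v ∈ flag m F k ↔
      (∀ i : Fin m, k ≤ (i : ℕ) → v (Sum.inl i) = 0) ∧ ∀ i : Fin m, v (Sum.inr i) = 0 := Iff.rfl

/-- Borel subgroup of the symplectic group: the elements of Sp_2m(q) stabilising each of the totally isotropic coordinate subspaces ⟨e_0, ..., e_k⟩ (k < m) form a subgroup of order q^(m²) (q − 1)^m. -/
theorem result {F : Type*} [Field F] [Fintype F] {q : ℕ} (hF : Fintype.card F = q) (m : ℕ) : Nat.card ↥(⨅ k : Fin m, Cfsg.stabilizing (Cfsg.spToMat m F) {v : Fin m ⊕ Fin m → F | (∀ i : Fin m, (k : ℕ) < (i : ℕ) → v (Sum.inl i) = 0) ∧ ∀ i : Fin m, v (Sum.inr i) = 0}) = q ^ (m ^ 2) * (q - 1) ^ m := by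
  classical
  have key := card_flag (H27.jBilin_nondegenerate (l := Fin m) (F := F)) H27.jBilin_isAlt (m := m)
    (by simp [two_mul]) (flag m F)
    (fun k => if h : k < m then Pi.single (Sum.inl ⟨k, h⟩) 1 else 0) ?_ ?_ ?_ ?_
  · rw [← hF, ← key]
    have : (⨅ k : Fin m, Cfsg.stabilizing (Cfsg.spToMat m F) {v : Fin m ⊕ Fin m → F |
        (∀ i : Fin m, (k : ℕ) < (i : ℕ) → v (Sum.inl i) = 0) ∧ ∀ i : Fin m, v (Sum.inr i) = 0}) =
        (⨅ k : Fin m, H27.stab (H27.jBilin (Fin m) F) (flag m F (k + 1))).comap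
          (H27.spEquiv (Fin m) F).toMonoidHom := by
      rw [Subgroup.comap_iInf]
      rfl
    rw [this, Subgroup.comap_equiv_eq_map_symm']
    exact Subgroup.card_map_of_injective (H27.spEquiv (Fin m) F).symm.injective
  · refine eq_bot_iff.2 fun v hv => funext fun i => ?_
    rcases i with i | i
    · exact hv.1 i (Nat.zero_le _)
    · exact hv.2 i
  · intro k hk
    simp only [hk, dif_pos]
    refine le_antisymm (fun v hv => ?_) (sup_le (fun v hv => ⟨fun i hi => hv.1 i (by omega), hv.2⟩)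
      ((Submodule.span_singleton_le_iff_mem _ _).2 ⟨fun i hi => ?_, fun i => by simp⟩))
    · refine Submodule.mem_sup.2 ⟨v - v (Sum.inl ⟨k, hk⟩) • Pi.single (Sum.inl ⟨k, hk⟩) 1,
        ⟨fun i hi => ?_, fun i => by simp [hv.2 i]⟩, _,
        Submodule.smul_mem _ _ (Submodule.mem_span_singleton_self _), sub_add_cancel _ _⟩
      by_cases h : i = ⟨k, hk⟩
      · simp [h]
      · have : k + 1 ≤ (i : ℕ) := by
          have : (i : ℕ) ≠ k := fun h' => h (Fin.ext h')
          omega
        simp [h, hv.1 i this]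
    · have : i ≠ ⟨k, hk⟩ := by rintro rfl; simp at hi
      simp [this]
  · intro k hk h
    simp only [hk, dif_pos] at h
    simpa using h.1 ⟨k, hk⟩ le_rfl
  · intro u hu v hv
    rw [H27.jBilin_apply_sum]
    simp [hu.2, hv.2]

end Cfsg.Agent.S0774
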