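import Cfsg.Statements.S0776
import Cfsg.Agent.H27.AltStab

set_option autoImplicit false
open Cfsg

namespace Cfsg.Agent.S0776

/-- If W ≤ F^(2m) is a 2k-dimensional subspace on which the symplectic form is non-degenerate, then the stabiliser of W in Sp_2m(F) is isomorphic to Sp_2k(F) × Sp_(2m−2k)(F). -/
theorem result {F : Type*} [Field F] (m k : ℕ) (hk : k ≤ m) (W : Submodule F (Fin m ⊕ Fin m → F)) (hWk : Module.finrank F W = 2 * k) (hW : ∀ u ∈ W, (∀ v ∈ W, Cfsg.sympForm m F u v = 0) → u = 0) : Nonempty (↥(Cfsg.stabilizing (Cfsg.spToMat m F) (W : Set (Fin m ⊕ Fin m → F))) ≃* Matrix.symplecticGroup (Fin k) F × Matrix.symplecticGroup (Fin (m - k)) F) := by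
  have hA := H27.jBilin_isAlt (l := Fin m) (F := F)
  have hB := H27.jBilin_nondegenerate (l := Fin m) (F := F)
  have hd : Disjoint W ((H27.jBilin (Fin m) F).orthogonal W) := by
    rw [H27.disjoint_orthogonal_iff]
    intro u hu h
    exact hW u hu fun v hv => by rw [H27.sympForm_eq_jBilin]; exact hA.isRefl _ _ (h v hv)
  have hc := (LinearMap.BilinForm.isCompl_orthogonal_iff_disjoint hA.isRefl).2 hd
  obtain ⟨e₁⟩ := H27.nonempty_sp_equiv_isomGroup
    (LinearMap.BilinForm.nondegenerate_restrict_of_disjoint_orthogonal _ hA.isRefl hd)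
    (H27.isAlt_restrict hA W) hWk
  obtain ⟨e₂⟩ := H27.nonempty_sp_equiv_isomGroup
    (LinearMap.BilinForm.nondegenerate_restrict_of_disjoint_orthogonal _ hA.isRefl
      (H27.disjoint_orthogonal_orthogonal hB hA.isRefl hd))
    (H27.isAlt_restrict hA _) (m := m - k) (by
      rw [LinearMap.BilinForm.finrank_orthogonal hB, hWk]
      simp only [Module.finrank_fintype_fun_eq_card, Fintype.card_sum, Fintype.card_fin]
      omega)
  exact ⟨((H27.stabilizingSpEquiv W).trans (H27.stabEquivProd hA.isRefl hc)).trans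
    (MulEquiv.prodCongr e₁.symm e₂.symm)⟩

end Cfsg.Agent.S0776
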