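import Cfsg.Statements.S0777
import Cfsg.Agent.H27.SympSimple
import Cfsg.Agent.H27.AltCard

set_option autoImplicit false
open Cfsg

namespace Cfsg.Agent.S0777

open Matrix

section

variable {l : Type*} [Fintype l] [DecidableEq l] {F : Type*} [Field F]

theorem mem_sp_of_basis (A : Matrix (l ⊕ l) (l ⊕ l) F)
    (h : ∀ s t, H27.jBilin l F (A *ᵥ Pi.single s 1) (A *ᵥ Pi.single t 1) =
      H27.jBilin l F (Pi.single s 1) (Pi.single t 1)) : A ∈ Matrix.symplecticGroup l F := by
  rw [SymplecticGroup.mem_iff']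
  ext s t
  have := h s t
  rw [H27.jBilin_mulVec, H27.jBilin_apply] at this
  simpa using this

/-- The target index of a signed permutation. -/
def tgt (π : Equiv.Perm l) (ε : l → Bool) : l ⊕ l → l ⊕ l :=
  Sum.elim (fun i => if ε i then Sum.inr (π i) else Sum.inl (π i))
    (fun i => if ε i then Sum.inl (π i) else Sum.inr (π i))

/-- The coefficients of a monomial symplectic matrix. -/
def coef (ε : l → Bool) (d : l → Fˣ) : l ⊕ l → F :=
  Sum.elim (fun i => (d i : F)) (fun i => if ε i then -((d i)⁻¹ : Fˣ) else ((d i)⁻¹ : Fˣ))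

/-- The monomial matrix attached to a signed permutation and diagonal entries. -/
def monoMat (π : Equiv.Perm l) (ε : l → Bool) (d : l → Fˣ) : Matrix (l ⊕ l) (l ⊕ l) F :=
  Matrix.of fun r s => if r = tgt π ε s then coef ε d s else 0

theorem monoMat_mulVec (π : Equiv.Perm l) (ε : l → Bool) (d : l → Fˣ) (s : l ⊕ l) :
    monoMat π ε d *ᵥ Pi.single s 1 = coef ε d s • Pi.single (tgt π ε s) (1 : F) := by
  funext r
  simp [monoMat, Pi.single_apply]

theorem jb_single (s t : l ⊕ l) : H27.jBilin l F (Pi.single s 1) (Pi.single t 1) =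
    Sum.elim (fun i => if t = Sum.inr i then -1 else 0) (fun i => if t = Sum.inl i then 1 else 0) s := by
  rcases s with i | i
  · rw [H27.jBilin_single_inl_left, Pi.single_apply]
    by_cases h : t = Sum.inr i
    · simp [h]
    · simp [h, Ne.symm h]
  · rw [H27.jBilin_single_inr_left, Pi.single_apply]
    by_cases h : t = Sum.inl i
    · simp [h]
    · simp [h, Ne.symm h]

theorem monoMat_mem (π : Equiv.Perm l) (ε : l → Bool) (d : l → Fˣ) :
    monoMat π ε d ∈ Matrix.symplecticGroup l F := by
  refine mem_sp_of_basis _ fun s t => ?_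
  rw [monoMat_mulVec, monoMat_mulVec, map_smul, map_smul, LinearMap.smul_apply, jb_single,
    jb_single]
  rcases s with i | i <;> rcases t with j | j <;> by_cases hij : i = j
  all_goals
    first
    | (subst hij; cases hi : ε i <;> simp [tgt, coef, hi])
    | (have hij' : j ≠ i := Ne.symm hij
       cases hi : ε i <;> cases hj : ε j <;> simp [tgt, coef, hi, hj, hij'])

theorem coef_ne_zero (ε : l → Bool) (d : l → Fˣ) (s : l ⊕ l) : coef ε d s ≠ 0 := by
  rcases s with i | i
  · simp [coef]
  · cases hi : ε i <;> simp [coef, hi]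

theorem tgt_injective (π : Equiv.Perm l) (ε : l → Bool) : Function.Injective (tgt π ε) := by
  intro s t h
  rcases s with i | i <;> rcases t with j | j <;> cases hi : ε i <;> cases hj : ε j <;>
    simp_all [tgt]

theorem single_smul_inj {s t : l ⊕ l} {a b : F} (ha : a ≠ 0)
    (h : a • Pi.single s (1 : F) = b • (Pi.single t (1 : F) : l ⊕ l → F)) : s = t ∧ a = b := by
  have h1 := congrFun h s
  by_cases hst : s = t
  · subst hst
    simpa using h1
  · simp [hst, ha] at h1

/-- A symplectic matrix is monomial when it permutes the coordinate axes. -/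
def IsMono (g : Matrix.symplecticGroup l F) : Prop :=
  ∀ s, ∃ (t : l ⊕ l) (c : F), (g : Matrix (l ⊕ l) (l ⊕ l) F) *ᵥ Pi.single s 1 = c • Pi.single t 1

theorem mulVec_single_ne_zero (g : Matrix.symplecticGroup l F) (s : l ⊕ l) :
    (g : Matrix (l ⊕ l) (l ⊕ l) F) *ᵥ Pi.single s 1 ≠ 0 :=
  (H27.spToLin l F g).map_ne_zero_iff.2 (by simp)

theorem sp_ext_single {g h : Matrix.symplecticGroup l F}
    (H : ∀ s, (g : Matrix (l ⊕ l) (l ⊕ l) F) *ᵥ Pi.single s 1 =
      (h : Matrix (l ⊕ l) (l ⊕ l) F) *ᵥ Pi.single s 1) : g = h := by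
  refine Subtype.ext (Matrix.ext fun r s => ?_)
  simpa using congrFun (H s) r

theorem card_isMono [Fintype F] : Nat.card {g : Matrix.symplecticGroup l F // IsMono g} =
    2 ^ Fintype.card l * (Fintype.card l).factorial * (Fintype.card F - 1) ^ Fintype.card l := by
  classical
  let Φ : (l → Bool) × Equiv.Perm l × (l → Fˣ) → {g : Matrix.symplecticGroup l F // IsMono g} :=
    fun x => ⟨⟨monoMat x.2.1 x.1 x.2.2, monoMat_mem _ _ _⟩, fun s => ⟨_, _, monoMat_mulVec _ _ _ s⟩⟩
  have hΦ : Function.Bijective Φ := by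
    constructor
    · rintro ⟨ε, π, d⟩ ⟨ε', π', d'⟩ h
      have h1 : monoMat π ε d = monoMat π' ε' d' := congrArg (fun x => x.1.1) h
      have h2 : ∀ i, tgt π ε (Sum.inl i) = tgt π' ε' (Sum.inl i) ∧ (d i : F) = d' i := fun i => by
        have := monoMat_mulVec π ε d (Sum.inl i)
        rw [h1, monoMat_mulVec] at this
        exact single_smul_inj (coef_ne_zero ε d (Sum.inl i)) this.symm
      have h3 : ∀ i, ε i = ε' i ∧ π i = π' i := fun i => by
        have := (h2 i).1
        clear h2
        cases hi : ε i <;> cases hi' : ε' i <;> simp [tgt, hi, hi'] at this ⊢ <;> exact this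
      exact Prod.ext (funext fun i => (h3 i).1)
        (Prod.ext (Equiv.ext fun i => (h3 i).2) (funext fun i => Units.ext (h2 i).2))
    · rintro ⟨g, hg0⟩
      have hg := hg0
      choose t c hg using hg
      have hc : ∀ s, c s ≠ 0 := fun s h => mulVec_single_ne_zero g s (by rw [hg, h, zero_smul])
      have hrel : ∀ s s', c s * c s' * H27.jBilin l F (Pi.single (t s) 1) (Pi.single (t s') 1) =
          H27.jBilin l F (Pi.single s 1) (Pi.single s' 1) := fun s s' => by
        rw [← H27.jBilin_sp g (Pi.single s 1), hg, hg]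
        simp [mul_assoc, mul_left_comm]
      have htinj : Function.Injective t := fun s s' h => by
        have h1 : (H27.spToLin l F g) (c s' • Pi.single s 1) =
            (H27.spToLin l F g) (c s • Pi.single s' 1) := by
          rw [map_smul, map_smul, H27.spToLin_apply, H27.spToLin_apply, hg, hg, h, smul_comm]
        exact (single_smul_inj (hc s') ((H27.spToLin l F g).injective h1)).1
      let π₀ : l → l := fun i => Sum.elim id id (t (Sum.inl i))
      have hπ₀ : Function.Injective π₀ := fun i j h => by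
        by_contra hij
        have h1 := hrel (Sum.inl i) (Sum.inl j)
        have h2 : t (Sum.inl i) ≠ t (Sum.inl j) := fun h' => hij (Sum.inl_injective (htinj h'))
        rw [jb_single, jb_single] at h1
        simp only [π₀] at h
        rcases hi : t (Sum.inl i) with a | a <;> rcases hj : t (Sum.inl j) with b | b <;>
          simp_all
      let π : Equiv.Perm l := Equiv.ofBijective π₀ (Finite.injective_iff_bijective.1 hπ₀)
      let ε : l → Bool := fun i => (t (Sum.inl i)).isRight
      let d : l → Fˣ := fun i => Units.mk0 _ (hc (Sum.inl i))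
      refine ⟨(ε, π, d), Subtype.ext (sp_ext_single fun s => ?_)⟩
      change monoMat π ε d *ᵥ _ = _
      rw [monoMat_mulVec, hg]
      rcases s with i | i
      · have : tgt π ε (Sum.inl i) = t (Sum.inl i) := by
          simp only [tgt, π, ε, π₀, Sum.elim_inl, Equiv.ofBijective_apply]
          rcases t (Sum.inl i) with a | a <;> simp
        rw [this]
        rfl
      · have h1 := hrel (Sum.inl i) (Sum.inr i)
        rw [jb_single, jb_single] at h1
        have h0 := hc (Sum.inl i)
        simp only [tgt, π, ε, π₀, d, coef, Sum.elim_inr, Equiv.ofBijective_apply]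
        rcases hi : t (Sum.inl i) with a | a <;> rw [hi] at h1
        · by_cases h2 : t (Sum.inr i) = Sum.inr a
          · simp only [h2, Sum.elim_inl, if_true, mul_neg, mul_one, neg_inj] at h1
            simp [h2, eq_inv_of_mul_eq_one_right h1]
          · simp [h2] at h1
        · by_cases h2 : t (Sum.inr i) = Sum.inl a
          · simp only [h2, Sum.elim_inl, Sum.elim_inr, if_true, mul_one] at h1
            have h3 : c (Sum.inr i) = -(c (Sum.inl i))⁻¹ := by
              field_simp
              linear_combination h1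
            simp [h2, h3]
          · simp [h2] at h1
  rw [← Nat.card_eq_of_bijective Φ hΦ]
  simp [Fintype.card_perm, Fintype.card_units, mul_assoc]

end

section

variable {m : ℕ} {F : Type*} [Field F]

/-- The diagonal torus. -/
abbrev torus (m : ℕ) (F : Type*) [Field F] : Subgroup (Matrix.symplecticGroup (Fin m) F) :=
  ⨅ i : Fin m ⊕ Fin m, Cfsg.stabilizing (Cfsg.spToMat m F)
    ((Submodule.span F {(Pi.single i (1 : F) : Fin m ⊕ Fin m → F)} :
      Submodule F (Fin m ⊕ Fin m → F)) : Set (Fin m ⊕ Fin m → F))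

theorem mem_torus_iff (g : Matrix.symplecticGroup (Fin m) F) : g ∈ torus m F ↔
    ∀ s, ∃ c : F, (g : Matrix (Fin m ⊕ Fin m) (Fin m ⊕ Fin m) F) *ᵥ Pi.single s 1 =
      c • Pi.single s 1 := by
  rw [Subgroup.mem_iInf]
  refine forall_congr' fun s => ?_
  rw [H27.mem_stabilizing_sp_iff]
  constructor
  · intro h
    have h1 := (H27.mem_stab.1 h (Pi.single s 1)).1 (Submodule.mem_span_singleton_self _)
    rw [H27.spEquiv_apply, H27.spToLin_apply] at h1
    obtain ⟨c, hc⟩ := Submodule.mem_span_singleton.1 h1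
    exact ⟨c, hc.symm⟩
  · rintro ⟨c, hc⟩
    refine H27.mem_stab_of_le fun u hu => ?_
    obtain ⟨a, rfl⟩ := Submodule.mem_span_singleton.1 hu
    rw [map_smul, H27.spEquiv_apply, H27.spToLin_apply, hc]
    exact Submodule.smul_mem _ _ (Submodule.smul_mem _ _ (Submodule.mem_span_singleton_self _))

theorem exists_torus_separating {a : F} (ha : a ≠ 0) (ha2 : a ^ 2 ≠ 1) {s s' : Fin m ⊕ Fin m}
    (h : s ≠ s') : ∃ t ∈ torus m F, ∃ c c' : F, c ≠ c' ∧
      (t : Matrix (Fin m ⊕ Fin m) (Fin m ⊕ Fin m) F) *ᵥ Pi.single s 1 = c • Pi.single s 1 ∧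
      (t : Matrix (Fin m ⊕ Fin m) (Fin m ⊕ Fin m) F) *ᵥ Pi.single s' 1 = c' • Pi.single s' 1 := by
  let d : Fin m → Fˣ := Function.update 1 (Sum.elim id id s) (Units.mk0 a ha)
  have htgt : ∀ r : Fin m ⊕ Fin m, tgt (1 : Equiv.Perm (Fin m)) (fun _ => false) r = r := by
    rintro (i | i) <;> simp [tgt]
  have hm : ∀ r, monoMat 1 (fun _ => false) d *ᵥ Pi.single r 1 =
      coef (fun _ => false) d r • Pi.single r (1 : F) := fun r => by
    rw [monoMat_mulVec, htgt]
  have h1 : a ≠ 1 := by rintro rfl; simp at ha2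
  have h2 : a ≠ a⁻¹ := fun h' => ha2 (by rw [sq]; nth_rewrite 2 [h']; exact mul_inv_cancel₀ ha)
  refine ⟨⟨_, monoMat_mem 1 (fun _ => false) d⟩, (mem_torus_iff _).2 fun r => ⟨_, hm r⟩,
    _, _, ?_, hm s, hm s'⟩
  have h3 : a⁻¹ ≠ 1 := by simpa using h1
  rcases s with i | i <;> rcases s' with j | j <;> by_cases hij : j = i
  all_goals
    first
    | (subst hij; simp [coef, d, h2, h2.symm] at h ⊢)
    | simp [coef, d, hij, h1, h3]

theorem mem_normalizer_iff_isMono {a : F} (ha : a ≠ 0) (ha2 : a ^ 2 ≠ 1)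
    (g : Matrix.symplecticGroup (Fin m) F) :
    g ∈ Subgroup.normalizer (torus m F : Set (Matrix.symplecticGroup (Fin m) F)) ↔ IsMono g := by
  have hmul : ∀ (x y : Matrix.symplecticGroup (Fin m) F) (v : Fin m ⊕ Fin m → F),
      ((x * y : Matrix.symplecticGroup (Fin m) F) : Matrix (Fin m ⊕ Fin m) (Fin m ⊕ Fin m) F) *ᵥ v =
        (x : Matrix (Fin m ⊕ Fin m) (Fin m ⊕ Fin m) F) *ᵥ
          ((y : Matrix (Fin m ⊕ Fin m) (Fin m ⊕ Fin m) F) *ᵥ v) := fun x y v =>
    (Matrix.mulVec_mulVec _ _ _).symm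
  constructor
  · intro hg s
    set v := (g : Matrix (Fin m ⊕ Fin m) (Fin m ⊕ Fin m) F) *ᵥ Pi.single s 1 with hv
    obtain ⟨r, hr⟩ : ∃ r, v r ≠ 0 := Function.ne_iff.1 (mulVec_single_ne_zero g s)
    refine ⟨r, v r, funext fun r' => ?_⟩
    by_cases hrr : r' = r
    · simp [hrr]
    · obtain ⟨t, ht, c, c', hcc, hc, hc'⟩ := exists_torus_separating ha ha2 hrr
      have h1 : g⁻¹ * t * g ∈ torus m F := by
        have := (Subgroup.mem_normalizer_iff.1 hg (g⁻¹ * t * g)).2
        exact this (by simpa [mul_assoc] using ht)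
      obtain ⟨e, he⟩ := (mem_torus_iff _).1 h1 s
      have h2 : (t : Matrix (Fin m ⊕ Fin m) (Fin m ⊕ Fin m) F) *ᵥ v = e • v := by
        rw [hv, ← Matrix.mulVec_smul, ← he, ← hmul, ← hmul, ← mul_assoc, ← mul_assoc,
          mul_inv_cancel, one_mul]
      have hdiag : ∀ x y, x ≠ y → (t : Matrix (Fin m ⊕ Fin m) (Fin m ⊕ Fin m) F) x y = 0 := by
        intro x y hxy
        obtain ⟨e', he'⟩ := (mem_torus_iff _).1 ht y
        simpa [hxy] using congrFun he' x
      have h3 : ∀ x, (t : Matrix (Fin m ⊕ Fin m) (Fin m ⊕ Fin m) F) x x * v x = e * v x := by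
        intro x
        have := congrFun h2 x
        rw [Matrix.mulVec, dotProduct, Finset.sum_eq_single x
          (fun y _ hy => by simp [hdiag x y hy.symm]) (by simp)] at this
        exact this
      have h4 : (t : Matrix (Fin m ⊕ Fin m) (Fin m ⊕ Fin m) F) r' r' = c := by
        simpa using congrFun hc r'
      have h5 : (t : Matrix (Fin m ⊕ Fin m) (Fin m ⊕ Fin m) F) r r = c' := by
        simpa using congrFun hc' r
      have h6 : c' = e := mul_right_cancel₀ hr (h5 ▸ h3 r)
      have h7 := h3 r'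
      rw [h4, ← h6, ← sub_eq_zero, ← sub_mul] at h7
      simpa [hrr] using (mul_eq_zero.1 h7).resolve_left (sub_ne_zero.2 hcc)
  · intro hg
    choose t c hg using hg
    have hc : ∀ s, c s ≠ 0 := fun s h => mulVec_single_ne_zero g s (by rw [hg, h, zero_smul])
    have htinj : Function.Injective t := fun s s' h => by
      have h1 : (H27.spToLin _ F g) (c s' • Pi.single s 1) =
          (H27.spToLin _ F g) (c s • Pi.single s' 1) := by
        rw [map_smul, map_smul, H27.spToLin_apply, H27.spToLin_apply, hg, hg, h, smul_comm]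
      exact (single_smul_inj (hc s') ((H27.spToLin _ F g).injective h1)).1
    have htsurj := Finite.injective_iff_surjective.1 htinj
    have hinv : ∀ s, ((g⁻¹ : Matrix.symplecticGroup (Fin m) F) :
        Matrix (Fin m ⊕ Fin m) (Fin m ⊕ Fin m) F) *ᵥ Pi.single (t s) 1 =
        (c s)⁻¹ • Pi.single s 1 := fun s => by
      rw [eq_inv_smul_iff₀ (hc s), ← Matrix.mulVec_smul, ← hg, ← hmul, inv_mul_cancel]
      exact Matrix.one_mulVec _
    rw [Subgroup.mem_normalizer_iff]
    intro h
    constructor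
    · intro hh
      rw [mem_torus_iff] at hh ⊢
      intro s
      obtain ⟨s, rfl⟩ := htsurj s
      obtain ⟨e, he⟩ := hh s
      refine ⟨(c s)⁻¹ * e * c s, ?_⟩
      rw [hmul, hmul, hinv, Matrix.mulVec_smul, he, Matrix.mulVec_smul, Matrix.mulVec_smul, hg,
        smul_smul, smul_smul]
    · intro hh
      rw [mem_torus_iff] at hh ⊢
      intro s
      obtain ⟨e, he⟩ := hh (t s)
      refine ⟨c s * e * (c s)⁻¹, ?_⟩
      have : h = g⁻¹ * (g * h * g⁻¹) * g := by group
      rw [this, hmul, hmul, hg, Matrix.mulVec_smul, he, Matrix.mulVec_smul, Matrix.mulVec_smul,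
        hinv, smul_smul, smul_smul]

end

/-- Weyl group of type C_m: for q ≥ 4 the diagonal matrices of Sp_2m(q) form a torus T ≅ (C_(q−1))^m (the elements stabilising every coordinate axis), and the normaliser of T in Sp_2m(q) has order 2^m · m! · (q − 1)^m. -/
theorem result {F : Type*} [Field F] [Fintype F] {q : ℕ} (hF : Fintype.card F = q) (hq : 4 ≤ q) (m : ℕ) : Nat.card ↥(Subgroup.normalizer (⨅ i : Fin m ⊕ Fin m, Cfsg.stabilizing (Cfsg.spToMat m F) ((Submodule.span F {(Pi.single i (1 : F) : Fin m ⊕ Fin m → F)} : Submodule F (Fin m ⊕ Fin m → F)) : Set (Fin m ⊕ Fin m → F)) : Set (Matrix.symplecticGroup (Fin m) F))) = 2 ^ m * Nat.factorial m * (q - 1) ^ m := by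
  obtain ⟨a, ha, ha2⟩ := H27.exists_sq_ne_one_of_four_le (F := F) (hF ▸ hq)
  have := card_isMono (l := Fin m) (F := F)
  rw [Fintype.card_fin, hF] at this
  have h2 : (⨅ i : Fin m ⊕ Fin m, Cfsg.stabilizing (Cfsg.spToMat m F) ((Submodule.span F {(Pi.single i (1 : F) : Fin m ⊕ Fin m → F)} : Submodule F (Fin m ⊕ Fin m → F)) : Set (Fin m ⊕ Fin m → F)) : Set (Matrix.symplecticGroup (Fin m) F)) = (torus m F : Set (Matrix.symplecticGroup (Fin m) F)) := by
    rw [torus, Subgroup.coe_iInf]
    rfl
  rw [← this, h2]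
  exact Nat.card_congr (Equiv.subtypeEquivRight (mem_normalizer_iff_isMono ha ha2))

end Cfsg.Agent.S0777
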