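import Cfsg.Statements.S0778
import Cfsg.Agent.H27.SympBasic

set_option autoImplicit false
open Cfsg

namespace Cfsg.Agent.S0778

open Matrix in
/-- The block-diagonal embedding of `GL_m` in `Sp_2m`. -/
def emb (m : ℕ) (F : Type*) [Field F] :
    Matrix.GeneralLinearGroup (Fin m) F →* Matrix.symplecticGroup (Fin m) F where
  toFun X := ⟨Matrix.fromBlocks (X : Matrix (Fin m) (Fin m) F) 0 0
      ((X⁻¹ : Matrix.GeneralLinearGroup (Fin m) F) : Matrix (Fin m) (Fin m) F)ᵀ, by
    rw [SymplecticGroup.fromBlocks_mem_iff]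
    refine ⟨by simp, by simp, ?_⟩
    rw [← Matrix.transpose_mul, ← Units.val_mul, inv_mul_cancel]
    simp⟩
  map_one' := Subtype.ext (by simp)
  map_mul' X Y := Subtype.ext (by
    simp only [Submonoid.coe_mul, Matrix.fromBlocks_multiply, Units.val_mul, _root_.mul_inv_rev,
      Matrix.transpose_mul]
    simp)

open Matrix in
theorem coe_emb (m : ℕ) (F : Type*) [Field F] (X : Matrix.GeneralLinearGroup (Fin m) F) :
    (emb m F X : Matrix (Fin m ⊕ Fin m) (Fin m ⊕ Fin m) F) =
      Matrix.fromBlocks (X : Matrix (Fin m) (Fin m) F) 0 0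
        ((X⁻¹ : Matrix.GeneralLinearGroup (Fin m) F) : Matrix (Fin m) (Fin m) F)ᵀ := rfl

theorem emb_injective (m : ℕ) (F : Type*) [Field F] : Function.Injective (emb m F) := by
  intro X Y h
  have := congrArg Subtype.val h
  rw [coe_emb, coe_emb, Matrix.fromBlocks_inj] at this
  exact Units.ext this.1

open Matrix in
theorem mulVec_eq_zero_iff' {m : ℕ} {F : Type*} [Field F] {A : Matrix (Fin m) (Fin m) F}
    (hA : IsUnit A) (v : Fin m → F) : A *ᵥ v = 0 ↔ v = 0 := by
  refine ⟨fun h => ?_, fun h => by simp [h]⟩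
  exact (Matrix.mulVec_injective_iff_isUnit.2 hA) (by simpa using h)

/-- The elements of Sp_2m(F) stabilising both W = ⟨e_1..e_m⟩ and U = ⟨f_1..f_m⟩ form a subgroup isomorphic to GL_m(F) (block-diagonal matrices diag(X, X^(−ᵀ)) up to the sign convention of J), for m ≥ 1 or m = 0 alike. -/
theorem result {F : Type*} [Field F] (m : ℕ) : Nonempty (↥(Cfsg.stabilizing (Cfsg.spToMat m F) {v : Fin m ⊕ Fin m → F | ∀ i : Fin m, v (Sum.inr i) = 0} ⊓ Cfsg.stabilizing (Cfsg.spToMat m F) {v : Fin m ⊕ Fin m → F | ∀ i : Fin m, v (Sum.inl i) = 0}) ≃* Matrix.GeneralLinearGroup (Fin m) F) := by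
  refine ⟨((MonoidHom.ofInjective (emb_injective m F)).trans (MulEquiv.subgroupCongr ?_)).symm⟩
  ext g
  constructor
  · rintro ⟨X, rfl⟩
    constructor
    · intro v
      change _ ↔ ∀ i, ((emb m F X : Matrix (Fin m ⊕ Fin m) (Fin m ⊕ Fin m) F).mulVec v) (Sum.inr i) = 0
      rw [coe_emb, Matrix.fromBlocks_mulVec]
      simp only [Set.mem_ofPred_eq, Matrix.zero_mulVec, zero_add, Sum.elim_inr]
      rw [← funext_iff, ← funext_iff]
      exact (mulVec_eq_zero_iff' ((Matrix.isUnit_transpose _).2 (Units.isUnit _)) _).symm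
    · intro v
      change _ ↔ ∀ i, ((emb m F X : Matrix (Fin m ⊕ Fin m) (Fin m ⊕ Fin m) F).mulVec v) (Sum.inl i) = 0
      rw [coe_emb, Matrix.fromBlocks_mulVec]
      simp only [Set.mem_ofPred_eq, Matrix.zero_mulVec, add_zero, Sum.elim_inl]
      rw [← funext_iff, ← funext_iff]
      exact (mulVec_eq_zero_iff' (Units.isUnit _) _).symm
  · rintro ⟨h1, h2⟩
    have hC : (g : Matrix (Fin m ⊕ Fin m) (Fin m ⊕ Fin m) F).toBlocks₂₁ = 0 := by
      ext i j
      have := (h1 (Pi.single (Sum.inl j) 1)).1 (fun i => by simp) i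
      simpa [Matrix.toBlocks₂₁] using this
    have hB : (g : Matrix (Fin m ⊕ Fin m) (Fin m ⊕ Fin m) F).toBlocks₁₂ = 0 := by
      ext i j
      have := (h2 (Pi.single (Sum.inr j) 1)).1 (fun i => by simp) i
      simpa [Matrix.toBlocks₁₂] using this
    have hg := g.2
    rw [← (g : Matrix (Fin m ⊕ Fin m) (Fin m ⊕ Fin m) F).fromBlocks_toBlocks, hB, hC,
      SymplecticGroup.fromBlocks_mem_iff] at hg
    have h3 := congrArg Matrix.transpose hg.2.2
    simp only [Matrix.mul_zero, sub_zero, Matrix.transpose_mul, Matrix.transpose_transpose,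
      Matrix.transpose_one] at h3
    refine ⟨⟨_, _, mul_eq_one_comm.1 h3, h3⟩, Subtype.ext ?_⟩
    rw [coe_emb]
    conv_rhs => rw [← (g : Matrix (Fin m ⊕ Fin m) (Fin m ⊕ Fin m) F).fromBlocks_toBlocks, hB, hC]
    rfl

end Cfsg.Agent.S0778
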