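import Cfsg.Statements.S0779
import Cfsg.Agent.H31.HermStd

set_option autoImplicit false
open Cfsg

namespace Cfsg.Agent.S0779

/-- Unitary transvections: let |F| = q², h the standard Hermitian form Σ x_i y_i^q and v ≠ 0 with h(v, v) = 0. The linear map x ↦ x + c h(x, v) v is an isometry of h if and only if c = 0 or c^(q−1) = −1. -/
theorem result {F : Type*} [Field F] [Fintype F] {q : ℕ} (hF : Fintype.card F = q ^ 2) (n : ℕ) (v : Fin n → F) (hv : v ≠ 0) (hv0 : Cfsg.hermForm n F q v v = 0) (c : F) : (∀ x y : Fin n → F, Cfsg.hermForm n F q ((Cfsg.unitaryTransvection n q v c).mulVec x) ((Cfsg.unitaryTransvection n q v c).mulVec y) = Cfsg.hermForm n F q x y) ↔ (c = 0 ∨ c ^ (q - 1) = -1) := by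
  have h := H31.isHerm_hermB hF n
  have hq := H31.two_le_of_card_sq hF
  simp_rw [H31.hermForm_eq hF, H31.unitaryTransvection_mulVec hF, h.form_rk1] at hv0 ⊢
  rw [hv0, mul_zero, add_zero, H31.frobQ_apply]
  have key : c + c ^ q = c * (1 + c ^ (q - 1)) := by
    rw [mul_add, mul_one, ← pow_succ', Nat.sub_add_cancel (by omega)]
  constructor
  · intro H
    obtain ⟨y, hy⟩ := h.exists_eq_one hv
    have := H y y
    rw [hy, h.flip_one hy, key] at this
    have h2 : c * (1 + c ^ (q - 1)) = 0 := by linear_combination this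
    rcases mul_eq_zero.mp h2 with h3 | h3
    · exact Or.inl h3
    · exact Or.inr (by linear_combination h3)
  · intro H x y
    have h2 : c + c ^ q = 0 := by
      rw [key]
      rcases H with h3 | h3 <;> rw [h3] <;> ring
    rw [h2, mul_zero, add_zero]

end Cfsg.Agent.S0779
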