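import Cfsg.Statements.S0783
import Cfsg.Agent.H31.HermStab

set_option autoImplicit false
open Cfsg

namespace Cfsg.Agent.S0783

open Cfsg.Agent.H31

/-- PGU_n(q)/PSU_n(q) is cyclic of order (n, q+1): for n ≥ 2 and |F| = q² there is a surjective homomorphism from GU_n(q) onto the cyclic group of order gcd(n, q + 1) whose kernel is generated by the determinant-one elements together with the centre. -/
theorem result {F : Type*} [Field F] [Fintype F] {q : ℕ} (hF : Fintype.card F = q ^ 2) (n : ℕ) (hn : 2 ≤ n) : ∃ φ : ↥(Cfsg.GU n F q) →* Multiplicative (ZMod (Nat.gcd n (q + 1))), Function.Surjective φ ∧ φ.ker = (Matrix.GeneralLinearGroup.det : Matrix.GeneralLinearGroup (Fin n) F →* Fˣ).ker.subgroupOf (Cfsg.GU n F q) ⊔ Subgroup.center ↥(Cfsg.GU n F q) := by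
  have hq := two_le_of_card_sq hF
  have h := isHerm_hermB hF n
  -- the group of elements of norm one
  let μ : Subgroup Fˣ := (powMonoidHom (q + 1) : Fˣ →* Fˣ).ker
  have hμ : Nat.card μ = q + 1 := by
    rw [← card_pow_succ_eq_one hF]
    refine Nat.card_eq_of_bijective (fun a => ⟨(a.1 : F), ?_⟩) ⟨?_, ?_⟩
    · have : a.1 ^ (q + 1) = 1 := a.2
      simpa using congrArg Units.val this
    · intro a b hab
      exact Subtype.ext (Units.ext (congrArg Subtype.val hab))
    · rintro ⟨a, ha⟩
      have ha0 : a ≠ 0 := by rintro rfl; simp at ha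
      exact ⟨⟨Units.mk0 a ha0, Units.ext (by simpa using ha)⟩, rfl⟩
  have hdet : ∀ g : GU n F q, Matrix.GeneralLinearGroup.det g.1 ∈ μ := by
    intro g
    have := h.det_norm ((mem_GU_iff hF).mpr g.2)
    rw [← LinearEquiv.coe_det, det_glEquiv, frobQ_apply, ← pow_succ'] at this
    exact Units.ext (by simpa using this)
  let d : GU n F q →* μ :=
    ((Matrix.GeneralLinearGroup.det : Matrix.GeneralLinearGroup (Fin n) F →* Fˣ).comp
      (GU n F q).subtype).codRestrict μ hdet
  have hd : Function.Surjective d := by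
    rintro ⟨a, ha⟩
    have ha' : (a : F) * frobQ hF a = 1 := by
      have : a ^ (q + 1) = 1 := ha
      rw [frobQ_apply, ← pow_succ']
      simpa using congrArg Units.val this
    obtain ⟨g, hg, hg'⟩ := h.exists_stab_totIso_det (W := ⊥) (by intro x hx y hy; simp_all)
      (by rw [finrank_fin]; omega) ha'
    refine ⟨(guEquiv hF n).symm ⟨g, hg.2⟩, Subtype.ext (Units.ext ?_)⟩
    rw [← hg', ← LinearEquiv.coe_det]
    change ((Matrix.GeneralLinearGroup.det ((glEquiv (Fin n) F).symm g) : Fˣ) : F) = _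
    rw [← det_glEquiv, MulEquiv.apply_symm_apply]
  let P : Subgroup μ := (powMonoidHom n : μ →* μ).range
  have hP : Nat.card (μ ⧸ P) = Nat.card (Multiplicative (ZMod (Nat.gcd n (q + 1)))) := by
    rw [← Subgroup.index_eq_card, IsCyclic.index_powMonoidHom_range, hμ,
      Nat.card_congr Multiplicative.toAdd, Nat.card_zmod, Nat.gcd_comm]
  have hcyc : IsCyclic (μ ⧸ P) := isCyclic_of_surjective _ (QuotientGroup.mk'_surjective P)
  let e := mulEquivOfCyclicCardEq hP
  refine ⟨e.toMonoidHom.comp ((QuotientGroup.mk' P).comp d),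
    e.surjective.comp ((QuotientGroup.mk'_surjective P).comp hd), ?_⟩
  have hscal : ∀ a : μ, ∃ z ∈ Subgroup.center (GU n F q), d z = a ^ n := by
    rintro ⟨a, ha⟩
    have ha' : (a : F) * frobQ hF a = 1 := by
      have : a ^ (q + 1) = 1 := ha
      rw [frobQ_apply, ← pow_succ']
      simpa using congrArg Units.val this
    let z : Matrix.GeneralLinearGroup (Fin n) F := Matrix.GeneralLinearGroup.scalar (Fin n) a
    have hz : (z : Matrix (Fin n) (Fin n) F) = (a : F) • (1 : Matrix (Fin n) (Fin n) F) := by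
      simp [z, Matrix.smul_one_eq_diagonal]
    have hz' : z ∈ GU n F q := by
      rw [← mem_GU_iff hF]
      refine mem_isom_of_smul (a := (a : F)) (fun v => ?_) ha'
      rw [glEquiv_apply, hz, Matrix.smul_mulVec, Matrix.one_mulVec]
    refine ⟨⟨z, hz'⟩, (mem_center_GU_iff hF hn).mpr ⟨a, hz⟩, Subtype.ext (Units.ext ?_)⟩
    change (z : Matrix (Fin n) (Fin n) F).det = _
    rw [hz]; simp
  ext g
  rw [MonoidHom.mem_ker, MonoidHom.comp_apply, MulEquiv.coe_toMonoidHom, EmbeddingLike.map_eq_one_iff,
    MonoidHom.comp_apply, QuotientGroup.mk'_apply, QuotientGroup.eq_one_iff]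
  constructor
  · rintro ⟨a, ha⟩
    obtain ⟨z, hz, hz'⟩ := hscal a
    have : g = (g * z⁻¹) * z := by group
    rw [this]
    refine Subgroup.mul_mem_sup ?_ hz
    have h1 : d (g * z⁻¹) = 1 := by
      rw [map_mul, map_inv, hz', ← ha]; simp
    exact congrArg Subtype.val h1
  · intro hg
    have : (Matrix.GeneralLinearGroup.det : Matrix.GeneralLinearGroup (Fin n) F →* Fˣ).ker.subgroupOf
        (Cfsg.GU n F q) ⊔ Subgroup.center ↥(Cfsg.GU n F q) ≤ P.comap d := by
      refine sup_le (fun x hx => ?_) (fun x hx => ?_)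
      · have : d x = 1 := Subtype.ext hx
        rw [Subgroup.mem_comap, this]; exact P.one_mem
      · obtain ⟨a, ha⟩ := (mem_center_GU_iff hF hn).mp hx
        have ha1 : a * frobQ hF a = 1 := by
          have : Nonempty (Fin n) := ⟨⟨0, by omega⟩⟩
          refine h.norm_eq_one_of_smul (g := glEquiv (Fin n) F x.1) (fun v => ?_)
            ((mem_GU_iff hF).mpr x.2)
          rw [glEquiv_apply, ha, Matrix.smul_mulVec, Matrix.one_mulVec]
        have ha0 : a ≠ 0 := by rintro rfl; simp at ha1
        refine ⟨⟨Units.mk0 a ha0, Units.ext ?_⟩, Subtype.ext (Units.ext ?_)⟩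
        · rw [frobQ_apply, ← pow_succ'] at ha1
          simpa using ha1
        · change _ = (x.1 : Matrix (Fin n) (Fin n) F).det
          rw [ha]; simp
    exact this hg

end Cfsg.Agent.S0783
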