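import Cfsg.Statements.S0787
import Cfsg.Agent.H30.OrthIndex

set_option autoImplicit false
open Cfsg

namespace Cfsg.Agent.S0787

/-- Existence and uniqueness of Ω: if F is finite, n ≥ 2, Q is a quadratic form on F^n with non-degenerate polar form and (|F|, n) ≠ (2, 4), then the group of isometries of determinant one has a unique subgroup of index 2. -/
theorem result {F : Type*} [Field F] [Fintype F] {n : ℕ} (hn : 2 ≤ n) (Q : QuadraticForm F (Fin n → F)) (hQ : (QuadraticMap.polarBilin Q).Nondegenerate) (h : Fintype.card F ≠ 2 ∨ n ≠ 4) : ∃! H : Subgroup ↥(Cfsg.specialIsometryGroup F ⇑Q), H.index = 2 := by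
  have hd : Module.finrank F (Fin n → F) = n := by simp
  have hexc : ¬ H30.IsExc Q := H30.not_isExc_of_card (by simpa using h)
  have : Nontrivial (Fin n → F) := Module.nontrivial_of_finrank_pos (R := F) (by omega)
  have : (Cfsg.specialIsometryGroup F ⇑Q).Normal := MonoidHom.normal_ker _
  apply H30.existsUnique_index_two _ (Cfsg.Omega F ⇑Q)
  · by_cases h2 : (2 : F) = 0
    · rw [H30.specialIsometryGroup_eq_top hQ h2, Subgroup.relIndex_top_right, H30.index_Omega,
        H30.commutator_eq_kerDS hQ hexc, H30.index_kerDS_even hQ (by omega) h2]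
    · rw [H30.specialIsometryGroup_eq_comap hQ h2, H30.Omega_eq_comap,
        Subgroup.relIndex_comap, Subgroup.map_comap_eq_self_of_surjective (H30.isoEquiv Q).surjective,
        H30.commutator_eq_kerDS hQ hexc]
      have h3 := Subgroup.relIndex_mul_index (H30.kerDS_le_ker_dickson hQ)
      rw [H30.index_ker_dickson, H30.index_kerDS_odd hQ (by omega) h2] at h3
      omega
  · intro K hK hS
    have : (K.comap ((H30.isoEquiv Q).symm : H30.O Q →* _)).Normal := hK.comap _
    have h1 := H30.commutator_le_of_refl hQ hexc (K.comap ((H30.isoEquiv Q).symm : H30.O Q →* _))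
      (fun u v hu hv => by
        rw [Subgroup.mem_comap, map_mul]
        apply hS
        rw [H30.mem_specialIsometryGroup_iff, MonoidHom.coe_coe, MulEquiv.apply_symm_apply,
          H30.det_eq_dickson hQ, map_mul, H30.dickson_refl hQ hu, H30.dickson_refl hQ hv]
        simp)
    intro g hg
    simpa using h1 ((H30.mem_Omega_iff g).1 hg)

end Cfsg.Agent.S0787
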