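import Cfsg.Statements.S0794
import Cfsg.Agent.H30.OrthIndex

set_option autoImplicit false
open Cfsg

namespace Cfsg.Agent.S0794

/-- For q odd, n ≥ 5 and Q with non-degenerate polar form: an isometry whose matrix is a Siegel transformation T_(u,v)(c) (u, v singular and orthogonal) is a commutator in the isometry group, so lies in Ω. -/
theorem result {F : Type*} [Field F] [Fintype F] (h2 : (2 : F) ≠ 0) {n : ℕ} (hn : 5 ≤ n) (Q : QuadraticForm F (Fin n → F)) (hQ : (QuadraticMap.polarBilin Q).Nondegenerate) (u v : Fin n → F) (hu : Q u = 0) (hv : Q v = 0) (huv : QuadraticMap.polar ⇑Q u v = 0) (c : F) (g : ↥(Cfsg.isometryGroup F ⇑Q)) (hg : ((g : Matrix.GeneralLinearGroup (Fin n) F) : Matrix (Fin n) (Fin n) F) = Cfsg.siegelMatrix ⇑Q u v c) : g ∈ commutatorSet ↥(Cfsg.isometryGroup F ⇑Q) ∧ g ∈ Cfsg.Omega F ⇑Q := by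
  rw [H30.coe_eq_siegelMatrix_iff g hu hv huv c] at hg
  obtain ⟨a, b, hab⟩ := H30.eich_mem_commutatorSet hQ h2 (v := c • v) hu
    (by rw [H30.polar_smul_right', huv, mul_zero])
  have h : g ∈ commutatorSet ↥(Cfsg.isometryGroup F ⇑Q) := by
    refine ⟨(H30.isoEquiv Q).symm a, (H30.isoEquiv Q).symm b, ?_⟩
    apply (H30.isoEquiv Q).injective
    rw [map_commutatorElement, MulEquiv.apply_symm_apply, MulEquiv.apply_symm_apply, hab, hg]
  refine ⟨h, ?_⟩
  obtain ⟨a, b, rfl⟩ := h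
  exact Subgroup.commutator_mem_commutator (Subgroup.mem_top _) (Subgroup.mem_top _)

end Cfsg.Agent.S0794
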