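import Cfsg.Statements.S0795
import Cfsg.Agent.H30.OrthBridge

set_option autoImplicit false
open Cfsg

namespace Cfsg.Agent.S0795

/-- Generation of Ω by root elements: for q odd, n ≥ 5 and Q with non-degenerate polar form on F^n, the commutator subgroup of the isometry group equals the subgroup generated by the isometries whose matrices are Siegel transformations T_(u,v)(c) with u, v singular and orthogonal. -/
theorem result {F : Type*} [Field F] [Fintype F] (h2 : (2 : F) ≠ 0) {n : ℕ} (hn : 5 ≤ n) (Q : QuadraticForm F (Fin n → F)) (hQ : (QuadraticMap.polarBilin Q).Nondegenerate) : Cfsg.Omega F ⇑Q = Subgroup.closure {g : ↥(Cfsg.isometryGroup F ⇑Q) | ∃ (u v : Fin n → F) (c : F), Q u = 0 ∧ Q v = 0 ∧ QuadraticMap.polar ⇑Q u v = 0 ∧ ((g : Matrix.GeneralLinearGroup (Fin n) F) : Matrix (Fin n) (Fin n) F) = Cfsg.siegelMatrix ⇑Q u v c} := by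
  have h5 : 5 ≤ Module.finrank F (Fin n → F) := by simpa using hn
  rw [H30.closure_eq_comap_equiv (H30.isoEquiv Q)
    (T := {g | ∃ u v, Q u = 0 ∧ Q v = 0 ∧ QuadraticMap.polar Q u v = 0 ∧ g = H30.eich Q u v}),
    H30.Omega_eq_comap, H30.commutator_eq_eichGroup hQ (H30.not_isExc_of_two h2) (by omega)]
  · congr 1
    apply le_antisymm
    · exact H30.eichGroup_le_of_siegel hQ h5 fun u v hu hv huv =>
        Subgroup.subset_closure ⟨u, v, hu, hv, huv, rfl⟩
    · rw [Subgroup.closure_le]
      rintro g ⟨u, v, -, -, -, rfl⟩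
      exact H30.eich_mem_eichGroup u v
  · intro g
    constructor
    · rintro ⟨u, v, c, hu, hv, huv, hg⟩
      refine ⟨u, c • v, hu, by rw [H30.Q_smul, hv, mul_zero],
        by rw [H30.polar_smul_right', huv, mul_zero], ?_⟩
      exact (H30.coe_eq_siegelMatrix_iff g hu hv huv c).1 hg
    · rintro ⟨u, v, hu, hv, huv, hg⟩
      exact ⟨u, v, 1, hu, hv, huv, (H30.coe_eq_siegelMatrix_iff g hu hv huv 1).2
        (by rwa [one_smul])⟩

end Cfsg.Agent.S0795
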