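import Cfsg.Statements.S0796
import Mathlib

set_option autoImplicit false
open Cfsg

namespace Cfsg.Agent.S0796

/-- If G is finite and acts faithfully and primitively on X, H is the stabiliser of a point, A is a normal subgroup of H whose normal closure in G is G, then for every non-trivial normal subgroup K of G the quotient G ⧸ K is isomorphic to A ⧸ B for some normal subgroup B of A. -/
theorem result {G X : Type*} [Group G] [Finite G] [MulAction G X] [FaithfulSMul G X] (hprim : MulAction.IsPreprimitive G X) (x : X) (A : Subgroup G) (hA : A ≤ MulAction.stabilizer G x) (hAn : (A.subgroupOf (MulAction.stabilizer G x)).Normal) (hgen : Subgroup.normalClosure (A : Set G) = ⊤) (K : Subgroup G) [K.Normal] (hK : K ≠ ⊥) : ∃ (B : Subgroup A) (_ : B.Normal), Nonempty (G ⧸ K ≃* A ⧸ B) := by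
  classical
  -- `K` is transitive, so `G = K H`
  have hKt : MulAction.IsPretransitive K X := by
    rcases subsingleton_or_nontrivial X with hX | hX
    · exact ⟨fun a b => ⟨1, Subsingleton.elim _ _⟩⟩
    · have := hprim
      apply MulAction.IsQuasiPreprimitive.isPretransitive_of_normal
      intro hfix
      apply hK
      rw [eq_bot_iff]
      intro k hk
      rw [Subgroup.mem_bot]
      apply FaithfulSMul.eq_of_smul_eq_smul (α := X)
      intro y
      have hy : y ∈ MulAction.fixedPoints K X := hfix ▸ Set.mem_univ y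
      rw [one_smul]
      exact hy ⟨k, hk⟩
  have hdec : ∀ g : G, ∃ k ∈ K, ∃ h ∈ MulAction.stabilizer G x, g = k * h := by
    intro g
    obtain ⟨k, hk⟩ := hKt.exists_smul_eq x (g • x)
    refine ⟨k, k.2, (k : G)⁻¹ * g, ?_, by group⟩
    rw [MulAction.mem_stabilizer_iff, mul_smul, ← hk]
    exact inv_smul_smul (k : G) x
  let π := QuotientGroup.mk' K
  let A' : Subgroup (G ⧸ K) := A.map π
  have hA'n : A'.Normal := by
    constructor
    rintro _ ⟨a, ha, rfl⟩ y
    obtain ⟨g, rfl⟩ := QuotientGroup.mk'_surjective K y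
    obtain ⟨k, hk, h, hh, rfl⟩ := hdec g
    have hk1 : QuotientGroup.mk' K k = 1 := (QuotientGroup.eq_one_iff k).2 hk
    refine ⟨h * a * h⁻¹, ?_, by simp [π, hk1, map_mul, -QuotientGroup.mk'_apply]⟩
    exact hAn.conj_mem ⟨a, hA ha⟩ ha ⟨h, hh⟩
  have htop : A' = ⊤ := by
    rw [eq_top_iff]
    intro y _
    obtain ⟨g, rfl⟩ := QuotientGroup.mk'_surjective K y
    have hg : g ∈ Subgroup.normalClosure (A : Set G) := hgen ▸ Subgroup.mem_top g
    have : Subgroup.normalClosure (A : Set G) ≤ A'.comap π :=
      Subgroup.normalClosure_le_normal (fun a ha => Subgroup.mem_map_of_mem π ha)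
    exact this hg
  let ψ : A →* G ⧸ K := π.comp A.subtype
  have hψ : Function.Surjective ψ := by
    intro y
    have hy : y ∈ A' := htop ▸ Subgroup.mem_top y
    obtain ⟨a, ha, rfl⟩ := hy
    exact ⟨⟨a, ha⟩, rfl⟩
  exact ⟨ψ.ker, inferInstance, ⟨(QuotientGroup.quotientKerEquivOfSurjective ψ hψ).symm⟩⟩

end Cfsg.Agent.S0796
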