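import Cfsg.Statements.S0798
import Cfsg.Agent.H30.OrthIndex

set_option autoImplicit false
open Cfsg

namespace Cfsg.Agent.S0798

/-- For q odd, n ≥ 2 even, Q with non-degenerate polar form (n, |F|) ≠ (4, 3), and a fixed c ≠ 0: the subgroup of the isometry group generated by the reflections r_v with Q(v) ∈ c·(F^×)² has index 2. -/
theorem result {F : Type*} [Field F] [Fintype F] (h2 : (2 : F) ≠ 0) {n : ℕ} (hn : 2 ≤ n) (heven : Even n) (Q : QuadraticForm F (Fin n → F)) (hQ : (QuadraticMap.polarBilin Q).Nondegenerate) (h43 : ¬ (n = 4 ∧ Fintype.card F = 3)) (c : F) (hc : c ≠ 0) : (Subgroup.closure {g : ↥(Cfsg.isometryGroup F ⇑Q) | ∃ (v : Fin n → F) (t : F), t ≠ 0 ∧ Q v = c * t ^ 2 ∧ ((g : Matrix.GeneralLinearGroup (Fin n) F) : Matrix (Fin n) (Fin n) F) = Cfsg.reflectionMatrix ⇑Q v}).index = 2 := by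
  rw [H30.closure_eq_comap_equiv (H30.isoEquiv Q)
    (T := {g | ∃ v t, t ≠ 0 ∧ Q v = c * t ^ 2 ∧ g = H30.refl Q v})
    (fun g => by simp only [Set.mem_ofPred_eq, H30.coe_eq_reflectionMatrix_iff]),
    H30.index_comap_equiv]
  have hd : Module.finrank F (Fin n → F) = n := by simp
  refine H30.index_reflClass hQ h2 (by omega) hc ?_
  by_cases h : n = 2
  · exact H30.kerDS_le_reflClass_two hQ h2 (by omega) hc
  · obtain ⟨k, rfl⟩ := heven
    refine H30.kerDS_le_reflClass hQ h2 (by omega) ?_ hc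
    have h1 := Nat.odd_iff.1 (H30.two_ne_zero_iff_odd_card.1 h2)
    have h3 : 1 < Fintype.card F := Fintype.one_lt_card
    rw [Nat.card_eq_fintype_card]
    omega

end Cfsg.Agent.S0798
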