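import Cfsg.Statements.S0802
import Cfsg.Agent.H29.PSLFacts

set_option autoImplicit false
open Cfsg

namespace Cfsg.Agent.S0802

/-- PSL_2(p^n) has a subgroup isomorphic to A_4 if and only if it is not the case that p = 2 and n is odd. -/
theorem result {F : Type*} [Field F] [Fintype F] (p n : ℕ) [Fact p.Prime] [CharP F p] (hF : Fintype.card F = p ^ n) : (∃ H : Subgroup (Matrix.ProjectiveSpecialLinearGroup (Fin 2) F), Nonempty (H ≃* alternatingGroup (Fin 4))) ↔ ¬ (p = 2 ∧ Odd n) := by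
  have := H29.finite_PGL2 (F := F)
  rw [← Nat.card_eq_fintype_card] at hF
  rw [H29.exists_psl_subgroup_iff]
  constructor
  · rintro ⟨H, -, ⟨e⟩⟩ ⟨rfl, k, rfl⟩
    obtain ⟨a, b, hab, -, -, h1, h2⟩ := H29.exists_kpair_of_A4 e
    obtain ⟨t, ht, -, -, h3, -, h4, -⟩ := H29.exists_order_three_of_A4 e
    obtain ⟨x, hx⟩ := H29.exists_mem_uni_of_pow_char 2 (g := a) (n := 1) (by rw [pow_one, sq, hab.aa])
    have h5 := ((H29.mem_normalizer_klein hab).1 (h2 ht)).1
    have h6 := H29.mem_uni_of_commute hx hab.a1 (hab.klein_comm h5 (H29.left_mem_klein _ _))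
    have h7 : t • x = x :=
      H29.uni_eq_of_mem (hab.conj t).a1 h6 (H29.conj_mem_uni_iff.2 hx).1
    have h8 := (MulAction.stabilizer (Matrix.ProjGenLinGroup (Fin 2) F) x).orderOf_dvd_natCard h7
    have := Fact.mk Nat.prime_three
    rw [orderOf_eq_prime h3 (by rintro rfl; simp at h4), H29.card_stabilizer_PGL, hF,
      Nat.prime_three.dvd_mul] at h8
    have h9 : 2 ^ (2 * k + 1) % 3 = 2 := by
      rw [pow_succ, pow_mul, Nat.mul_mod, Nat.pow_mod]; simp
    generalize 2 ^ (2 * k + 1) = N at h8 h9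
    omega
  · intro h
    rcases Nat.even_or_odd (Nat.card F) with he | ho
    · have hp : p = 2 := (Nat.prime_dvd_prime_iff_eq Fact.out Nat.prime_two).1
        ((CharP.cast_eq_zero_iff F p 2).1 (by exact_mod_cast H29.even_card_iff.1 he))
      subst hp
      obtain ⟨k, rfl⟩ : Even n := by simpa using h
      obtain ⟨H, hH, ⟨e⟩⟩ := H29.exists_A5_le_L (F := F) (by
        apply Dvd.dvd.mul_left
        rw [hF, ← pow_mul, show (k + k) * 2 = 4 * k by ring, pow_mul]
        exact (show 5 ∣ 2 ^ 4 - 1 by norm_num).trans (Nat.sub_one_dvd_pow_sub_one _ _))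
      obtain ⟨H', h1, h2⟩ := H29.exists_A4_le_of_A5 e
      exact ⟨H', h1.trans hH, h2⟩
    · obtain ⟨a, b, hab, ha, hb⟩ := H29.exists_kpair_L ho
      obtain ⟨H', -, ⟨e⟩⟩ := H29.exists_A4_le_of_S4 (hab.normalizer_S4 ho ha hb).some
      exact ⟨H', H29.le_L_of_A4 e, ⟨e⟩⟩

end Cfsg.Agent.S0802
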