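import Cfsg.Statements.S0805
import Cfsg.Agent.H29.PSLFacts

set_option autoImplicit false
open Cfsg

namespace Cfsg.Agent.S0805

/-- Subfield subgroups: let F be a finite field of odd order q and K a finite field with |K|^m = q, m ≥ 1. Then PSL_2(F) has a subgroup isomorphic to PSL_2(K), and has a subgroup isomorphic to PGL_2(K) if and only if m is even. -/
theorem result {F K : Type*} [Field F] [Fintype F] [Field K] [Fintype K] {q : ℕ} (hF : Fintype.card F = q) (hodd : Odd q) (m : ℕ) (hm : 1 ≤ m) (hK : Fintype.card K ^ m = q) : (∃ H : Subgroup (Matrix.ProjectiveSpecialLinearGroup (Fin 2) F), Nonempty (H ≃* Matrix.ProjectiveSpecialLinearGroup (Fin 2) K)) ∧ ((∃ H : Subgroup (Matrix.ProjectiveSpecialLinearGroup (Fin 2) F), Nonempty (H ≃* Matrix.ProjGenLinGroup (Fin 2) K)) ↔ Even m) := by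
  rw [← Nat.card_eq_fintype_card] at hF hK
  subst hF
  obtain ⟨f⟩ := H29.exists_ringHom_of_card hK.symm
  rw [H29.exists_psl_subgroup_iff, H29.exists_psl_subgroup_iff]
  refine ⟨⟨_, H29.PSLsub_le_L f, ⟨(H29.PSLsubEquiv f).symm⟩⟩, ?_, fun h =>
    ⟨_, (H29.PGLsub_le_L_iff_even f hodd hK.symm).2 h, ⟨(H29.PGLsubEquiv f).symm⟩⟩⟩
  rintro ⟨H, hH, ⟨e⟩⟩
  have h1 := Nat.mul_dvd_mul_left 2 (Subgroup.card_dvd_of_le hH)
  have ho := (H29.odd_card_iff_of_ringHom f).2 hodd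
  have hr : 2 ≤ Nat.card K := Finite.one_lt_card
  rw [H29.card_L_of_odd hodd, Nat.card_congr e.toEquiv, H29.card_PGL2, mul_left_comm (_ + 1),
    mul_left_comm (_ + 1), ← Nat.sq_sub_sq, ← Nat.sq_sub_sq, one_pow, ← hK, ← pow_mul, mul_comm m,
    pow_mul] at h1
  generalize Nat.card K = r at h1 ho hr
  have h2 : 2 ≤ r ^ 2 := by nlinarith
  have hS := Nat.geomSum_eq h2 m
  have hS' : (r ^ 2) ^ m - 1 = (∑ i ∈ Finset.range m, (r ^ 2) ^ i) * (r ^ 2 - 1) := by
    rw [hS, Nat.div_mul_cancel (Nat.sub_one_dvd_pow_sub_one _ _)]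
  have hpar : Even (∑ i ∈ Finset.range m, (r ^ 2) ^ i) ↔ Even m := by
    rw [Finset.even_sum_iff_even_card_odd, Finset.filter_true_of_mem
      (fun i _ => ho.pow.pow), Finset.card_range]
  rw [hS', ← mul_assoc, ← mul_assoc] at h1
  have h3 := (Dvd.intro _ rfl).trans (Nat.dvd_of_mul_dvd_mul_right (by omega) h1)
  rw [← hpar, even_iff_two_dvd]
  exact (Nat.Coprime.dvd_mul_left (Nat.coprime_two_left.2 ho.pow)).1 h3

end Cfsg.Agent.S0805
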