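import Cfsg.Statements.S0807
import Cfsg.Agent.H29.PSLFacts

set_option autoImplicit false
open Cfsg

namespace Cfsg.Agent.S0807

/-- For q odd, twelve times the number of Klein four-subgroups of PSL_2(q) equals the order of PSL_2(q). -/
theorem result {F : Type*} [Field F] [Fintype F] {q : ℕ} (hF : Fintype.card F = q) (hodd : Odd q) : 12 * Nat.card {V : Subgroup (Matrix.ProjectiveSpecialLinearGroup (Fin 2) F) // IsKleinFour V} = Nat.card (Matrix.ProjectiveSpecialLinearGroup (Fin 2) F) := by
  rw [← Nat.card_eq_fintype_card] at hF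
  subst hF
  obtain ⟨a, b, hab, ha, hb⟩ := H29.exists_kpair_L hodd
  have hL : H29.klein a b ≤ H29.Lsub F := H29.klein_le_iff.2 ⟨ha, hb⟩
  have h1 : Nat.card {V : Subgroup (Matrix.ProjectiveSpecialLinearGroup (Fin 2) F) // IsKleinFour V} =
      (Subgroup.normalizer (H29.klein a b : Set (Matrix.ProjGenLinGroup (Fin 2) F))).index := by
    rw [← H29.card_conjugates]
    refine Nat.card_congr (Equiv.ofBijective (fun V => ⟨V.1.map H29.pslp, H29.klein_conj hodd
      hab.isKleinFour (H29.isKleinFour_congr (H29.pslpEquiv _) V.2) hL (H29.map_pslp_le_L _)⟩)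
      ⟨fun V W h => Subtype.ext (H29.map_pslp_inj.1 (congrArg Subtype.val h)), ?_⟩)
    rintro ⟨_, c, rfl⟩
    have h2 := (H29.map_conj_le_L_iff (c := c)).2 hL
    exact ⟨⟨_, H29.isKleinFour_congr ((H29.conjEquiv _ c).trans (H29.comapPslpEquiv h2).symm)
      hab.isKleinFour⟩, Subtype.ext (H29.map_comap_pslp h2)⟩
  have h2 := (Subgroup.normalizer (H29.klein a b : Set (Matrix.ProjGenLinGroup (Fin 2) F))).index_mul_card
  rw [hab.card_normalizer hodd ha hb, ← (H29.Lsub F).index_mul_card, H29.index_L_of_odd hodd] at h2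
  rw [h1, H29.card_PSL2_eq]
  omega

end Cfsg.Agent.S0807
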