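import Cfsg.Statements.S0808
import Cfsg.Agent.H29.PSLFacts

set_option autoImplicit false
open Cfsg

namespace Cfsg.Agent.S0808

/-- Conjugacy classes of four-groups in PSL_2(q), q odd: if q ≡ 3 or 5 (mod 8) all Klein four-subgroups are conjugate; if q ≡ 1 or 7 (mod 8) there are two Klein four-subgroups which are not conjugate, and every Klein four-subgroup is conjugate to one of them. -/
theorem result {F : Type*} [Field F] [Fintype F] {q : ℕ} (hF : Fintype.card F = q) (hodd : Odd q) : ((q % 8 = 3 ∨ q % 8 = 5) → ∀ V W : Subgroup (Matrix.ProjectiveSpecialLinearGroup (Fin 2) F), IsKleinFour V → IsKleinFour W → ∃ g : Matrix.ProjectiveSpecialLinearGroup (Fin 2) F, W = V.map (MulAut.conj g).toMonoidHom) ∧ ((q % 8 = 1 ∨ q % 8 = 7) → ∃ V₁ V₂ : Subgroup (Matrix.ProjectiveSpecialLinearGroup (Fin 2) F), IsKleinFour V₁ ∧ IsKleinFour V₂ ∧ (¬ ∃ g : Matrix.ProjectiveSpecialLinearGroup (Fin 2) F, V₂ = V₁.map (MulAut.conj g).toMonoidHom) ∧ ∀ W : Subgroup (Matrix.ProjectiveSpecialLinearGroup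 (Fin 2) F), IsKleinFour W → (∃ g : Matrix.ProjectiveSpecialLinearGroup (Fin 2) F, W = V₁.map (MulAut.conj g).toMonoidHom) ∨ (∃ g : Matrix.ProjectiveSpecialLinearGroup (Fin 2) F, W = V₂.map (MulAut.conj g).toMonoidHom)) := by
  rw [← Nat.card_eq_fintype_card] at hF
  subst hF
  constructor
  · intro hq V W hV hW
    have hV' := H29.isKleinFour_congr (H29.pslpEquiv _) hV
    obtain ⟨c, hc⟩ := H29.klein_conj hodd hV' (H29.isKleinFour_congr (H29.pslpEquiv _) hW)
      (H29.map_pslp_le_L _) (H29.map_pslp_le_L _)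
    rw [H29.exists_conj_psl_iff]
    by_cases h : c ∈ H29.Lsub F
    · exact ⟨c, h, hc⟩
    obtain ⟨a, b, hab, e⟩ := H29.exists_kpair_of_isKleinFour _ hV'
    have hL := H29.klein_le_iff.1 (e ▸ H29.map_pslp_le_L V)
    obtain ⟨n, hn, hn'⟩ := Set.not_subset.1 (mt (hab.normalizer_le_L_iff hodd hL.1 hL.2).1 (by omega))
    refine ⟨c * n, H29.mul_mem_L_of_not_mem h hn', ?_⟩
    rw [← H29.map_conj_map_conj, e, H29.mem_normalizer_iff_map_conj.1 hn, ← e, hc]
  · intro hq
    obtain ⟨a, b, hab, ha, hb⟩ := H29.exists_kpair_L hodd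
    have hL : H29.klein a b ≤ H29.Lsub F := H29.klein_le_iff.2 ⟨ha, hb⟩
    obtain ⟨c, -, hc⟩ := Set.not_subset.1 (H29.L_ne_top_of_odd hodd)
    have h2 := (H29.map_conj_le_L_iff (c := c)).2 hL
    refine ⟨(H29.klein a b).comap H29.pslp,
      ((H29.klein a b).map (MulAut.conj c).toMonoidHom).comap H29.pslp,
      H29.isKleinFour_congr (H29.comapPslpEquiv hL).symm hab.isKleinFour,
      H29.isKleinFour_congr ((H29.conjEquiv _ c).trans (H29.comapPslpEquiv h2).symm) hab.isKleinFour,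
      ?_, fun W hW => ?_⟩
    · rw [H29.exists_conj_psl_iff, H29.map_comap_pslp hL, H29.map_comap_pslp h2]
      rintro ⟨g, hg, e⟩
      have h3 : g⁻¹ * c ∈ Subgroup.normalizer (H29.klein a b : Set _) := by
        rw [H29.mem_normalizer_iff_map_conj, ← H29.map_conj_map_conj, e, H29.map_conj_inv_map_conj]
      exact hc (((H29.Lsub F).mul_mem_cancel_left (inv_mem hg)).1
        ((hab.normalizer_le_L_iff hodd ha hb).2 hq h3))
    · rw [H29.exists_conj_psl_iff, H29.exists_conj_psl_iff, H29.map_comap_pslp hL,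
        H29.map_comap_pslp h2]
      obtain ⟨g, hg⟩ := H29.klein_conj hodd hab.isKleinFour
        (H29.isKleinFour_congr (H29.pslpEquiv _) hW) hL (H29.map_pslp_le_L _)
      by_cases h : g ∈ H29.Lsub F
      · exact Or.inl ⟨g, h, hg⟩
      · refine Or.inr ⟨g * c⁻¹, H29.mul_mem_L_of_not_mem h (fun e => hc (inv_mem_iff.1 e)), ?_⟩
        rw [H29.map_conj_map_conj, inv_mul_cancel_right, hg]

end Cfsg.Agent.S0808
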