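import Cfsg.Statements.S0812
import Cfsg.Agent.H29.Maximal

set_option autoImplicit false
open Cfsg

namespace Cfsg.Agent.S0812

/-- For q ∉ {2, 3, 5, 7, 9, 11}, PSL_2(q) has a maximal subgroup isomorphic to the dihedral group of order 2(q − 1)/d, d = gcd(2, q − 1). -/
theorem result {F : Type*} [Field F] [Fintype F] {q : ℕ} (hF : Fintype.card F = q) (hq : q ∉ ({2, 3, 5, 7, 9, 11} : Finset ℕ)) : ∃ H : Subgroup (Matrix.ProjectiveSpecialLinearGroup (Fin 2) F), IsCoatom H ∧ Nonempty (H ≃* DihedralGroup ((q - 1) / Nat.gcd 2 (q - 1))) := by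
  rw [← Nat.card_eq_fintype_card] at hF
  subst hF
  simp only [Finset.mem_insert, Finset.mem_singleton, not_or] at hq
  obtain ⟨T, D, h⟩ := H29.exists_isSplitTorus' F
  have h' : H29.IsTorus T D := Or.inl h
  have h1 : 1 < Nat.card F := Finite.one_lt_card
  refine H29.exists_coatom_of_covBy (h.covBy (by omega) (by omega) (by omega) (by omega) (by omega)) ?_
  have h2 : (Nat.card F - 1) / Nat.gcd 2 (Nat.card F - 1) = Nat.card ↥(T ⊓ H29.Lsub F) := by
    apply Nat.div_eq_of_eq_mul_right (Nat.gcd_pos_of_pos_left _ two_pos)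
    rw [h'.card_inf_L, h.card]
  rw [h2]
  exact h'.dihedral_inf_L.1

end Cfsg.Agent.S0812
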