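import Cfsg.Statements.S0818
import Cfsg.Agent.H28.OutCard
import Cfsg.Agent.S2605
import Cfsg.Agent.S2606

set_option autoImplicit false
open Cfsg

namespace Cfsg.Agent.S0818

/-- |Aut(PΩ⁻_2m(q))| for q = p^f, m ≥ 4 (form quadFormMinus (m−1) with anisotropic binary part): |PΩ⁻_2m(q)| times f, times 2 if p = 2, and times 4 or 8 if p is odd according as m(q−1)/2 is even or odd. -/
theorem result {F : Type*} [Field F] [Fintype F] (p f : ℕ) [Fact p.Prime] (hf : 1 ≤ f) (hF : Fintype.card F = p ^ f) (m : ℕ) (hm : 4 ≤ m) (a b : F) (hab : ∀ z₁ z₂ : F, z₁ ^ 2 + a * z₁ * z₂ + b * z₂ ^ 2 = 0 → z₁ = 0 ∧ z₂ = 0) : Nat.card (MulAut (Cfsg.POmega F (Cfsg.quadFormMinus (m - 1) F a b))) = (if p = 2 then 2 else (if Even (m * (p ^ f - 1) / 2) then 4 else 8)) * f * Nat.card (Cfsg.POmega F (Cfsg.quadFormMinus (m - 1) F a b)) := by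
  have h := H28.card_mulAut_POmega (H30.qMinus_nondegenerate (m - 1) hab)
    (H28.five_le_minus (by omega))
  rw [H30.coe_qMinus] at h
  rw [h]
  congr 1
  by_cases hp : p = 2
  · subst hp
    rw [if_pos rfl, (S2605.result hf hF hm a b hab).2]
  · have h1 := S2606.result hf hF hp hm a b hab
    have h2 := H79.even_mul_half_iff (m := m) ((Fact.out : p.Prime).odd_of_ne_two hp).pow (q := p ^ f)
    rw [if_neg hp]
    split_ifs at h1 with h3
    · rw [if_neg fun k => h2.1 k h3, H28.card_of_equiv_prod h1, DihedralGroup.nat_card]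
    · rw [if_pos (h2.2 h3), H28.card_of_equiv_mult h1, Nat.card_prod, Nat.card_zmod,
        Nat.card_zmod]
      ring

end Cfsg.Agent.S0818
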