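import Cfsg.Statements.S0819
import Mathlib
import Cfsg.Agent.H28.Act
import Cfsg.Agent.H28.Transport

set_option autoImplicit false
open Cfsg

namespace Cfsg.Agent.S0819

open Cfsg.Agent.H28

/-- One step of the reduction of `x ^ n` modulo `x ^ 3 - t x ^ 2 + s x - 1`. -/
def step {K : Type*} [CommRing K] (t s : K) (p : K × K × K) : K × K × K :=
  (p.1 * t + p.2.1, p.2.2 - p.1 * s, p.1)

theorem aux {K : Type*} [Field K] (H : ∀ t s : K, ∃ k ∈ [3, 4, 5, 7],
      ((step t s)^[k] (0, 0, 1)).1 = 0 ∧ ((step t s)^[k] (0, 0, 1)).2.1 = 0)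
    (g : Matrix.ProjectiveSpecialLinearGroup (Fin 3) K) : orderOf g ≠ 15 := by
  obtain ⟨A, rfl⟩ := QuotientGroup.mk_surjective g
  obtain ⟨t, s, hts⟩ : ∃ t s : K, A.1 ^ 3 = t • A.1 ^ 2 - s • A.1 + 1 := by
    have hd := A.2
    rw [Matrix.det_fin_three] at hd
    refine ⟨A.1 0 0 + A.1 1 1 + A.1 2 2, A.1 0 0 * A.1 1 1 - A.1 0 1 * A.1 1 0 +
      A.1 0 0 * A.1 2 2 - A.1 0 2 * A.1 2 0 + A.1 1 1 * A.1 2 2 - A.1 1 2 * A.1 2 1, ?_⟩
    ext i j
    fin_cases i <;> fin_cases j <;>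
      simp [pow_succ, Matrix.mul_apply, Fin.sum_univ_three] <;>
      first | ring1 | linear_combination hd
  have hk : ∀ k : ℕ, A.1 ^ k = ((step t s)^[k] (0, 0, 1)).1 • A.1 ^ 2 +
      ((step t s)^[k] (0, 0, 1)).2.1 • A.1 + ((step t s)^[k] (0, 0, 1)).2.2 • 1 := by
    intro k
    induction k with
    | zero => simp
    | succ k ih =>
      rw [Function.iterate_succ_apply', pow_succ, ih]
      simp only [step, add_mul, Matrix.smul_mul, ← pow_succ, ← sq, one_mul, hts]
      module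
  obtain ⟨k, hk1, h1, h2⟩ := H t s
  have hc : A ^ k ∈ Subgroup.center (Matrix.SpecialLinearGroup (Fin 3) K) := by
    rw [Subgroup.mem_center_iff]
    intro B
    apply Subtype.ext
    simp only [Matrix.SpecialLinearGroup.coe_mul, Matrix.SpecialLinearGroup.coe_pow]
    rw [hk, h1, h2]
    simp
  have h3 : (QuotientGroup.mk A : Matrix.ProjectiveSpecialLinearGroup (Fin 3) K) ^ k = 1 := by
    rw [← QuotientGroup.mk_pow]
    exact (QuotientGroup.eq_one_iff _).2 hc
  intro h
  have h4 := orderOf_dvd_of_pow_eq_one h3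
  rw [h] at h4
  simp only [List.mem_cons, List.not_mem_nil, or_false] at hk1
  rcases hk1 with rfl | rfl | rfl | rfl <;> omega

/-- No element of PSL_3(4) has order 15. -/
theorem result {F : Type*} [Field F] [Fintype F] (hF : Fintype.card F = 4) (g : Matrix.ProjectiveSpecialLinearGroup (Fin 3) F) : orderOf g ≠ 15 := by
  rw [← (pslEquiv (equivF4 hF) (Fin 3)).orderOf_eq]
  exact aux (K := F4) (by decide +kernel) _

end Cfsg.Agent.S0819
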