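import Cfsg.Statements.S0823
import Mathlib
import Cfsg.Agent.H28.Act
import Cfsg.Agent.H28.OmegaIso
import Cfsg.Agent.S0286

set_option autoImplicit false
open Cfsg

namespace Cfsg.Agent.S0823

open Cfsg.Agent.H28
open scoped Matrix

/-- Basis of the sum-zero vectors. -/
def A (i : Fin 4) : Unit ⊕ (Fin 1 ⊕ Fin 1) → ZMod 3
  | .inl _ => ![1, -1, 0, 0] i
  | .inr (.inl _) => ![1, 1, 1, 0] i
  | .inr (.inr _) => ![-1, -1, 0, -1] i

/-- Coordinates of a sum-zero vector. -/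
def rho (x : Fin 4 → ZMod 3) : Unit ⊕ (Fin 1 ⊕ Fin 1) → ZMod 3
  | .inl _ => x 0 - x 2 - x 3
  | .inr (.inl _) => x 2
  | .inr (.inr _) => -x 3

/-- The sign in `ZMod 3`. -/
def sg (σ : Equiv.Perm (Fin 4)) : ZMod 3 := ((Equiv.Perm.sign σ : ℤˣ) : ℤ)

theorem key1 : ∀ (σ : Equiv.Perm (Fin 4)) (v : Unit ⊕ (Fin 1 ⊕ Fin 1) → ZMod 3),
    (∀ i, sg σ * ∑ k, A (σ⁻¹ i) k * v k =
      ∑ l, A i l * rho (fun i => sg σ * ∑ k, A (σ⁻¹ i) k * v k) l) ∧
    quadFormOdd 1 (ZMod 3) (rho (fun i => sg σ * ∑ k, A (σ⁻¹ i) k * v k)) =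
      quadFormOdd 1 (ZMod 3) v ∧ ∀ l, rho (fun i => ∑ k, A i k * v k) l = v l := by
  decide +kernel

theorem key2 : ∀ σ : Equiv.Perm (Fin 4),
    (Matrix.of fun l k => rho (fun i => sg σ * A (σ⁻¹ i) k) l).det = 1 ∧
    ((∀ i k, sg σ * A (σ⁻¹ i) k = A i k) → σ = 1) := by
  decide +kernel

theorem exists_hom : ∃ φ : Equiv.Perm (Fin 4) →*
    specialIsometryGroup (ZMod 3) (quadFormOdd 1 (ZMod 3)), Function.Injective φ := by
  let M : (Unit ⊕ (Fin 1 ⊕ Fin 1) → ZMod 3) →ₗ[ZMod 3] (Fin 4 → ZMod 3) :=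
    Matrix.toLin' (Matrix.of A)
  have hM : ∀ v i, M v i = ∑ k, A i k * v k := fun _ _ => rfl
  have hρ : ∀ v, rho (M v) = v := fun v => funext (key1 1 v).2.2
  let α : Equiv.Perm (Fin 4) → (Fin 4 → ZMod 3) →ₗ[ZMod 3] (Fin 4 → ZMod 3) := fun σ =>
    { toFun := fun x i => sg σ * x (σ⁻¹ i)
      map_add' := fun x y => by ext i; simp [mul_add]
      map_smul' := fun c x => by ext i; simp [mul_left_comm] }
  have hα : ∀ σ x i, α σ x i = sg σ * x (σ⁻¹ i) := fun _ _ _ => rfl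
  obtain ⟨φ, hφ⟩ := exists_isometry_hom M (fun u v h => by rw [← hρ u, h, hρ]) α
    (fun x => by ext i; simp [hα, sg])
    (fun σ τ x => by
      ext i
      rw [hα, hα, hα, ← mul_assoc]
      simp [sg])
    (quadFormOdd 1 (ZMod 3)) (fun σ v => ⟨_, funext (key1 σ v).1, (key1 σ v).2.1⟩)
  have hA : ∀ k i, M (Pi.single k 1) i = A i k := fun k i => by
    simp [M]
  have hmat : ∀ σ, (φ σ).1.1 = Matrix.of fun l k => rho (fun i => sg σ * A (σ⁻¹ i) k) l := by
    intro σ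
    ext l k
    have h := congrArg rho (hφ σ (Pi.single k 1))
    rw [hρ] at h
    have h' := congrFun h l
    simp only [Matrix.mulVec_single_one, Matrix.col_apply] at h'
    rw [Matrix.of_apply, h']
    congr 1
    ext i
    rw [hα, hA]
  refine ⟨φ.codRestrict _ fun σ => ?_, ?_⟩
  · rw [specialIsometryGroup, MonoidHom.mem_ker]
    apply Units.ext
    exact (congrArg Matrix.det (hmat σ)).trans (key2 σ).1
  · rw [injective_iff_map_eq_one]
    intro σ hσ
    have h1 : φ σ = 1 := congrArg Subtype.val hσ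
    refine (key2 σ).2 fun i k => ?_
    have h := congrFun (hφ σ (Pi.single k 1)) i
    rw [h1, hα, hA] at h
    simp only [OneMemClass.coe_one, Units.val_one, Matrix.one_mulVec] at h
    rw [← h, hA]

/-- SO_3(3) ≅ S_4: the determinant-one isometries of the form x_0² + x_1y_1 over the field with 3 elements form a group isomorphic to the symmetric group on 4 letters. -/
theorem result {F : Type*} [Field F] [Fintype F] (hF : Fintype.card F = 3) : Nonempty (↥(Cfsg.specialIsometryGroup F (Cfsg.quadFormOdd 1 F)) ≃* Equiv.Perm (Fin 4)) := by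
  obtain ⟨f, hf⟩ := exists_hom
  have e := specialIsometryEquiv (equivZMod 3 hF) (Cfsg.quadFormOdd 1 F)
    (Cfsg.quadFormOdd 1 (ZMod 3)) (quadFormOdd_map (equivZMod 3 hF) 1)
  have hc := Cfsg.Agent.S0286.result (F := ZMod 3) (q := 3) (by simp) (by decide) 1
  have hi : (specialIsometryGroup (ZMod 3) (quadFormOdd 1 (ZMod 3))).index ≠ 1 := by
    rw [Ne, Subgroup.index_eq_one]
    intro h
    have hm : (-1 : GL (Unit ⊕ (Fin 1 ⊕ Fin 1)) (ZMod 3)) ∈
        isometryGroup (ZMod 3) (quadFormOdd 1 (ZMod 3)) := by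
      rw [mem_isometryGroup_iff]
      intro v
      simp [quadFormOdd, Matrix.neg_mulVec]
    have : (⟨-1, hm⟩ : isometryGroup (ZMod 3) (quadFormOdd 1 (ZMod 3))) ∈
        specialIsometryGroup (ZMod 3) (quadFormOdd 1 (ZMod 3)) := h ▸ Subgroup.mem_top _
    rw [specialIsometryGroup, MonoidHom.mem_ker] at this
    have h2 := congrArg Units.val this
    simp [Matrix.det_neg] at h2
    exact absurd h2 (by decide)
  have h3 := (specialIsometryGroup (ZMod 3) (quadFormOdd 1 (ZMod 3))).index_mul_card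
  have h0 := (specialIsometryGroup (ZMod 3) (quadFormOdd 1 (ZMod 3))).index_ne_zero_of_finite
  obtain ⟨e'⟩ := equiv_of_injective_of_card f hf (by
    rw [Nat.card_perm, Nat.card_fin]
    rw [hc] at h3
    have h4 : 2 ≤ (specialIsometryGroup (ZMod 3) (quadFormOdd 1 (ZMod 3))).index := by omega
    have h5 := Nat.mul_le_mul_right (Nat.card (specialIsometryGroup (ZMod 3) (quadFormOdd 1 (ZMod 3)))) h4
    rw [h3] at h5
    simp [Nat.factorial] at h5 ⊢
    omega)
  exact ⟨e.trans e'.symm⟩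

end Cfsg.Agent.S0823
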