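import Cfsg.Statements.S0825
import Mathlib
import Cfsg.Agent.H28.Act
import Cfsg.Agent.H28.Transport
import Cfsg.Agent.H28.SymO
import Cfsg.Agent.S0287

set_option autoImplicit false
open Cfsg

namespace Cfsg.Agent.S0825

/-- O⁺_6(2) ≅ S_8: the isometry group of the hyperbolic form x_1y_1 + x_2y_2 + x_3y_3 over the field with 2 elements is isomorphic to the symmetric group on 8 letters. -/
theorem result {F : Type*} [Field F] [Fintype F] (hF : Fintype.card F = 2) : Nonempty (↥(Cfsg.isometryGroup F (Cfsg.quadFormPlus 3 F)) ≃* Equiv.Perm (Fin 8)) := by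
  obtain ⟨f, hf⟩ := Cfsg.Agent.H28.exists_S8_O6plus
  have e := Cfsg.Agent.H28.isometryEquiv (Cfsg.Agent.H28.equivZMod 2 hF)
    (Cfsg.quadFormPlus 3 F) (Cfsg.quadFormPlus 3 (ZMod 2))
      (Cfsg.Agent.H28.quadFormPlus_map (Cfsg.Agent.H28.equivZMod 2 hF) 3)
  have hc := Cfsg.Agent.S0287.result (F := ZMod 2) (q := 2) (by simp) 3 (by norm_num)
  obtain ⟨e'⟩ := Cfsg.Agent.H28.equiv_of_injective_of_card f hf (by
      rw [Nat.card_perm, Nat.card_fin]
      exact hc.le.trans (by decide +kernel))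
  exact ⟨e.trans e'.symm⟩

end Cfsg.Agent.S0825
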