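import Cfsg.Statements.S0826
import Cfsg.Agent.H27.AltBasis

set_option autoImplicit false
open Cfsg

namespace Cfsg.Agent.S0826

open Module H27

section

variable {α : Type} [Fintype α] [DecidableEq α] (i₀ : α)

/-- Even vectors vanishing at the base point: a complement to the all-one vector. -/
def W : Submodule (ZMod 2) (α → ZMod 2) :=
  LinearMap.ker ((Fintype.linearCombination (ZMod 2) fun _ => (1 : ZMod 2)).prod (LinearMap.proj i₀))

variable {i₀}

omit [DecidableEq α] in
theorem mem_W {x : α → ZMod 2} : x ∈ W i₀ ↔ ∑ i, x i = 0 ∧ x i₀ = 0 := by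
  simp [W, Fintype.linearCombination_apply]

theorem finrank_W [Nontrivial α] : finrank (ZMod 2) (W i₀) + 2 = Fintype.card α := by
  have := LinearMap.finrank_range_add_finrank_ker (K := ZMod 2) (V := α → ZMod 2)
    ((Fintype.linearCombination (ZMod 2) fun _ => (1 : ZMod 2)).prod (LinearMap.proj i₀))
  rw [LinearMap.range_eq_top.2 fun ⟨a, b⟩ => by
    obtain ⟨j, hj⟩ := exists_ne i₀
    exact ⟨Pi.single i₀ b + Pi.single j (a - b), by
      simp [Fintype.linearCombination_apply, Finset.sum_add_distrib, hj.symm]⟩] at this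
  rw [finrank_top, finrank_prod, finrank_self, finrank_fintype_fun_eq_card, add_comm] at this
  exact this

theorem sub_mem_W (h : Even (Fintype.card α)) {x : α → ZMod 2} (hx : ∑ i, x i = 0) :
    (fun i => x i - x i₀) ∈ W i₀ :=
  mem_W.2 ⟨by simp [hx, (ZMod.natCast_eq_zero_iff_even).2 h], sub_self _⟩

variable (i₀) in
/-- The action of the symmetric group. -/
def rho (h : Even (Fintype.card α)) : Equiv.Perm α →* End (ZMod 2) (W i₀) where
  toFun g :=
    { toFun := fun x => ⟨fun i => x.1 (g⁻¹ i) - x.1 (g⁻¹ i₀), sub_mem_W h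
        ((Equiv.sum_comp g⁻¹ x.1).trans (mem_W.1 x.2).1)⟩
      map_add' := fun x y => Subtype.ext (funext fun i => by simp; ring)
      map_smul' := fun c x => Subtype.ext (funext fun i => by simp; ring) }
  map_one' := LinearMap.ext fun x => Subtype.ext (funext fun i => by simp [(mem_W.1 x.2).2])
  map_mul' g g' := LinearMap.ext fun x => Subtype.ext (funext fun i => by simp)

theorem rho_apply (h : Even (Fintype.card α)) (g : Equiv.Perm α) (x : W i₀) (i : α) :
    (rho i₀ h g x).1 i = x.1 (g⁻¹ i) - x.1 (g⁻¹ i₀) := rfl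

variable (i₀) in
/-- The dot product. -/
def B : LinearMap.BilinForm (ZMod 2) (W i₀) :=
  LinearMap.BilinForm.restrict (dotProductBilin (ZMod 2) (ZMod 2)) _

omit [DecidableEq α] in
theorem B_apply (x y : W i₀) : B i₀ x y = ∑ i, x.1 i * y.1 i := rfl

theorem B_alt : (B i₀).IsAlt := fun x => by
  rw [B_apply, ← (mem_W.1 x.2).1]
  exact Finset.sum_congr rfl fun i _ => (by decide : ∀ a : ZMod 2, a * a = a) _

theorem sum_pair (i j : α) : ∑ k, (Pi.single i 1 - Pi.single j 1 : α → ZMod 2) k = 0 := by simp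

theorem B_nondeg (h : Even (Fintype.card α)) : (B i₀).Nondegenerate :=
  B_alt.isRefl.nondegenerate_iff_separatingLeft.2 fun x hx => Subtype.ext (funext fun i => by
    have := hx ⟨_, sub_mem_W h (sum_pair i i₀)⟩
    simp only [B_apply, mul_sub, Finset.sum_sub_distrib, ← Finset.sum_mul, (mem_W.1 x.2).1,
      Pi.sub_apply] at this
    simpa [Pi.single_apply, (mem_W.1 x.2).2] using this)

theorem B_rho (h : Even (Fintype.card α)) (g : Equiv.Perm α) (x y : W i₀) :
    B i₀ (rho i₀ h g x) (rho i₀ h g y) = B i₀ x y := by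
  simp only [B_apply, rho_apply, mul_sub, sub_mul, Finset.sum_sub_distrib, ← Finset.sum_mul,
    ← Finset.mul_sum, Equiv.sum_comp g⁻¹ x.1, Equiv.sum_comp g⁻¹ y.1, (mem_W.1 x.2).1,
    (mem_W.1 y.2).1, Equiv.sum_comp g⁻¹ fun i => x.1 i * y.1 i]
  simp [(ZMod.natCast_eq_zero_iff_even).2 h]

theorem rho_eq_one (h : Even (Fintype.card α)) (h5 : 5 ≤ Fintype.card α) {g : Equiv.Perm α}
    (hg : rho i₀ h g = 1) : g = 1 := by
  by_contra hne
  obtain ⟨i, hi⟩ : ∃ i, g i ≠ i := not_forall.1 fun h => hne (Equiv.ext h)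
  obtain ⟨k, -, hk⟩ := Finset.exists_mem_notMem_of_card_lt_card (s := {i, g i})
    (t := Finset.univ) (Finset.card_le_two.trans_lt (by rw [Finset.card_univ]; omega))
  obtain ⟨l, -, hl⟩ := Finset.exists_mem_notMem_of_card_lt_card (s := {i, g i, k, g k})
    (t := Finset.univ) (Finset.card_le_four.trans_lt (by rw [Finset.card_univ]; omega))
  simp only [Finset.mem_insert, Finset.mem_singleton, not_or] at hk hl
  have h1 := fun a => congrFun (congrArg Subtype.val
    (LinearMap.congr_fun hg ⟨_, sub_mem_W h (sum_pair i k)⟩)) a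
  simp only [rho_apply, End.one_apply, sub_sub_sub_cancel_right] at h1
  have h2 := congrArg₂ (· - ·) (h1 (g i)) (h1 l)
  simp only [sub_sub_sub_cancel_right] at h2
  simp [Pi.single_apply, Equiv.symm_apply_eq, hi, Ne.symm hk.1, Ne.symm hk.2, hl] at h2

end

/-- S_2n ≤ Sp_(2n−2)(2) for n ≥ 3: there is an injective homomorphism from the symmetric group on 2n letters into the symplectic group of degree 2n − 2 over the field with two elements. -/
theorem result (n : ℕ) (hn : 3 ≤ n) : ∃ f : Equiv.Perm (Fin (2 * n)) →* Matrix.symplecticGroup (Fin (n - 1)) (ZMod 2), Function.Injective f := by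
  have h : Even (Fintype.card (Fin (2 * n))) := by simp
  let i₀ : Fin (2 * n) := ⟨0, by omega⟩
  have : Nontrivial (Fin (2 * n)) := Fin.nontrivial_iff_two_le.2 (by omega)
  obtain ⟨e⟩ := nonempty_sp_equiv_isomGroup (B_nondeg (i₀ := i₀) h) B_alt (m := n - 1) (by
    have := finrank_W (i₀ := i₀)
    rw [Fintype.card_fin] at this
    omega)
  refine ⟨e.symm.toMonoidHom.comp
    (((LinearMap.GeneralLinearGroup.generalLinearEquiv _ _).toMonoidHom.comp
      (rho i₀ h).toHomUnits).codRestrict _ fun g => B_rho h g),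
    e.symm.injective.comp ((injective_iff_map_eq_one _).2 fun g hg => ?_)⟩
  exact rho_eq_one h (by simp; omega)
    (LinearMap.ext fun x => LinearEquiv.congr_fun (congrArg Subtype.val hg) x)

end Cfsg.Agent.S0826
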