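import Cfsg.Statements.S0828
import Cfsg.Agent.H27.AltCount

set_option autoImplicit false
open Cfsg

namespace Cfsg.Agent.S0828

/-- The symplectic generalised quadrangle over a field with q elements: the number of 2-dimensional subspaces of F^4 on which the symplectic form vanishes is (q + 1)(q² + 1), and every non-zero vector lies in exactly q + 1 of them. -/
theorem result {F : Type*} [Field F] [Fintype F] {q : ℕ} (hF : Fintype.card F = q) : Nat.card {W : Submodule F (Fin 2 ⊕ Fin 2 → F) // Module.finrank F W = 2 ∧ ∀ u ∈ W, ∀ v ∈ W, Cfsg.sympForm 2 F u v = 0} = (q + 1) * (q ^ 2 + 1) ∧ ∀ v : Fin 2 ⊕ Fin 2 → F, v ≠ 0 → Nat.card {W : Submodule F (Fin 2 ⊕ Fin 2 → F) // Module.finrank F W = 2 ∧ v ∈ W ∧ ∀ u ∈ W, ∀ w ∈ W, Cfsg.sympForm 2 F u w = 0} = q + 1 := by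
  have hB := H27.jBilin_nondegenerate (l := Fin 2) (F := F)
  have hA := H27.jBilin_isAlt (l := Fin 2) (F := F)
  have hq : 1 < q := hF ▸ Fintype.one_lt_card
  obtain ⟨r, rfl⟩ : ∃ r, q = r + 1 := ⟨q - 1, by omega⟩
  have hr : 0 < r := by omega
  simp only [H27.sympForm_eq_jBilin]
  refine ⟨?_, fun v hv => ?_⟩
  · have h := H27.ncard_isotropic_mul hB hA (m := 2) (by simp) (k := 2) le_rfl
    rw [hF, ← Nat.card_coe_set_eq] at h
    simp only [H27.spOrder, Fin.prod_univ_two, Finset.prod_range_succ, Finset.prod_range_zero,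
      Nat.sub_self, Fin.val_zero, Fin.val_one] at h
    have e1 : (r + 1) ^ 2 - (r + 1) ^ 0 = r * (r + 2) := by
      refine Nat.sub_eq_of_eq_add (by ring)
    have e2 : (r + 1) ^ 2 - (r + 1) ^ 1 = r * (r + 1) := by
      refine Nat.sub_eq_of_eq_add (by ring)
    have e3 : (r + 1) ^ (2 * (0 + 1)) - 1 = r * (r + 2) := by
      refine Nat.sub_eq_of_eq_add (by ring)
    have e4 : (r + 1) ^ (2 * (1 + 1)) - 1 = r * (r + 2) * ((r + 1) ^ 2 + 1) := by
      refine Nat.sub_eq_of_eq_add (by ring)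
    rw [e1, e2, e3, e4] at h
    refine Nat.eq_of_mul_eq_mul_right ?_ (h.trans ?_)
    · positivity
    · norm_num
      ring
  · have h := H27.ncard_isotropic_over_mul hB (U := F ∙ v) hA (fun u hu w hw => by
      obtain ⟨a, rfl⟩ := Submodule.mem_span_singleton.1 hu
      obtain ⟨b, rfl⟩ := Submodule.mem_span_singleton.1 hw
      simp [hA.self_eq_zero])
    rw [hF, ← Nat.card_coe_set_eq, finrank_span_singleton hv] at h
    simp only [Submodule.span_singleton_le_iff_mem, Module.finrank_fintype_fun_eq_card,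
      Fintype.card_sum, Fintype.card_fin] at h
    have e1 : (r + 1) ^ (1 + 1) - (r + 1) ^ 1 = r * (r + 1) := by
      refine Nat.sub_eq_of_eq_add (by ring)
    have e2 : (r + 1) ^ (2 + 2 - 1) - (r + 1) ^ 1 = (r + 1 + 1) * (r * (r + 1)) := by
      refine Nat.sub_eq_of_eq_add (by ring)
    rw [e1, e2] at h
    exact Nat.eq_of_mul_eq_mul_right (by positivity) h

end Cfsg.Agent.S0828
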