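import Cfsg.Statements.S0830
import Cfsg.Agent.H31.HermStab

set_option autoImplicit false
open Cfsg

namespace Cfsg.Agent.S0830

open Cfsg.Agent.H31

/-- The unitary quadrangle of PSU_5(q): with |F| = q², the number of 2-dimensional subspaces of F^5 on which the Hermitian form vanishes is (q³ + 1)(q⁵ + 1). -/
theorem result {F : Type*} [Field F] [Fintype F] {q : ℕ} (hF : Fintype.card F = q ^ 2) : Nat.card {W : Submodule F (Fin 5 → F) // Module.finrank F W = 2 ∧ ∀ u ∈ W, ∀ v ∈ W, Cfsg.hermForm 5 F q u v = 0} = (q ^ 3 + 1) * (q ^ 5 + 1) := by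
  have h := (isHerm_hermB hF 5).card_totIso_subspaces hF (fun _ => rfl) 2
  have hq := two_le_of_card_sq hF
  simp only [totIso_hermB_iff hF, finrank_fin] at h
  have h1 : 1 ≤ q := by omega
  have h2 : q ^ 2 ≤ q ^ 4 := Nat.pow_le_pow_right h1 (by norm_num)
  have h3 : 1 < q ^ 2 := Nat.one_lt_pow (by norm_num) (by omega)
  have h4 : q ^ 2 < q ^ 4 := Nat.pow_lt_pow_right (by omega) (by norm_num)
  have e : ∏ i : Fin 2, ((q ^ 2) ^ 2 - (q ^ 2) ^ (i : ℕ)) = (q ^ 4 - 1) * (q ^ 4 - q ^ 2) := by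
    rw [Fin.prod_univ_two, ← pow_mul]; simp
  rw [e] at h
  have hpos : 0 < (q ^ 4 - 1) * (q ^ 4 - q ^ 2) := Nat.mul_pos (by omega) (by omega)
  apply Nat.eq_of_mul_eq_mul_right hpos
  rw [h]
  simp only [cT, Finset.prod_range_succ, Finset.prod_range_zero, cI]
  norm_num
  have h5 : 1 ≤ q ^ 4 := by omega
  have h6 : 1 ≤ q ^ 2 := by omega
  zify [h5, h6, h2]
  ring

end Cfsg.Agent.S0830
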