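import Cfsg.Statements.S0831
import Cfsg.Agent.H30.OrthMaxTS

set_option autoImplicit false
open Cfsg

namespace Cfsg.Agent.S0831

/-- The two families of maximal totally singular subspaces of the hyperbolic quadric: for the form Σ x_i y_i on F^(2m), m ≥ 1, and m-dimensional subspaces U, W, X on which it vanishes, the parities of m − dim(U ∩ W), m − dim(W ∩ X) and m − dim(U ∩ X) sum to an even number (so 'even codimension of the intersection' is an equivalence relation), and there exist two such subspaces meeting in codimension 1 (so there are exactly two classes). -/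
theorem result {F : Type*} [Field F] (m : ℕ) (hm : 1 ≤ m) : (∀ U W X : Submodule F (Fin m ⊕ Fin m → F), (Module.finrank F U = m ∧ ∀ w ∈ U, Cfsg.quadFormPlus m F w = 0) → (Module.finrank F W = m ∧ ∀ w ∈ W, Cfsg.quadFormPlus m F w = 0) → (Module.finrank F X = m ∧ ∀ w ∈ X, Cfsg.quadFormPlus m F w = 0) → Even ((m - Module.finrank F ↥(U ⊓ W)) + (m - Module.finrank F ↥(W ⊓ X)) + (m - Module.finrank F ↥(U ⊓ X)))) ∧ ∃ U W : Submodule F (Fin m ⊕ Fin m → F), (Module.finrank F U = m ∧ ∀ w ∈ U, Cfsg.quadFormPlus m F w = 0) ∧ (Module.finrank F W = m ∧ ∀ w ∈ W, Cfsg.quadFormPlus m F w = 0) ∧ Module.finrank F ↥(U ⊓ W) + 1 = m := by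
  have hQ := H30.qPlus_nondegenerate (F := F) m
  have hd : Module.finrank F (Fin m ⊕ Fin m → F) = 2 * m := by simp; omega
  constructor
  · intro U W X hU hW hX
    have h := H30.IsMTS.parity hQ (U := U) (W := W) (X := X) ⟨by omega, hU.2⟩ ⟨by omega, hW.2⟩
      ⟨by omega, hX.2⟩
    have h1 := Submodule.finrank_mono (inf_le_left (a := U) (b := W))
    have h2 := Submodule.finrank_mono (inf_le_left (a := W) (b := X))
    have h3 := Submodule.finrank_mono (inf_le_left (a := U) (b := X))
    rw [Nat.even_iff] at h ⊢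
    omega
  · obtain ⟨U, hU1, hU2⟩ := H79.isPlus_plus (F := F) m
    have hU : H30.IsMTS (H30.qPlus F m) U := ⟨hU1, hU2⟩
    have : Nontrivial (Fin m ⊕ Fin m → F) := Module.nontrivial_of_finrank_pos (R := F) (by omega)
    obtain ⟨v, -, hv⟩ := (H30.nondegOn_top hQ).exists_Q_ne_zero top_ne_bot
    have h1 := hU.finrank_inf_map_refl hQ hv
    have h2 := hU.map (H30.refl _ v)
    have h3 := h2.dim
    exact ⟨U, _, ⟨by omega, hU2⟩, ⟨by omega, h2.ts⟩, by omega⟩

end Cfsg.Agent.S0831
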