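import Cfsg.Statements.S0832
import Cfsg.Agent.H30.OrthMaxTS

set_option autoImplicit false
open Cfsg

namespace Cfsg.Agent.S0832

/-- For the form Σ x_i y_i on F^(2m) over a finite field, m ≥ 1: an (m−1)-dimensional subspace on which the form vanishes is contained in exactly two m-dimensional subspaces on which it vanishes. -/
theorem result {F : Type*} [Field F] [Finite F] (m : ℕ) (hm : 1 ≤ m) (U : Submodule F (Fin m ⊕ Fin m → F)) (hU : Module.finrank F U + 1 = m ∧ ∀ u ∈ U, Cfsg.quadFormPlus m F u = 0) : Nat.card {W : Submodule F (Fin m ⊕ Fin m → F) // Module.finrank F W = m ∧ (∀ w ∈ W, Cfsg.quadFormPlus m F w = 0) ∧ U ≤ W} = 2 := by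
  have hQ := H30.qPlus_nondegenerate (F := F) m
  have hd : Module.finrank F (Fin m ⊕ Fin m → F) = 2 * m := by simp; omega
  obtain ⟨W, W', hne, hW, hW', hinf, huniq⟩ :=
    H30.exists_two_isMTS hQ (H79.isPlus_plus m) (U := U) (by omega) hU.2
  have h1 := hW.dim
  have h2 := hW'.dim
  rw [Nat.card_eq_two_iff]
  refine ⟨⟨W, by omega, hW.ts, hinf ▸ inf_le_left⟩, ⟨W', by omega, hW'.ts, hinf ▸ inf_le_right⟩,
    fun h => hne (congrArg Subtype.val h), ?_⟩
  rw [Set.eq_univ_iff_forall]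
  rintro ⟨X, hX1, hX2, hX3⟩
  rcases huniq X ⟨by omega, hX2⟩ hX3 with h | h
  · exact Or.inl (Subtype.ext h)
  · exact Or.inr (Subtype.ext h)

end Cfsg.Agent.S0832
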