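import Cfsg.Statements.S0833
import Cfsg.Agent.H27.AltCount

set_option autoImplicit false
open Cfsg

namespace Cfsg.Agent.S0833

open Module in
theorem tmul_nondegenerate {F U W : Type*} [Field F] [AddCommGroup U] [Module F U]
    [FiniteDimensional F U] [AddCommGroup W] [Module F W] [FiniteDimensional F W]
    {B₁ : LinearMap.BilinForm F U} {B₂ : LinearMap.BilinForm F W} (h₁ : B₁.Nondegenerate)
    (h₂ : B₂.Nondegenerate) : LinearMap.BilinForm.Nondegenerate (B₁.tmul B₂) := by
  let b₁ := Module.finBasis F U
  let b₂ := Module.finBasis F W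
  rw [LinearMap.BilinForm.nondegenerate_iff_det_ne_zero (b₁.tensorProduct b₂)]
  rw [LinearMap.BilinForm.nondegenerate_iff_det_ne_zero b₁] at h₁
  rw [LinearMap.BilinForm.nondegenerate_iff_det_ne_zero b₂] at h₂
  have : LinearMap.BilinForm.toMatrix (b₁.tensorProduct b₂) (B₁.tmul B₂) =
      Matrix.kroneckerMap (· * ·) (LinearMap.BilinForm.toMatrix b₁ B₁)
        (LinearMap.BilinForm.toMatrix b₂ B₂) := by
    ext ⟨i, j⟩ ⟨k, l⟩
    simp [LinearMap.BilinForm.toMatrix_apply, Basis.tensorProduct_apply, mul_comm]
  rw [this, Matrix.det_kronecker]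
  exact mul_ne_zero (pow_ne_zero _ h₁) (pow_ne_zero _ h₂)

/-- If B₁, B₂ are non-degenerate alternating forms on U (dim 2k) and W (dim 2l), then B₁ ⊗ B₂ on U ⊗ W is symmetric, non-degenerate, and vanishes identically on some subspace of dimension 2kl (half of dim U ⊗ W). -/
theorem result {F U W : Type*} [Field F] [Fintype F] [AddCommGroup U] [Module F U] [FiniteDimensional F U] [AddCommGroup W] [Module F W] [FiniteDimensional F W] (B₁ : LinearMap.BilinForm F U) (B₂ : LinearMap.BilinForm F W) (h₁ : B₁.Nondegenerate) (h₂ : B₂.Nondegenerate) (hA₁ : B₁.IsAlt) (hA₂ : B₂.IsAlt) (k l : ℕ) (hU : Module.finrank F U = 2 * k) (hW : Module.finrank F W = 2 * l) : (B₁.tmul B₂).IsSymm ∧ (B₁.tmul B₂).Nondegenerate ∧ (∃ X : Submodule F (TensorProduct F U W), Module.finrank F X = 2 * k * l ∧ ∀ x ∈ X, ∀ y ∈ X, (B₁.tmul B₂) x y = 0) := by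
  refine ⟨⟨fun x y => ?_⟩, tmul_nondegenerate h₁ h₂, ?_⟩
  · induction x using TensorProduct.induction_on with
    | zero => simp
    | add a b ha hb => simp only [map_add, LinearMap.add_apply, ha, hb]
    | tmul u w =>
      induction y using TensorProduct.induction_on with
      | zero => simp
      | add a b ha hb => simp only [map_add, LinearMap.add_apply, ha, hb]
      | tmul u' w' =>
        simp only [LinearMap.BilinForm.tensorDistrib_tmul, RingHom.id_apply, smul_eq_mul]
        rw [← hA₁.neg_eq u u', ← hA₂.neg_eq w w', neg_mul_neg]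
  · obtain ⟨X, hXk, hX⟩ := H27.exists_isotropic_finrank_eq h₁ hA₁ (k := k) hU.ge
    refine ⟨LinearMap.range (X.subtype.rTensor W), ?_, ?_⟩
    · rw [LinearMap.finrank_range_of_inj
        (Module.Flat.rTensor_preserves_injective_linearMap _ X.injective_subtype),
        Module.finrank_tensorProduct, hXk, hW]
      ring
    · rintro _ ⟨x, rfl⟩ _ ⟨y, rfl⟩
      induction x using TensorProduct.induction_on with
      | zero => simp
      | add a b ha hb => simp only [map_add, LinearMap.add_apply, ha, hb, add_zero]
      | tmul u w =>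
        induction y using TensorProduct.induction_on with
        | zero => simp
        | add a b ha hb => simp only [map_add, ha, hb, add_zero]
        | tmul u' w' => simp [hX _ u.2 _ u'.2]

end Cfsg.Agent.S0833
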