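import Cfsg.Statements.S0834
import Cfsg.Agent.H79.QuadDisc

set_option autoImplicit false
open Cfsg

namespace Cfsg.Agent.S0834

/-- Over a finite field with 2 ≠ 0: if B₁ on U (dim 2k, k ≥ 1) and B₂ on W (dim 2l, l ≥ 1) are non-degenerate symmetric forms admitting no totally isotropic subspaces of dimensions k, resp. l (minus type), then B₁ ⊗ B₂ admits a totally isotropic subspace of dimension 2kl (plus type). -/
theorem result {F U W : Type*} [Field F] [Fintype F] [AddCommGroup U] [Module F U] [FiniteDimensional F U] [AddCommGroup W] [Module F W] [FiniteDimensional F W] (h2 : (2 : F) ≠ 0) (B₁ : LinearMap.BilinForm F U) (B₂ : LinearMap.BilinForm F W) (h₁ : B₁.Nondegenerate) (h₂ : B₂.Nondegenerate) (hS₁ : B₁.IsSymm) (hS₂ : B₂.IsSymm) (k l : ℕ) (hk : 1 ≤ k) (hl : 1 ≤ l) (hU : Module.finrank F U = 2 * k) (hW : Module.finrank F W = 2 * l) (hm₁ : ¬ (∃ X : Submodule F (U), Module.finrank F X = k ∧ ∀ x ∈ X, ∀ y ∈ X, (B₁) x y = 0)) (hm₂ : ¬ (∃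 X : Submodule F (W), Module.finrank F X = l ∧ ∀ x ∈ X, ∀ y ∈ X, (B₂) x y = 0)) : (∃ X : Submodule F (TensorProduct F U W), Module.finrank F X = 2 * k * l ∧ ∀ x ∈ X, ∀ y ∈ X, (B₁.tmul B₂) x y = 0) := by
  classical
  let bU := Module.finBasisOfFinrankEq F U hU
  let bW := Module.finBasisOfFinrankEq F W hW
  have hM : LinearMap.BilinForm.toMatrix (bU.tensorProduct bW) (B₁.tmul B₂) =
      Matrix.kroneckerMap (· * ·) (LinearMap.BilinForm.toMatrix bU B₁)
        (LinearMap.BilinForm.toMatrix bW B₂) := by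
    ext ⟨i, j⟩ ⟨i', j'⟩; simp [mul_comm]
  have d₁ := (LinearMap.BilinForm.nondegenerate_iff_det_ne_zero bU).mp h₁
  have d₂ := (LinearMap.BilinForm.nondegenerate_iff_det_ne_zero bW).mp h₂
  have hN : LinearMap.BilinForm.Nondegenerate (B₁.tmul B₂) := by
    rw [LinearMap.BilinForm.nondegenerate_iff_det_ne_zero (bU.tensorProduct bW), hM,
      Matrix.det_kronecker]
    exact mul_ne_zero (pow_ne_zero _ d₁) (pow_ne_zero _ d₂)
  have hS : LinearMap.BilinForm.IsSymm (B₁.tmul B₂) := by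
    rw [LinearMap.BilinForm.isSymm_iff] at hS₁ hS₂ ⊢
    exact LinearMap.IsSymm.tmul hS₁ hS₂
  rw [H79.exists_isotropic_iff_isSquare h2 hS hN (bU.tensorProduct bW) (by simp; ring), hM,
    Matrix.det_kronecker]
  refine ⟨(LinearMap.BilinForm.toMatrix bU B₁).det ^ l * (LinearMap.BilinForm.toMatrix bW B₂).det ^ k,
    ?_⟩
  rw [mul_assoc 2 k l, pow_mul]
  simp only [Fintype.card_fin]
  ring

end Cfsg.Agent.S0834
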