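import Cfsg.Statements.S0837
import Cfsg.Agent.H31.HermStab

set_option autoImplicit false
open Cfsg

namespace Cfsg.Agent.S0837

open Cfsg.Agent.H31

/-- If W ≤ F^n (|F| = q²) is a k-dimensional subspace on which the Hermitian form Σ x_i y_i^q is non-degenerate, then the stabiliser of W in GU_n(q) is isomorphic to GU_k(q) × GU_(n−k)(q). -/
theorem result {F : Type*} [Field F] [Fintype F] {q : ℕ} (hF : Fintype.card F = q ^ 2) (n k : ℕ) (hk : k ≤ n) (W : Submodule F (Fin n → F)) (hWk : Module.finrank F W = k) (hW : ∀ u ∈ W, (∀ v ∈ W, Cfsg.hermForm n F q u v = 0) → u = 0) : Nonempty (↥((Cfsg.stabilizing (Cfsg.glToMat (Fin n) F) (W : Set (Fin n → F))).subgroupOf (Cfsg.GU n F q)) ≃* ↥(Cfsg.GU k F q) × ↥(Cfsg.GU (n - k) F q)) := by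
  have h := isHerm_hermB hF n
  have hW' := (nondegOn_hermB_iff hF).mpr hW
  obtain ⟨e1⟩ := h.nonempty_stab_equiv_prod hW'
  obtain ⟨e2⟩ := (h.isHerm_restr hW').nonempty_isom_equiv_GU hF (fun _ => rfl) hWk
  obtain ⟨e3⟩ := (h.isHerm_restr (h.nondegOn_perp hW')).nonempty_isom_equiv_GU hF (fun _ => rfl)
    (n := n - k) (by rw [h.finrank_perp, hWk, finrank_fin])
  refine ⟨MulEquiv.trans ?_ (e1.trans (e2.prodCongr e3))⟩
  refine MulEquiv.trans ?_ (subgroupEquivOfIff (glEquiv (Fin n) F)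
    (H := stabilizing (glToMat (Fin n) F) (W : Set (Fin n → F)) ⊓ GU n F q)
    fun g => and_congr Iff.rfl (mem_GU_iff hF))
  rw [← Subgroup.inf_subgroupOf_right]
  exact Subgroup.subgroupOfEquivOfLe inf_le_right

end Cfsg.Agent.S0837
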