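import Cfsg.Statements.S0838
import Cfsg.Agent.H79.QuadDisc

set_option autoImplicit false
open Cfsg

namespace Cfsg.Agent.S0838

/-- Over a finite field with 2 ≠ 0 and n odd: two quadratic forms Q₁, Q₂ on F^n with non-degenerate polar forms are similar — there are an invertible linear map g and a scalar c ≠ 0 with Q₂ (g v) = c · Q₁ v for all v. -/
theorem result {F : Type*} [Field F] [Fintype F] (h2 : (2 : F) ≠ 0) {n : ℕ} (hn : Odd n) (Q₁ Q₂ : QuadraticForm F (Fin n → F)) (h₁ : (QuadraticMap.polarBilin Q₁).Nondegenerate) (h₂ : (QuadraticMap.polarBilin Q₂).Nondegenerate) : ∃ (g : (Fin n → F) ≃ₗ[F] (Fin n → F)) (c : F), c ≠ 0 ∧ ∀ v, Q₂ (g v) = c * Q₁ v := by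
  have n₁ := (H79.nd_iff _).mp h₁
  have n₂ := (H79.nd_iff _).mp h₂
  have d₁ := (H79.nd_iff_det_gram Q₁ (Pi.basisFun F _)).mp n₁
  have d₂ := (H79.nd_iff_det_gram Q₂ (Pi.basisFun F _)).mp n₂
  have hc := mul_ne_zero d₁ d₂
  obtain ⟨g, hg⟩ := H79.iso_of_isSquare_det h2 _ (H79.nd_smul n₁ hc) Q₂ n₂ (Pi.basisFun F _)
    (Pi.basisFun F _) rfl (by
      obtain ⟨k, rfl⟩ := hn
      rw [H79.gram_smul, Matrix.det_smul, Fintype.card_fin]
      exact ⟨((H79.gram Q₁ (Pi.basisFun F _)).det * (H79.gram Q₂ (Pi.basisFun F _)).det) ^ (k + 1),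
        by ring⟩)
  exact ⟨g, _, hc, fun v => by simpa using hg v⟩

end Cfsg.Agent.S0838
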