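import Cfsg.Statements.S0839
import Cfsg.Agent.H26.SLTrans

set_option autoImplicit false
open Cfsg

namespace Cfsg.Agent.S0839

/-- Every transvection t ∈ SL_(n+2)(F) (rank(t − 1) = 1, (t − 1)² = 0) is conjugate in SL_(n+2)(F) to 1 + v·e_0ᵀ for some column vector v with v_0 = 0 (the group A of matrices that are the identity except in the first column below the diagonal); the dimension is written n + 2 ≥ 2. -/
theorem result {F : Type*} [Field F] (n : ℕ) (t : Matrix.SpecialLinearGroup (Fin (n + 2)) F) (ht : Cfsg.IsTransvection (t : Matrix (Fin (n + 2)) (Fin (n + 2)) F)) : ∃ (g : Matrix.SpecialLinearGroup (Fin (n + 2)) F) (v : Fin (n + 2) → F), v 0 = 0 ∧ ((g⁻¹ * t * g : Matrix.SpecialLinearGroup (Fin (n + 2)) F) : Matrix (Fin (n + 2)) (Fin (n + 2)) F) = 1 + Matrix.vecMulVec v (Pi.single 0 1) := by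
  obtain ⟨hr, hsq⟩ := ht
  obtain ⟨u, w, huw⟩ := H26.exists_vecMulVec_of_rank_le_one _ hr.le
  have hne : Matrix.vecMulVec u w ≠ 0 := by
    intro h0
    rw [huw, h0, Matrix.rank_zero] at hr
    exact zero_ne_one hr
  have hu : u ≠ 0 := by rintro rfl; simp at hne
  have hw : w ≠ 0 := by rintro rfl; simp at hne
  have hwu : w ⬝ᵥ u = 0 := by
    rw [huw, Matrix.vecMulVec_mul_vecMulVec, Matrix.vecMulVec_eq_zero] at hsq
    rcases hsq with h | h
    · exact absurd h hu
    · exact (smul_eq_zero.1 h).resolve_right hw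
  obtain ⟨g, hg⟩ := H26.exists_sl_vecMul_eq hw
    (w := (Pi.single 0 1 : Fin (n + 2) → F)) (by simp)
  have ht' : (t : Matrix (Fin (n + 2)) (Fin (n + 2)) F) = 1 + Matrix.vecMulVec u w := by
    rw [← huw]; abel
  have hinv : ((g⁻¹ : Matrix.SpecialLinearGroup (Fin (n + 2)) F) : Matrix (Fin (n + 2)) (Fin (n + 2)) F) * (g : Matrix (Fin (n + 2)) (Fin (n + 2)) F) = 1 := by
    rw [← Matrix.SpecialLinearGroup.coe_mul, inv_mul_cancel, Matrix.SpecialLinearGroup.coe_one]
  have hinv' : (g : Matrix (Fin (n + 2)) (Fin (n + 2)) F) * ((g⁻¹ : Matrix.SpecialLinearGroup (Fin (n + 2)) F) : Matrix (Fin (n + 2)) (Fin (n + 2)) F) = 1 := by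
    rw [← Matrix.SpecialLinearGroup.coe_mul, mul_inv_cancel, Matrix.SpecialLinearGroup.coe_one]
  refine ⟨g, Matrix.mulVec ((g⁻¹ : Matrix.SpecialLinearGroup (Fin (n + 2)) F) : Matrix (Fin (n + 2)) (Fin (n + 2)) F) u, ?_, ?_⟩
  · have h1 : (Pi.single 0 1 : Fin (n + 2) → F) ⬝ᵥ
        Matrix.mulVec ((g⁻¹ : Matrix.SpecialLinearGroup (Fin (n + 2)) F) : Matrix (Fin (n + 2)) (Fin (n + 2)) F) u = 0 := by
      rw [← hg, Matrix.dotProduct_mulVec, Matrix.vecMul_vecMul, hinv', Matrix.vecMul_one, hwu]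
    simpa using h1
  · rw [Matrix.SpecialLinearGroup.coe_mul, Matrix.SpecialLinearGroup.coe_mul, ht', mul_add, mul_one,
      add_mul, hinv, Matrix.mul_vecMulVec, Matrix.vecMulVec_mul, hg]

end Cfsg.Agent.S0839
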