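import Cfsg.Statements.S0841
import Mathlib

set_option autoImplicit false
open Cfsg

namespace Cfsg.Agent.S0841

open scoped commutatorElement


/-- If the commutator subgroup of G lies in the centre, then for all x, y in G and every natural number n one has (x * y) ^ n = x ^ n * y ^ n * c ^ (n * (n - 1) / 2) with c = y⁻¹ * x⁻¹ * y * x. -/
theorem result {G : Type*} [Group G] (hG : commutator G ≤ Subgroup.center G) (x y : G) (n : ℕ) : (x * y) ^ n = x ^ n * y ^ n * (y⁻¹ * x⁻¹ * y * x) ^ (n * (n - 1) / 2) := by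
  set c := y⁻¹ * x⁻¹ * y * x with hc
  have hcc : c ∈ Subgroup.center G := by
    apply hG
    have : c = ⁅y⁻¹, x⁻¹⁆ := by simp [hc, commutatorElement_def]
    rw [this]
    exact Subgroup.commutator_mem_commutator (Subgroup.mem_top _) (Subgroup.mem_top _)
  have hcomm : ∀ g : G, Commute c g := fun g => (Subgroup.mem_center_iff.mp hcc g).symm
  have hyx : y * x = x * y * c := by rw [hc]; group
  -- y ^ n * x = x * y ^ n * c ^ n
  have h1 : ∀ n : ℕ, y ^ n * x = x * y ^ n * c ^ n := by
    intro n
    induction n with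
    | zero => simp
    | succ n ih =>
      calc y ^ (n + 1) * x = y * (y ^ n * x) := by rw [pow_succ', mul_assoc]
        _ = (y * x) * y ^ n * c ^ n := by rw [ih]; group
        _ = x * y * (c * y ^ n) * c ^ n := by rw [hyx]; group
        _ = x * y * (y ^ n * c) * c ^ n := by rw [(hcomm (y ^ n)).eq]
        _ = x * y ^ (n + 1) * c ^ (n + 1) := by group
  induction n with
  | zero => simp
  | succ n ih =>
    have he : (n + 1) * (n + 1 - 1) / 2 = n * (n - 1) / 2 + n := by
      rw [← Nat.choose_two_right, ← Nat.choose_two_right, Nat.choose_succ_succ' n 1]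
      simp [add_comm]
    have hck : ∀ (k : ℕ) (g : G), c ^ k * g = g * c ^ k := fun k g => ((hcomm g).pow_left k).eq
    calc (x * y) ^ (n + 1) = x ^ n * y ^ n * c ^ (n * (n - 1) / 2) * (x * y) := by rw [pow_succ, ih]
      _ = x ^ n * y ^ n * (c ^ (n * (n - 1) / 2) * (x * y)) := by group
      _ = x ^ n * (y ^ n * x) * y * c ^ (n * (n - 1) / 2) := by rw [hck]; group
      _ = x ^ n * x * y ^ n * (c ^ n * y) * c ^ (n * (n - 1) / 2) := by rw [h1]; group
      _ = x ^ n * x * y ^ n * (y * c ^ n) * c ^ (n * (n - 1) / 2) := by rw [hck n y]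
      _ = x ^ (n + 1) * y ^ (n + 1) * c ^ (n * (n - 1) / 2 + n) := by
        rw [add_comm (n * (n - 1) / 2) n, pow_add c, pow_succ x, pow_succ y]
        simp only [mul_assoc]
      _ = _ := by rw [he]

end Cfsg.Agent.S0841
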