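import Cfsg.Statements.S0842
import Cfsg.Agent.H15.Quat

set_option autoImplicit false
open Cfsg

namespace Cfsg.Agent.S0842


/-- Suppose a Sylow 2-subgroup S of the finite group G is generalized quaternion of order at least 16, and let D be the commutator subgroup of S, C its centralizer and N its normalizer in G. Then there is a subgroup K of odd order, contained in C and normalized by N, with K ⊔ S = N and K ⊔ (S ⊓ C) = C, and C has index 2 in N. -/
theorem result {G : Type*} [Group G] [Finite G] (S : Sylow 2 G) (n : ℕ) (e : (S : Subgroup G) ≃* QuaternionGroup (2 ^ (n + 2))) (D : Subgroup G) (hD : D = ⁅(S : Subgroup G), (S : Subgroup G)⁆) : ∃ K : Subgroup G, Odd (Nat.card K) ∧ K ≤ Subgroup.centralizer (D : Set G) ∧ Subgroup.normalizer (D : Set G) ≤ Subgroup.normalizer (K : Set G) ∧ K ⊔ (S : Subgroup G) = Subgroup.normalizer (D : Set G) ∧ K ⊔ ((S : Subgroup G) ⊓ Subgroup.centralizer (D : Set G)) = Subgroup.centralizer (D : Set G) ∧ ((Subgroup.centralizer (D : Set G)).subgroupOf (Subgroup.normalizer (D : Set G))).index = 2 := by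
  obtain ⟨a, b, h⟩ := H15.exists_qgens (S : Subgroup G) e
  rw [h.commutator_eq] at hD
  subst hD
  refine ⟨(pResidual 2 (Subgroup.centralizer ((Subgroup.zpowers (a ^ 2) : Subgroup G) : Set G))).map
    (Subgroup.subtype _), ?_, Subgroup.map_subtype_le _, ?_, ?_, ?_, h.index_C⟩
  · rw [Subgroup.card_map_of_injective (Subgroup.subtype_injective _), ← Nat.not_even_iff_odd,
      even_iff_two_dvd]
    exact H8.hasNormalPComplement_iff_not_dvd.1 h.npc_C
  · exact (H15.normalizer_le_normalizer_centralizer' _).trans
      (H8.normalizer_le_normalizer_pResidual _)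
  · refine le_antisymm (sup_le ((Subgroup.map_subtype_le _).trans
      (Subgroup.centralizer_le_normalizer _)) h.le_normalizer) fun g hg => ?_
    obtain ⟨s, hs, k, hk, rfl⟩ :=
      (H8.isSylowIn_of_le S h.le_normalizer).exists_mul_of_forall_coprime_mem
      (fun g hg ho => H8.mem_map_subtype_pResidual
        (H15.mem_centralizer_of_cyclic_two h.isPGroup_D hg ho) ho) hg
    exact mul_mem (Subgroup.mem_sup_right hs) (Subgroup.mem_sup_left hk)
  · refine le_antisymm (sup_le (Subgroup.map_subtype_le _) inf_le_right) fun g hg => ?_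
    rw [h.inf_centralizer]
    obtain ⟨s, hs, k, hk, rfl⟩ := h.isSylowIn_C.exists_mul_of_forall_coprime_mem
      (fun g hg ho => H8.mem_map_subtype_pResidual hg ho) hg
    exact mul_mem (Subgroup.mem_sup_right hs) (Subgroup.mem_sup_left hk)

end Cfsg.Agent.S0842
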