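import Cfsg.Statements.S0849
import Mathlib

set_option autoImplicit false
open Cfsg

namespace Cfsg.Agent.S0849

theorem ebz_mem {G : Type*} [Group G] (H : Subgroup G) (φ : H → ℂ) (x : H) :
    Cfsg.extendByZero H φ x = φ x :=
  Subtype.val_injective.extend_apply φ 0 x

theorem ebz_not_mem {G : Type*} [Group G] (H : Subgroup G) (φ : H → ℂ) (x : G) (hx : x ∉ H) :
    Cfsg.extendByZero H φ x = 0 := by
  unfold Cfsg.extendByZero
  rw [Function.extend_apply']
  · rfl
  · rintro ⟨a, rfl⟩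
    exact hx a.2


/-- Let H be a subgroup of a finite group G and S a subset of H that is mapped to itself under conjugation by H, is disjoint from its conjugate by any element outside H, and is closed under inverses. Let φ be a class function of H vanishing on H away from S, and let u, v be involutions of G. Then the sum of the induced function of φ over all products a * b with a conjugate to u and b conjugate to v equals the index of H times the sum of φ (a * b) over such pairs with a and b in H. -/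
theorem result {G : Type*} [Group G] [Fintype G] (H : Subgroup G) (S : Set G) (hSH : S ⊆ H) (hHS : ∀ h ∈ H, ∀ s ∈ S, h * s * h⁻¹ ∈ S) (hTI : ∀ g : G, g ∉ H → ∀ s ∈ S, g * s * g⁻¹ ∉ S) (hinv : ∀ s ∈ S, s⁻¹ ∈ S) (φ : H → ℂ) (hφ : Cfsg.IsClassFunction H φ) (hφS : ∀ x : H, (x : G) ∉ S → φ x = 0) (u v : G) (hu : orderOf u = 2) (hv : orderOf v = 2) : ∑ᶠ p ∈ {p : G × G | IsConj u p.1 ∧ IsConj v p.2}, Cfsg.indFun H φ (p.1 * p.2) = (H.index : ℂ) * ∑ᶠ p ∈ {p : H × H | IsConj u (p.1 : G) ∧ IsConj v (p.2 : G)}, φ (p.1 * p.2) := by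
  classical
  have e1 : {p : G × G | IsConj u p.1 ∧ IsConj v p.2} =
      ↑(Finset.univ.filter fun p : G × G => IsConj u p.1 ∧ IsConj v p.2) := by
    ext p; simp
  have e2 : {p : H × H | IsConj u (p.1 : G) ∧ IsConj v (p.2 : G)} =
      ↑(Finset.univ.filter fun p : H × H => IsConj u (p.1 : G) ∧ IsConj v (p.2 : G)) := by
    ext p; simp
  rw [e1, e2, finsum_mem_coe_finset, finsum_mem_coe_finset]
  set T := Finset.univ.filter fun p : G × G => IsConj u p.1 ∧ IsConj v p.2 with hT
  have hx : ∀ x : G, ∑ p ∈ T, Cfsg.extendByZero H φ (x⁻¹ * (p.1 * p.2) * x) =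
      ∑ p ∈ T, Cfsg.extendByZero H φ (p.1 * p.2) := by
    intro x
    refine Finset.sum_bij' (fun p _ => (x⁻¹ * p.1 * x, x⁻¹ * p.2 * x))
      (fun p _ => (x * p.1 * x⁻¹, x * p.2 * x⁻¹)) ?_ ?_ ?_ ?_ ?_
    · intro p hp
      simp only [hT, Finset.mem_filter, Finset.mem_univ, true_and] at hp ⊢
      exact ⟨hp.1.trans (isConj_iff.mpr ⟨x⁻¹, by simp⟩), hp.2.trans (isConj_iff.mpr ⟨x⁻¹, by simp⟩)⟩
    · intro p hp
      simp only [hT, Finset.mem_filter, Finset.mem_univ, true_and] at hp ⊢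
      exact ⟨hp.1.trans (isConj_iff.mpr ⟨x, rfl⟩), hp.2.trans (isConj_iff.mpr ⟨x, rfl⟩)⟩
    · intro p _
      ext <;> simp [mul_assoc]
    · intro p _
      ext <;> simp [mul_assoc]
    · intro p _
      congr 1
      simp [mul_assoc]
  have hL : ∑ p ∈ T, Cfsg.indFun H φ (p.1 * p.2) =
      (H.index : ℂ) * ∑ p ∈ T, Cfsg.extendByZero H φ (p.1 * p.2) := by
    simp only [Cfsg.indFun]
    rw [← Finset.mul_sum, Finset.sum_comm]
    simp only [hx, Finset.sum_const, Finset.card_univ, nsmul_eq_mul]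
    rw [← mul_assoc]
    congr 1
    have h1 : (Nat.card H : ℂ) ≠ 0 := Nat.cast_ne_zero.mpr Nat.card_pos.ne'
    rw [← Nat.card_eq_fintype_card, ← H.card_mul_index]
    push_cast
    field_simp
  rw [hL]
  congr 1
  symm
  have hinvol : ∀ {w a : G}, orderOf w = 2 → IsConj w a → a * a = 1 := by
    intro w a hw ha
    obtain ⟨c, rfl⟩ := isConj_iff.mp ha
    have : w * w = 1 := by rw [← pow_two, ← hw, pow_orderOf_eq_one]
    calc c * w * c⁻¹ * (c * w * c⁻¹) = c * (w * w) * c⁻¹ := by group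
      _ = 1 := by rw [this]; simp
  refine Finset.sum_bij_ne_zero (fun p _ _ => ((p.1 : G), (p.2 : G))) ?_ ?_ ?_ ?_
  · intro p hp _
    simpa [hT] using hp
  · intro p _ _ q _ _ hpq
    simp only [Prod.mk.injEq] at hpq
    exact Prod.ext (Subtype.ext hpq.1) (Subtype.ext hpq.2)
  · intro p hp hne
    simp only [hT, Finset.mem_filter, Finset.mem_univ, true_and] at hp
    have hmem : p.1 * p.2 ∈ H := by
      by_contra h
      exact hne (ebz_not_mem H φ _ h)
    have hval : Cfsg.extendByZero H φ (p.1 * p.2) = φ ⟨_, hmem⟩ := ebz_mem H φ ⟨_, hmem⟩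
    have hS : p.1 * p.2 ∈ S := by
      by_contra h
      exact hne (hval.trans (hφS ⟨_, hmem⟩ h))
    have ha := hinvol hu hp.1
    have hb := hinvol hv hp.2
    have ha' : p.1⁻¹ = p.1 := inv_eq_of_mul_eq_one_left ha
    have hb' : p.2⁻¹ = p.2 := inv_eq_of_mul_eq_one_left hb
    have h1 : p.1 ∈ H := by
      by_contra h
      apply hTI p.1 h _ hS
      have : p.1 * (p.1 * p.2) * p.1⁻¹ = (p.1 * p.2)⁻¹ := by
        rw [← mul_assoc, ha, one_mul, mul_inv_rev, hb']
      rw [this]
      exact hinv _ hS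
    have h2 : p.2 ∈ H := by
      have := H.mul_mem (H.inv_mem h1) hmem
      simpa using this
    refine ⟨(⟨p.1, h1⟩, ⟨p.2, h2⟩), ?_, ?_, rfl⟩
    · simpa using hp
    · rw [hval] at hne
      exact hne
  · intro p _ _
    exact (ebz_mem H φ (p.1 * p.2)).symm

end Cfsg.Agent.S0849
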