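import Cfsg.Statements.S0850
import Cfsg.Agent.H14.InduceChar
import Mathlib.GroupTheory.PGroup

set_option autoImplicit false
open Cfsg

namespace Cfsg.Agent.S0850

/-- Let K be a subgroup of the finite group G that meets each conjugate by an element outside its normalizer N trivially, is properly contained in N, and contains the centralizer of each of its non-identity elements (a T.I. subgroup with Frobenius normalizer). Then no element of N outside K is conjugate in G to an element of K, and for every class function ϑ of N that vanishes on N away from K and at the identity, the function induced from ϑ to G agrees with ϑ on all of N. -/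
theorem result {G : Type*} [Group G] [Fintype G] (K : Subgroup G) (hTI : ∀ g : G, g ∉ Subgroup.normalizer (K : Set G) → ∀ k ∈ K, g * k * g⁻¹ ∈ K → k = 1) (hlt : K < Subgroup.normalizer (K : Set G)) (hC : ∀ k ∈ K, k ≠ 1 → Subgroup.centralizer ({k} : Set G) ≤ K) : (∀ x ∈ Subgroup.normalizer (K : Set G), x ∉ K → ∀ g : G, g * x * g⁻¹ ∉ K) ∧ ∀ (ϑ : Subgroup.normalizer (K : Set G) → ℂ), Cfsg.IsClassFunction (Subgroup.normalizer (K : Set G)) ϑ → (∀ x : Subgroup.normalizer (K : Set G), (x : G) ∉ K → ϑ x = 0) → ϑ 1 = 0 → ∀ x : Subgroup.normalizer (K : Set G), Cfsg.indFun (Subgroup.normalizer (K : Set G)) ϑ x = ϑ x := by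
  classical
  have key : ∀ x ∈ Subgroup.normalizer (K : Set G), x ∉ K → ∀ g : G, g * x * g⁻¹ ∉ K := by
    intro x hxN hxK g hg
    -- `K` is a Hall subgroup of its normalizer: `N` acts on `K \ 1` with point stabilisers in `K`.
    -- Let `y = g x g⁻¹ ∈ K`.  Then `x` has the order of a non-identity element of `K`.
    have hx1 : x ≠ 1 := fun h => hxK (h ▸ K.one_mem)
    -- choose a prime `p` dividing the order of `x K` in `N / K`; `x` normalises `K`.
    have hy1 : g * x * g⁻¹ ≠ 1 := by
      intro h
      apply hx1
      have : x = g⁻¹ * (g * x * g⁻¹) * g := by group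
      rw [this, h]; simp
    -- the centraliser of `x` is contained in `K^g`
    have hCx : ∀ c : G, c * x = x * c → g * c * g⁻¹ ∈ K := by
      intro c hc
      apply hC _ hg hy1
      rw [Subgroup.mem_centralizer_singleton_iff]
      calc g * c * g⁻¹ * (g * x * g⁻¹) = g * (c * x) * g⁻¹ := by group
        _ = g * (x * c) * g⁻¹ := by rw [hc]
        _ = g * x * g⁻¹ * (g * c * g⁻¹) := by group
    -- `⟨x⟩` acts on `K` by conjugation
    have hgN : g ∉ Subgroup.normalizer (K : Set G) := by
      intro hgN
      apply hxK
      have := (Subgroup.mem_normalizer_iff.mp (Subgroup.inv_mem _ hgN) (g * x * g⁻¹)).mp hg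
      simpa [mul_assoc] using this
    -- no non-identity power of `x` lies in `K`
    have hpow : ∀ n : ℕ, x ^ n ∈ K → x ^ n = 1 := by
      intro n hn
      apply hTI g hgN _ hn
      apply hCx
      rw [← pow_succ, ← pow_succ']
    -- a prime `p` dividing the order of `x`, and an element `z` of order `p`
    have hord : orderOf x ≠ 1 := fun h => hx1 (orderOf_eq_one_iff.mp h)
    obtain ⟨p, hp, hpx⟩ := Nat.exists_prime_and_dvd hord
    have hpos : 0 < orderOf x := orderOf_pos x
    set z := x ^ (orderOf x / p) with hz
    have hzord : orderOf z = p := by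
      rw [hz]; exact orderOf_pow_orderOf_div hpos.ne' hpx
    have hz1 : z ≠ 1 := by
      intro h; rw [h, orderOf_one] at hzord; exact hp.one_lt.ne hzord
    have hzK : z ∉ K := fun h => hz1 (hpow _ h)
    have hzN : z ∈ Subgroup.normalizer (K : Set G) := Subgroup.pow_mem _ hxN _
    haveI : Fact p.Prime := ⟨hp⟩
    -- `p` divides `|K|`
    have hpK : p ∣ Nat.card K := by
      have hmem : g * z * g⁻¹ ∈ K := by
        apply hCx; rw [hz, ← pow_succ, ← pow_succ']
      have h1 : orderOf (⟨g * z * g⁻¹, hmem⟩ : K) = p := by
        rw [← Subgroup.orderOf_coe, ← hzord]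
        exact (MulAut.conj g).orderOf_eq z
      rw [← h1]
      exact orderOf_dvd_natCard _
    -- the `p`-group `⟨z⟩` acts on `K` with only one fixed point
    let Z := Subgroup.zpowers z
    have hZN : Z ≤ Subgroup.normalizer (K : Set G) := by
      rw [Subgroup.zpowers_le]; exact hzN
    have hZp : IsPGroup p Z := IsPGroup.of_card (n := 1) (by
      rw [Nat.card_zpowers, hzord, pow_one])
    letI : MulAction Z K :=
      { smul := fun a k => ⟨a * k * (a : G)⁻¹,
          (Subgroup.mem_normalizer_iff.mp (hZN a.2) k).mp k.2⟩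
        one_smul := fun k => Subtype.ext (by
          change ((1 : Z) : G) * k * ((1 : Z) : G)⁻¹ = k
          simp)
        mul_smul := fun a b k => Subtype.ext (by
          change ((a * b : Z) : G) * k * ((a * b : Z) : G)⁻¹ =
            a * (b * k * (b : G)⁻¹) * (a : G)⁻¹
          simp [mul_assoc]) }
    have hfix1 : (1 : K) ∈ MulAction.fixedPoints Z K := by
      intro a
      apply Subtype.ext
      change (a : G) * (1 : K) * (a : G)⁻¹ = (1 : K)
      simp
    obtain ⟨k, hk, hk1⟩ := hZp.exists_fixed_point_of_prime_dvd_card_of_fixed_point K hpK hfix1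
    apply hzK
    apply hC k k.2 (fun h => hk1 (Subtype.ext h).symm)
    rw [Subgroup.mem_centralizer_singleton_iff]
    have := congrArg Subtype.val (hk ⟨z, Subgroup.mem_zpowers z⟩)
    change z * k * z⁻¹ = k at this
    rw [mul_inv_eq_iff_eq_mul] at this
    exact this
  refine ⟨key, fun ϑ hϑ hϑK hϑ1 x => ?_⟩
  apply H14.indFun_eq_self_of_conj _ hϑ
  intro g hg hx
  by_cases hxK : (x : G) ∈ K
  · by_cases hgx : g * x * g⁻¹ ∈ K
    · have := hTI g hg x hxK hgx
      have h1 : (⟨g * x * g⁻¹, hx⟩ : Subgroup.normalizer (K : Set G)) = 1 := by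
        apply Subtype.ext
        simp [this]
      rw [h1, hϑ1]
    · exact hϑK _ hgx
  · exact hϑK _ (key x x.2 hxK g)

end Cfsg.Agent.S0850
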