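import Cfsg.Statements.S0855
import Cfsg.Agent.H24.Thompson

set_option autoImplicit false
open Cfsg

namespace Cfsg.Agent.S0855

/-- For a finite group G and a prime p: every irreducible character of G has degree a power of p if and only if G has an abelian normal subgroup whose order is prime to p and whose index is a power of p. -/
theorem result {G : Type*} [Group G] [Finite G] (p : ℕ) (hp : p.Prime) : (∀ χ : Cfsg.IrrCharacter G, ∃ k : ℕ, (χ : G → ℂ) 1 = (p : ℂ) ^ k) ↔ ∃ A : Subgroup G, A.Normal ∧ (∀ a ∈ A, ∀ b ∈ A, a * b = b * a) ∧ Nat.Coprime (Nat.card A) p ∧ ∃ k : ℕ, A.index = p ^ k := by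
  have key : (∀ χ : Cfsg.IrrCharacter G, ∃ k : ℕ, (χ : G → ℂ) 1 = (p : ℂ) ^ k) ↔
      ∀ d ∈ charDegrees G, ∃ k : ℕ, d = p ^ k := by
    constructor
    · intro h d hd
      obtain ⟨χ, hχ, rfl⟩ := H24.mem_cd.1 hd
      obtain ⟨k, hk⟩ := h ⟨χ, hχ⟩
      exact ⟨k, H24.deg_eq (by simpa using hk)⟩
    · intro h χ
      obtain ⟨k, hk⟩ := h _ (H24.deg_mem_cd χ.2)
      exact ⟨k, by rw [H24.irr_deg χ.2, hk]; simp⟩
  rw [key]
  constructor
  · intro h
    obtain ⟨N, hN, hc, k, hk⟩ := H24.exists_normal_complement_of_cd (G := G) hp (by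
      intro d hd h1
      obtain ⟨k, rfl⟩ := h d hd
      exact dvd_pow_self p (by rintro rfl; exact h1 (by simp)))
    refine ⟨N, hN, ?_, hc, k, hk⟩
    have hcomm := H24.comm_of_cd (G := N) (by
      intro d hd
      obtain ⟨e, he, hde⟩ := H24.exists_cd_dvd_of_normal N hd
      obtain ⟨k, rfl⟩ := h e he
      have h1 : d ∣ Nat.card N := H24.dvd_card_of_mem_cd hd
      exact Nat.eq_one_of_dvd_coprimes (Nat.Coprime.pow_right k hc) h1 hde)
    intro a ha b hb
    exact congrArg Subtype.val (hcomm ⟨a, ha⟩ ⟨b, hb⟩)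
  · rintro ⟨A, hA, hcomm, -, k, hk⟩ d hd
    obtain ⟨χ, hχ, rfl⟩ := H24.mem_cd.1 hd
    have := H24.deg_dvd_index_of_comm hχ A hcomm
    rw [hk] at this
    obtain ⟨j, -, hj⟩ := (Nat.dvd_prime_pow hp).1 this
    exact ⟨j, hj⟩

end Cfsg.Agent.S0855
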