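import Cfsg.Statements.S0857
import Cfsg.Agent.H14.GoingDown

set_option autoImplicit false
open Cfsg

namespace Cfsg.Agent.S0857

/-- Let L < K be normal subgroups of the finite group G with no normal subgroup of G strictly between them and with K / L abelian (the commutator subgroup of K lies in L). Let ϑ be an irreducible character of K invariant under conjugation by G. Then the restriction of ϑ to L is irreducible; or it equals e times an irreducible character of L with e ^ 2 equal to the index of L in K; or it is the sum of a family of pairwise distinct irreducible characters of L indexed by a set whose size is the index of L in K. -/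
theorem result {G : Type*} [Group G] [Fintype G] (K L : Subgroup G) [hK : K.Normal] [L.Normal] (hLK : L < K) (hchief : ∀ M : Subgroup G, M.Normal → L ≤ M → M ≤ K → M = L ∨ M = K) (hab : ⁅K, K⁆ ≤ L) (ϑ : K → ℂ) (hϑ : Cfsg.IsIrrCharacter K ϑ) (hinv : ∀ (g : G) (n : K), ϑ ⟨g * n * g⁻¹, hK.conj_mem (n : G) n.2 g⟩ = ϑ n) : Cfsg.IsIrrCharacter L (fun x : L => ϑ ⟨(x : G), hLK.le x.2⟩) ∨ (∃ (φ : L → ℂ) (e : ℕ), Cfsg.IsIrrCharacter L φ ∧ (fun x : L => ϑ ⟨(x : G), hLK.le x.2⟩) = (e : ℂ) • φ ∧ e ^ 2 = L.relIndex K) ∨ (∃ F : Finset (L → ℂ), (∀ φ ∈ F, Cfsg.IsIrrCharacter L φ) ∧ F.card = L.relIndex K ∧ (fun x : L => ϑ ⟨(x : G), hLK.le x.2⟩) = ∑ φ ∈ F, φ) := by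
  classical
  letI := Fintype.ofFinite K
  letI := Fintype.ofFinite L
  obtain ⟨φ, hφ, h1⟩ := H14.exists_irr_inner_ne_zero
    (H14.IsCharacter.isClassFunction
      (H11.isCharacter_restrict_of_le (H11.isCharacter_of_irr hϑ) hLK.le))
    (H14.comp_ne_zero_of_irr hϑ (Subgroup.inclusion hLK.le))
  rcases H14.going_down K L hLK.le hchief hab hϑ hinv hφ h1 with h | ⟨e, h, he⟩ | ⟨h, h2⟩
  · exact Or.inl (h ▸ hφ)
  · exact Or.inr (Or.inl ⟨φ, e, hφ, h, he⟩)
  · refine Or.inr (Or.inr ⟨Finset.univ.image (fun t : K => H14.conjChar L φ t), ?_, ?_, ?_⟩)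
    · intro ψ hψ
      obtain ⟨t, -, rfl⟩ := Finset.mem_image.mp hψ
      exact H14.isIrr_conjChar L hφ t
    · rw [H14.card_image_conjChar_coe, ← Subgroup.inf_relIndex_right, h]
    · have := H14.clifford_of_le L K hLK.le hϑ hφ h1
      rwa [h2, one_smul] at this

end Cfsg.Agent.S0857
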