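import Cfsg.Statements.S0858
import Cfsg.Agent.H14.MGroup

set_option autoImplicit false
open Cfsg

namespace Cfsg.Agent.S0858

/-- Let N be a normal subgroup of the finite group G with G / N solvable, and suppose that for every subgroup H containing N and all subgroups L < K between N and H that are normal in H with no subgroup normal in H strictly between them, the index of L in K is not a perfect square. Then every irreducible character χ of G is induced from an irreducible character ψ of some subgroup H containing N such that the restriction of ψ to N is irreducible. -/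
theorem result {G : Type*} [Group G] [Fintype G] (N : Subgroup G) [N.Normal] (hsolv : Group.IsSolvable (G ⧸ N)) (hchief : ∀ (H K L : Subgroup G), N ≤ L → L < K → K ≤ H → (∀ h ∈ H, ∀ k ∈ K, h * k * h⁻¹ ∈ K) → (∀ h ∈ H, ∀ l ∈ L, h * l * h⁻¹ ∈ L) → (∀ M : Subgroup G, L ≤ M → M ≤ K → (∀ h ∈ H, ∀ m ∈ M, h * m * h⁻¹ ∈ M) → M = L ∨ M = K) → ¬ IsSquare (L.relIndex K)) (χ : G → ℂ) (hχ : Cfsg.IsIrrCharacter G χ) : ∃ (H : Subgroup G) (hNH : N ≤ H) (ψ : H → ℂ), Cfsg.IsIrrCharacter H ψ ∧ Cfsg.indFun H ψ = χ ∧ Cfsg.IsIrrCharacter N (fun n : N => ψ ⟨(n : G), hNH n.2⟩) := by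
  obtain ⟨H, hNH, ψ, hψ, hind, hprim⟩ := H14.exists_primOver N hχ
  letI := Fintype.ofFinite H
  refine ⟨H, hNH, ψ, hψ, hind, ?_⟩
  rw [H14.isIrr_res_of_le_iff]
  refine H14.isIrr_res_of_homog_of_nonsquare (N.subgroupOf H) ?_ ?_ hψ
    (fun L _ hNL => hprim.homog hψ L hNL)
  · exact Group.isSolvable_of_isSolvable_injective
      (f := QuotientGroup.map (N.subgroupOf H) N H.subtype le_rfl) (by
        rw [← MonoidHom.ker_eq_bot_iff]
        exact (QuotientGroup.ker_map (N.subgroupOf H) N H.subtype le_rfl).trans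
          (QuotientGroup.map_mk'_self _))
  · intro K L hK hL hNL hLK hch
    have hconj : ∀ (X : Subgroup H), X.Normal → ∀ h ∈ H, ∀ k ∈ X.map H.subtype,
        h * k * h⁻¹ ∈ X.map H.subtype := by
      rintro X hX h hh _ ⟨k, hk, rfl⟩
      exact ⟨_, hX.conj_mem k hk ⟨h, hh⟩, rfl⟩
    have := hchief H (K.map H.subtype) (L.map H.subtype)
      (fun x hx => ⟨⟨x, hNH hx⟩, hNL hx, rfl⟩)
      ((Subgroup.map_lt_map_iff_of_injective H.subtype_injective).mpr hLK)
      (Subgroup.map_subtype_le _) (hconj K hK) (hconj L hL) (by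
        intro M hLM hMK hM
        have hMH : M ≤ H := hMK.trans (Subgroup.map_subtype_le _)
        have e : (M.subgroupOf H).map H.subtype = M := by
          rw [Subgroup.subgroupOf_map_subtype, inf_eq_left.mpr hMH]
        rcases hch (M.subgroupOf H) ⟨fun m hm h => hM h h.2 m hm⟩
          (Subgroup.map_le_iff_le_comap.mp hLM) (by
            rw [← e] at hMK
            exact (Subgroup.map_le_map_iff_of_injective H.subtype_injective).mp hMK) with h | h
        · left; rw [← h, e]
        · right; rw [← h, e])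
    rwa [Subgroup.relIndex_map_map_of_injective _ _ H.subtype_injective] at this

end Cfsg.Agent.S0858
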