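import Cfsg.Statements.S0859
import Cfsg.Agent.H14.MGroup

set_option autoImplicit false
open Cfsg

namespace Cfsg.Agent.S0859

/-- Let G be a finite solvable group and N a normal subgroup such that for every prime p every Sylow p-subgroup of N is abelian. Suppose every irreducible character of G is induced from an irreducible character of some subgroup containing N whose restriction to N is irreducible. Then every irreducible character of G is induced from a character of degree 1 of some subgroup. -/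
theorem result {G : Type*} [Group G] [Fintype G] [Group.IsSolvable G] (N : Subgroup G) [N.Normal] (hab : ∀ (p : ℕ) [Fact p.Prime] (P : Sylow p N), ∀ a ∈ P, ∀ b ∈ P, a * b = b * a) (hrel : ∀ χ : G → ℂ, Cfsg.IsIrrCharacter G χ → ∃ (H : Subgroup G) (hNH : N ≤ H) (ψ : H → ℂ), Cfsg.IsIrrCharacter H ψ ∧ Cfsg.indFun H ψ = χ ∧ Cfsg.IsIrrCharacter N (fun n : N => ψ ⟨(n : G), hNH n.2⟩)) (χ : G → ℂ) (hχ : Cfsg.IsIrrCharacter G χ) : ∃ (U : Subgroup G) (lam : U → ℂ), Cfsg.IsCharacter U lam ∧ lam 1 = 1 ∧ Cfsg.indFun U lam = χ := by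
  obtain ⟨H, hNH, ψ, hψ, hind, hψN⟩ := hrel χ hχ
  letI := Fintype.ofFinite H
  obtain ⟨U, -, ϑ, hϑ, hind', hprim⟩ := H14.exists_primOver ⊥ hψ
  letI := Fintype.ofFinite U
  rw [H14.isIrr_res_of_le_iff, ← hind'] at hψN
  have h1 := H14.isIrr_res_of_isIrr_res_indFun U _ hϑ hψN
  have h2 := H14.le_charCenter_of_homog_of_abelian ((N.subgroupOf H).subgroupOf U) (by
      intro p hp P hP hPM a ha b hb
      haveI : Fact p.Prime := ⟨hp⟩
      let f : U →* G := H.subtype.comp U.subtype
      have hf : Function.Injective f := H.subtype_injective.comp U.subtype_injective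
      have hPN : P.map f ≤ N := by
        rintro _ ⟨x, hx, rfl⟩
        exact hPM hx
      obtain ⟨Q, hQ⟩ := ((hP.map f).comap_subtype (K := N)).exists_le_sylow
      have := hab p Q ⟨f a, hPM ha⟩ (hQ ⟨a, ha, rfl⟩) ⟨f b, hPM hb⟩ (hQ ⟨b, hb, rfl⟩)
      apply hf
      rw [map_mul, map_mul]
      exact congrArg Subtype.val this) hϑ (fun L _ => hprim.homog hϑ L (by simp))
  have h3 := H14.apply_one_eq_one_of_le_charCenter (H11.isCharacter_of_irr hϑ) _ h2 h1
  refine ⟨U.map H.subtype, _, H11.isCharacter_comp (H11.isCharacter_of_irr hϑ)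
    (U.equivMapOfInjective H.subtype H.subtype_injective).symm.toMonoidHom, ?_, ?_⟩
  · rw [map_one, h3]
  · rw [← hind, ← hind', H14.indFun_trans_map]
    rfl

end Cfsg.Agent.S0859
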