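import Cfsg.Statements.S0861
import Cfsg.Agent.H12.Burnside

set_option autoImplicit false
open Cfsg

namespace Cfsg.Agent.S0861

/-- Let P be a normal abelian Sylow p-subgroup of the finite group G and suppose some element g of P has centralizer exactly P. Then the number of irreducible characters of G is at most the order of P, and if equality holds then G / P is abelian (the commutator subgroup lies in P). -/
theorem result {G : Type*} [Group G] [Finite G] (p : ℕ) [Fact p.Prime] (P : Sylow p G) [(P : Subgroup G).Normal] (hab : ∀ a ∈ P, ∀ b ∈ P, a * b = b * a) (g : G) (hg : g ∈ P) (hC : Subgroup.centralizer ({g} : Set G) = P) : Nat.card (Cfsg.IrrCharacter G) ≤ Nat.card P ∧ (Nat.card (Cfsg.IrrCharacter G) = Nat.card P → commutator G ≤ P) := by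
  classical
  have hpp : p.Prime := Fact.out
  have := Fintype.ofFinite G
  have := Fintype.ofFinite (IrrCharacter G)
  let s : Finset G := Finset.univ.filter fun x => x ∈ P ∧ Subgroup.centralizer ({x} : Set G) = P
  have hs : ∀ x, x ∈ s ↔ x ∈ P ∧ Subgroup.centralizer ({x} : Set G) = P := fun x => by simp [s]
  have hgs : g ∈ s := (hs g).mpr ⟨hg, hC⟩
  have hpos : (0 : ℝ) < s.card := by exact_mod_cast Finset.card_pos.mpr ⟨g, hgs⟩
  have hpow : ∀ m : ℕ, m.Coprime (Nat.card G) → ∀ x ∈ s, x ^ m ∈ s := by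
    intro m hm x hx
    rw [hs] at hx ⊢
    refine ⟨(P : Subgroup G).pow_mem hx.1 m, ?_⟩
    rw [← hx.2]
    obtain ⟨k, hk⟩ := exists_pow_eq_self_of_coprime (x := x) (n := m)
      (hm.coprime_dvd_right (orderOf_dvd_natCard x))
    ext y
    simp only [Subgroup.mem_centralizer_singleton_iff]
    constructor
    · intro h
      rw [← hk]
      exact (Commute.pow_right h k)
    · intro h
      exact (Commute.pow_right h m)
  have hlow : ∀ χ : IrrCharacter G, (s.card : ℝ) ≤ ∑ x ∈ s, Complex.normSq ((χ : G → ℂ) x) := by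
    intro χ
    refine H12.card_le_sum_normSq (H12.isCharacter_of_irr χ.2) s hpow fun x hx => ?_
    obtain ⟨d, -, hd⟩ := H13.exists_pos_nat_degree χ.2
    obtain ⟨k, hk⟩ := P.2 ⟨x, ((hs x).mp hx).1⟩
    refine H12.IsCharacter_ne_zero_of_pow_prime_pow (H12.isCharacter_of_irr χ.2) hpp hd
      (fun h => P.not_dvd_index (h.trans ?_)) (congrArg Subtype.val hk)
    exact H12.irr_degree_dvd_index_of_comm χ.2 hd P hab
  have hsum : ∑ χ : IrrCharacter G, ∑ x ∈ s, Complex.normSq ((χ : G → ℂ) x) =
      Nat.card P * (s.card : ℝ) := by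
    rw [Finset.sum_comm, mul_comm, ← nsmul_eq_mul, ← Finset.sum_const]
    refine Finset.sum_congr rfl fun x hx => ?_
    have h1 := H13.column_orth_of_isConj (IsConj.refl x)
    rw [((hs x).mp hx).2] at h1
    simp only [Complex.mul_conj] at h1
    exact_mod_cast h1
  have hcard : ∑ _χ : IrrCharacter G, (s.card : ℝ) = Nat.card (IrrCharacter G) * (s.card : ℝ) := by
    simp
  constructor
  · have h1 := Finset.sum_le_sum fun χ (_ : χ ∈ Finset.univ) => hlow χ
    rw [hsum, hcard] at h1
    exact_mod_cast le_of_mul_le_mul_right h1 hpos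
  · intro heq x hx
    by_contra hxP
    obtain ⟨χ, hχ, hPχ, hxχ⟩ := H11.exists_irr_le_charKer_not_mem (P : Subgroup G) hxP
    have h1 := (Finset.sum_eq_sum_iff_of_le fun χ (_ : χ ∈ Finset.univ) => hlow χ).mp
      (by rw [hsum, hcard, heq]) ⟨χ, hχ⟩ (Finset.mem_univ _)
    obtain ⟨d, hd0, hd⟩ := H13.exists_pos_nat_degree hχ
    have h2 : ∑ y ∈ s, Complex.normSq (χ y) = (d * d : ℝ) * s.card := by
      rw [mul_comm, ← nsmul_eq_mul, ← Finset.sum_const]
      refine Finset.sum_congr rfl fun y hy => ?_
      rw [H11.apply_eq_of_mem_charKer (hPχ ((hs y).mp hy).1), hd, Complex.normSq_natCast]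
    simp only at h1
    rw [h2] at h1
    have h3 : (d * d : ℝ) = 1 := by
      have := mul_right_cancel₀ hpos.ne' (h1.symm.trans (one_mul _).symm)
      exact this
    have h4 : d * d = 1 := by exact_mod_cast h3
    have h5 : d = 1 := Nat.eq_one_of_mul_eq_one_right h4
    exact hxχ (H11.commutator_le_charKer (H12.isCharacter_of_irr hχ)
      (by rw [hd, h5, Nat.cast_one]) hx)

end Cfsg.Agent.S0861
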