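import Cfsg.Statements.S0873
import Cfsg.Agent.H13.Solomon

set_option autoImplicit false
open Cfsg

namespace Cfsg.Agent.S0873

/-- Let C be a normal subgroup of the finite group G of order prime to p and P a p-subgroup with C ⊔ P = G. Let λ be a character of C of degree 1 invariant under conjugation by G and equal to 1 at every element of C centralized by P. Then λ is identically 1. -/
theorem result {G : Type*} [Group G] [Finite G] (p : ℕ) [Fact p.Prime] (C P : Subgroup G) [hC : C.Normal] (hP : IsPGroup p P) (hcop : Nat.Coprime (Nat.card C) p) (hCP : C ⊔ P = ⊤) (lam : C → ℂ) (hlam : Cfsg.IsCharacter C lam ∧ lam 1 = 1) (hinv : ∀ (g : G) (c : C), lam ⟨g * c * g⁻¹, hC.conj_mem (c : G) c.2 g⟩ = lam c) (hker : ∀ c : C, (c : G) ∈ Subgroup.centralizer (P : Set G) → lam c = 1) : lam = fun _ => 1 := by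
  obtain ⟨f, rfl⟩ := Cfsg.Agent.H11.exists_monoidHom_of_apply_one_eq_one hlam.1 hlam.2
  funext c
  have := Cfsg.Agent.H13.hom_eq_one_of_centralizer C P hP hcop
    (fun g _ c hc => hC.conj_mem c hc g) f (fun g _ c => Units.ext (hinv g c))
    (fun c hc => Units.ext (hker c hc)) c
  rw [this, Units.val_one]

end Cfsg.Agent.S0873
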