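import Cfsg.Statements.S0875
import Cfsg.Agent.H12.Section

set_option autoImplicit false
open Cfsg

namespace Cfsg.Agent.S0875

/-- Let G be a finite group of order m * n with m and n coprime, and g an element whose order is coprime to m. Every x in G factors uniquely as x = u * v with u, v commuting, the order of u coprime to n and the order of v coprime to m; let ϑ be the function on G equal to n at those x whose factor v is conjugate to g and equal to 0 elsewhere. Then ϑ is a linear combination of the irreducible characters of G with algebraic-integer coefficients. -/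
theorem result {G : Type*} [Group G] [Fintype G] (m n : ℕ) (hmn : Nat.card G = m * n) (hcop : Nat.Coprime m n) (g : G) (hg : Nat.Coprime (orderOf g) m) (ϑ : G → ℂ) (hϑ1 : ∀ x : G, (∃ v : G, IsConj v g ∧ (∃ u : G, x = u * v ∧ Commute u v ∧ Nat.Coprime (orderOf u) n ∧ Nat.Coprime (orderOf v) m)) → ϑ x = n) (hϑ0 : ∀ x : G, (¬ ∃ v : G, IsConj v g ∧ (∃ u : G, x = u * v ∧ Commute u v ∧ Nat.Coprime (orderOf u) n ∧ Nat.Coprime (orderOf v) m)) → ϑ x = 0) : ∃ c : Cfsg.IrrCharacter G → ℂ, (∀ χ, c χ ∈ Cfsg.AlgInt) ∧ ϑ = ∑ᶠ χ : Cfsg.IrrCharacter G, c χ • (χ : G → ℂ) := by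
  classical
  have := Fintype.ofFinite (IrrCharacter G)
  obtain ⟨a, b, hab⟩ := Nat.isCoprime_iff_coprime.2 hcop
  obtain ⟨c, hc, h⟩ := H12.exists_section_expansion hmn.dvd hcop hab g
  refine ⟨c, hc, ?_⟩
  rw [finsum_eq_sum_of_fintype, ← h]
  funext x
  split_ifs with hx
  · exact hϑ1 x ((H12.section_iff hmn.dvd hcop hab g x).2 hx)
  · exact hϑ0 x (mt (H12.section_iff hmn.dvd hcop hab g x).1 hx)

end Cfsg.Agent.S0875
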