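import Cfsg.Statements.S0879
import Cfsg.Agent.H11.ZassGroup

set_option autoImplicit false
open Cfsg

namespace Cfsg.Agent.S0879

open Cfsg.Agent.H11

/-- Let G be a Zassenhaus group on the finite set Ω and E the stabilizer of two distinct points a, b. Then an element outside the normalizer of E conjugates no non-identity element of E into E, and E has index 2 in its normalizer. -/
theorem result {G Ω : Type*} [Group G] [Finite G] [MulAction G Ω] [Fintype Ω] (hZ : Cfsg.IsZassenhausGroup G Ω) {a b : Ω} (hab : a ≠ b) : (∀ g : G, g ∉ Subgroup.normalizer ((MulAction.stabilizer G a ⊓ MulAction.stabilizer G b : Subgroup G) : Set G) → ∀ x ∈ (MulAction.stabilizer G a ⊓ MulAction.stabilizer G b : Subgroup G), g * x * g⁻¹ ∈ (MulAction.stabilizer G a ⊓ MulAction.stabilizer G b : Subgroup G) → x = 1) ∧ ((MulAction.stabilizer G a ⊓ MulAction.stabilizer G b : Subgroup G).subgroupOf (Subgroup.normalizer ((MulAction.stabilizer G a ⊓ MulAction.stabilizer G b : Subgroup G) : Set G))).index = 2 := by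
  have h := H61.IsZ.of_zass hZ
  have hle : H61.pairStab G a b ≤ Subgroup.normalizer ((H61.stab2 G a b : Subgroup G) : Set G) := by
    have key : ∀ g ∈ H61.pairStab G a b, ∀ x ∈ H61.stab2 G a b, g * x * g⁻¹ ∈ H61.stab2 G a b := by
      rintro g (⟨h1, h2⟩ | ⟨h1, h2⟩) x hx
      · exact Subgroup.mul_mem _ (Subgroup.mul_mem _ ⟨h1, h2⟩ hx) (Subgroup.inv_mem _ ⟨h1, h2⟩)
      · refine H61.mem_stab2.2 ⟨?_, ?_⟩
        · rw [mul_smul, mul_smul, inv_smul_eq_iff.2 h2.symm, (H61.mem_stab2.1 hx).2, h2]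
        · rw [mul_smul, mul_smul, inv_smul_eq_iff.2 h1.symm, (H61.mem_stab2.1 hx).1, h1]
    intro g hg
    rw [Subgroup.mem_normalizer_iff]
    refine fun x => ⟨key g hg x, fun hx => ?_⟩
    simpa [mul_assoc] using key g⁻¹ (Subgroup.inv_mem _ hg) _ hx
  have heq : Subgroup.normalizer ((H61.stab2 G a b : Subgroup G) : Set G) = H61.pairStab G a b := by
    refine le_antisymm (fun g hg => ?_) hle
    obtain ⟨x, hx, hx1⟩ := (Subgroup.bot_or_exists_ne_one _).resolve_left
      (H61.stab2_ne_bot_of_zass hZ hab)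
    exact h.mem_pairStab_of_conj_mem hab hx hx1 ((Subgroup.mem_normalizer_iff.1 hg x).1 hx)
  refine ⟨fun g hg x hx hgx => ?_, ?_⟩
  · by_contra hx1
    exact hg (hle (h.mem_pairStab_of_conj_mem hab hx hx1 hgx))
  · change ((H61.stab2 G a b).subgroupOf
      (Subgroup.normalizer ((H61.stab2 G a b : Subgroup G) : Set G))).index = 2
    rw [heq]
    exact h.index_stab2_pairStab hab

end Cfsg.Agent.S0879
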