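import Cfsg.Statements.S0883
import Cfsg.Agent.H11.ZassGroup

set_option autoImplicit false
open Cfsg

namespace Cfsg.Agent.S0883

open Cfsg.Agent.H11

/-- Let G be a finite simple Zassenhaus group on Ω with h + 1 points whose two-point stabilizer E has odd order e with 2e < h - 1, and let H be the subgroup of the stabilizer of a consisting of the identity and the elements fixing no point other than a (given here as a subgroup of the stabilizer of order one less than the number of points whose non-identity elements fix only a; it is the Frobenius kernel of the stabilizer). If a non-identity element u of H is a product of two involutions of G, then u is an involution. -/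
theorem result {G Ω : Type*} [Group G] [Finite G] [MulAction G Ω] [Fintype Ω] (hZ : Cfsg.IsZassenhausGroup G Ω) {a b : Ω} (hab : a ≠ b) [IsSimpleGroup G] (h e : ℕ) (hh : Fintype.card Ω = h + 1) (he : Nat.card ↥(MulAction.stabilizer G a ⊓ MulAction.stabilizer G b : Subgroup G) = e) (hodd : Odd e) (hlt : 2 * e < h - 1) (H : Subgroup G) (hHa : H ≤ MulAction.stabilizer G a) (hHcard : Nat.card H + 1 = Fintype.card Ω) (hHfix : ∀ u ∈ H, u ≠ 1 → ∀ c : Ω, u • c = c → c = a) (u : G) (hu : u ∈ H) (hu1 : u ≠ 1) (x y : G) (hx : orderOf x = 2) (hy : orderOf y = 2) (hxy : x * y = u) : orderOf u = 2 := by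
  have _ := hlt
  have _ := hh
  subst he
  refine ((ZOdd.of_simple hZ hab hodd).orderOf_eq_two_of_inverted
    (isKer_of_card hZ hHa hHcard hHfix) hu hu1 hx ?_).1
  rw [← hxy]
  exact H9.left_inverts_mul (H9.mul_self_of_orderOf_two hx) (H9.mul_self_of_orderOf_two hy)

end Cfsg.Agent.S0883
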