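import Cfsg.Statements.S0893
import Cfsg.Agent.H14.ExtraChar

set_option autoImplicit false
open Cfsg

namespace Cfsg.Agent.S0893

/-- Let P be an extraspecial p-group of order p ^ (2 * n + 1), A an abelian subgroup of order p ^ (n + 1), and λ a character of A of degree 1 that is not identically 1 on the elements of A lying in the centre of P. Then the function induced from λ to P is an irreducible character of P and vanishes at every element outside the centre. -/
theorem result {P : Type*} [Group P] [Fintype P] (p n : ℕ) [Fact p.Prime] (hP : Cfsg.IsExtraspecial p P) (hcard : Nat.card P = p ^ (2 * n + 1)) (A : Subgroup P) (hab : ∀ a ∈ A, ∀ b ∈ A, a * b = b * a) (hA : Nat.card A = p ^ (n + 1)) (lam : A → ℂ) (hlam : Cfsg.IsCharacter A lam ∧ lam 1 = 1) (hZ : ∃ a : A, (a : P) ∈ Subgroup.center P ∧ lam a ≠ 1) : Cfsg.IsIrrCharacter P (Cfsg.indFun A lam) ∧ ∀ x : P, x ∉ Subgroup.center P → Cfsg.indFun A lam x = 0 := by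
  letI := Fintype.ofFinite A
  have hirr := H11.isIrrCharacter_of_apply_one_eq_one hlam.1 hlam.2
  obtain ⟨χ, hχ, h1⟩ := H14.exists_irr_over A hirr
  obtain ⟨a, haZ, ha⟩ := hZ
  have h2 : ¬ Subgroup.center P ≤ H11.charKer χ := by
    intro h
    apply ha
    have := H11.charKer_le_of_constituent
      (H11.isCharacter_restrict (H11.isCharacter_of_irr hχ) A) hirr h1
      (x := a) (fun x => h haZ x)
    rw [H11.apply_eq_of_mem_charKer this, hlam.2]
  have h3 : A.index = p ^ n := by
    have := A.card_mul_index
    rw [hA, hcard, show 2 * n + 1 = (n + 1) + n by ring, pow_add p (n + 1) n] at this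
    exact Nat.eq_of_mul_eq_mul_left (pow_pos (Fact.out : p.Prime).pos _) this
  rw [H14.indFun_eq_of_degree A hlam.1 hχ h1 (by
    rw [H14.extraspecial_degree hP hcard hχ h2, h3, hlam.2, mul_one, Nat.cast_pow])]
  exact ⟨hχ, fun x hx => H14.extraspecial_vanish hP hχ h2 hx⟩

end Cfsg.Agent.S0893
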