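import Cfsg.Statements.S0894
import Cfsg.Agent.H14.ExtraChar

set_option autoImplicit false
open Cfsg

namespace Cfsg.Agent.S0894

/-- Let P be an extraspecial p-group of order p ^ (2 * n + 1). Then every irreducible character of P has degree 1 or p ^ n, and exactly p - 1 of them have degree p ^ n. -/
theorem result {P : Type*} [Group P] [Finite P] (p n : ℕ) [Fact p.Prime] (hP : Cfsg.IsExtraspecial p P) (hcard : Nat.card P = p ^ (2 * n + 1)) : (∀ χ : Cfsg.IrrCharacter P, (χ : P → ℂ) 1 = 1 ∨ (χ : P → ℂ) 1 = (p : ℂ) ^ n) ∧ Nat.card {χ : Cfsg.IrrCharacter P // (χ : P → ℂ) 1 = (p : ℂ) ^ n} = p - 1 := by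
  classical
  have hp : p.Prime := Fact.out
  refine ⟨fun χ => ?_, ?_⟩
  · by_cases h : Subgroup.center P ≤ H11.charKer (χ : P → ℂ)
    · exact Or.inl (H14.extraspecial_degree_of_le hP χ.2 h)
    · exact Or.inr (H14.extraspecial_degree hP hcard χ.2 h)
  letI := Fintype.ofFinite P
  letI : Fintype (IrrCharacter P) := Fintype.ofFinite _
  have hne : (p : ℂ) ^ n ≠ 1 := by
    have := (Nat.one_lt_pow (H14.extraspecial_pos hP hcard).ne' hp.one_lt).ne'
    exact_mod_cast this
  have hiff : ∀ χ : IrrCharacter P, (χ : P → ℂ) 1 = (p : ℂ) ^ n ↔ ¬ (χ : P → ℂ) 1 = 1 := by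
    intro χ
    refine ⟨fun h h' => hne (h.symm.trans h'), fun h => ?_⟩
    exact H14.extraspecial_degree hP hcard χ.2
      (fun h' => h (H14.extraspecial_degree_of_le hP χ.2 h'))
  have h1 := H11.sum_degree_sq (G := P)
  rw [← Finset.sum_filter_add_sum_filter_not Finset.univ
    (fun χ : IrrCharacter P => (χ : P → ℂ) 1 = 1),
    Finset.sum_congr rfl (g := fun _ => 1) (fun χ hχ => by
      rw [(Finset.mem_filter.mp hχ).2, one_pow]),
    Finset.sum_congr (s₁ := Finset.univ.filter (fun χ : IrrCharacter P => ¬ (χ : P → ℂ) 1 = 1)) rfl (g := fun _ => ((p : ℂ) ^ n) ^ 2)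
      (fun χ hχ => by rw [(hiff χ).mpr (Finset.mem_filter.mp hχ).2])] at h1
  simp only [Finset.sum_const, nsmul_eq_mul, mul_one, ← Fintype.card_subtype,
    ← Nat.card_eq_fintype_card] at h1
  rw [H11.card_linear_eq_index_commutator, hP.1.2.2, H14.extraspecial_index_center hP hcard,
    hcard] at h1
  rw [Nat.card_congr (Equiv.subtypeEquivRight hiff)]
  have h2 : p ^ (2 * n) + Nat.card {χ : IrrCharacter P // ¬ (χ : P → ℂ) 1 = 1} * (p ^ n) ^ 2 =
      p ^ (2 * n + 1) := by exact_mod_cast h1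
  rw [← pow_mul, mul_comm n 2, pow_succ'] at h2
  apply Nat.eq_of_mul_eq_mul_right (pow_pos hp.pos (2 * n))
  rw [Nat.sub_mul, ← h2]
  omega

end Cfsg.Agent.S0894
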