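import Cfsg.Statements.S0895
import Cfsg.Agent.H15.FS

set_option autoImplicit false
open Cfsg

namespace Cfsg.Agent.S0895


/-- Let χ be a real-valued irreducible character of a finite group G whose degree is an odd natural number. Then the average over s in G of χ (s * s) equals 1. -/
theorem result {G : Type*} [Group G] [Fintype G] (χ : G → ℂ) (hχ : Cfsg.IsIrrCharacter G χ) (hreal : ∀ g : G, (χ g).im = 0) (d : ℕ) (hd : χ 1 = d) (hodd : Odd d) : (Nat.card G : ℂ)⁻¹ * ∑ s : G, χ (s * s) = 1 := by
  rcases H15.fs_trichotomy hχ with ⟨⟨s, hs⟩, -⟩ | ⟨-, h2 | ⟨-, d', he, hd'⟩⟩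
  · exact absurd (hreal s) hs
  · exact h2
  · rw [hd] at hd'
    have : d = d' := by exact_mod_cast hd'
    subst this
    exact absurd he (Nat.not_even_iff_odd.mpr hodd)

end Cfsg.Agent.S0895
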