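import Cfsg.Statements.S0898
import Cfsg.Agent.H12.FeitThompson

set_option autoImplicit false
open Cfsg

namespace Cfsg.Agent.S0898

/-- Let H be an abelian subgroup of the finite group G meeting the centre of G trivially, such that for every non-central g the centralizer of g has nontrivial intersection with at most one conjugate of H. Let χ be an irreducible character of G with χ h ≠ χ 1 for some h in H, and let c be the inner product of the restriction of χ to H with the principal character. Then χ(1)² > (order of H)·c²; and if in addition χ 1 ≠ 1 and no proper normal subgroup of G contains H, then (1 + χ 1)² > order of H (both sides read as real numbers). -/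
theorem result {G : Type*} [Group G] [Fintype G] (H : Subgroup G) [Fintype H] (hab : ∀ a ∈ H, ∀ b ∈ H, a * b = b * a) (hZ : H ⊓ Subgroup.center G = ⊥) (hone : ∀ g : G, g ∉ Subgroup.center G → ∀ a b : G, Subgroup.centralizer ({g} : Set G) ⊓ H.map (MulAut.conj a).toMonoidHom ≠ ⊥ → Subgroup.centralizer ({g} : Set G) ⊓ H.map (MulAut.conj b).toMonoidHom ≠ ⊥ → H.map (MulAut.conj a).toMonoidHom = H.map (MulAut.conj b).toMonoidHom) (χ : G → ℂ) (hχ : Cfsg.IsIrrCharacter G χ) (hker : ∃ h ∈ H, χ h ≠ χ 1) : (χ 1).re ^ 2 > (Nat.card H : ℝ) * (Cfsg.classInner (fun h : H => χ h) (fun _ => 1)).re ^ 2 ∧ (χ 1 ≠ 1 → (∀ M : Subgroup G, M.Normal → H ≤ M → M = ⊤) → (1 + (χ 1).re) ^ 2 > (Nat.card H : ℝ)) := by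
  have hTI := H12.ti_of_centralizer_conj hone
  have hχc := H11.isCharacter_of_irr hχ
  obtain ⟨d, hd⟩ := H11.exists_nat_degree hχc
  obtain ⟨m, hm⟩ := H11.exists_nat_classInner (H11.isCharacter_restrict hχc H) H11.isCharacter_one
  constructor
  · have := H12.card_mul_sq_lt_degree_sq H hab hZ hTI hχ (fun h => by
      obtain ⟨x, hx, hx'⟩ := hker
      exact hx' (H11.apply_eq_of_mem_charKer (h hx))) hd hm
    rw [hd, hm, Complex.natCast_re, Complex.natCast_re]
    exact_mod_cast this
  · intro h1 hM
    have := H12.card_lt_one_add_degree_sq H hab hZ hTI hM hχ hd (by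
      rintro rfl
      exact h1 (by simpa using hd))
    rw [hd, Complex.natCast_re]
    exact_mod_cast this

end Cfsg.Agent.S0898
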