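import Cfsg.Statements.S0901
import Cfsg.Agent.H19.GaloisNum

set_option autoImplicit false
open Cfsg

namespace Cfsg.Agent.S0901


/-- Let M be a maximal ideal of the ring of algebraic integers containing the prime p, and let U be the set of complex roots of unity of order prime to p. Then reduction modulo M is injective on U, and every algebraic integer not in M is congruent modulo M to an element of U (so U maps bijectively onto the nonzero residues). -/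
theorem result (p : ℕ) [Fact p.Prime] (M : Ideal Cfsg.AlgInt) (hM : Cfsg.IsPModular p M) : (∀ ε₁ ε₂ : Cfsg.AlgInt, (∃ m : ℕ, ¬ p ∣ m ∧ (ε₁ : ℂ) ^ m = 1) → (∃ m : ℕ, ¬ p ∣ m ∧ (ε₂ : ℂ) ^ m = 1) → ε₁ - ε₂ ∈ M → ε₁ = ε₂) ∧ (∀ a : Cfsg.AlgInt, a ∉ M → ∃ ε : Cfsg.AlgInt, (∃ m : ℕ, ¬ p ∣ m ∧ (ε : ℂ) ^ m = 1) ∧ a - ε ∈ M) := by
  refine ⟨?_, ?_⟩
  · rintro ε₁ ε₂ ⟨m, hm, h1⟩ ⟨n, hn, h2⟩ h
    refine Subtype.ext (H19.eq_of_red_eq_of_pow_eq_one hM hm hn h1 h2 ?_)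
    rw [H19.red_eq_iff (H19.coe_mem_Vr _) (H19.coe_mem_Vr _)]
    exact (H19.val_coe_lt_one_iff hM.2.1 (ε₁ - ε₂)).mpr h
  · intro a ha
    have h0 : H19.red M (a : ℂ) ≠ 0 := fun h => ha ((H19.red_coe_eq_zero_iff hM.2.1 a).mp h)
    obtain ⟨m, hm, hpow⟩ := H19.exists_red_pow_eq_one hM a.2 h0
    have hm0 : m ≠ 0 := by rintro rfl; exact hm (dvd_zero p)
    obtain ⟨z, hz, hred⟩ := H19.exists_pow_eq_one_red_eq hm0 hpow
    refine ⟨⟨z, H19.isIntegral_of_pow_eq_one hm0 hz⟩, ⟨m, hm, hz⟩, ?_⟩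
    rw [← H19.val_coe_lt_one_iff hM.2.1]
    exact (H19.red_eq_iff (H19.coe_mem_Vr a) (H19.mem_Vr_of_pow_eq_one hm0 hz)).mp hred.symm

end Cfsg.Agent.S0901
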