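import Cfsg.Statements.S0903
import Cfsg.Agent.H21.PSum

set_option autoImplicit false
open Cfsg

namespace Cfsg.Agent.S0903

/-- Let P be a p-subgroup of the finite group G, let c centralize P and let g, h ∈ G. The number of pairs (x, y) with x conjugate to g, y conjugate to h and x * y = c is congruent modulo p to the number of such pairs in which x and y both centralize P. (This is why the Brauer map on class sums is multiplicative.) -/
theorem result {G : Type*} [Group G] [Finite G] (p : ℕ) [Fact p.Prime] (P : Subgroup G) (hP : IsPGroup p P) (c : G) (hc : c ∈ Subgroup.centralizer (P : Set G)) (g h : G) : Nat.card {xy : G × G // IsConj g xy.1 ∧ IsConj h xy.2 ∧ xy.1 * xy.2 = c} ≡ Nat.card {xy : G × G // IsConj g xy.1 ∧ IsConj h xy.2 ∧ xy.1 * xy.2 = c ∧ xy.1 ∈ Subgroup.centralizer (P : Set G) ∧ xy.2 ∈ Subgroup.centralizer (P : Set G)} [MOD p] := by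
  classical
  have := Fintype.ofFinite G
  have h1 : Nat.card {xy : G × G // IsConj g xy.1 ∧ IsConj h xy.2 ∧ xy.1 * xy.2 = c}
      = (Finset.univ.filter (fun x : G => IsConj g x ∧ IsConj h (x⁻¹ * c))).card := by
    rw [← Fintype.card_subtype, ← Nat.card_eq_fintype_card]
    refine Nat.card_congr ⟨fun a => ⟨a.1.1, a.2.1, ?_⟩, fun x => ⟨(x.1, x.1⁻¹ * c), x.2.1, x.2.2, by simp⟩,
      ?_, ?_⟩
    · obtain ⟨⟨x, y⟩, h1, h2, h3⟩ := a
      simp only at h1 h2 h3 ⊢
      rwa [← h3, inv_mul_cancel_left]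
    · rintro ⟨⟨x, y⟩, h1, h2, h3⟩
      simp only at h3
      simp [← h3]
    · intro x; rfl
  have h2 : Nat.card {xy : G × G // IsConj g xy.1 ∧ IsConj h xy.2 ∧ xy.1 * xy.2 = c ∧ xy.1 ∈ Subgroup.centralizer (P : Set G) ∧ xy.2 ∈ Subgroup.centralizer (P : Set G)}
      = ((Finset.univ.filter (fun x : G => x ∈ Subgroup.centralizer (P : Set G))).filter
        (fun x : G => IsConj g x ∧ IsConj h (x⁻¹ * c))).card := by
    rw [Finset.filter_filter, ← Fintype.card_subtype, ← Nat.card_eq_fintype_card]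
    refine Nat.card_congr ⟨fun a => ⟨a.1.1, a.2.2.2.2.1, a.2.1, ?_⟩,
      fun x => ⟨(x.1, x.1⁻¹ * c), x.2.2.1, x.2.2.2, by simp, x.2.1,
        Subgroup.mul_mem _ (Subgroup.inv_mem _ x.2.1) hc⟩, ?_, ?_⟩
    · obtain ⟨⟨x, y⟩, h1, h2, h3, h4⟩ := a
      simp only at h1 h2 h3 ⊢
      rwa [← h3, inv_mul_cancel_left]
    · rintro ⟨⟨x, y⟩, h1, h2, h3, h4⟩
      simp only at h3
      simp [← h3]
    · intro x; rfl
  rw [h1, h2, ← ZMod.natCast_eq_natCast_iff, Finset.card_filter, Finset.card_filter]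
  push_cast
  refine H21.sum_eq_sum_centralizer hP _ ?_ ?_
  · intro u hu x
    have hcu : u * c = c * u := hc u hu
    have e1 : IsConj g (u * x * u⁻¹) ↔ IsConj g x :=
      ⟨fun h => h.trans (isConj_iff.mpr ⟨u⁻¹, by group⟩), fun h => h.trans (isConj_iff.mpr ⟨u, rfl⟩)⟩
    have e3 : (u * x * u⁻¹)⁻¹ * c = u * (x⁻¹ * c) * u⁻¹ := by
      have : c = u * c * u⁻¹ := by rw [hcu]; group
      conv_lhs => rw [this]
      group
    have e2 : IsConj h ((u * x * u⁻¹)⁻¹ * c) ↔ IsConj h (x⁻¹ * c) := by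
      rw [e3]
      exact ⟨fun h => h.trans (isConj_iff.mpr ⟨u⁻¹, by group⟩),
        fun h => h.trans (isConj_iff.mpr ⟨u, rfl⟩)⟩
    simp only [e1, e2]
  · intro a
    rw [nsmul_eq_mul, ZMod.natCast_self, zero_mul]

end Cfsg.Agent.S0903
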