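import Cfsg.Statements.S0916
import Cfsg.Agent.H98.SylIn
import Mathlib.GroupTheory.Nilpotent

set_option autoImplicit false
open Cfsg

namespace Cfsg.Agent.S0916

open H98 in
theorem centralizer_conj {G : Type*} [Group G] (x c : G) :
    (Subgroup.centralizer ({c} : Set G)).map (MulAut.conj x).toMonoidHom
      = Subgroup.centralizer ({x * c * x⁻¹} : Set G) := by
  ext y
  rw [mem_map_conj, Subgroup.mem_centralizer_singleton_iff, Subgroup.mem_centralizer_singleton_iff]
  constructor
  · intro h
    calc y * (x * c * x⁻¹) = x * (x⁻¹ * y * x * c) * x⁻¹ := by group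
      _ = _ := by rw [h]; group
  · intro h
    calc x⁻¹ * y * x * c = x⁻¹ * (y * (x * c * x⁻¹)) * x := by group
      _ = _ := by rw [h]; group

theorem le_centralizer {G : Type*} [Group G] {P : Subgroup G} {c : G}
    (hc : c ∈ Subgroup.centralizer (P : Set G)) : P ≤ Subgroup.centralizer ({c} : Set G) := by
  intro u hu
  rw [Subgroup.mem_centralizer_singleton_iff]
  exact hc u hu

/-- Let P be a p-subgroup of the finite group G, C its centralizer and N its normalizer. Say that a conjugacy class (of G, or of N) has defect group P when P is a Sylow p-subgroup of the centralizer (in G, respectively in N) of some element of the class. Then: (i) if the class of g in G has defect group P, the elements of that class lying in C form a single N-class, again with defect group P; (ii) every N-class with defect group P arises this way from exactly one G-class with defect group P. -/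
theorem result {G : Type*} [Group G] [Finite G] (p : ℕ) [Fact p.Prime] (P : Subgroup G) (hP : IsPGroup p P) : (∀ g : G, (∃ S : Sylow p (Subgroup.centralizer ({g} : Set G)), (S : Subgroup (Subgroup.centralizer ({g} : Set G))).map (Subgroup.centralizer ({g} : Set G)).subtype = P) → (∃ c : G, IsConj g c ∧ c ∈ Subgroup.centralizer (P : Set G)) ∧ (∀ c₁ c₂ : G, IsConj g c₁ → IsConj g c₂ → c₁ ∈ Subgroup.centralizer (P : Set G) → c₂ ∈ Subgroup.centralizer (P : Set G) → ∃ n ∈ Subgroup.normalizer (P : Set G), n * c₁ * n⁻¹ = c₂)) ∧ (∀ c : G, c ∈ Subgroup.centralizer (P : Set G) → (∃ S : Sylow p (Subgroup.centralizer ({c} : Set G) ⊓ Subgroup.normalizer (P : Set G) : Subgroup G), (S : Subgroup ↥(Subgroup.centralizer ({c} : Set G) ⊓ Subgroup.normalizer (P : Set G))).map (Subgroup.centralizer ({c} : Set G) ⊓ Subgroup.normalizer (P : Set G)).subtype = P) → ∃ S : Sylow p (Subgroup.centralizer ({c} : Set G)), (S : Subgroup (Subgroup.centralizer ({c} : Set G))).map (Subgroup.centralizer ({c} : Set G)).subtype = P) := by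
  constructor
  · rintro g ⟨S, hS⟩
    have hsyl : H98.SylIn p P (Subgroup.centralizer ({g} : Set G)) := hS ▸ H98.sylIn_map_sylow S
    have key : ∀ c : G, IsConj g c → c ∈ Subgroup.centralizer (P : Set G) →
        ∃ n ∈ Subgroup.normalizer (P : Set G), n * g * n⁻¹ = c := by
      intro c hc hcP
      obtain ⟨x, rfl⟩ := isConj_iff.mp hc
      have h1 := hsyl.map_conj x
      rw [centralizer_conj] at h1
      have h2 : H98.SylIn p P (Subgroup.centralizer ({x * g * x⁻¹} : Set G)) :=
        h1.of_card_le (le_centralizer hcP) hP (by rw [H98.card_map_conj])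
      obtain ⟨y, hy, hyx⟩ := h1.exists_conj h2
      rw [H98.map_conj_map_conj, H98.map_conj_eq_iff_mem_normalizer] at hyx
      refine ⟨y * x, hyx, ?_⟩
      rw [Subgroup.mem_centralizer_singleton_iff] at hy
      calc y * x * g * (y * x)⁻¹ = y * (x * g * x⁻¹) * y⁻¹ := by group
        _ = _ := by rw [hy]; group
    refine ⟨⟨g, IsConj.refl g, fun u hu => ?_⟩, fun c₁ c₂ h₁ h₂ hc₁ hc₂ => ?_⟩
    · exact Subgroup.mem_centralizer_singleton_iff.mp (hsyl.le hu)
    · obtain ⟨n₁, hn₁, rfl⟩ := key c₁ h₁ hc₁
      obtain ⟨n₂, hn₂, rfl⟩ := key c₂ h₂ hc₂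
      exact ⟨n₂ * n₁⁻¹, Subgroup.mul_mem _ hn₂ (Subgroup.inv_mem _ hn₁), by group⟩
  · rintro c hc ⟨S, hS⟩
    have hsyl : H98.SylIn p P (Subgroup.centralizer ({c} : Set G) ⊓
        Subgroup.normalizer (P : Set G)) := by
      have := H98.sylIn_map_sylow S
      rwa [hS] at this
    obtain ⟨T, hT, hPT⟩ := H98.exists_sylIn_ge (le_centralizer hc) hP
    have hTP : T = P := by
      by_contra hne
      have hnil : Group.IsNilpotent T := hT.isPGroup.isNilpotent
      have hlt : P.subgroupOf T < ⊤ := by
        rw [lt_top_iff_ne_top, Ne, Subgroup.subgroupOf_eq_top]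
        exact fun h => hne (le_antisymm h hPT)
      have h1 := normalizerCondition_of_isNilpotent (G := T) _ hlt
      have h2 : T ⊓ Subgroup.normalizer (P : Set G) = P :=
        hsyl.eq_of_le (inf_le_inf_right _ hT.le) (hT.isPGroup.to_le inf_le_left)
          (le_inf hPT Subgroup.le_normalizer)
      obtain ⟨x, hx1, hx2⟩ := SetLike.exists_of_lt h1
      apply hx2
      rw [← Subgroup.subgroupOf_normalizer_eq hPT] at hx1
      have : (x : G) ∈ T ⊓ Subgroup.normalizer (P : Set G) := ⟨x.2, hx1⟩
      rw [h2] at this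
      exact this
    obtain ⟨R, hR⟩ := hT.exists_sylow
    refine ⟨R, ?_⟩
    rw [hR, hTP, Subgroup.subgroupOf_map_subtype, inf_eq_left]
    exact le_centralizer hc

end Cfsg.Agent.S0916
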