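import Cfsg.Statements.S0918
import Cfsg.Agent.H17.First

set_option autoImplicit false
open Cfsg

namespace Cfsg.Agent.S0918

/-- Let P be a p-subgroup of the finite group G and H a subgroup with P·C_G(P) ≤ H ≤ N_G(P); let b be a block of H and B a block of G relative to a maximal ideal M of the algebraic integers containing p. Then b induces B if and only if, for every g ∈ G, every ξ ∈ b and every χ ∈ B, the central character of χ at g is congruent modulo the local ideal at M to the sum of ξ h / ξ 1 over the elements h of H conjugate in G to g and centralizing P. -/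
theorem result {G : Type*} [Group G] [Finite G] (p : ℕ) [Fact p.Prime] (M : Ideal Cfsg.AlgInt) (hM : Cfsg.IsPModular p M) (P H : Subgroup G) (hP : IsPGroup p P) (hPH : P ≤ H) (hCH : Subgroup.centralizer (P : Set G) ≤ H) (hHN : H ≤ Subgroup.normalizer (P : Set G)) (b : Set (Cfsg.IrrCharacter H)) (hb : Cfsg.IsPBlock M b) (B : Set (Cfsg.IrrCharacter G)) (hB : Cfsg.IsPBlock M B) : Cfsg.IsInducedBlock M H b B ↔ ∀ ξ ∈ b, ∀ χ ∈ B, ∀ g : G, Cfsg.MemLocalIdeal M (Cfsg.brauerCentralChar P H (ξ : H → ℂ) g - Cfsg.centralChar (χ : G → ℂ) g) := by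
  have key : ∀ (ξ : Cfsg.IrrCharacter H) (χ : Cfsg.IrrCharacter G) (g : G),
      Cfsg.MemLocalIdeal M (Cfsg.brauerCentralChar P H (ξ : H → ℂ) g -
        Cfsg.centralChar (χ : G → ℂ) g) ↔
      H17.lam M ξ (H17.brZ P H hHN (H17.classSum (H19.kk M) g)) =
        H17.lam M χ (H17.classSum (H19.kk M) g) := fun ξ χ g => by
    rw [H19.mli_sub_iff_red_eq hM.2.1
      (H19.mlr_of_isIntegral hM.2.1 (H17.isIntegral_brauerCentralChar hHN ξ g))
      (H17.mlr_centralChar hM.2.1 χ g), H17.lam_brZ_classSum, H17.lam_classSum]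
  simp only [key]
  constructor
  · intro h ξ hξ χ hχ g
    exact (H17.isInducedBlock_iff_brZ hM hP hPH hHN hb hB hξ hχ).1 h _
  · intro h
    obtain ⟨ξ, hξ⟩ := H17.block_nonempty hM.2.1 hb
    obtain ⟨χ, hχ⟩ := H17.block_nonempty hM.2.1 hB
    refine (H17.isInducedBlock_iff_brZ hM hP hPH hHN hb hB hξ hχ).2 fun z => ?_
    exact LinearMap.congr_fun (H17.ZG.linearMap_ext
      (f := (H17.lam M ξ).toLinearMap.comp (H17.brZ P H hHN)) (g := (H17.lam M χ).toLinearMap)
      (h ξ hξ χ hχ)) z

end Cfsg.Agent.S0918
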