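import Cfsg.Statements.S0921
import Cfsg.Agent.H22.Cover
import Cfsg.Agent.H3.Cores

set_option autoImplicit false
open Cfsg

namespace Cfsg.Agent.S0921


/-- Let N = O_p'(G) be the largest normal subgroup of the finite group G of order prime to p, and fix a maximal ideal M of the algebraic integers containing p. If two irreducible characters χ, ψ of G lie in the same block relative to M, then an irreducible character of N occurs in the restriction of χ exactly when it occurs in the restriction of ψ. -/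
theorem result {G : Type*} [Group G] [Finite G] (p : ℕ) [Fact p.Prime] (M : Ideal Cfsg.AlgInt) (hM : Cfsg.IsPModular p M) [Fintype G] (χ ψ : Cfsg.IrrCharacter G) (h : Cfsg.SameBlock M (χ : G → ℂ) (ψ : G → ℂ)) (θ : Cfsg.IrrCharacter (Cfsg.pPrimeCore p G)) [Fintype (Cfsg.pPrimeCore p G)] : Cfsg.classInner (fun n : Cfsg.pPrimeCore p G => (χ : G → ℂ) n) (θ : Cfsg.pPrimeCore p G → ℂ) ≠ 0 ↔ Cfsg.classInner (fun n : Cfsg.pPrimeCore p G => (ψ : G → ℂ) n) (θ : Cfsg.pPrimeCore p G → ℂ) ≠ 0 := by
  have hp := H3.not_dvd_card_pPrimeCore p G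
  have h' := (H17.sameBlock_iff_lam_eq hM.2.1 χ ψ).1 h
  rw [← H22.over_iff, ← H22.over_iff]
  exact ⟨H22.over_of_lam_eq_of_not_dvd hM hp h', H22.over_of_lam_eq_of_not_dvd hM hp h'.symm⟩

end Cfsg.Agent.S0921
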