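import Cfsg.Statements.S0926
import Cfsg.Agent.H20.Sections
import Cfsg.Agent.S0927

set_option autoImplicit false
open Cfsg

namespace Cfsg.Agent.S0926

/-- Let B be a block of the finite group G with defect group D (relative to a maximal ideal M of the algebraic integers containing p), let χ ∈ B have height zero, and let x be a p-element. Then some conjugate of x lies in D if and only if χ does not vanish on the whole p-section of x (the elements whose p-part is conjugate to x). -/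
theorem result {G : Type*} [Group G] [Finite G] (p : ℕ) [Fact p.Prime] (M : Ideal Cfsg.AlgInt) (hM : Cfsg.IsPModular p M) (B : Set (Cfsg.IrrCharacter G)) (hB : Cfsg.IsPBlock M B) (D : Subgroup G) (hD : Cfsg.IsDefectGroup p M B D) (χ : Cfsg.IrrCharacter G) (hχ : χ ∈ B) (h0 : Cfsg.blockHeight p B (χ : G → ℂ) = 0) (x : G) (hx : ∃ k : ℕ, orderOf x = p ^ k) : (∃ g : G, g * x * g⁻¹ ∈ D) ↔ ∃ u : G, (∃ z : G, Cfsg.IsPPart p u z ∧ IsConj x z) ∧ (χ : G → ℂ) u ≠ 0 := by
  constructor
  · rintro ⟨g, hg⟩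
    obtain ⟨y, hy, P, rfl⟩ := hD
    obtain ⟨w, hw, hw'⟩ := hg
    have hw'' : (w : G) = g * x * g⁻¹ := hw'
    refine ⟨(w : G) * y, ⟨w, H20.pPart_mul (H17.mem_Cg.1 w.2) ?_
      (H20.not_dvd_orderOf_of_defectClass hM hB hy), isConj_iff.2 ⟨g, hw''.symm⟩⟩, fun h => ?_⟩
    · rwa [hw'', H21.orderOf_conj]
    · apply (S0927.result p M hM B hB y hy P w hw).1 χ hχ h0
      rw [h]
      exact H19.mli_zero hM.2.1
  · rintro ⟨u, ⟨z, hz, hxz⟩, hu⟩
    obtain ⟨a, ha⟩ := H20.exists_conj_mem_dg_of_apply_ne_zero hM hB hD hχ hz hu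
    obtain ⟨c, rfl⟩ := isConj_iff.1 hxz
    exact ⟨a * c, by rw [mul_inv_rev]; simpa only [mul_assoc] using ha⟩

end Cfsg.Agent.S0926
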