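import Cfsg.Statements.S0930
import Cfsg.Agent.H17.Center

set_option autoImplicit false
open Cfsg

namespace Cfsg.Agent.S0930

/-- Let H be a subgroup of the finite group G and fix a maximal ideal M of the algebraic integers containing the prime p. If the block b of H with defect group D induces the block B of G with defect group P, then every element of the centre of P is conjugate in G to an element of the centre of D. -/
theorem result {G : Type*} [Group G] [Finite G] (p : ℕ) [Fact p.Prime] (M : Ideal Cfsg.AlgInt) (hM : Cfsg.IsPModular p M) (H : Subgroup G) (b : Set (Cfsg.IrrCharacter H)) (B : Set (Cfsg.IrrCharacter G)) (hind : Cfsg.IsInducedBlock M H b B) (D : Subgroup H) (hD : Cfsg.IsDefectGroup p M b D) (P : Subgroup G) (hP : Cfsg.IsDefectGroup p M B P) (x : G) (hx : x ∈ P) (hxc : ∀ w ∈ P, x * w = w * x) : ∃ g : G, g * x * g⁻¹ ∈ D.map H.subtype ∧ ∀ w ∈ D.map H.subtype, (g * x * g⁻¹) * w = w * (g * x * g⁻¹) := by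
  obtain ⟨z, h1, h2, h3⟩ := H17.IsInducedBlock.exists_conj_mem_center hM hind hD hP hx
    (H18.mem_Cz.2 fun w hw => (hxc w hw).symm)
  obtain ⟨g, hg⟩ := isConj_iff.1 h1
  refine ⟨g, hg ▸ ⟨z, h2, rfl⟩, ?_⟩
  rintro _ ⟨w, hw, rfl⟩
  rw [hg]
  exact congrArg Subtype.val (H18.mem_Cz.1 h3 w hw).symm

end Cfsg.Agent.S0930
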