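import Cfsg.Statements.S0932
import Mathlib.Algebra.BigOperators.Field

set_option autoImplicit false
open Cfsg

namespace Cfsg.Agent.S0932

open Classical in
/-- Summing a function over all conjugations of `g`. -/
theorem sum_conj_eq {G : Type*} [Group G] [Fintype G] (f : G → ℂ) (g : G) :
    ∑ x : G, f (x⁻¹ * g * x) =
      (Nat.card (Subgroup.centralizer ({g} : Set G)) : ℂ) *
        ∑ y ∈ Finset.univ.filter (fun y => IsConj g y), f y := by
  rw [← Finset.sum_fiberwise_of_maps_to (s := Finset.univ)
    (t := Finset.univ.filter (fun y => IsConj g y)) (g := fun x : G => x⁻¹ * g * x)]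
  · rw [Finset.mul_sum]
    refine Finset.sum_congr rfl fun y hy => ?_
    rw [Finset.sum_congr rfl (g := fun _ => f y) (fun x hx => by
      rw [(Finset.mem_filter.1 hx).2])]
    rw [Finset.sum_const, nsmul_eq_mul]
    congr 2
    obtain ⟨c, hc⟩ := isConj_iff.1 (Finset.mem_filter.1 hy).2
    rw [← Fintype.card_subtype, ← Nat.card_eq_fintype_card]
    refine Nat.card_congr
      { toFun := fun x => ⟨x.1 * c, ?_⟩
        invFun := fun z => ⟨z.1 * c⁻¹, ?_⟩
        left_inv := fun x => by simp
        right_inv := fun z => by simp }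
    · rw [Subgroup.mem_centralizer_singleton_iff]
      have h : x.1⁻¹ * g * x.1 = c * g * c⁻¹ := x.2.trans hc.symm
      calc x.1 * c * g = x.1 * (c * g * c⁻¹) * c := by group
        _ = x.1 * (x.1⁻¹ * g * x.1) * c := by rw [h]
        _ = g * (x.1 * c) := by group
    · have h := Subgroup.mem_centralizer_singleton_iff.1 z.2
      rw [← hc]
      calc (z.1 * c⁻¹)⁻¹ * g * (z.1 * c⁻¹) = c * z.1⁻¹ * (g * z.1) * c⁻¹ := by group
        _ = c * z.1⁻¹ * (z.1 * g) * c⁻¹ := by rw [h]
        _ = c * g * c⁻¹ := by group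
  · intro x _
    simp only [Finset.mem_filter, Finset.mem_univ, true_and]
    exact isConj_iff.2 ⟨x⁻¹, by simp⟩

/-- Let H be a subgroup of the finite group G and ξ a character of H. For every g ∈ G, the sum of ξ h / ξ 1 over the elements h ∈ H that are conjugate in G to g equals the central character at g of the character of G induced from ξ (class size times value divided by degree). -/
theorem result {G : Type*} [Group G] [Fintype G] (H : Subgroup G) (ξ : H → ℂ) (hξ : Cfsg.IsCharacter H ξ) (g : G) : Cfsg.inducedCentralChar H ξ g = Cfsg.centralChar (Cfsg.indFun H ξ) g := by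
  classical
  have hext : ∀ h : H, extendByZero H ξ (h : G) = ξ h := fun h =>
    Subtype.val_injective.extend_apply _ _ h
  have hext0 : ∀ y : G, y ∉ H → extendByZero H ξ y = 0 := fun y hy => by
    unfold extendByZero
    rw [Function.extend_apply' _ _ _ (by rintro ⟨h, rfl⟩; exact hy h.2)]
    rfl
  have h1 : indFun H ξ 1 = (Nat.card H : ℂ)⁻¹ * (Nat.card G * ξ 1) := by
    unfold indFun
    simp only [mul_one, inv_mul_cancel, Finset.sum_const, Finset.card_univ, nsmul_eq_mul,
      Nat.card_eq_fintype_card]
    rw [← hext 1]; rfl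
  have hs : ∑ y ∈ Finset.univ.filter (fun y => IsConj g y), extendByZero H ξ y =
      ∑ h ∈ Finset.univ.filter (fun h : H => IsConj g (h : G)), ξ h := by
    symm
    refine Finset.sum_bij_ne_zero (fun h _ _ => (h : G)) ?_ ?_ ?_ ?_
    · intro h hh _
      simpa using hh
    · intro a _ _ b _ _ hab
      exact Subtype.ext hab
    · intro y hy hy0
      have hyH : y ∈ H := by
        by_contra hn
        exact hy0 (hext0 y hn)
      refine ⟨⟨y, hyH⟩, by simpa using hy, ?_, rfl⟩
      rwa [← hext ⟨y, hyH⟩]
    · intro h _ _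
      exact (hext h).symm
  unfold inducedCentralChar centralChar
  rw [h1]
  unfold indFun
  rw [sum_conj_eq, hs]
  have hfin : ∑ᶠ h ∈ {h : H | IsConj g (h : G)}, ξ h / ξ 1 =
      ∑ h ∈ Finset.univ.filter (fun h : H => IsConj g (h : G)), ξ h / ξ 1 := by
    rw [← finsum_mem_coe_finset]
    simp
  rw [hfin, ← Finset.sum_div]
  have hH : (Nat.card H : ℂ) ≠ 0 := by exact_mod_cast Nat.card_pos.ne'
  have hC : (Nat.card (Subgroup.centralizer ({g} : Set G)) : ℂ) ≠ 0 := by
    exact_mod_cast Nat.card_pos.ne'
  have hI : ((Subgroup.centralizer ({g} : Set G)).index : ℂ) ≠ 0 := by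
    exact_mod_cast Subgroup.index_ne_zero_of_finite
  rw [← (Subgroup.centralizer ({g} : Set G)).card_mul_index]
  push_cast
  by_cases h0 : ξ 1 = 0
  · simp [h0]
  · field_simp

end Cfsg.Agent.S0932
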