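import Cfsg.Statements.S0940
import Cfsg.Agent.H21.Feit
import Cfsg.Agent.H19.GaloisBlock

set_option autoImplicit false
open Cfsg

namespace Cfsg.Agent.S0940

open Cfsg.Agent.H19 hiding char_mem_Vr
open Cfsg.Agent.H21
open scoped ComplexConjugate

open Classical in
/-- The indicator function of the `p`-elements. -/
noncomputable def pInd (p : ℕ) (G : Type*) [Group G] : G → ℂ :=
  fun x => if ∃ k : ℕ, orderOf x = p ^ k then 1 else 0

theorem pInd_class (p : ℕ) (G : Type*) [Group G] : IsClassFunction G (pInd p G) := by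
  intro g h
  unfold pInd
  rw [H21.orderOf_conj]

theorem pInd_res (p : ℕ) {G : Type*} [Group G] (E : Subgroup G) :
    (fun e : E => pInd p G e) = pInd p E := by
  funext e
  unfold pInd
  rw [Subgroup.orderOf_coe]

theorem inner_pInd_nilp {E : Type*} [Group E] [Fintype E] [Group.IsNilpotent E] {p : ℕ}
    [Fact p.Prime] {M : Ideal AlgInt} (hM : IsPModular p M) {φ : E → ℂ} (hφ : IsCharacter E φ) :
    classInner (pInd p E) φ ∈ Vr M := by
  classical
  obtain ⟨P⟩ : Nonempty (Sylow p E) := inferInstance
  have hP : (P : Subgroup E).Normal :=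
    Sylow.normal_of_normalizerCondition Group.normalizerCondition_of_isNilpotent P
  have hmem : ∀ x : E, x ∈ (P : Subgroup E) ↔ ∃ k : ℕ, orderOf x = p ^ k := by
    intro x
    constructor
    · intro hx
      obtain ⟨k, hk⟩ := IsPGroup.iff_orderOf.1 P.isPGroup' ⟨x, hx⟩
      exact ⟨k, by rw [← hk, ← Subgroup.orderOf_coe]⟩
    · rintro ⟨k, hk⟩
      have h1 : IsPGroup p (Subgroup.zpowers x) :=
        H8.isPGroup_zpowers_of_pow_eq_one (k := k) (by rw [← hk, pow_orderOf_eq_one])
      obtain ⟨Q, hQ⟩ := h1.exists_le_sylow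
      have := P.unique_of_normal hP
      rw [Subsingleton.elim P Q]
      exact hQ (Subgroup.mem_zpowers x)
  have hi : ((P : Subgroup E).index : ℂ) ≠ 0 := by
    exact_mod_cast Subgroup.index_ne_zero_of_finite
  have h1 : pInd p E = ((P : Subgroup E).index : ℂ)⁻¹ • indFun (P : Subgroup E) (fun _ => 1) := by
    funext x
    rw [Pi.smul_apply, smul_eq_mul]
    by_cases hx : x ∈ (P : Subgroup E)
    · have := H14.indFun_normal_apply_of_invariant (P : Subgroup E) (fun _ => (1 : ℂ))
        (fun _ _ => rfl) ⟨x, hx⟩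
      simp only at this
      rw [this, pInd, if_pos ((hmem x).1 hx), mul_one, inv_mul_cancel₀ hi]
    · rw [H14.indFun_normal_of_not_mem _ _ hx, mul_zero, pInd, if_neg (fun h => hx ((hmem x).2 h))]
  rw [h1, H11.classInner_smul_left]
  obtain ⟨n, hn⟩ := H11.exists_nat_classInner
    (H14.IsCharacter.indFun (P : Subgroup E) H11.isCharacter_one) hφ
  rw [hn]
  exact mul_mem (inv_natCast_mem_Vr hM P.not_dvd_index) (natCast_mem_Vr n)

theorem inner_pInd_mem {G : Type*} [Group G] [Fintype G] {p : ℕ}
    [Fact p.Prime] {M : Ideal AlgInt} (hM : IsPModular p M) {χ : G → ℂ}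
    (hχ : IsGeneralizedCharacter G χ) : classInner (pInd p G) χ ∈ Vr M := by
  refine H13.classInner_mem_of_restrict_elementary (Vr M).toSubring.toAddSubgroup
    (pInd_class p G) ?_ hχ
  intro E _ q hq hE φ hφ
  have := H13.isNilpotent_of_isElementary hq hE
  rw [pInd_res]
  exact inner_pInd_nilp hM (H11.isCharacter_of_irr hφ)

/-- Let G be a finite group and M a maximal ideal of the algebraic integers containing the prime p. For every p-regular g, the idempotent coefficient of the principal block at g (the inverse of the group order times the sum over χ in the principal block of χ 1 * conj (χ g)) is congruent modulo the local ideal at M to N / R, where N is the number of pairs (x, y) with x of p-power order, y of order prime to p and x * y = g, and R is the number of elements of G of order prime to p. -/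
theorem result {G : Type*} [Group G] [Finite G] (p : ℕ) [Fact p.Prime] (M : Ideal Cfsg.AlgInt) (hM : Cfsg.IsPModular p M) (g : G) (hg : ¬ p ∣ orderOf g) : Cfsg.MemLocalIdeal M (Cfsg.blockCoeff (Cfsg.principalBlock M G) g - (Nat.card {xy : G × G // (∃ k : ℕ, orderOf xy.1 = p ^ k) ∧ ¬ p ∣ orderOf xy.2 ∧ xy.1 * xy.2 = g} : ℂ) / (Nat.card {y : G // ¬ p ∣ orderOf y} : ℂ)) := by
  classical
  have hp : p.Prime := Fact.out
  have := Fintype.ofFinite G
  have := Fintype.ofFinite (IrrCharacter G)
  set R : ℕ := Nat.card {y : G // ¬ p ∣ orderOf y} with hR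
  set N : ℕ := Nat.card {xy : G × G // (∃ k : ℕ, orderOf xy.1 = p ^ k) ∧ ¬ p ∣ orderOf xy.2 ∧
    xy.1 * xy.2 = g} with hN
  have hG : (Nat.card G : ℂ) ≠ 0 := by exact_mod_cast Nat.card_pos.ne'
  let r : G → ℂ := pRegularPart p (fun _ => 1)
  have hr : IsClassFunction G r := preg_isClassFunction (fun _ _ => rfl)
  have hrV : ∀ x, r x ∈ Vr M := preg_mem_Vr (fun _ => one_mem _)
  have hsum : ∀ f : G → ℂ, ∑ y, r y * f y = regSum p f := by
    intro f
    rw [regSum_def]
    refine Finset.sum_congr rfl fun y _ => ?_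
    rw [preg_eq_mul f, Pi.mul_apply, mul_comm]
  have hR1 : regSum p (fun _ : G => (1 : ℂ)) = R := by
    rw [regSum_eq_filter, hR, Nat.card_eq_fintype_card, Fintype.card_subtype, Finset.sum_const,
      nsmul_eq_mul, mul_one]
  have hRu : val M (R : ℂ) = 1 := by
    have h1 := (val_ti_one_eq_one_iff hM (triv G)).2 ⟨triv_mem_principal hM.2.1, by
      rw [triv_coe, H21.charDegree_one]; exact hp.one_lt.ne' ∘ Nat.dvd_one.1⟩
    rw [triv_coe, ti_def] at h1
    have h2 := regSum_eq_inner (p := p) (fun _ : G => (1 : ℂ))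
    rw [hR1] at h2
    have h3 : (p : ℂ) ^ (Nat.card G).factorization p *
        classInner (pRegularPart p fun _ : G => (1 : ℂ)) (fun _ => 1) =
        (p : ℂ) ^ (Nat.card G).factorization p / Nat.card G * R := by
      rw [h2]; field_simp
    rw [h3, map_mul, val_ppart_div_card hM, one_mul] at h1
    exact h1
  have hR0 : (R : ℂ) ≠ 0 := by
    intro h
    rw [h, map_zero] at hRu
    exact zero_ne_one hRu
  -- the counting formula
  let a : IrrCharacter G → ℂ := fun χ => (Nat.card G : ℂ)⁻¹ * ∑ x, pInd p G x * χ.1 x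
  have ha : ∀ χ, a χ ∈ Vr M := by
    intro χ
    have := inner_pInd_mem hM (H11.isGen_conj (H11.isGen_of_irr χ.2))
    rw [H11.classInner_def] at this
    simpa only [Complex.conj_conj] using this
  have hN1 : (N : ℂ) = ∑ x : G, ∑ y : G, (if x * y = g then pInd p G x * r y else 0) := by
    rw [hN, Nat.card_eq_fintype_card, Fintype.card_subtype, Finset.card_filter,
      ← Fintype.sum_prod_type']
    push_cast
    refine Finset.sum_congr rfl fun z _ => ?_
    by_cases h1 : ∃ k : ℕ, orderOf z.1 = p ^ k <;> by_cases h2 : p ∣ orderOf z.2 <;>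
      by_cases h3 : z.1 * z.2 = g <;>
      simp only [h1, h2, h3, pInd, r, preg_apply, if_true, if_false, and_true, and_false,
        and_self, mul_one, mul_zero, not_true, not_false_iff]
  have hN2 : (N : ℂ) = ∑ χ ∈ Finset.univ.filter (· ∈ principalBlock M G),
      a χ * om χ.1 r * conj (χ.1 g) := by
    rw [hN1]
    refine (Eq.trans (by congr!) (H12.sum_sum_classFun_mul_eq (pInd_class p G) hr g)).trans ?_
    rw [Finset.mul_sum, Finset.sum_filter]
    refine Finset.sum_congr rfl fun χ _ => ?_
    split_ifs with h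
    · rw [om_def]
      simp only [a]
      ring
    · rw [hsum, regSum_eq_zero_of_notMem hM h]
      simp
  have hB : blockCoeff (principalBlock M G) g =
      ∑ χ ∈ Finset.univ.filter (· ∈ principalBlock M G), a χ * conj (χ.1 g) := by
    have h1 : ∑ χ ∈ Finset.univ.filter (· ∈ principalBlock M G), a χ * conj (χ.1 g) =
        (Nat.card G : ℂ)⁻¹ * ∑ x, pInd p G x *
          ∑ᶠ χ ∈ principalBlock M G, χ.1 x * conj (χ.1 g) := by
      simp only [a, finsum_mem_eq_sum_filter', Finset.mul_sum, Finset.sum_mul]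
      rw [Finset.sum_comm]
      refine Finset.sum_congr rfl fun x _ => Finset.sum_congr rfl fun χ _ => ?_
      ring
    rw [h1, Finset.sum_eq_single (1 : G), blockCoeff]
    · have : pInd p G 1 = 1 := if_pos ⟨0, by simp⟩
      rw [this, one_mul]
    · intro x _ hx
      by_cases h : ∃ k : ℕ, orderOf x = p ^ k
      · obtain ⟨k, hk⟩ := h
        have hpx : p ∣ orderOf x := by
          rw [hk]
          refine dvd_pow_self p ?_
          rintro rfl
          exact hx (orderOf_eq_one_iff.1 (by rw [hk, pow_zero]))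
        rw [weak_orth' hM isPBlock_principal hpx hg, mul_zero]
      · rw [pInd, if_neg h, zero_mul]
    · intro h
      exact absurd (Finset.mem_univ _) h
  rw [memLocalIdeal_iff hM.2.1]
  refine ⟨(H19.isAlgebraic_blockCoeff _ _).sub
    (isAlgebraic_div (isAlgebraic_natCast' _) (isAlgebraic_natCast' _)), ?_⟩
  have h2 : blockCoeff (principalBlock M G) g - (N : ℂ) / R =
      (∑ χ ∈ Finset.univ.filter (· ∈ principalBlock M G),
        (om (triv G).1 r - om χ.1 r) * (a χ * conj (χ.1 g))) * (R : ℂ)⁻¹ := by
    have h3 : om (triv G).1 r = R := by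
      rw [om_def, hsum, triv_apply, div_one, triv_coe, hR1]
    rw [hB, hN2, h3]
    simp only [sub_mul, Finset.sum_sub_distrib]
    rw [← Finset.mul_sum]
    congr 1
    · field_simp
    · rw [div_eq_mul_inv]
      congr 1
      refine Finset.sum_congr rfl fun χ _ => ?_
      ring
  rw [h2]
  refine val_mul_lt_one_left (val_sum_lt_one fun χ hχ => ?_) (inv_mem_Vr_of_val_eq_one hRu)
  refine val_mul_lt_one_left ?_ (mul_mem (ha χ) ?_)
  · exact val_om_sub_lt_one hM.2.1 (block_sameBlock hM.2.1 isPBlock_principal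
      (triv_mem_principal hM.2.1) (Finset.mem_filter.1 hχ).2) hr hrV
  · rw [H17.irr_conj]
    exact H21.irr_mem_Vr χ _

end Cfsg.Agent.S0940
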