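import Cfsg.Statements.S0948
import Cfsg.Agent.H6.KleinBlock

set_option autoImplicit false
open Cfsg Subgroup

namespace Cfsg.Agent.S0948

/-- Let the finite group G have a Sylow 2-subgroup P that is a Klein four-group, suppose all involutions of G are conjugate, and fix a maximal ideal M of the algebraic integers containing 2. Then the principal block consists of exactly four irreducible characters, the principal character and ζ₂, ζ₃, ζ₄, and there is a sign ε such that for every involution z: ζ₂ z = 1, ζ₃ z = ε, ζ₄ z = -1; moreover ζ₂ 1 ≡ 1, ζ₃ 1 ≡ ε, ζ₄ 1 ≡ -1 (mod 4), and 1 + ζ₂ y + ε ζ₃ y - ζ₄ y = 0 for every y of odd order. -/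
theorem result {G : Type*} [Group G] [Finite G] (M : Ideal Cfsg.AlgInt) (hM : Cfsg.IsPModular 2 M) (P : Sylow 2 G) (hP : IsKleinFour (P : Subgroup G)) (hone : ∀ s t : G, orderOf s = 2 → orderOf t = 2 → IsConj s t) : ∃ ζ₂ ζ₃ ζ₄ : Cfsg.IrrCharacter G, ∃ ε : ℤ, (ε = 1 ∨ ε = -1) ∧ (ζ₂ : G → ℂ) ≠ (fun _ => 1) ∧ (ζ₃ : G → ℂ) ≠ (fun _ => 1) ∧ ζ₂ ≠ ζ₃ ∧ ζ₂ ≠ ζ₄ ∧ ζ₃ ≠ ζ₄ ∧ Cfsg.principalBlock M G = {χ : Cfsg.IrrCharacter G | (χ : G → ℂ) = (fun _ => 1) ∨ χ = ζ₂ ∨ χ = ζ₃ ∨ χ = ζ₄} ∧ (∀ z : G, orderOf z = 2 → (ζ₂ : G → ℂ) z = 1 ∧ (ζ₃ : G → ℂ) z = (ε : ℂ) ∧ (ζ₄ : G → ℂ) z = -1) ∧ (4 : ℤ) ∣ (Cfsg.charDegree (ζ₂ : G → ℂ) : ℤ) - 1 ∧ (4 : ℤ) ∣ (Cfsg.charDegree (ζ₃ : G → ℂ) : ℤ) - ε ∧ (4 : ℤ) ∣ (Cfsg.charDegree (ζ₄ : G → ℂ) : ℤ) + 1 ∧ ∀ y : G, Odd (orderOf y) → 1 + (ζ₂ : G → ℂ) y + (ε : ℂ) * (ζ₃ : G → ℂ) y - (ζ₄ : G → ℂ) y = 0 := by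
  classical
  have := Fintype.ofFinite G
  obtain ⟨e, h⟩ := H6.exists_kcol hM P hP hone
  choose ε hε hs using fun i => (h.sgn i).irr_spec
  set χ : Fin 3 → IrrCharacter G := fun i => (h.sgn i).irr with hχ
  have hs' : ∀ i g, e i g = ε i * (χ i).1 g := fun i g => congrFun (hs i) g
  have hinj : Function.Injective χ := H6.irr_injective_sgn h.sgn h.orth
  have hne : ∀ i, (χ i).1 ≠ fun _ => 1 := fun i h1 => (h.sgn i).inner_irr_ne_zero (by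
    change classInner (e i) (χ i).1 = 0
    rw [h1, h.one])
  have hz : ∀ i z, orderOf z = 2 → (χ i).1 z = ε i := fun i z hz => by
    have h1 := h.even i z (by rw [hz])
    rw [hs'] at h1
    rcases hε i with h2 | h2 <;> rw [h2] at h1 ⊢
    · linear_combination h1
    · linear_combination -h1
  have hodd : ∀ y : G, Odd (orderOf y) →
      1 + (ε 0 * (χ 0).1 y + ε 1 * (χ 1).1 y + ε 2 * (χ 2).1 y) = 0 := fun y hy => by
    have := h.odd y (Nat.two_dvd_ne_zero.mpr (Nat.odd_iff.mp hy))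
    rwa [Fin.sum_univ_three, hs', hs', hs'] at this
  have hdeg : ∀ i (δ : ℤ), ε i = δ → (4 : ℤ) ∣ (charDegree (χ i).1 : ℤ) - δ := fun i δ hδ => by
    obtain ⟨n, hn⟩ := h.deg i
    rw [hs', ← H21.cast_deg, hδ] at hn
    have h2 : δ * (charDegree (χ i).1 : ℤ) = 4 * n + 1 := by exact_mod_cast hn
    have h3 : δ = 1 ∨ δ = -1 := by
      rcases hε i with h3 | h3 <;> rw [hδ] at h3
      · exact Or.inl (by exact_mod_cast h3)
      · exact Or.inr (by exact_mod_cast h3)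
    rcases h3 with rfl | rfl
    · exact ⟨n, by linarith⟩
    · exact ⟨-n, by linarith⟩
  have key : ∀ (a b c : Fin 3) (δ : ℤ), a ≠ b → a ≠ c → b ≠ c → (∀ i, i = a ∨ i = b ∨ i = c) →
      ε a = 1 → ε b = δ → ε c = -1 → (δ = 1 ∨ δ = -1) →
      (∀ f : Fin 3 → ℂ, f 0 + f 1 + f 2 = f a + f b + f c) → ∃ ζ₂ ζ₃ ζ₄ : Cfsg.IrrCharacter G, ∃ ε : ℤ, (ε = 1 ∨ ε = -1) ∧ (ζ₂ : G → ℂ) ≠ (fun _ => 1) ∧ (ζ₃ : G → ℂ) ≠ (fun _ => 1) ∧ ζ₂ ≠ ζ₃ ∧ ζ₂ ≠ ζ₄ ∧ ζ₃ ≠ ζ₄ ∧ Cfsg.principalBlock M G = {χ : Cfsg.IrrCharacter G | (χ : G → ℂ) = (fun _ => 1) ∨ χ = ζ₂ ∨ χ = ζ₃ ∨ χ = ζ₄} ∧ (∀ z : G, orderOf z = 2 → (ζ₂ : G → ℂ) z = 1 ∧ (ζ₃ : G → ℂ) z = (ε : ℂ) ∧ (ζ₄ : G → ℂ) z = -1) ∧ (4 : ℤ) ∣ (Cfsg.charDegree (ζ₂ : G → ℂ) : ℤ) - 1 ∧ (4 : ℤ) ∣ (Cfsg.charDegree (ζ₃ : G → ℂ) : ℤ) - ε ∧ (4 : ℤ) ∣ (Cfsg.charDegree (ζ₄ : G → ℂ) : ℤ) + 1 ∧ ∀ y : G, Odd (orderOf y) → 1 + (ζ₂ : G → ℂ) y + (ε : ℂ) * (ζ₃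 : G → ℂ) y - (ζ₄ : G → ℂ) y = 0 := by
    intro a b c δ hab hac hbc hall ha hb hc hδ hsum
    refine ⟨χ a, χ b, χ c, δ, hδ, hne a, hne b, hinj.ne hab, hinj.ne hac, hinj.ne hbc, ?_,
      fun z hz2 => ⟨by rw [hz a z hz2, ha], by rw [hz b z hz2, hb], by rw [hz c z hz2, hc]⟩,
      hdeg a 1 (by simpa using ha), hdeg b δ hb, by simpa using hdeg c (-1) (by simpa using hc),
      fun y hy => ?_⟩
    · ext ξ
      rw [h.mem, Set.mem_setOf_eq]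
      refine or_congr_right ⟨?_, ?_⟩
      · rintro ⟨i, rfl⟩
        rcases hall i with rfl | rfl | rfl
        exacts [Or.inl rfl, Or.inr (Or.inl rfl), Or.inr (Or.inr rfl)]
      · rintro (rfl | rfl | rfl) <;> exact ⟨_, rfl⟩
    · have h1 := hodd y hy
      rw [hsum fun i => ε i * (χ i).1 y, ha, hb, hc] at h1
      linear_combination h1
  have h1 := hodd 1 (by simp)
  simp only [← H21.cast_deg] at h1
  have p0 := H21.deg_pos (χ 0)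
  have p1 := H21.deg_pos (χ 1)
  have p2 := H21.deg_pos (χ 2)
  rcases hε 0 with h0 | h0 <;> rcases hε 1 with h1' | h1' <;> rcases hε 2 with h2 | h2
  · rw [h0, h1', h2] at h1
    have : (1 : ℤ) + (1 * charDegree (χ 0).1 + 1 * charDegree (χ 1).1 + 1 * charDegree (χ 2).1) = 0 := by
      exact_mod_cast h1
    omega
  · exact key 0 1 2 1 (by decide) (by decide) (by decide) (by decide) h0 (by simpa using h1') h2
      (Or.inl rfl) fun f => rfl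
  · exact key 0 2 1 1 (by decide) (by decide) (by decide) (by decide) h0 (by simpa using h2) h1'
      (Or.inl rfl) fun f => by ring
  · exact key 0 1 2 (-1) (by decide) (by decide) (by decide) (by decide) h0 (by simpa using h1') h2
      (Or.inr rfl) fun f => rfl
  · exact key 1 2 0 1 (by decide) (by decide) (by decide) (by decide) h1' (by simpa using h2) h0
      (Or.inl rfl) fun f => by ring
  · exact key 1 0 2 (-1) (by decide) (by decide) (by decide) (by decide) h1' (by simpa using h0) h2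
      (Or.inr rfl) fun f => by ring
  · exact key 2 0 1 (-1) (by decide) (by decide) (by decide) (by decide) h2 (by simpa using h0) h1'
      (Or.inr rfl) fun f => by ring
  · rw [h0, h1', h2] at h1
    have : (1 : ℤ) + (-1 * charDegree (χ 0).1 + -1 * charDegree (χ 1).1 +
        -1 * charDegree (χ 2).1) = 0 := by
      exact_mod_cast h1
    omega

end Cfsg.Agent.S0948
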