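import Cfsg.Statements.S0950
import Cfsg.Agent.H6.BrauerSuzuki

set_option autoImplicit false
open Cfsg Subgroup

namespace Cfsg.Agent.S0950

/-- Let S be a Sylow 2-subgroup of the finite group G that is isomorphic to the quaternion group of order 8, and suppose S has no normal complement in G. Then any two subgroups of order 4 of S are conjugate by an element of the normalizer of S. -/
theorem result {G : Type*} [Group G] [Finite G] (S : Sylow 2 G) (e : (S : Subgroup G) ≃* QuaternionGroup 2) (hnc : ∀ N : Subgroup G, N.Normal → ¬ Subgroup.IsComplement' N (S : Subgroup G)) (A B : Subgroup G) (hA : A ≤ S) (hB : B ≤ S) (hA4 : Nat.card A = 4) (hB4 : Nat.card B = 4) : ∃ n ∈ Subgroup.normalizer ((S : Subgroup G) : Set G), B = A.map (MulAut.conj n).toMonoidHom := by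
  obtain ⟨n, hnS, y, hyS, hy4, hn⟩ := H6.q8_fusion S e fun h => by
    obtain ⟨N, hN, h⟩ := (H8.hasNormalPComplement_iff_sylow S).mp h
    exact hnc N hN h
  have key : ∀ A : Subgroup G, A ≤ S → Nat.card A = 4 →
      ∃ i : ℕ, A = (zpowers y).map (MulAut.conj (n ^ i)).toMonoidHom := by
    intro A hA hA4
    obtain ⟨a, ha, ha4⟩ : ∃ a ∈ A, orderOf a = 4 := by
      by_contra! h
      have h2 : orderOf (y ^ 2) = 2 := by rw [orderOf_pow' y two_ne_zero, hy4]; rfl
      have hle : A ≤ zpowers (y ^ 2) := fun a ha => by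
        rcases H6.q8_orderOf e (hA ha) with rfl | h1 | h1
        · exact one_mem _
        · rw [H6.q8_eq_of_orderOf_two e (hA ha) (pow_mem hyS 2) h1 h2]
          exact mem_zpowers _
        · exact absurd h1 (h a ha)
      have := card_le_of_le hle
      rw [hA4, Nat.card_zpowers, h2] at this
      exact absurd this (by decide)
    obtain ⟨i, hi⟩ := hn a (hA ha)
    refine ⟨i, ?_⟩
    rw [MonoidHom.map_zpowers]
    have h1 : zpowers a = A := eq_of_le_of_card_ge (zpowers_le.mpr ha)
      (by rw [hA4, Nat.card_zpowers, ha4])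
    rw [← h1]
    refine eq_of_le_of_card_ge (zpowers_le.mpr hi) ?_
    change Nat.card (zpowers (n ^ i * y * (n ^ i)⁻¹)) ≤ _
    rw [Nat.card_zpowers, Nat.card_zpowers, H10.orderOf_conj, hy4, ha4]
  obtain ⟨i, rfl⟩ := key A hA hA4
  obtain ⟨j, rfl⟩ := key B hB hB4
  refine ⟨n ^ j * (n ^ i)⁻¹, mul_mem (pow_mem hnS j) (inv_mem (pow_mem hnS i)), ?_⟩
  rw [map_map]
  congr 1
  ext g
  simp [mul_assoc]

end Cfsg.Agent.S0950
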