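import Cfsg.Statements.S0957
import Cfsg.Agent.H98.SylIn

set_option autoImplicit false
open Cfsg

namespace Cfsg.Agent.S0957

theorem dvd_card_of_dvd_index {P α : Type*} [Group P] [MulAction P α] [Finite α] (m : ℕ)
    (h : ∀ a : α, m ∣ (MulAction.stabilizer P a).index) : m ∣ Nat.card α := by
  classical
  have := Fintype.ofFinite (Quotient (MulAction.orbitRel P α))
  rw [Nat.card_congr (MulAction.selfEquivSigmaOrbits P α), Nat.card_sigma]
  refine Finset.dvd_sum fun q _ => ?_
  have := h q.out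
  rwa [MulAction.index_stabilizer, ← Nat.card_coe_set_eq] at this

/-- Let P be a Sylow p-subgroup of the finite group G, let g, h ∈ G and let p ^ d be the order of a Sylow p-subgroup of the centralizer of g. Then the number of pairs (y, z) with y conjugate to g, z conjugate to h and z * y⁻¹ ∈ P is divisible by the order of P divided by p ^ d. -/
theorem result {G : Type*} [Group G] [Finite G] (p : ℕ) [Fact p.Prime] (P : Sylow p G) (g h : G) (S : Sylow p (Subgroup.centralizer ({g} : Set G))) : Nat.card P / Nat.card S ∣ Nat.card {yz : G × G // IsConj g yz.1 ∧ IsConj h yz.2 ∧ yz.2 * yz.1⁻¹ ∈ (P : Subgroup G)} := by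
  let X := {yz : G × G // IsConj g yz.1 ∧ IsConj h yz.2 ∧ yz.2 * yz.1⁻¹ ∈ (P : Subgroup G)}
  let act : MulAction (P : Subgroup G) X :=
    { smul := fun u a => ⟨((u : G) * a.1.1 * (u : G)⁻¹, (u : G) * a.1.2 * (u : G)⁻¹),
        a.2.1.trans (isConj_iff.mpr ⟨u, rfl⟩), a.2.2.1.trans (isConj_iff.mpr ⟨u, rfl⟩), by
          have : (u : G) * a.1.2 * (u : G)⁻¹ * ((u : G) * a.1.1 * (u : G)⁻¹)⁻¹
              = (u : G) * (a.1.2 * a.1.1⁻¹) * (u : G)⁻¹ := by group
          simp only [this]
          exact Subgroup.mul_mem _ (Subgroup.mul_mem _ u.2 a.2.2.2) (Subgroup.inv_mem _ u.2)⟩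
      one_smul := fun a => Subtype.ext (Prod.ext (by
          show ((1 : (P : Subgroup G)) : G) * a.1.1 * ((1 : (P : Subgroup G)) : G)⁻¹ = a.1.1
          simp) (by
          show ((1 : (P : Subgroup G)) : G) * a.1.2 * ((1 : (P : Subgroup G)) : G)⁻¹ = a.1.2
          simp))
      mul_smul := fun u v a => Subtype.ext (Prod.ext (by
          show ((u * v : (P : Subgroup G)) : G) * a.1.1 * ((u * v : (P : Subgroup G)) : G)⁻¹ =
            (u : G) * ((v : G) * a.1.1 * (v : G)⁻¹) * (u : G)⁻¹
          simp [mul_assoc]) (by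
          show ((u * v : (P : Subgroup G)) : G) * a.1.2 * ((u * v : (P : Subgroup G)) : G)⁻¹ =
            (u : G) * ((v : G) * a.1.2 * (v : G)⁻¹) * (u : G)⁻¹
          simp [mul_assoc])) }
  refine dvd_card_of_dvd_index (P := (P : Subgroup G)) _ fun a => ?_
  obtain ⟨x, hx⟩ := isConj_iff.mp a.2.1
  -- the stabilizer, conjugated back, is a `p`-subgroup of the centralizer of `g`
  let T : Subgroup G := ((MulAction.stabilizer (P : Subgroup G) a).map
    (P : Subgroup G).subtype).map (MulAut.conj x⁻¹).toMonoidHom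
  have hTcard : Nat.card T = Nat.card (MulAction.stabilizer (P : Subgroup G) a) := by
    rw [H98.card_map_conj, Subgroup.card_subtype]
  have hTp : IsPGroup p T := ((P.isPGroup'.to_subgroup _).map _).map _
  have hTle : T ≤ Subgroup.centralizer ({g} : Set G) := by
    rintro _ ⟨_, ⟨u, hu, rfl⟩, rfl⟩
    have h1 : (u : G) * a.1.1 * (u : G)⁻¹ = a.1.1 := congrArg (fun b : X => b.1.1) hu
    rw [Subgroup.mem_centralizer_singleton_iff]
    rw [← hx] at h1
    simp only [MulEquiv.toMonoidHom_eq_coe, Subgroup.coe_subtype, MonoidHom.coe_coe,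
      MulAut.conj_apply, inv_inv]
    calc x⁻¹ * (u : G) * x * g = x⁻¹ * ((u : G) * (x * g * x⁻¹) * (u : G)⁻¹) * u * x := by group
      _ = _ := by rw [h1]; group
  have hdvd := (H98.sylIn_map_sylow S).card_dvd hTle hTp
  rw [hTcard, Subgroup.card_subtype] at hdvd
  obtain ⟨k, hk⟩ := hdvd
  have h2 := Subgroup.card_mul_index (MulAction.stabilizer (P : Subgroup G) a)
  have hpos : 0 < Nat.card (MulAction.stabilizer (P : Subgroup G) a) := Nat.card_pos
  change Nat.card (P : Subgroup G) / Nat.card (S : Subgroup (Subgroup.centralizer ({g} : Set G))) ∣ _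
  have hSP : Nat.card (S : Subgroup (Subgroup.centralizer ({g} : Set G))) ∣ Nat.card (P : Subgroup G) :=
    by
      have := (H98.sylIn_top P).card_dvd le_top (H98.sylIn_map_sylow S).isPGroup
      rwa [Subgroup.card_subtype] at this
  obtain ⟨l, hl⟩ := hSP
  have hSpos : 0 < Nat.card (S : Subgroup (Subgroup.centralizer ({g} : Set G))) := Nat.card_pos
  rw [hl, Nat.mul_div_cancel_left _ hSpos]
  rw [hl, hk, mul_assoc] at h2
  exact ⟨k, by rw [Nat.eq_of_mul_eq_mul_left hpos h2, mul_comm]⟩

end Cfsg.Agent.S0957
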