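import Cfsg.Statements.S0970
import Cfsg.Agent.H22.Fong
import Cfsg.Agent.H17.Numeric

set_option autoImplicit false
open Cfsg

namespace Cfsg.Agent.S0970


/-- Let N be a normal subgroup of the finite group G and fix a maximal ideal M of the algebraic integers containing the prime p. Let b be a block of N that is invariant under conjugation by G, and B a block of G covering b (some χ ∈ B has a constituent in b) whose defect is at least that of every block covering b. If P is a defect group of B, then p does not divide the index of P ⊔ N, the subgroup P ∩ N of N is a defect group of b, and the defect of B equals the defect of b plus the exponent of p in the index of N. -/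
theorem result {G : Type*} [Group G] [Fintype G] (p : ℕ) [Fact p.Prime] (M : Ideal Cfsg.AlgInt) (hM : Cfsg.IsPModular p M) (N : Subgroup G) [hN : N.Normal] [Fintype N] (b : Set (Cfsg.IrrCharacter N)) (hb : Cfsg.IsPBlock M b) (hinv : ∀ g : G, ∀ θ ∈ b, ∀ θ' : Cfsg.IrrCharacter N, (∀ n : N, (θ' : N → ℂ) n = (θ : N → ℂ) ⟨g * n * g⁻¹, hN.conj_mem n n.2 g⟩) → θ' ∈ b) (B : Set (Cfsg.IrrCharacter G)) (hB : Cfsg.IsPBlock M B) (hcov : ∃ χ ∈ B, ∃ θ ∈ b, Cfsg.classInner (fun n : N => (χ : G → ℂ) n) (θ : N → ℂ) ≠ 0) (hmax : ∀ B' : Set (Cfsg.IrrCharacter G), Cfsg.IsPBlock M B' → (∃ χ ∈ B', ∃ θ ∈ b, Cfsg.classInner (fun n : N => (χ : G → ℂ) n) (θ : N → ℂ) ≠ 0) → Cfsg.blockDefect p B' ≤ Cfsg.blockDefect p B) (P : Subgroup G) (hP : Cfsg.IsDefectGroup p M B P) : ¬ p ∣ (P ⊔ N).index ∧ Cfsg.IsDefectGroup p M b ((P ⊓ N).subgroupOf N) ∧ Cfsg.blockDefect p B = Cfsg.blockDefect p b + N.index.factorization p := by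
  have hst : ∀ g, g ∈ H22.stab N b := fun g => (H22.mem_stab_iff_forall N).2 (hinv g)
  have hcov' := (H22.covers_iff N B b).2 hcov
  have hp1 : 1 < p := (Fact.out : p.Prime).one_lt
  -- the order of a defect group of any covering block
  have key : ∀ B' : Set (Cfsg.IrrCharacter G), Cfsg.IsPBlock M B' → H22.Covers N B' b →
      ∀ P', Cfsg.IsDefectGroup p M B' P' →
        Cfsg.IsDefectGroup p M b ((P' ⊓ N).subgroupOf N) ∧
        p ^ Cfsg.blockDefect p B' =
          p ^ Cfsg.blockDefect p b * Nat.card (P'.map (QuotientGroup.mk' N)) := by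
    intro B' hB' hc P' hP'
    have h1 := (H18.isDefectGroup_subgroupOf_iff hM hb inf_le_right).2
      (hc.isDefect_inf_of_stab hM hB' hb hst hP')
    refine ⟨h1, ?_⟩
    rw [← H17.dg_card hM hB' hP', ← H17.dg_card hM hb h1, H17.card_subgroupOf_eq inf_le_right]
    exact H22.card_eq_card_inf_mul P'
  obtain ⟨B', hB', hc', hidx⟩ := H22.exists_covering_max hM hb hst
  obtain ⟨P', hP'⟩ := H17.exists_dg (p := p) hM.2.1 hB'
  have h1 := (key B' hB' hc' P' hP').2
  rw [H22.card_map_mk'_of_not_dvd (H17.dg_isPGroup hP') (hidx P' hP')] at h1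
  obtain ⟨h2, h3⟩ := key B hB hcov' P hP
  have h4 : p ^ Cfsg.blockDefect p B' ≤ p ^ Cfsg.blockDefect p B :=
    Nat.pow_le_pow_right hp1.le (hmax B' hB' ((H22.covers_iff N B' b).1 hc'))
  rw [h1, h3] at h4
  have h5 := H22.not_dvd_index_of_card_ge (H17.dg_isPGroup hP)
    (Nat.le_of_mul_le_mul_left h4 (pow_pos (by omega) _))
  refine ⟨h5, h2, ?_⟩
  rw [H22.card_map_mk'_of_not_dvd (H17.dg_isPGroup hP) h5, ← pow_add] at h3
  exact Nat.pow_right_injective hp1 h3

end Cfsg.Agent.S0970
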