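import Cfsg.Statements.S0987
import Cfsg.Agent.H58.Simple
import Mathlib.Data.Nat.Squarefree

set_option autoImplicit false
open Cfsg

namespace Cfsg.Agent.S0987

/-- If a finite group has order pqr for primes p < q < r, then its Sylow r-subgroups are normal. -/
theorem result {G : Type*} [Group G] [Finite G] (p q r : ℕ) (hp : p.Prime) (hq : q.Prime) [Fact r.Prime] (hpq : p < q) (hqr : q < r) (hG : Nat.card G = p * q * r) (R : Sylow r G) : (R : Subgroup G).Normal := by
  have hr : r.Prime := Fact.out
  have hsq : Squarefree (Nat.card G) := by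
    rw [hG, Nat.squarefree_mul_iff, Nat.squarefree_mul_iff]
    refine ⟨Nat.Coprime.mul_left ((Nat.coprime_primes hp hr).2 (by omega))
      ((Nat.coprime_primes hq hr).2 (by omega)),
      ⟨(Nat.coprime_primes hp hq).2 (by omega), hp.prime.squarefree, hq.prime.squarefree⟩,
      hr.prime.squarefree⟩
  have := IsZGroup.of_squarefree hsq
  refine H58.sylow_normal_of_isZGroup r _ G hG ?_ R
  intro s hs h
  rcases (hs.dvd_mul).1 h with h | h
  · rcases (hs.dvd_mul).1 h with h | h
    · have := Nat.le_of_dvd hp.pos h; omega
    · have := Nat.le_of_dvd hq.pos h; omega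
  · exact Nat.le_of_dvd hr.pos h

end Cfsg.Agent.S0987
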