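import Cfsg.Statements.S0988
import Cfsg.Agent.S0496
import Cfsg.Agent.S0073

set_option autoImplicit false
open Cfsg

namespace Cfsg.Agent.S0988

theorem cube_not_dvd {p q r s : ℕ} (hp : p.Prime) (hq : q.Prime) (hr : r.Prime) (hs : s.Prime)
    (hpq : p ≠ q) (hpr : p ≠ r) (hqr : q ≠ r) {k : ℕ} (h : s ^ k ∣ p ^ 2 * q * r) :
    k ≤ 1 ∨ (k ≤ 2 ∧ s = p) := by
  have h1 := (hs.pow_dvd_iff_le_factorization
    (mul_ne_zero (mul_ne_zero (pow_ne_zero 2 hp.ne_zero) hq.ne_zero) hr.ne_zero)).1 h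
  rw [Nat.factorization_mul (mul_ne_zero (pow_ne_zero 2 hp.ne_zero) hq.ne_zero) hr.ne_zero,
    Nat.factorization_mul (pow_ne_zero 2 hp.ne_zero) hq.ne_zero, hp.factorization_pow,
    hq.factorization, hr.factorization] at h1
  simp only [Finsupp.add_apply, Finsupp.single_apply] at h1
  split_ifs at h1 <;> omega

theorem aux {G : Type*} [Group G] [Finite G] [IsSimpleGroup G] (hG : ¬ IsMulCommutative G)
    {r : ℕ} (hr : r.Prime) (h2 : 2 ≠ r) (h3 : 3 ≠ r) (h : Nat.card G = 2 ^ 2 * 3 * r) :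
    Nat.card G = 60 := by
  have : Fact r.Prime := ⟨hr⟩
  have h4 : ¬ r ∣ 2 ^ 2 * 3 := fun h4 => by
    rcases (Nat.Prime.dvd_mul hr).1 h4 with h5 | h5
    · exact h2 ((Nat.prime_dvd_prime_iff_eq hr Nat.prime_two).1 (hr.dvd_of_dvd_pow h5)).symm
    · exact h3 ((Nat.prime_dvd_prime_iff_eq hr Nat.prime_three).1 h5).symm
  have h5 := Nat.le_of_dvd (by norm_num) (H58.card_sylow_dvd_of_eq (G := G) (p := r) (k := 1)
    (by rw [h, pow_one, mul_comm]) h4)
  have h6 := H58.one_lt_card_sylow hG (p := r) (h ▸ dvd_mul_left _ _)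
  obtain ⟨n, hn⟩ := H58.exists_card_sylow_eq r G
  rw [hn] at h5 h6
  have h7 : r ≤ 11 := by
    rcases n with _ | n
    · omega
    · nlinarith
  have := S0496.result hG (by omega)
  omega

/-- If a finite simple group has order p^2 * q * r with p, q and r prime, then its order is 60. -/
theorem result {G : Type*} [Group G] [Finite G] [IsSimpleGroup G] (p q r : ℕ) (hp : p.Prime) (hq : q.Prime) (hr : r.Prime) (hG : Nat.card G = p ^ 2 * q * r) : Nat.card G = 60 := by
  have hG' : ¬ IsMulCommutative G := H58.not_comm_of_not_prime (by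
    rw [hG, sq, mul_assoc, mul_assoc]
    exact Nat.not_prime_mul hp.ne_one fun h => hp.ne_one (Nat.eq_one_of_mul_eq_one_right h))
  have hb : ∀ a b x y : ℕ, a.Prime → b.Prime → Nat.card G ≠ a ^ x * b ^ y :=
    fun a b x y ha hb h => hG' ⟨⟨IsSimpleGroup.comm_iff_isSolvable.2 (S0144.result a b x y ha hb h)⟩⟩
  have hpq : p ≠ q := by rintro rfl; exact hb p r 3 1 hp hr (by rw [hG]; ring)
  have hpr : p ≠ r := by rintro rfl; exact hb p q 3 1 hp hq (by rw [hG]; ring)
  have hqr : q ≠ r := by rintro rfl; exact hb p q 2 2 hp hq (by rw [hG]; ring)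
  have h1 : Nat.card G ≠ 1 := Finite.one_lt_card.ne'
  rcases S0073.result (G := G) (by by_contra h; push Not at h; exact hG' ⟨⟨h⟩⟩) with h | h
  · have := cube_not_dvd hp hq hr (Nat.minFac_prime h1) hpq hpr hqr (h.trans hG.dvd)
    omega
  · rw [hG] at h
    obtain rfl : 2 = p := by
      have := cube_not_dvd hp hq hr Nat.prime_two hpq hpr hqr (k := 2)
        ((show 2 ^ 2 ∣ 12 by norm_num).trans h)
      omega
    rcases (Nat.Prime.dvd_mul Nat.prime_three).1 ((show 3 ∣ 12 by norm_num).trans h) with h3 | h3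
    · obtain rfl := (Nat.prime_dvd_prime_iff_eq Nat.prime_three hq).1
        (((Nat.Prime.dvd_mul Nat.prime_three).1 h3).resolve_left (by norm_num))
      exact aux hG' hr hpr hqr hG
    · obtain rfl := (Nat.prime_dvd_prime_iff_eq Nat.prime_three hr).1 h3
      exact aux hG' hq hpq hqr.symm (by rw [hG]; ring)

end Cfsg.Agent.S0988
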