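import Cfsg.Statements.S0991
import Mathlib

set_option autoImplicit false
open Cfsg

namespace Cfsg.Agent.S0991

/-- Embedding Theorem: if a non-abelian finite simple group has a proper subgroup of index n, then it is isomorphic to a subgroup of the alternating group of degree n. -/
theorem result {G : Type*} [Group G] [Finite G] [IsSimpleGroup G] (hG : ¬ IsMulCommutative G) (H : Subgroup G) (hH : H ≠ ⊤) : ∃ f : G →* ↥(alternatingGroup (Fin H.index)), Function.Injective f := by
  classical
  have hfin : Fintype (G ⧸ H) := Fintype.ofFinite _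
  let e : (G ⧸ H) ≃ Fin H.index := Finite.equivFinOfCardEq rfl
  let φ : G →* Equiv.Perm (Fin H.index) :=
    (Equiv.permCongrHom e).toMonoidHom.comp (MulAction.toPermHom G (G ⧸ H))
  have hinj : Function.Injective φ := by
    have h1 : (MulAction.toPermHom G (G ⧸ H)).ker = ⊥ := by
      rw [← Subgroup.normalCore_eq_ker]
      rcases (H.normalCore_normal).eq_bot_or_eq_top with h | h
      · exact h
      · exact absurd (top_le_iff.1 (h ▸ H.normalCore_le)) hH
    exact (Equiv.permCongrHom e).injective.comp ((MonoidHom.ker_eq_bot_iff _).1 h1)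
  have hsign : ∀ g, φ g ∈ alternatingGroup (Fin H.index) := by
    have hn : ((Equiv.Perm.sign.comp φ).ker).Normal := inferInstance
    rcases hn.eq_bot_or_eq_top with h | h
    · exfalso
      apply hG
      have := (MonoidHom.ker_eq_bot_iff _).1 h
      exact ⟨⟨fun a b => this (by rw [map_mul, map_mul, mul_comm])⟩⟩
    · intro g
      have : g ∈ (Equiv.Perm.sign.comp φ).ker := h ▸ Subgroup.mem_top g
      exact this
  exact ⟨φ.codRestrict _ hsign, fun a b hab => hinj (congrArg Subtype.val hab)⟩

end Cfsg.Agent.S0991
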