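import Cfsg.Statements.S0995
import Cfsg.Agent.H58.Count

set_option autoImplicit false
open Cfsg

namespace Cfsg.Agent.S0995

/-- Let G be a finite perfect group containing an element z of prime order p whose centralizer is the cyclic group it generates. Let t be the number of conjugacy classes of elements of order p. Then t divides p - 1, the number of Sylow p-subgroups has the form 1 + n * p, and |G| * t = (p - 1) * p * (1 + n * p). -/
theorem result {G : Type*} [Group G] [Finite G] (hperf : commutator G = ⊤) (p : ℕ) [Fact p.Prime] (z : G) (hz : orderOf z = p) (hC : Subgroup.centralizer ({z} : Set G) = Subgroup.zpowers z) : ∃ n t : ℕ, t = Nat.card {c : ConjClasses G // ∃ g : G, ConjClasses.mk g = c ∧ orderOf g = p} ∧ t ∣ p - 1 ∧ Nat.card (Sylow p G) = 1 + n * p ∧ Nat.card G * t = (p - 1) * p * (1 + n * p) := by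
  have hp : p.Prime := Fact.out
  have hz1 : z ≠ 1 := by rintro rfl; rw [orderOf_one] at hz; exact hp.one_lt.ne hz
  have hzp := H58.isPGroup_zpowers_of_orderOf_eq hz
  have hcz : Nat.card (Subgroup.zpowers z) = p := by rw [Nat.card_zpowers, hz]
  obtain ⟨P, hP⟩ := hzp.exists_le_sylow
  have hzP : z ∈ (P : Subgroup G) := hP (Subgroup.mem_zpowers z)
  have hPz : (P : Subgroup G) = Subgroup.zpowers z := by
    refine le_antisymm ?_ hP
    have : Nontrivial (P : Subgroup G) := ⟨⟨⟨z, hzP⟩, 1, fun h => hz1 (congrArg Subtype.val h)⟩⟩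
    have := P.isPGroup'.center_nontrivial
    obtain ⟨⟨⟨c, hcP⟩, hc⟩, hc1⟩ := exists_ne (1 : Subgroup.center (P : Subgroup G))
    have hc1' : c ≠ 1 := fun h => hc1 (Subtype.ext (Subtype.ext h))
    have hcz' : c ∈ Subgroup.zpowers z := by
      rw [← hC, Subgroup.mem_centralizer_singleton_iff]
      exact (congrArg Subtype.val (Subgroup.mem_center_iff.1 hc ⟨z, hzP⟩)).symm
    have h1 := H58.eq_zpowers_of_card_prime hp hcz hcz' hc1'
    intro x hx
    rw [← hC, Subgroup.mem_centralizer_singleton_iff]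
    have h2 : z ∈ Subgroup.zpowers c := h1 ▸ Subgroup.mem_zpowers z
    obtain ⟨k, rfl⟩ := h2
    have h3 : Commute x c := congrArg Subtype.val (Subgroup.mem_center_iff.1 hc ⟨x, hx⟩)
    exact (h3.zpow_right k).eq
  have hPc : Nat.card P = p := by
    have : Nat.card (P : Subgroup G) = p := by rw [hPz, hcz]
    exact this
  have h1 := H58.ncard_orderOf_eq_prime P hPc
  -- every element of order `p` has centralizer of order `p`
  have h2 : ∀ y : G, orderOf y = p → p * {x | IsConj y x}.ncard = Nat.card G := by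
    intro y hy
    obtain ⟨Q, hQ⟩ := (H58.isPGroup_zpowers_of_orderOf_eq hy).exists_le_sylow
    obtain ⟨g, rfl⟩ := MulAction.exists_smul_eq G P Q
    have hy' := (H58.mem_smul_sylow_iff P g y).1 (hQ (Subgroup.mem_zpowers y))
    have hconj : IsConj (g⁻¹ * y * g) y := isConj_iff.2 ⟨g, by group⟩
    have he : {x | IsConj y x} = {x | IsConj (g⁻¹ * y * g) x} := by
      ext x
      exact ⟨fun h => hconj.trans h, fun h => hconj.symm.trans h⟩
    rw [he, ← H58.card_centralizer_mul_ncard_conj (g⁻¹ * y * g)]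
    congr 1
    have hy1 : g⁻¹ * y * g ≠ 1 := by
      intro h
      rw [h, isConj_one_right] at hconj
      rw [hconj, orderOf_one] at hy
      exact hp.one_lt.ne hy
    rw [hPz] at hy'
    have h3 := H58.eq_zpowers_of_card_prime hp hcz hy' hy1
    rw [← hcz, ← hC]
    congr 2
    ext x
    simp only [Subgroup.mem_centralizer_singleton_iff]
    have h4 : z ∈ Subgroup.zpowers (g⁻¹ * y * g) := h3 ▸ Subgroup.mem_zpowers z
    constructor
    · intro h
      obtain ⟨k, hk⟩ := hy'
      rw [← hk]
      exact (Commute.zpow_right (show Commute x z from h) k).eq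
    · intro h
      obtain ⟨k, hk⟩ := h4
      rw [← hk]
      exact (Commute.zpow_right (show Commute x _ from h) k).eq
  set T := {c : ConjClasses G // ∃ g : G, ConjClasses.mk g = c ∧ orderOf g = p} with hT
  have h3 : p * {y : G | orderOf y = p}.ncard = Nat.card T * Nat.card G := by
    let f : {y : G | orderOf y = p} → T := fun y => ⟨ConjClasses.mk y.1, y.1, rfl, y.2⟩
    have := Fintype.ofFinite T
    rw [← Nat.card_coe_set_eq, ← Nat.card_congr (Equiv.sigmaFiberEquiv f), Nat.card_sigma,
      Finset.mul_sum, Nat.card_eq_fintype_card (α := T), ← Finset.card_univ, ← smul_eq_mul,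
      ← Finset.sum_const]
    refine Finset.sum_congr rfl ?_
    rintro ⟨_, y, rfl, hy⟩ _
    rw [← h2 y hy, ← Nat.card_coe_set_eq]
    congr 1
    refine Nat.card_congr ⟨fun a => ⟨a.1.1, ?_⟩, fun a => ⟨⟨a.1, ?_⟩, ?_⟩, fun _ => rfl,
      fun _ => rfl⟩
    · exact (ConjClasses.mk_eq_mk_iff_isConj.1 (congrArg Subtype.val a.2)).symm
    · obtain ⟨g, hg⟩ := isConj_iff.1 a.2
      change orderOf a.1 = p
      rw [← hg, ← hy]
      exact (MulAut.conj g).orderOf_eq y
    · exact Subtype.ext (ConjClasses.mk_eq_mk_iff_isConj.2 a.2.symm)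
  have h4 := card_sylow_modEq_one p G
  have hpos : 0 < Nat.card (Sylow p G) := Nat.card_pos
  obtain ⟨n, hn⟩ : ∃ n, Nat.card (Sylow p G) = 1 + n * p := by
    obtain ⟨n, hn⟩ := (Nat.modEq_iff_dvd' hpos).1 h4.symm
    exact ⟨n, by rw [mul_comm]; omega⟩
  have h5 := H58.card_normalizer_mul_card_sylow P
  obtain ⟨e, he⟩ : p ∣ Nat.card (Subgroup.normalizer (P : Set G)) := by
    exact hPc.symm.dvd.trans
      (Subgroup.card_dvd_of_le (H := (P : Subgroup G)) Subgroup.le_normalizer)
  refine ⟨n, Nat.card T, rfl, ⟨e, ?_⟩, hn, ?_⟩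
  · rw [h1, ← h5, he] at h3
    apply Nat.eq_of_mul_eq_mul_left (Nat.mul_pos hp.pos hpos)
    calc _ = p * (Nat.card (Sylow p G) * (p - 1)) := by ring
      _ = _ := by rw [h3]; ring
  · rw [← hn, mul_comm, ← h3, h1]; ring

end Cfsg.Agent.S0995
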