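import Cfsg.Statements.S0996
import Cfsg.Agent.H58.BrRed

set_option autoImplicit false
open Cfsg

namespace Cfsg.Agent.S0996

/-- Let G be a finite perfect group containing an element z of prime order p whose centralizer is the cyclic group it generates, and suppose the number 1 + n * p of Sylow p-subgroups satisfies n < (p + 3) / 2. Then p > 3 and G is isomorphic to the projective special linear group of dimension 2 over the field with p elements, or p - 1 is a power of 2 and G is isomorphic to that group over the field with p - 1 elements. -/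
theorem result {G : Type*} [Group G] [Finite G] (hperf : commutator G = ⊤) (p : ℕ) [Fact p.Prime] (z : G) (hz : orderOf z = p) (hC : Subgroup.centralizer ({z} : Set G) = Subgroup.zpowers z) (hn : 2 * Nat.card (Sylow p G) < (p + 1) * (p + 2)) : (∃ (F : Type) (_ : Field F) (_ : Fintype F), Fintype.card F = p ∧ 3 < p ∧ Nonempty (G ≃* Matrix.ProjectiveSpecialLinearGroup (Fin 2) F)) ∨ (∃ (m : ℕ) (F : Type) (_ : Field F) (_ : Fintype F), Fintype.card F = 2 ^ m ∧ p = 2 ^ m + 1 ∧ 3 < p ∧ Nonempty (G ≃* Matrix.ProjectiveSpecialLinearGroup (Fin 2) F)) := by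
  have hp : p.Prime := Fact.out
  have hz1 : z ≠ 1 := by
    rintro rfl
    exact hp.one_lt.ne (by simpa using hz)
  obtain ⟨P, hzP⟩ := (H58.isPGroup_zpowers_of_orderOf_eq hz).exists_le_sylow
  have hP : Nat.card P = p := by
    have : Nontrivial (P : Subgroup G) := ⟨⟨z, hzP (Subgroup.mem_zpowers z)⟩, 1,
      fun h => hz1 (congrArg Subtype.val h)⟩
    have := P.isPGroup'.center_nontrivial
    obtain ⟨c, hc⟩ := exists_ne (1 : Subgroup.center (P : Subgroup G))
    have hc1 : ((c : (P : Subgroup G)) : G) ≠ 1 := fun h => hc (Subtype.ext (Subtype.ext h))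
    have hcz : ((c : (P : Subgroup G)) : G) ∈ Subgroup.zpowers z := by
      rw [← hC]
      refine Subgroup.mem_centralizer_iff.2 fun y hy => ?_
      rw [Set.mem_singleton_iff.1 hy]
      exact congrArg Subtype.val (Subgroup.mem_center_iff.1 c.2 ⟨z, hzP (Subgroup.mem_zpowers z)⟩)
    have hcard : Nat.card (Subgroup.zpowers z) = p := by rw [Nat.card_zpowers, hz]
    have h1 : (P : Subgroup G) ≤ Subgroup.zpowers z := by
      rw [← hC, H58.centralizer_singleton_eq hcard (Subgroup.mem_zpowers z) hz1,
        ← H58.centralizer_singleton_eq hcard hcz hc1]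
      intro g hg
      refine Subgroup.mem_centralizer_iff.2 fun y hy => ?_
      rw [Set.mem_singleton_iff.1 hy]
      exact (congrArg Subtype.val (Subgroup.mem_center_iff.1 c.2 ⟨g, hg⟩)).symm
    rw [le_antisymm h1 hzP, hcard]
  have hCP : Subgroup.centralizer ((P : Subgroup G) : Set G) = P := by
    rw [← H58.centralizer_singleton_eq hP (hzP (Subgroup.mem_zpowers z)) hz1, hC]
    exact (H58.eq_zpowers_of_card_prime hp hP (hzP (Subgroup.mem_zpowers z)) hz1).symm
  obtain ⟨n, hn'⟩ := H58.exists_card_sylow_eq p G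
  have hF : ¬ H58.FormF p n := fun hF => by
    have h1 := Nat.mul_le_mul_right p (H58.le_of_formF hp.one_le hF)
    rw [hn'] at hn
    nlinarith
  obtain ⟨h0, h3, h4⟩ := H58.brauer_reynolds hperf P hP hn' hF
  have hH : Cfsg.pPrimeCore p G = ⊥ := by
    have h1 := H58.index_sup_dvd_card_sylow P (Cfsg.pPrimeCore p G)
    rw [h0, P.card_eq_index_normalizer] at h1
    have h2 : Subgroup.normalizer ((P : Subgroup G) : Set G) ⊔ Cfsg.pPrimeCore p G =
        Subgroup.normalizer ((P : Subgroup G) : Set G) := by
      symm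
      refine Subgroup.eq_of_le_of_card_ge le_sup_left ?_
      have e1 := (Subgroup.normalizer ((P : Subgroup G) : Set G) ⊔
        Cfsg.pPrimeCore p G).index_mul_card
      rw [← (Subgroup.normalizer ((P : Subgroup G) : Set G)).index_mul_card] at e1
      have e2 := Nat.le_of_dvd (Nat.pos_of_ne_zero Subgroup.FiniteIndex.index_ne_zero) h1
      refine Nat.le_of_mul_le_mul_left ?_ (Nat.pos_of_ne_zero (Subgroup.FiniteIndex.index_ne_zero
        (H := Subgroup.normalizer ((P : Subgroup G) : Set G))))
      exact (Nat.mul_le_mul_right _ e2).trans e1.le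
    have hd : ∀ y ∈ (P : Subgroup G), y ∈ Cfsg.pPrimeCore p G → y = 1 := by
      intro y hy hy'
      by_contra hy1
      have e1 := H58.orderOf_eq_of_mem_of_card_prime hp hP hy hy1
      have e2 := (Cfsg.pPrimeCore p G).orderOf_dvd_natCard hy'
      exact (Nat.Prime.coprime_iff_not_dvd hp).1 (H3.pPrimeCore_coprime p G).symm (e1 ▸ e2)
    rw [eq_bot_iff]
    intro h hh
    have hN : h ∈ Subgroup.normalizer ((P : Subgroup G) : Set G) := h2 ▸ Subgroup.mem_sup_right hh
    refine hd h (hCP ▸ Subgroup.mem_centralizer_iff.2 fun y hy => ?_) hh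
    have e1 := hd (h * y * h⁻¹ * y⁻¹) (mul_mem ((Subgroup.mem_normalizer_iff.1 hN y).1 hy)
      (inv_mem hy)) (by
        have := mul_mem hh ((inferInstance : (Cfsg.pPrimeCore p G).Normal).conj_mem _ (inv_mem hh) y)
        simpa only [mul_assoc] using this)
    rw [mul_inv_eq_one, mul_inv_eq_iff_eq_mul] at e1
    exact e1.symm
  rcases h4 with ⟨-, -, h⟩ | ⟨m, hm, -, K, _, _, hK, _, h⟩
  · exact Or.inl ⟨ZMod p, inferInstance, inferInstance, ZMod.card p, h3,
      H58.nonempty_equiv_of_quotient_bot hH h⟩
  · exact Or.inr ⟨m, K, inferInstance, inferInstance, hK, hm, h3,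
      H58.nonempty_equiv_of_quotient_bot hH h⟩

end Cfsg.Agent.S0996
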