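import Cfsg.Statements.S0998
import Cfsg.Agent.H58.BTMain

set_option autoImplicit false
open Cfsg

namespace Cfsg.Agent.S0998

theorem eq_of_mul_pow {q r b m c : ℕ} (hq : q.Prime) (hr : r.Prime) (hqr : q ≠ r) (hm : 2 ≤ m)
    (hc : Odd c) (h : r * q ^ b = 2 ^ m * c) : r = c := by
  have h4 : 2 * 2 ∣ r * q ^ b := by
    rw [h]
    exact ((pow_dvd_pow 2 hm).mul_right c :)
  have hq2 : q = 2 := by
    by_contra hq2
    have h1 : (2 * 2).Coprime (q ^ b) :=
      Nat.Coprime.pow 2 b ((Nat.coprime_primes Nat.prime_two hq).2 (Ne.symm hq2))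
    have h2 := h1.dvd_of_dvd_mul_right h4
    rcases hr.eq_one_or_self_of_dvd 2 ((dvd_mul_right 2 2).trans h2) with h3 | h3
    · omega
    · rw [← h3] at h2; omega
  subst hq2
  have hro := hr.odd_of_ne_two hqr.symm
  refine Nat.dvd_antisymm ?_ ?_
  · exact (Nat.Coprime.pow_right m (Nat.coprime_two_right.2 hro)).dvd_of_dvd_mul_left
      (h ▸ dvd_mul_right _ _)
  · exact (Nat.Coprime.pow_right b (Nat.coprime_two_right.2 hc)).dvd_of_dvd_mul_right
      (h ▸ dvd_mul_left _ _)

theorem two_pow_mod_three (k : ℕ) : 2 ^ k % 3 = 1 ∨ 2 ^ k % 3 = 2 := by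
  have : ¬ 3 ∣ 2 ^ k := fun h => absurd (Nat.prime_three.dvd_of_dvd_pow h) (by decide)
  omega

theorem eq_three {r : ℕ} (hr : r.Prime) (h : r % 3 = 0) : r = 3 :=
  ((Nat.prime_dvd_prime_iff_eq Nat.prime_three hr).1 (Nat.dvd_of_mod_eq_zero h)).symm

theorem aux {G : Type*} [Group G] [Finite G] [IsSimpleGroup G] (hG : ¬ IsMulCommutative G) (p q r b : ℕ) (hp : p.Prime) (hq : q.Prime) (hr : r.Prime) (hpq : p ≠ q) (hpr : r < p) (hqr : q ≠ r) (hG' : Nat.card G = p * r * q ^ b) : (∃ (F : Type) (_ : Field F) (_ : Fintype F), Fintype.card F = 5 ∧ Nonempty (G ≃* Matrix.ProjectiveSpecialLinearGroup (Fin 2) F)) ∨ (∃ (F : Type) (_ : Field F) (_ : Fintype F), Fintype.card F = 7 ∧ Nonempty (G ≃* Matrix.ProjectiveSpecialLinearGroup (Fin 2) F)) := by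
  have : Fact p.Prime := ⟨hp⟩
  by_cases h1 : r = p - 1
  · exfalso
    have hr2 : r = 2 := by
      rcases hp.eq_two_or_odd with h | h
      · have := hr.two_le; omega
      · rcases hr.eq_two_or_odd with h' | h'
        · exact h'
        · omega
    subst hr2
    have := Fintype.ofFinite G
    obtain ⟨P⟩ : Nonempty (Sylow 2 G) := inferInstance
    have hP : Nat.card P = 2 := (H58.card_sylow_of_eq P (k := 1) (m := p * q ^ b)
      (by rw [hG']; ring) fun h => by
        rcases Nat.prime_two.dvd_mul.1 h with h | h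
        · omega
        · exact hqr ((Nat.prime_dvd_prime_iff_eq Nat.prime_two hq).1
            (Nat.prime_two.dvd_of_dvd_pow h)).symm).trans (pow_one 2)
    obtain ⟨e, t, -, he2, het, -⟩ := H58.exists_brData (H58.commutator_eq_top hG) P hP
    have := Nat.eq_one_of_mul_eq_one_right het
    omega
  obtain ⟨h3, ⟨hc, ⟨m, hm⟩, h⟩ | ⟨m, hm, hc, -⟩⟩ := H58.brauer_tuan (p := p) (b := b) (g₀ := r) hG hq hpq
    (by rw [hG']; ring) (by omega)
  · have h2 : 2 * (r * q ^ b) = (p + 1) * (p - 1) :=
      Nat.eq_of_mul_eq_mul_left hp.pos (by rw [hG'] at hc; linarith)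
    obtain ⟨k, rfl⟩ : ∃ k, m = k + 2 := by
      rcases m with _ | _ | k
      · omega
      · omega
      · exact ⟨k, rfl⟩
    have h5 := two_pow_mod_three k
    have h6 : 0 < 2 ^ k := by positivity
    rcases hm with hm | hm
    · have h4 := eq_of_mul_pow (b := b) (m := k + 2) (c := 2 * 2 ^ k + 1) hq hr hqr (by omega)
        (odd_two_mul_add_one _) (Nat.eq_of_mul_eq_mul_left two_pos (by
          rw [h2, hm, Nat.add_sub_cancel]; ring))
      rw [pow_add] at hm
      have h7 : p = 5 := by
        rcases h5 with h5 | h5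
        · have := eq_three hr (by omega); omega
        · have := eq_three hp (by omega); omega
      subst h7
      exact Or.inl ⟨ZMod 5, inferInstance, inferInstance, ZMod.card 5, h⟩
    · have h4 := eq_of_mul_pow (b := b) (m := k + 2) (c := 2 * 2 ^ k - 1) hq hr hqr (by omega)
        ⟨2 ^ k - 1, by omega⟩ (Nat.eq_of_mul_eq_mul_left two_pos (by
          rw [h2, hm, show p - 1 = 2 * (2 * 2 ^ k - 1) by rw [pow_add] at hm; omega]; ring))
      rw [pow_add] at hm
      have h7 : p = 7 := by
        rcases h5 with h5 | h5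
        · have := eq_three hp (by omega); omega
        · have := eq_three hr (by omega); omega
      subst h7
      exact Or.inr ⟨ZMod 7, inferInstance, inferInstance, ZMod.card 7, h⟩
  · have h2 : r * q ^ b = 2 ^ m * (2 ^ m - 1) :=
      Nat.eq_of_mul_eq_mul_left hp.pos (by rw [hG', ← hm] at hc; linarith)
    obtain ⟨k, rfl⟩ : ∃ k, m = k + 2 := by
      rcases m with _ | _ | k
      · omega
      · omega
      · exact ⟨k, rfl⟩
    have h5 := two_pow_mod_three k
    have h6 : 0 < 2 ^ k := by positivity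
    have h4 := eq_of_mul_pow hq hr hqr (by omega) ⟨2 * 2 ^ k - 1, by rw [pow_add]; omega⟩ h2
    rw [pow_add] at hm h4 hc
    have h7 : 2 ^ k = 1 := by
      rcases h5 with h5 | h5
      · have := eq_three hr (by omega); omega
      · have := eq_three hp (by omega); omega
    rw [h7] at hc hm
    obtain rfl : p = 5 := by omega
    refine Or.inl ⟨ZMod 5, inferInstance, inferInstance, ZMod.card 5,
      H58.iso_PSL_of_card_sylow (p := 5) hG le_rfl (by omega) ?_ (ZMod.card 5)⟩
    exact H58.card_sylow_cases hG (k := 1) (m := 12) (by omega) (by decide) (by decide)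
      (· = 5 + 1) (by decide +kernel)

/-- A non-cyclic finite simple group whose order has the form p * r * q^b for distinct primes p, q, r is isomorphic to the projective special linear group of dimension 2 over the field with 5 or with 7 elements. -/
theorem result {G : Type*} [Group G] [Finite G] [IsSimpleGroup G] (hG : ¬ IsCyclic G) (p q r b : ℕ) (hp : p.Prime) (hq : q.Prime) (hr : r.Prime) (hpq : p ≠ q) (hpr : p ≠ r) (hqr : q ≠ r) (hG' : Nat.card G = p * r * q ^ b) : (∃ (F : Type) (_ : Field F) (_ : Fintype F), Fintype.card F = 5 ∧ Nonempty (G ≃* Matrix.ProjectiveSpecialLinearGroup (Fin 2) F)) ∨ (∃ (F : Type) (_ : Field F) (_ : Fintype F), Fintype.card F = 7 ∧ Nonempty (G ≃* Matrix.ProjectiveSpecialLinearGroup (Fin 2) F)) := by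
  have hG2 : ¬ IsMulCommutative G := fun h => hG (by
    let _ : CommGroup G := IsMulCommutative.instCommGroup
    infer_instance)
  rcases lt_or_gt_of_ne hpr with h | h
  · exact aux hG2 r q p b hr hq hp hqr.symm h hpq.symm (by rw [hG']; ring)
  · exact aux hG2 p q r b hp hq hr hpq h hqr hG'

end Cfsg.Agent.S0998
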