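import Cfsg.Statements.S1002
import Cfsg.Agent.H58.BrRed

set_option autoImplicit false
open Cfsg

namespace Cfsg.Agent.S1002

/-- No finite simple group has order 1004913 = 3^3 * 7 * 13 * 409. -/
theorem result {G : Type*} [Group G] [Finite G] [IsSimpleGroup G] : Nat.card G ≠ 1004913 := by
  intro h
  have : Fact (Nat.Prime 409) := ⟨by norm_num⟩
  have hG : ¬ IsMulCommutative G := H58.not_comm_of_not_prime (by rw [h]; norm_num)
  obtain ⟨P⟩ : Nonempty (Sylow 409 G) := inferInstance
  have hP : Nat.card P = 409 :=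
    H58.card_sylow_of_eq P (k := 1) (m := 2457) (by rw [h]; norm_num) (by norm_num)
  have hn : Nat.card (Sylow 409 G) = 1 + 2 * 409 :=
    H58.card_sylow_cases hG (k := 1) (m := 2457) (by rw [h]; norm_num) (by norm_num) one_ne_zero
      (fun d => d = 1 + 2 * 409) (by decide +kernel)
  obtain ⟨-, ⟨-, h1, -⟩ | ⟨m, h1, h2, -⟩⟩ := H58.brauer_simple hG P hP hn
    (fun hF => by have := H58.le_of_formF (by norm_num) hF; omega)
  · omega
  · rw [show 2 ^ m = 408 by omega, h] at h2
    omega

end Cfsg.Agent.S1002
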