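import Cfsg.Statements.S1009
import Mathlib

set_option autoImplicit false
open Cfsg

namespace Cfsg.Agent.S1009

/-- Brodkey's Theorem: if a finite group has abelian Sylow p-subgroups, then there are two Sylow p-subgroups whose intersection equals the intersection of all Sylow p-subgroups. -/
theorem result {G : Type*} [Group G] [Finite G] (p : ℕ) [Fact p.Prime] (hab : ∀ P : Sylow p G, IsMulCommutative ↥(P : Subgroup G)) : ∃ P Q : Sylow p G, (P : Subgroup G) ⊓ (Q : Subgroup G) = ⨅ R : Sylow p G, (R : Subgroup G) := by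
  obtain ⟨P⟩ : Nonempty (Sylow p G) := inferInstance
  obtain ⟨T, hT⟩ := Finite.exists_min
    (fun T : Sylow p G => Nat.card ↥((P : Subgroup G) ⊓ (T : Subgroup G)))
  refine ⟨P, T, le_antisymm (le_iInf fun S => ?_) (le_inf (iInf_le _ P) (iInf_le _ T))⟩
  set D : Subgroup G := (P : Subgroup G) ⊓ (T : Subgroup G) with hD
  set N : Subgroup G := Subgroup.centralizer (D : Set G) with hN
  have key : ∀ R : Sylow p G, D ≤ R → (R : Subgroup G) ≤ N := by
    intro R hR r hr
    rw [hN, Subgroup.mem_centralizer_iff]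
    intro d hd
    have := hab R
    exact congrArg Subtype.val (mul_comm' (⟨d, hR hd⟩ : (R : Subgroup G)) ⟨r, hr⟩)
  have hPN := key P inf_le_left
  have hTN := key T inf_le_right
  have h1 : IsPGroup p ((S : Subgroup G).subgroupOf N) := S.isPGroup'.comap_subtype
  obtain ⟨S₀, hS₀⟩ := h1.exists_le_sylow
  obtain ⟨x, hx⟩ := MulAction.exists_smul_eq N S₀ (T.subtype hTN)
  have h2 : (P : Subgroup G) ⊓ ((x : G) • S : Sylow p G) ≤ D := by
    rintro y ⟨hyP, hyS⟩
    refine ⟨hyP, ?_⟩
    have h3 : (⟨y, hPN hyP⟩ : N) ∈ (T.subtype hTN : Subgroup N) := by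
      rw [← hx, Sylow.coe_subgroup_smul, Subgroup.mem_pointwise_smul_iff_inv_smul_mem]
      apply hS₀
      rw [Sylow.coe_subgroup_smul] at hyS
      have h9 : (MulAut.conj (x : G))⁻¹ • y ∈ (S : Subgroup G) :=
        Subgroup.mem_pointwise_smul_iff_inv_smul_mem.1 hyS
      exact h9
    exact h3
  have h3 := Subgroup.eq_of_le_of_card_ge h2 (hT _)
  intro d hd
  have h4 : d ∈ (P : Subgroup G) ⊓ ((x : G) • S : Sylow p G) := h3.symm ▸ hd
  have h5 := h4.2
  rw [Sylow.coe_subgroup_smul] at h5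
  have h6 := Subgroup.mem_pointwise_smul_iff_inv_smul_mem.1 h5
  have h7 : d * x = x * d := Subgroup.mem_centralizer_iff.1 x.2 d hd
  have h8 : (MulAut.conj (x : G))⁻¹ • d = d := by
    simp [mul_assoc, h7]
  rwa [h8] at h6

end Cfsg.Agent.S1009
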