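import Cfsg.Statements.S1012
import Cfsg.Agent.H29.SmallGroups

set_option autoImplicit false
open Cfsg

namespace Cfsg.Agent.S1012

/-- A group of order 24 containing no element of order 6 is isomorphic to the symmetric group of degree 4. -/
theorem result {G : Type*} [Group G] [Finite G] (h : Nat.card G = 24) (h6 : ∀ g : G, orderOf g ≠ 6) : Nonempty (G ≃* Equiv.Perm (Fin 4)) := by
  exact H29.nonempty_mulEquiv_S4 h h6

end Cfsg.Agent.S1012
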