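import Cfsg.Statements.S1026
import Cfsg.Agent.H40.ChevPar
-- import your own Cfsg.Agent.* helpers here

set_option autoImplicit false
open Cfsg

namespace Cfsg.Agent.S1026

/-- Every element of `U` has a unique expression `∏_{r ∈ Φ⁺} x_r(t_r)`, the product over the positive roots in increasing index order (the coefficient family `t`, supported on the positive roots, exists and is unique); and conversely every such ordered product is the matrix of an element of `U`. -/
theorem result {F : Type*} [Field F] (D : Cfsg.Lie.ChevalleyDatum) (hD : D ∈ [Cfsg.Lie.chevG2, Cfsg.Lie.chevB2, Cfsg.Lie.chevD4, Cfsg.Lie.chevF4, Cfsg.Lie.chevE6, Cfsg.Lie.chevE7, Cfsg.Lie.chevE8]) :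
    (∀ g : GL D.Idx F, g ∈ D.posUnipotent F →
      ∃! t : ℕ → F, (∀ r, ¬ D.IsPosRoot r → t r = 0) ∧
        (g : Matrix D.Idx D.Idx F) = D.wordMat F (D.posRoots.map fun r => (r, t r))) ∧
    (∀ t : ℕ → F, ∃ g : GL D.Idx F, g ∈ D.posUnipotent F ∧
      (g : Matrix D.Idx D.Idx F) = D.wordMat F (D.posRoots.map fun r => (r, t r))) := by
  classical
  have C := H34.cert hD
  let L : List (Fin D.nroots) := (List.finRange D.nroots).filter fun r => decide (D.IsPosRoot r)
  have hL : L.Nodup := (List.nodup_finRange _).filter _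
  have hLA : ∀ r, r ∈ L ↔ r ∈ {r | C.S.pos r} := fun r => by
    simp only [L, List.mem_filter, List.mem_finRange, true_and, decide_eq_true_eq]
    exact (C.pos_iff r).symm
  have hLp : L.map Fin.val = D.posRoots := by
    rw [Cfsg.Lie.ChevalleyDatum.posRoots, ← List.map_coe_finRange_eq_range, List.filter_map]; rfl
  have key : ∀ t : ℕ → F, (((L.map fun r : Fin D.nroots => C.xg F r (t r)).prod : D.group F) : GL D.Idx F).val =
      D.wordMat F (D.posRoots.map fun r => (r, t r)) := fun t => by
    rw [← C.V.coe_prod_xG, ← hLp, Subgroup.val_list_prod, List.map_map, List.map_map, List.map_map]; rfl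
  refine ⟨fun g hg => ?_, fun t => ⟨_, H34.Cert.mem_Up.1
    (H40.prod_mem_U (fun r hr => (hLA r).1 hr) fun r _ => H34.Cert.xg_mem_X r (t r)), key t⟩⟩
  obtain ⟨y, h1, -, h3⟩ := H40.cc_pos.exists_prod (P := C.split F) hL hLA
    (g := ⟨g, H34.Cert.pos_le_group (C := C) hg⟩) (H34.Cert.mem_Up.2 hg)
  choose s hs using fun r => H34.Cert.mem_X.1 (h1 r)
  refine ⟨fun r => if h : D.IsPosRoot r then s ⟨r, h.1⟩ else 0, ⟨fun r hr => by simp [hr], ?_⟩, ?_⟩
  · rw [← key, show g = ((L.map y).prod : D.group F) from congrArg Subtype.val h3]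
    congr 3
    refine List.map_congr_left fun r hr => ?_
    rw [dif_pos ((C.pos_iff r).1 ((hLA r).1 hr)), hs]
  · rintro t ⟨h4, h5⟩
    rw [← key] at h5
    have h6 := H40.cc_pos.prod_inj (P := C.split F) hL hLA (fun r _ => h1 r)
      (fun r _ => H34.Cert.xg_mem_X r (t r)) (h3.symm.trans (Subtype.ext (Units.ext h5)))
    funext r
    by_cases h : D.IsPosRoot r
    · rw [dif_pos h]
      exact H34.Cert.xg_injective (C := C) h.1 ((hs ⟨r, h.1⟩).trans (h6 _ ((C.pos_iff ⟨r, h.1⟩).2 h))).symm
    · rw [dif_neg h, h4 r h]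

end Cfsg.Agent.S1026
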