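import Cfsg.Statements.S1034
import Cfsg.Agent.H40.TorusH
-- import your own Cfsg.Agent.* helpers here

set_option autoImplicit false
open Cfsg

namespace Cfsg.Agent.S1034

/-- Every element of `H` is a product `h_{p_1}(c_1) ⋯ h_{p_l}(c_l)` over the fundamental roots, with non-zero `c_i`. -/
theorem result {F : Type*} [Field F] (D : Cfsg.Lie.ChevalleyDatum) (hD : D ∈ [Cfsg.Lie.chevG2, Cfsg.Lie.chevB2, Cfsg.Lie.chevD4, Cfsg.Lie.chevF4, Cfsg.Lie.chevE6, Cfsg.Lie.chevE7, Cfsg.Lie.chevE8]) (g : GL D.Idx F) (hg : g ∈ D.diagonalSubgroup F) :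
    ∃ c : ℕ → F, (∀ i < D.rank, c i ≠ 0) ∧
      (g : Matrix D.Idx D.Idx F) = D.wordMat F ((List.range D.rank).flatMap fun i => D.hWord (D.simple i) (c i)) := by
  have V := H37.validOf hD
  obtain ⟨c, rfl⟩ := (H40.mem_diag_iff V).1 hg
  refine ⟨fun i => if h : i < D.rank then (c ⟨i, h⟩ : F) else 1, fun i hi => by simp [hi], ?_⟩
  have key : ∀ (L : List ℕ) (f : ℕ → F), D.wordMat F (L.flatMap fun i => D.hWord (D.simple i) (f i)) =
      (((L.map fun i => H37.hG D F (D.simple i) (f i)).prod : GL D.Idx F) : Matrix D.Idx D.Idx F) := by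
    intro L f
    induction L with
    | nil => rfl
    | cons a L ih =>
      rw [List.flatMap_cons, H37.wordMat_append, ih, List.map_cons, List.prod_cons, Units.val_mul, V.coe_hG]
      rfl
  rw [key, H40.tor_eq_prod V]
  congr 2
  apply List.ext_getElem
  · simp
  · intro i h1 h2
    have hi : i < D.rank := by simpa using h1
    simp [hi]

end Cfsg.Agent.S1034
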