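import Cfsg.Statements.S1041
import Cfsg.Agent.H40.ChevPar
-- import your own Cfsg.Agent.* helpers here

set_option autoImplicit false
open Cfsg

namespace Cfsg.Agent.S1041

/-- `U` and `V` generate the whole Chevalley group. -/
theorem result {F : Type*} [Field F] (D : Cfsg.Lie.ChevalleyDatum) (hD : D ∈ [Cfsg.Lie.chevG2, Cfsg.Lie.chevB2, Cfsg.Lie.chevD4, Cfsg.Lie.chevF4, Cfsg.Lie.chevE6, Cfsg.Lie.chevE7, Cfsg.Lie.chevE8]) : D.posUnipotent F ⊔ D.negUnipotent F = D.group F := by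
  have C := H34.cert hD
  refine le_antisymm (sup_le (H34.Cert.pos_le_group (C := C)) (H34.Cert.neg_le_group (C := C))) ?_
  rw [C.V.group_eq, Subgroup.closure_le]
  rintro _ ⟨r, hr, t, rfl⟩
  by_cases h : C.R.Pos ⟨r, hr⟩
  · exact Subgroup.mem_sup_left (C.V.xG_mem_pos ((C.pos_iff _).1 h) t)
  · exact Subgroup.mem_sup_right (C.V.xG_mem_neg ((C.not_pos_iff _).1 h) t)

end Cfsg.Agent.S1041
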