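import Cfsg.Statements.S1043
import Cfsg.Agent.H40.ChevPar
-- import your own Cfsg.Agent.* helpers here

set_option autoImplicit false
open Cfsg

namespace Cfsg.Agent.S1043

/-- `B ≤ G`, `N ≤ G` and `B ⊔ N = G` for the Chevalley group `G` generated by all root elements. -/
theorem result {F : Type*} [Field F] (D : Cfsg.Lie.ChevalleyDatum) (hD : D ∈ [Cfsg.Lie.chevG2, Cfsg.Lie.chevB2, Cfsg.Lie.chevD4, Cfsg.Lie.chevF4, Cfsg.Lie.chevE6, Cfsg.Lie.chevE7, Cfsg.Lie.chevE8]) :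
    D.borelSubgroup F ≤ D.group F ∧ D.monomialSubgroup F ≤ D.group F ∧ D.borelSubgroup F ⊔ D.monomialSubgroup F = D.group F := by
  have C := H34.cert hD
  refine ⟨H34.Cert.borel_le_group (C := C), H34.Cert.monomial_le_group (C := C), ?_⟩
  rw [← H40.map_B C F, ← H40.map_N C F, ← Subgroup.map_sup]
  refine H40.map_subtype_eq_of le_rfl fun g => ⟨fun _ => g.2, fun _ => ?_⟩
  obtain ⟨a, ha, n, hn, u, hu, rfl⟩ := (C.split F).bruhat g
  exact mul_mem (mul_mem (Subgroup.mem_sup_left (H34.Split.Up_le_B ha)) (Subgroup.mem_sup_right hn))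
    (Subgroup.mem_sup_left (H34.Split.Up_le_B (H34.Split.Uinv_le_Up hu)))

end Cfsg.Agent.S1043
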