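import Cfsg.Statements.S1044
import Cfsg.Agent.H40.ChevPar
-- import your own Cfsg.Agent.* helpers here

set_option autoImplicit false
open Cfsg

namespace Cfsg.Agent.S1044

/-- For a fundamental root `p` the set `B ∪ B n_p B` is (the carrier of) a subgroup of the general linear group. -/
theorem result {F : Type*} [Field F] (D : Cfsg.Lie.ChevalleyDatum) (hD : D ∈ [Cfsg.Lie.chevG2, Cfsg.Lie.chevB2, Cfsg.Lie.chevD4, Cfsg.Lie.chevF4, Cfsg.Lie.chevE6, Cfsg.Lie.chevE7, Cfsg.Lie.chevE8]) (i : ℕ) (hi : i < D.rank) (n : GL D.Idx F)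
    (hn : (n : Matrix D.Idx D.Idx F) = D.nMat F (D.simple i) 1) :
    ∃ P : Subgroup (GL D.Idx F), (P : Set (GL D.Idx F)) =
      (D.borelSubgroup F : Set (GL D.Idx F)) ∪ DoubleCoset.doubleCoset n (D.borelSubgroup F : Set (GL D.Idx F)) (D.borelSubgroup F) := by
  have C := H34.cert hD
  obtain rfl := C.V.eq_nG_iff.1 hn
  refine ⟨(H40.Par (C.split F) {⟨i, hi⟩}).map (D.group F).subtype, ?_⟩
  have h := fun g => H40.mem_Par_singleton (P := C.split F) (g := g)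
    (H34.Cert.ng_mem_N (C.V.basic.simple_lt i hi) one_ne_zero) (H34.Cert.ν_ng ⟨i, hi⟩ one_ne_zero)
  ext g
  simp only [SetLike.mem_coe, Set.mem_union, DoubleCoset.mem_doubleCoset]
  constructor
  · rintro ⟨g, hg, rfl⟩
    rcases (h g).1 hg with h1 | ⟨b, hb, b', hb', rfl⟩
    · exact Or.inl (H34.Cert.mem_B.1 h1)
    · exact Or.inr ⟨b, H34.Cert.mem_B.1 hb, b', H34.Cert.mem_B.1 hb', rfl⟩
  · rintro (h1 | ⟨b, hb, b', hb', rfl⟩)
    · exact ⟨⟨g, H34.Cert.borel_le_group (C := C) h1⟩, (h _).2 (Or.inl (H34.Cert.mem_B.2 h1)), rfl⟩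
    · exact ⟨_, (h _).2 (Or.inr ⟨⟨b, H34.Cert.borel_le_group (C := C) hb⟩, H34.Cert.mem_B.2 hb,
        ⟨b', H34.Cert.borel_le_group (C := C) hb'⟩, H34.Cert.mem_B.2 hb', rfl⟩), rfl⟩

end Cfsg.Agent.S1044
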