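import Cfsg.Statements.S1045
import Cfsg.Agent.H40.ChevPar
-- import your own Cfsg.Agent.* helpers here

set_option autoImplicit false
open Cfsg

namespace Cfsg.Agent.S1045

/-- For a fundamental root `p`, the subgroup `U_p` generated by the `X_s`, `s` positive and `s ≠ p`, is normalised by `X_p` and `X_{-p}`, and `U = U_p ⊔ X_p`. -/
theorem result {F : Type*} [Field F] (D : Cfsg.Lie.ChevalleyDatum) (hD : D ∈ [Cfsg.Lie.chevG2, Cfsg.Lie.chevB2, Cfsg.Lie.chevD4, Cfsg.Lie.chevF4, Cfsg.Lie.chevE6, Cfsg.Lie.chevE7, Cfsg.Lie.chevE8]) (i : ℕ) (hi : i < D.rank) :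
    D.rootSubgroup F (D.simple i) ⊔ D.rootSubgroup F (D.neg (D.simple i)) ≤
        Subgroup.normalizer (Subgroup.closure {g : GL D.Idx F | ∃ (s : ℕ) (t : F), D.IsPosRoot s ∧ s ≠ D.simple i ∧
          (g : Matrix D.Idx D.Idx F) = D.x F s t} : Set (GL D.Idx F)) ∧
      Subgroup.closure {g : GL D.Idx F | ∃ (s : ℕ) (t : F), D.IsPosRoot s ∧ s ≠ D.simple i ∧
          (g : Matrix D.Idx D.Idx F) = D.x F s t} ⊔ D.rootSubgroup F (D.simple i) = D.posUnipotent F := by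
  have C := H34.cert hD
  have hp := C.V.basic.simple_lt i hi
  have e1 : C.S.α ⟨i, hi⟩ = ⟨D.simple i, hp⟩ := Fin.ext (C.simple_val _)
  have h1 := H40.map_U C F (A := {r | C.S.pos r ∧ r ≠ C.S.α ⟨i, hi⟩}) (Q := fun s => D.IsPosRoot s ∧ s ≠ D.simple i)
    fun r => ⟨fun h => ⟨h.1.1, (C.pos_iff ⟨r, h.1.1⟩).2 h.1, fun e => h.2 (congrArg Fin.val (e.trans e1))⟩,
      fun ⟨h, hr⟩ => ⟨(C.pos_iff ⟨r, h⟩).1 hr.1, fun e => hr.2 (e1 ▸ Fin.ext e)⟩⟩
  simp only [and_assoc] at h1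
  rw [← h1, ← H40.Rad_singleton]
  have h2 := H40.map_X C F (C.S.α ⟨i, hi⟩)
  have h3 := H40.map_X C F (C.S.neg (C.S.α ⟨i, hi⟩))
  rw [H34.sgn_neg, C.neg_val] at h3
  rw [H34.sgn_α, C.simple_val] at h2 h3
  rw [← h2, ← h3, ← Subgroup.map_sup, ← Subgroup.map_sup, ← H40.map_Up C F]
  constructor
  · refine le_trans ?_ (le_trans (H40.map_normalizer_subtype _).le inf_le_left)
    refine Subgroup.map_mono (le_trans ?_ (H40.Levi_le_normalizer_Rad _))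
    exact le_sup_of_le_right (sup_le (H40.X_le_U (C.S.α_mem_Phi rfl))
      (H40.X_le_U (C.S.neg_mem_Phi (C.S.α_mem_Phi rfl))))
  · congr 1
    rw [H40.Rad_singleton, ← H34.Split.U_singleton, ← H40.U_union, H34.Split.Up]
    congr 1; ext r
    refine ⟨fun h => h.elim (·.1) fun h => h ▸ C.S.pos_α _, fun h => ?_⟩
    by_cases e : r = C.S.α ⟨i, hi⟩
    exacts [Or.inr e, Or.inl ⟨h, e⟩]

end Cfsg.Agent.S1045
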