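import Cfsg.Statements.S1050
import Cfsg.Agent.H40.ChevPar
-- import your own Cfsg.Agent.* helpers here

set_option autoImplicit false
open Cfsg

namespace Cfsg.Agent.S1050

/-- `B = UH` is solvable (U nilpotent, H abelian, U ⊴ B). -/
theorem result {F : Type*} [Field F] (D : Cfsg.Lie.ChevalleyDatum) (hD : D ∈ [Cfsg.Lie.chevG2, Cfsg.Lie.chevB2, Cfsg.Lie.chevD4, Cfsg.Lie.chevF4, Cfsg.Lie.chevE6, Cfsg.Lie.chevE7, Cfsg.Lie.chevE8]) : Group.IsSolvable ↥(D.borelSubgroup F) := by
  have C := H34.cert hD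
  have := H40.isSolvable_B (P := C.split F) fun _ hh _ hh' => H40.H_comm C hh hh'
  rw [← H40.map_B C F]
  exact Group.isSolvable_of_surjective
    (f := (Subgroup.equivMapOfInjective _ _ (D.group F).subtype_injective).toMonoidHom) (MulEquiv.surjective _)

end Cfsg.Agent.S1050
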