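import Cfsg.Statements.S1058
import Cfsg.Agent.H40.RecogF2
import Cfsg.Agent.S1060
-- import your own Cfsg.Agent.* helpers here

set_option autoImplicit false
open Cfsg

namespace Cfsg.Agent.S1058

/-- B₂(2) ≅ S₆. -/
theorem result {F : Type*} [Field F] [Fintype F] (hF : Fintype.card F = 2) :
    Nonempty (↥(Cfsg.Lie.chevB2.group F) ≃* Equiv.Perm (Fin 6)) := by
  classical
  let σ : ℕ → Equiv.Perm (Fin 6) := fun r => ([c[4, 5], c[0, 1] * c[2, 3] * c[4, 5],
    c[0, 2] * c[1, 3] * c[4, 5], c[2, 3], c[1, 3], c[0, 4] * c[1, 5] * c[2, 3],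
    c[0, 4] * c[1, 3] * c[2, 5], c[0, 4]] : List (Equiv.Perm (Fin 6))).getD r 1
  have hK := H40.eq_zero_or_one_of_card hF
  have h1 : ∀ r < Cfsg.Lie.chevB2.nroots, σ r * σ r = 1 := by decide +kernel
  have h2 : ∀ r < Cfsg.Lie.chevB2.nroots, ∀ s < Cfsg.Lie.chevB2.nroots,
      ∀ c ∈ Cfsg.Lie.chevB2.commTerms r s, c.2.2.1 ≠ 0 ∧ c.2.2.2 ≠ 0 := by decide +kernel
  have h3 : ∀ r < Cfsg.Lie.chevB2.nroots, ∀ s < Cfsg.Lie.chevB2.nroots, s ≠ r →
      s ≠ Cfsg.Lie.chevB2.neg r → σ s * σ r = σ r * σ s *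
      ((Cfsg.Lie.chevB2.commTerms r s).map fun c => if c.2.1 % 2 = 0 then 1 else σ c.1).prod := by
    decide +kernel
  have h4 : ∀ i : Fin 5, Equiv.swap i.castSucc i.succ =
      ((![[0, 1, 3], [3, 4, 3], [3], [1, 2, 7, 1, 2], [0]] i : List (Fin 8)).map
        fun r : Fin 8 => σ r.1).prod := by
    decide +kernel
  obtain ⟨ψ, hψ, -⟩ := H40.exists_surjective_of_rel (D := Cfsg.Lie.chevB2) (by simp) (H40.rootF2 F σ)
    (fun r hr => H40.rootF2_R1 hK (h1 r hr))
    (fun r hr s hs e1 e2 => H40.rootF2_R2 hK (h2 r hr s hs) (h3 r hr s hs e1 e2))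
    (fun H hH => by
      rw [eq_top_iff, ← Subgroup.closure_eq_top_of_mclosure_eq_top
        (Equiv.Perm.mclosure_swap_castSucc_succ 5), Subgroup.closure_le]
      rintro _ ⟨i, rfl⟩
      change Equiv.swap _ _ ∈ H
      rw [h4]
      refine H.list_prod_mem fun x hx => ?_
      obtain ⟨r, -, rfl⟩ := List.mem_map.1 hx
      simpa [H40.rootF2] using hH r r.2 1)
    (by
      rw [eq_bot_iff]
      intro g hg
      rw [Subgroup.mem_center_iff] at hg
      have key : ∀ i j : Fin 6, i ≠ j → ∃ k, k ≠ i ∧ k ≠ j := by decide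
      rw [Subgroup.mem_bot]
      ext i : 1
      by_contra hi
      change ¬ g i = i at hi
      obtain ⟨k, k1, k2⟩ := key i (g i) (Ne.symm hi)
      have := congrArg (fun p : Equiv.Perm (Fin 6) => p i) (hg (Equiv.swap (g i) k))
      simp only [Equiv.Perm.mul_apply, Equiv.swap_apply_left] at this
      rw [Equiv.swap_apply_of_ne_of_ne (Ne.symm hi) k1.symm] at this
      exact k2 this)
  have hc := Cfsg.Agent.S1060.result hF
  have : Finite (Cfsg.Lie.chevB2.group F) := inferInstance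
  refine ⟨MulEquiv.ofBijective ψ ((Nat.bijective_iff_surjective_and_card ψ).2 ⟨hψ, ?_⟩)⟩
  rw [Nat.card_perm, Nat.card_fin]
  simpa [Nat.factorial] using hc

end Cfsg.Agent.S1058
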