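import Cfsg.Statements.S1084
import Cfsg.Agent.H37.E6Cubic

set_option autoImplicit false
open Cfsg

namespace Cfsg.Agent.S1084

/-- E₆ via the 27-dimensional cubic form: for a finite field with at least three elements, (isometries of the cubic form) / centre ≅ the Chevalley group E₆(F). -/
theorem result {F : Type*} [Field F] [Fintype F] (hF : 3 ≤ Fintype.card F) : Nonempty (Cfsg.Lie.E6 F ≃* ↥(Cfsg.Lie.chevE6.group F)) := by
  classical
  refine H37.Cubic.equiv_chev (by_contra fun h => ?_)
  have : (Finset.univ : Finset F) ⊆ {0, 1} := fun a _ => by
    by_contra h'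
    exact h ⟨a, by simpa [not_or] using h'⟩
  have := (Finset.card_le_card this).trans Finset.card_le_two
  rw [Finset.card_univ] at this
  omega

end Cfsg.Agent.S1084
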