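import Cfsg.Statements.S1088
import Cfsg.Agent.H34.TwD4

set_option autoImplicit false
open Cfsg

namespace Cfsg.Agent.S1088

open Cfsg.Agent.H34 Cfsg.Lie

/-- |U¹| = |G¹ ∩ U| = q ^ 12 for ³D₄(q). -/
theorem result {K : Type*} [Field K] [Fintype K] {q : ℕ} (hq : IsPrimePow q) (hK : Fintype.card K = q ^ 3) :
    Nat.card ↥(Cfsg.Lie.chevD4.posUnipotent K ⊓ Cfsg.Lie.twistedD4 K q) = q ^ 12 := by
  obtain ⟨φ, hφ, h2, -⟩ := exists_frob3 hq hK
  have := (twD4 φ h2 hφ).card_U q (D4_card_UJ φ h2 hφ hq.one_lt.le hK)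
  rwa [show chevD4.posRoots.length = 12 by decide +kernel] at this

end Cfsg.Agent.S1088
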