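import Cfsg.Statements.S1094
import Cfsg.Agent.H34.Chev3

set_option autoImplicit false
open Cfsg

namespace Cfsg.Agent.S1094

open Cfsg.Agent.H34 Cfsg.Lie

/-- The Coxeter element `s₁ s₂ ⋯ s_l` of the Coxeter group of type B₂, G₂, D₄, F₄, E₆, E₇, E₈ has order `h = 2N/l` = 4, 6, 6, 12, 12, 18, 30. -/
theorem result (p : (Σ n : ℕ, CoxeterMatrix (Fin n)) × ℕ)
    (hp : p ∈ [(⟨2, CoxeterMatrix.B 2⟩, 4), (⟨2, CoxeterMatrix.G₂⟩, 6), (⟨4, Cfsg.Lie.coxeterD4⟩, 6), (⟨4, CoxeterMatrix.F₄⟩, 12),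
      (⟨6, CoxeterMatrix.E₆⟩, 12), (⟨7, CoxeterMatrix.E₇⟩, 18), (⟨8, CoxeterMatrix.E₈⟩, 30)]) :
    orderOf ((List.finRange p.1.1).map p.1.2.simple).prod = p.2 := by
  simp only [List.mem_cons, List.not_mem_nil, or_false] at hp
  rcases hp with rfl | rfl | rfl | rfl | rfl | rfl | rfl
  · obtain ⟨e, he⟩ := exists_mulEquiv_B2 (isCartan_B2 (cert (D := chevB2) (by simp)))
    exact (orderOf_prod_simple e he _).trans (orderOf_cox_B2 (isCartan_B2 _))
  · obtain ⟨e, he⟩ := exists_mulEquiv_G2 (isCartan_G2 (cert (D := chevG2) (by simp)))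
    exact (orderOf_prod_simple e he _).trans (orderOf_cox_G2 (isCartan_G2 _))
  · obtain ⟨e, he⟩ := exists_mulEquiv_D4 (isCartan_D4 (cert (D := chevD4) (by simp)))
    exact (orderOf_prod_simple e he _).trans (orderOf_cox_D4 (isCartan_D4 _))
  · obtain ⟨e, he⟩ := exists_mulEquiv_F4 (isCartan_F4 (cert (D := chevF4) (by simp)))
    exact (orderOf_prod_simple e he _).trans (orderOf_cox_F4 (isCartan_F4 _))
  · obtain ⟨e, he⟩ := exists_mulEquiv_E6 (isCartan_E6 (cert (D := chevE6) (by simp)))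
    exact (orderOf_prod_simple e he _).trans (orderOf_cox_E6 (isCartan_E6 _))
  · obtain ⟨e, he⟩ := exists_mulEquiv_E7 (isCartan_E7 (cert (D := chevE7) (by simp)))
    exact (orderOf_prod_simple e he _).trans (orderOf_cox_E7 (isCartan_E7 _))
  · obtain ⟨e, he⟩ := exists_mulEquiv_E8 (isCartan_E8 (cert (D := chevE8) (by simp)))
    exact (orderOf_prod_simple e he _).trans (orderOf_cox_E8 (isCartan_E8 _))


end Cfsg.Agent.S1094
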