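import Cfsg.Statements.S1098
import Cfsg.Agent.H37.Exc

set_option autoImplicit false
open Cfsg

namespace Cfsg.Agent.S1098

/-- Graph automorphisms in characteristic 2 (K perfect): for B₂ (a short, b long) `x_a(t) ↦ x_b(t²)`, `x_b(t) ↦ x_a(t)`, and for F₄ (p₁, p₂ short, p₃, p₄ long) `x_{p₁}(t) ↦ x_{p₄}(t²)`, `x_{p₂}(t) ↦ x_{p₃}(t²)`, `x_{p₃}(t) ↦ x_{p₂}(t)`, `x_{p₄}(t) ↦ x_{p₁}(t)`, likewise on the negatives, extend to an automorphism of the group. -/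
theorem result {K : Type*} [Field K] [CharP K 2] (hperf : ∀ x : K, ∃ y : K, y ^ 2 = x)
    (p : Cfsg.Lie.ChevalleyDatum × List (ℕ × ℕ))
    (hp : p ∈ [(Cfsg.Lie.chevB2, [(1, 2), (0, 1)]), (Cfsg.Lie.chevF4, [(3, 2), (2, 2), (1, 1), (0, 1)])]) :
    ∃ α : ↥(p.1.group K) ≃* ↥(p.1.group K), ∀ (g : ↥(p.1.group K)) (i : ℕ) (t : K), i < p.1.rank →
      (((g : GL p.1.Idx K) : Matrix p.1.Idx p.1.Idx K) = p.1.x K (p.1.simple i) t →
        ((α g : GL p.1.Idx K) : Matrix p.1.Idx p.1.Idx K) = p.1.x K (p.1.simple (p.2.getD i (0, 1)).1) (t ^ (p.2.getD i (0, 1)).2)) ∧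
      (((g : GL p.1.Idx K) : Matrix p.1.Idx p.1.Idx K) = p.1.x K (p.1.neg (p.1.simple i)) t →
        ((α g : GL p.1.Idx K) : Matrix p.1.Idx p.1.Idx K) = p.1.x K (p.1.neg (p.1.simple (p.2.getD i (0, 1)).1)) (t ^ (p.2.getD i (0, 1)).2)) := by
  have key : ∀ {D : Cfsg.Lie.ChevalleyDatum} (C : H34.Cert D) {ρ e : ℕ → ℕ} (E : H37.ExcData D 2 ρ e) (L : List (ℕ × ℕ))
      (h : ∀ i < D.rank, ρ (D.simple i) = D.simple (L.getD i (0, 1)).1 ∧ e (D.simple i) = (L.getD i (0, 1)).2),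
      ∃ α : ↥(D.group K) ≃* ↥(D.group K), ∀ (g : ↥(D.group K)) (i : ℕ) (t : K), i < D.rank →
      (((g : GL D.Idx K) : Matrix D.Idx D.Idx K) = D.x K (D.simple i) t →
        ((α g : GL D.Idx K) : Matrix D.Idx D.Idx K) = D.x K (D.simple (L.getD i (0, 1)).1) (t ^ (L.getD i (0, 1)).2)) ∧
      (((g : GL D.Idx K) : Matrix D.Idx D.Idx K) = D.x K (D.neg (D.simple i)) t →
        ((α g : GL D.Idx K) : Matrix D.Idx D.Idx K) =
          D.x K (D.neg (D.simple (L.getD i (0, 1)).1)) (t ^ (L.getD i (0, 1)).2)) := by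
    intro D C ρ e E L h
    obtain ⟨γ, hγ⟩ := E.exists_equiv C hperf
    refine ⟨γ, fun g i t hi => ?_⟩
    have hp := C.V.basic.simple_lt i hi
    simp only [C.V.eq_xE_iff]
    constructor
    · rintro rfl
      rw [hγ _ hp, (h i hi).1, (h i hi).2]
    · rintro rfl
      rw [hγ _ (C.V.basic.neg_lt _ hp), E.neg _ hp, E.e_neg _ hp, (h i hi).1, (h i hi).2]
  simp only [List.mem_cons, List.not_mem_nil, or_false] at hp
  rcases hp with rfl | rfl
  · exact key (H34.cert (by simp)) H37.excDataB2 _ (by decide +kernel)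
  · exact key (H34.cert (by simp)) H37.excDataF4 _ (by decide +kernel)

end Cfsg.Agent.S1098
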