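import Cfsg.Statements.S1101
import Cfsg.Agent.H34.TwG2

set_option autoImplicit false
open Cfsg

namespace Cfsg.Agent.S1101

open Cfsg.Agent.H34 Cfsg.Lie

/-- For ²G₂ over `K` with `|K| = 3^(2m+1)`, `θ = 3^m`: `U¹ = G¹ ∩ U` consists exactly of the elements `x_a(t^θ) x_b(t) x_{a+b}(t^{θ+1}+u^θ) x_{2a+b}(t^{2θ+1}+v^θ) x_{3a+b}(u) x_{3a+2b}(v)`, `t, u, v ∈ K`, and it has `|K|³` elements. -/
theorem result {K : Type*} [Field K] [Fintype K] {m : ℕ} (hK : Fintype.card K = 3 ^ (2 * m + 1)) :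
    (∀ g : GL Cfsg.Lie.chevG2.Idx K, g ∈ Cfsg.Lie.chevG2.posUnipotent K ⊓ Cfsg.Lie.twistedG2 K (3 ^ m) ↔
      ∃ t u v : K, (g : Matrix Cfsg.Lie.chevG2.Idx Cfsg.Lie.chevG2.Idx K) = Cfsg.Lie.chevG2.wordMat K (Cfsg.Lie.reeWordU (3 ^ m) t u v)) ∧
    Nat.card ↥(Cfsg.Lie.chevG2.posUnipotent K ⊓ Cfsg.Lie.twistedG2 K (3 ^ m)) = (3 ^ (2 * m + 1)) ^ 3 := by
  obtain ⟨_, θ, hθ, h3⟩ := exists_theta hK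
  refine ⟨fun g => ⟨fun hg => ?_, fun ⟨t, u, v, e⟩ => ?_⟩,
    by rw [G2_card_U θ h3 hθ, Nat.card_eq_fintype_card, hK]⟩
  · obtain ⟨t, u, v, e⟩ := (G2_mem_U θ h3 (u := ⟨g, (twG2 θ h3 hθ).le hg.2⟩)).1
      ⟨Cert.mem_Up.2 hg.1, (tG2 θ h3).G1_le_fix ((twG2 θ h3 hθ).mem_G1.2 hg.2)⟩
    exact ⟨t, u, v, Cert.eq_wg_iff.2 (by rw [reeWordU_eq θ hθ, ← e])⟩
  · rw [Cert.eq_wg_iff (C := cG2), reeWordU_eq θ hθ] at e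
    exact e ▸ ⟨Cert.mem_Up.1 (Cert.wg_mem_Up (orbG2 (0 : Fin 2)).pos),
      (twG2 θ h3 hθ).mem_G1.1 (G2_mem θ h3 t u v).1⟩

end Cfsg.Agent.S1101
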