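import Cfsg.Statements.S1103
import Cfsg.Agent.H34.TwE6

set_option autoImplicit false
open Cfsg

namespace Cfsg.Agent.S1103

open Cfsg.Agent.H34 Cfsg.Lie

/-- `N¹/H¹ ≅ W¹`: a surjective homomorphism from `N¹ = G¹ ∩ N` onto the Coxeter group of type F₄ with kernel `H¹`. -/
theorem result {K : Type*} [Field K] [Fintype K] {q : ℕ} (hq : IsPrimePow q) (hK : Fintype.card K = q ^ 2) :
    ∃ φ : ↥(Cfsg.Lie.chevE6.monomialSubgroup K ⊓ Cfsg.Lie.twistedE6 K q) →* (CoxeterMatrix.F₄).Group, Function.Surjective φ ∧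
      φ.ker = (Cfsg.Lie.chevE6.diagonalSubgroup K ⊓ Cfsg.Lie.twistedE6 K q).subgroupOf (Cfsg.Lie.chevE6.monomialSubgroup K ⊓ Cfsg.Lie.twistedE6 K q) := by
  obtain ⟨φ, hφ, h2, -⟩ := exists_frob2 hq hK
  obtain ⟨e⟩ := E6_weyl φ h2
  exact (twE6 φ h2 hφ).exists_hom e

end Cfsg.Agent.S1103
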