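import Cfsg.Statements.S1109
import Cfsg.Agent.H34.TwD4

set_option autoImplicit false
open Cfsg

namespace Cfsg.Agent.S1109

open Cfsg.Agent.H34 Cfsg.Lie

/-- The normal core of `B¹ = G¹ ∩ B` in ³D₄(q) is trivial. -/
theorem result {K : Type*} [Field K] [Fintype K] {q : ℕ} (hq : IsPrimePow q) (hK : Fintype.card K = q ^ 3) :
    ((Cfsg.Lie.chevD4.borelSubgroup K ⊓ Cfsg.Lie.twistedD4 K q).subgroupOf (Cfsg.Lie.twistedD4 K q)).normalCore = ⊥ := by
  obtain ⟨φ, hφ, h2, -⟩ := exists_frob3 hq hK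
  exact (twD4 φ h2 hφ).core (D4_core φ h2)

end Cfsg.Agent.S1109
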