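import Cfsg.Statements.S1112
import Cfsg.Agent.H34.TwF4

set_option autoImplicit false
open Cfsg

namespace Cfsg.Agent.S1112

open Cfsg.Agent.H34 Cfsg.Lie

/-- ²F₄(2^(2m+1)) (m ≥ 1) equals its derived subgroup. -/
theorem result {K : Type*} [Field K] [Fintype K] {m : ℕ} (hK : Fintype.card K = 2 ^ (2 * m + 1)) (hm : 1 ≤ m) : commutator ↥(Cfsg.Lie.twistedF4 K (2 ^ m)) = ⊤ := by
  obtain ⟨_, θ, hθ, h2⟩ := exists_theta hK
  have h4 : 2 < Fintype.card K := hK ▸ lt_of_lt_of_le (by norm_num)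
    (Nat.pow_le_pow_right (by norm_num) (show 2 ≤ 2 * m + 1 by omega))
  exact (twF4 θ h2 hθ).perfect (F4_perfect θ h2 h4)

end Cfsg.Agent.S1112
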