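import Cfsg.Statements.S1118
import Cfsg.Agent.H38.RankOne

set_option autoImplicit false
open Cfsg

namespace Cfsg.Agent.S1118

/-- In the rank-one set-up (`G` finite and doubly transitive on `Ω`, `t` an involution moving `a`, `Q` normal in `G_a` with `G_a = Q D`, `Q ⊓ D = 1` for the two-point stabiliser `D = G_a ⊓ G_{t • a}`, `|Q|` even, `|D|` odd), the normaliser of a subset of `Q` containing a non-identity element lies in `G_a`; consequently `N_G(Q) = N_G(G_a) = G_a`. -/
theorem result {G Ω : Type*} [Group G] [Finite G] [MulAction G Ω] {a : Ω} {t : G} {Q : Subgroup G}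
    (hS : Cfsg.IsRankOneSetup G Ω a t Q) :
    (∀ X : Set G, X ⊆ (Q : Set G) → (∃ x ∈ X, x ≠ 1) → Subgroup.normalizer X ≤ MulAction.stabilizer G a) ∧
      Subgroup.normalizer (Q : Set G) = MulAction.stabilizer G a ∧
      Subgroup.normalizer (MulAction.stabilizer G a : Set G) = MulAction.stabilizer G a := by
  have key : ∀ X : Set G, X ⊆ (Q : Set G) → (∃ x ∈ X, x ≠ 1) →
      Subgroup.normalizer X ≤ MulAction.stabilizer G a := by
    rintro X hX ⟨x, hx, hx1⟩ g hg
    exact H38.r1_conj_fix hS (hX hx) hx1 (H38.r1_Q_fix hS (hX ((hg x).mp hx)))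
  obtain ⟨s, hs, hs1, -⟩ := H38.r1_exists_invol hS
  refine ⟨key, le_antisymm (key _ subset_rfl ⟨s, hs, hs1⟩) ?_, le_antisymm ?_ Subgroup.le_normalizer⟩
  · intro h hh
    rw [Subgroup.mem_normalizer_iff]
    intro q
    refine ⟨H38.r1_conj hS hh, fun hq => ?_⟩
    have := H38.r1_conj' hS hh hq
    simpa [mul_assoc] using this
  · intro g hg
    exact H38.r1_conj_fix hS hs hs1 ((hg s).mp (hS.le hs))

end Cfsg.Agent.S1118
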