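import Cfsg.Statements.S1119
import Cfsg.Agent.H38.RankOne

set_option autoImplicit false
open Cfsg

namespace Cfsg.Agent.S1119

/-- In the rank-one set-up (`G` finite and doubly transitive on `Ω`, `t` an involution moving `a`, `Q` normal in `G_a` with `G_a = Q D`, `Q ⊓ D = 1` for the two-point stabiliser `D = G_a ⊓ G_{t • a}`, `|Q|` even, `|D|` odd): `Q` acts regularly on `Ω` minus `a`; hence `|Ω| = |Q| + 1`, `|G| = |Q| |D| (|Q| + 1)`, some Sylow 2-subgroup of `G` lies in `Q`, and each `g ∉ G_a` is uniquely `x t y` with `x ∈ G_a`, `y ∈ Q` (canonical form). -/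
theorem result {G Ω : Type*} [Group G] [Finite G] [MulAction G Ω] {a : Ω} {t : G} {Q : Subgroup G}
    (hS : Cfsg.IsRankOneSetup G Ω a t Q) :
    (∀ b c : Ω, b ≠ a → c ≠ a → ∃! x : Q, (x : G) • b = c) ∧
      Nat.card Ω = Nat.card Q + 1 ∧
      Nat.card G = Nat.card Q * Nat.card ↥(MulAction.stabilizer G a ⊓ MulAction.stabilizer G (t • a)) * (Nat.card Q + 1) ∧
      (∃ P : Sylow 2 G, (P : Subgroup G) ≤ Q) ∧
      ∀ g : G, g ∉ MulAction.stabilizer G a → ∃! p : G × G, p.1 ∈ MulAction.stabilizer G a ∧ p.2 ∈ Q ∧ g = p.1 * t * p.2 := by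
  classical
  have hΩ : Nat.card Ω = Nat.card Q + 1 := by
    rw [← Finite.card_option]
    symm
    refine Nat.card_congr (Equiv.ofBijective
      (fun o => Option.elim o a (fun q : Q => (q : G) • t • a)) ⟨?_, ?_⟩)
    · rintro (_ | q) (_ | q') h
      · rfl
      · exact absurd h.symm (H38.r1_smul_ne hS (H38.r1_Q_fix hS q'.2) (H38.r1_ta_ne hS))
      · exact absurd h (H38.r1_smul_ne hS (H38.r1_Q_fix hS q.2) (H38.r1_ta_ne hS))
      · rw [Subtype.ext (H38.r1_Q_unique hS q.2 q'.2 (H38.r1_ta_ne hS) h)]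
    · intro c
      by_cases hc : c = a
      · exact ⟨none, hc.symm⟩
      · obtain ⟨q, hq, e⟩ := H38.r1_Q_trans hS hc
        exact ⟨some ⟨q, hq⟩, e⟩
  have hH : Nat.card (MulAction.stabilizer G a) = Nat.card Q *
      Nat.card ↥(MulAction.stabilizer G a ⊓ MulAction.stabilizer G (t • a)) := by
    rw [← Nat.card_prod]
    symm
    refine Nat.card_congr (Equiv.ofBijective
      (fun p => ⟨(p.1 : G) * (p.2 : G), Subgroup.mul_mem _ (hS.le p.1.2) p.2.2.1⟩) ⟨?_, ?_⟩)
    · rintro ⟨q, d⟩ ⟨q', d'⟩ h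
      obtain ⟨e1, e2⟩ := H38.r1_QD_unique hS q.2 q'.2 d.2.2 d'.2.2 (congrArg Subtype.val h)
      exact Prod.ext (Subtype.ext e1) (Subtype.ext e2)
    · rintro ⟨h, hh⟩
      obtain ⟨q, hq, d, h1, h2, e⟩ := H38.r1_decomp hS hh
      exact ⟨(⟨q, hq⟩, ⟨d, h1, h2⟩), Subtype.ext e.symm⟩
  have hpre : MulAction.IsPretransitive G Ω :=
    MulAction.isPretransitive_of_is_two_pretransitive (h2 := hS.two_transitive)
  have hG : Nat.card G = Nat.card Q *
      Nat.card ↥(MulAction.stabilizer G a ⊓ MulAction.stabilizer G (t • a)) * (Nat.card Q + 1) := by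
    rw [← hH, ← hΩ, ← MulAction.index_stabilizer_of_transitive G a, Subgroup.card_mul_index]
  refine ⟨?_, hΩ, hG, ?_, ?_⟩
  · intro b c hb hc
    obtain ⟨q, hq, e⟩ := H38.r1_Q_reg hS hb hc
    exact ⟨⟨q, hq⟩, e, fun q' e' => Subtype.ext (H38.r1_Q_unique hS q'.2 hq hb (e'.trans e.symm))⟩
  · have hidx : Q.index = Nat.card ↥(MulAction.stabilizer G a ⊓ MulAction.stabilizer G (t • a)) *
        (Nat.card Q + 1) := by
      have h1 := Q.card_mul_index
      rw [hG, mul_assoc] at h1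
      exact Nat.eq_of_mul_eq_mul_left Nat.card_pos h1
    have hodd : Odd Q.index := by
      rw [hidx]
      exact hS.odd_card.mul hS.even_card.add_one
    have : Fact (Nat.Prime 2) := ⟨Nat.prime_two⟩
    obtain ⟨P⟩ : Nonempty (Sylow 2 Q) := inferInstance
    have hP : IsPGroup 2 ((P : Subgroup Q).map Q.subtype) := P.isPGroup'.map _
    have hidx2 : ¬ 2 ∣ ((P : Subgroup Q).map Q.subtype).index := by
      rw [Subgroup.index_map_subtype, Nat.Prime.dvd_mul Nat.prime_two]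
      rintro (h | h)
      · exact P.not_dvd_index h
      · exact (Nat.not_even_iff_odd.mpr hodd) (even_iff_two_dvd.mpr h)
    exact ⟨hP.toSylow hidx2, Subgroup.map_subtype_le _⟩
  · intro g hg
    obtain ⟨x, y, hx, hy, e⟩ := H38.r1_canon hS hg
    refine ⟨(x, y), ⟨hx, hy, e⟩, ?_⟩
    rintro ⟨x', y'⟩ ⟨h1, h2, h3⟩
    obtain ⟨e1, e2⟩ := H38.r1_canon_unique hS h1 h2 hx hy (h3.symm.trans e)
    exact Prod.ext e1 e2

end Cfsg.Agent.S1119
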