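import Cfsg.Statements.S1120
import Cfsg.Agent.H38.RankOne2

set_option autoImplicit false
open Cfsg

namespace Cfsg.Agent.S1120

/-- In the rank-one set-up (`G` finite and doubly transitive on `Ω`, `t` an involution moving `a`, `Q` normal in `G_a` with `G_a = Q D`, `Q ⊓ D = 1` for the two-point stabiliser `D = G_a ⊓ G_{t • a}`, `|Q|` even, `|D|` odd), if `G` has 2-rank at least 2 then `O_{2'}(G)` equals the normal core of `G_a`. -/
theorem result {G Ω : Type*} [Group G] [Finite G] [MulAction G Ω] {a : Ω} {t : G} {Q : Subgroup G}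
    (hS : Cfsg.IsRankOneSetup G Ω a t Q)
    (h2 : ∃ x y : G, x ≠ 1 ∧ y ≠ 1 ∧ x ≠ y ∧ x * x = 1 ∧ y * y = 1 ∧ x * y = y * x) :
    Cfsg.pPrimeCore 2 G = (MulAction.stabilizer G a).normalCore := by
  apply le_antisymm
  · apply sSup_le
    rintro N ⟨hN, hcop⟩
    rw [Subgroup.normal_le_normalCore]
    have hodd : Odd (Nat.card N) := Nat.coprime_two_right.mp hcop
    intro m hm
    by_contra hma
    obtain ⟨x, hx, y, hy, hx1, hy1, hxy, hx2, hy2, hc⟩ := H38.r1_two_invols hS h2
    have hv : (m * y * m⁻¹) • a ≠ a := fun h => hma (H38.r1_conj_fix hS hy hy1 h)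
    have hv2 : (m * y * m⁻¹) * (m * y * m⁻¹) = 1 := by
      calc (m * y * m⁻¹) * (m * y * m⁻¹) = m * (y * y) * m⁻¹ := by group
        _ = 1 := by rw [hy2]; simp
    have ho := H38.r1_odd_mul hS (H38.r1_Q_fix hS hx) hx1 hx2 hv hv2
    have hq : (QuotientGroup.mk' N) (x * (m * y * m⁻¹)) = (QuotientGroup.mk' N) (x * y) := by
      have : (QuotientGroup.mk' N) m = 1 := (QuotientGroup.eq_one_iff m).mpr hm
      simp only [map_mul, map_inv, this, one_mul, inv_one, mul_one]
    have hsq : (x * y) * (x * y) = 1 := by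
      calc (x * y) * (x * y) = x * (y * x) * y := by group
        _ = (x * x) * (y * y) := by rw [← hc]; group
        _ = 1 := by rw [hx2, hy2, one_mul]
    have h1 : (QuotientGroup.mk' N) (x * y) = 1 := by
      apply H38.eq_one_of_odd_of_sq
      · rw [← hq]
        exact ho.of_dvd_nat (orderOf_map_dvd _ _)
      · rw [← map_mul, hsq, map_one]
    have h3 : x * y ∈ N := (QuotientGroup.eq_one_iff _).mp h1
    have h4 := H38.eq_one_of_odd_of_sq (H38.odd_orderOf_of_mem hodd h3) hsq
    apply hxy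
    calc x = (x * y) * y := by rw [mul_assoc, hy2, mul_one]
      _ = y := by rw [h4, one_mul]
  · apply le_sSup
    refine ⟨inferInstance, Nat.coprime_two_right.mpr ?_⟩
    apply hS.odd_card.of_dvd_nat
    apply Subgroup.card_dvd_of_le
    intro x hx
    refine ⟨Subgroup.normalCore_le _ hx, ?_⟩
    have h1 : (t * x * t⁻¹) • a = a := hx t
    rw [H38.r1_tinv hS] at h1
    have h2 := H38.r1_tDt2 hS h1
    simp only [mul_assoc, H38.r1_ttx hS, hS.mul_self, mul_one] at h2
    exact h2

end Cfsg.Agent.S1120
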