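import Cfsg.Statements.S1122
import Cfsg.Agent.H38.RankOne2

set_option autoImplicit false
open Cfsg

namespace Cfsg.Agent.S1122

/-- In the rank-one set-up (`G` finite and doubly transitive on `Ω`, `t` an involution moving `a`, `Q` normal in `G_a` with `G_a = Q D`, `Q ⊓ D = 1` for the two-point stabiliser `D = G_a ⊓ G_{t • a}`, `|Q|` even, `|D|` odd), with `K` the set of elements of `D` inverted by `t`: `|K|` is the number of involutions of `G_a`, and for each involution `s` of `G_a` the `K`-conjugates of `s` are all the involutions of `G_a`. -/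
theorem result {G Ω : Type*} [Group G] [Finite G] [MulAction G Ω] {a : Ω} {t : G} {Q : Subgroup G}
    (hS : Cfsg.IsRankOneSetup G Ω a t Q) :
    Nat.card (Cfsg.invertedBy (MulAction.stabilizer G a ⊓ MulAction.stabilizer G (t • a)) t) = Nat.card (Cfsg.involutionsIn (MulAction.stabilizer G a : Set G)) ∧
      ∀ s ∈ Cfsg.involutionsIn (MulAction.stabilizer G a : Set G), ∀ s' ∈ Cfsg.involutionsIn (MulAction.stabilizer G a : Set G),
        ∃ k ∈ Cfsg.invertedBy (MulAction.stabilizer G a ⊓ MulAction.stabilizer G (t • a)) t, k⁻¹ * s * k = s' := by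
  constructor
  · obtain ⟨s, hs, hs1, hs2⟩ := H38.r1_exists_invol hS
    have hsa := H38.r1_Q_fix hS hs
    refine Nat.card_congr (Equiv.ofBijective (fun k => ⟨(k : G) * s * (k : G)⁻¹, ?_, ?_, ?_⟩) ⟨?_, ?_⟩)
    · exact hS.le (H38.r1_conj hS k.2.1.1 hs)
    · intro h
      apply hs1
      calc s = (k : G)⁻¹ * (k * s * (k : G)⁻¹) * k := by group
        _ = 1 := by rw [h]; simp
    · calc (k : G) * s * (k : G)⁻¹ * (k * s * (k : G)⁻¹) = k * (s * s) * (k : G)⁻¹ := by group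
        _ = 1 := by rw [hs2]; simp
    · intro k l h
      apply Subtype.ext
      have hk := k.2.2
      have hl := l.2.2
      rw [H38.r1_tinv hS] at hk hl
      exact H38.r1_K_inj hS hsa hs1 hs2 k.2.1.1 hk l.2.1.1 hl (congrArg Subtype.val h)
    · rintro ⟨s', h1, h2, h3⟩
      obtain ⟨k, e1, e2, e3, e4⟩ := H38.r1_K_trans hS hsa hs1 hs2 h1 h2 h3
      exact ⟨⟨k, ⟨e1, e2⟩, by rw [H38.r1_tinv hS, e3]⟩, Subtype.ext e4⟩
  · rintro s ⟨h1, h2, h3⟩ s' ⟨h1', h2', h3'⟩
    obtain ⟨k, e1, e2, e3, e4⟩ := H38.r1_K_trans hS h1 h2 h3 h1' h2' h3'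
    refine ⟨k⁻¹, ⟨⟨H38.smul_inv_fix e1, H38.smul_inv_fix e2⟩, ?_⟩, by rw [inv_inv, e4]⟩
    rw [H38.r1_tinv hS, inv_inv, H38.r1_K_inv hS e3]

end Cfsg.Agent.S1122
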