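import Cfsg.Statements.S1124
import Cfsg.Agent.H38.RankOne2

set_option autoImplicit false
open scoped Pointwise
open Cfsg

namespace Cfsg.Agent.S1124

/-- Let `t` be an element of order 2 of a finite group normalising a subgroup `X` of odd order, `Y = C_X(t)` and `Z` the set of elements of `X` inverted by `t`. Then `(y, z) ↦ y z` is a bijection `Y × Z → X`, so `|X| = |Y| |Z|`, and the subgroup generated by `Z` is normal in `X`. -/
theorem result {M : Type*} [Group M] [Finite M]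
    (t : M) (ht : orderOf t = 2) (X : Subgroup M) (hodd : Odd (Nat.card X))
    (hnorm : ∀ x ∈ X, t * x * t⁻¹ ∈ X) :
    (∀ x ∈ X, ∃! p : M × M, p.1 ∈ X ⊓ Subgroup.centralizer {t} ∧ p.2 ∈ Cfsg.invertedBy X t ∧ x = p.1 * p.2) ∧
      Nat.card X = Nat.card ↥(X ⊓ Subgroup.centralizer {t}) * Nat.card (Cfsg.invertedBy X t) ∧
      ∀ x ∈ X, MulAut.conj x • Subgroup.closure (Cfsg.invertedBy X t) = Subgroup.closure (Cfsg.invertedBy X t) := by
  have htt : t * t = 1 := by rw [← sq, ← ht, pow_orderOf_eq_one]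
  have hti : t⁻¹ = t := H38.inv_eq_of_mul_self htt
  have hcent : ∀ y : M, y ∈ Subgroup.centralizer ({t} : Set M) ↔ t * y * t = y := by
    intro y
    rw [Subgroup.mem_centralizer_singleton_iff]
    constructor
    · intro h
      rw [← h, mul_assoc, htt, mul_one]
    · intro h
      calc y * t = (t * y * t) * t := by rw [h]
        _ = t * y := by rw [mul_assoc, htt, mul_one]
  have key : ∀ x ∈ X, ∃! p : M × M, p.1 ∈ X ⊓ Subgroup.centralizer {t} ∧
      p.2 ∈ Cfsg.invertedBy X t ∧ x = p.1 * p.2 := by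
    intro x hx
    obtain ⟨y, hy, z, hz, e1, e2, e3⟩ := H38.exists_cent_mul_inv htt hodd
      (fun x hx => by have := hnorm x hx; rwa [hti] at this) hx
    refine ⟨(y, z), ⟨⟨hy, (hcent y).mpr e1⟩, ⟨hz, by rw [hti]; exact e2⟩, e3⟩, ?_⟩
    rintro ⟨y', z'⟩ ⟨⟨h1, h2⟩, ⟨h3, h4⟩, h5⟩
    rw [hti] at h4
    obtain ⟨f1, f2⟩ := H38.cent_mul_inv_unique htt (H38.odd_orderOf_of_mem hodd h3)
      (H38.odd_orderOf_of_mem hodd hz) ((hcent y').mp h2) h4 e1 e2 (h5.symm.trans e3)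
    exact Prod.ext f1 f2
  refine ⟨key, ?_, ?_⟩
  · rw [← Nat.card_prod]
    symm
    refine Nat.card_congr (Equiv.ofBijective
      (fun p => ⟨(p.1 : M) * (p.2 : M), X.mul_mem p.1.2.1 p.2.2.1⟩) ⟨?_, ?_⟩)
    · rintro ⟨y, z⟩ ⟨y', z'⟩ h
      have h' : (y : M) * z = y' * z' := congrArg Subtype.val h
      have := (key _ (X.mul_mem y.2.1 z.2.1)).unique (y₁ := ((y : M), (z : M)))
        (y₂ := ((y' : M), (z' : M))) ⟨y.2, z.2, rfl⟩ ⟨y'.2, z'.2, h'⟩
      exact Prod.ext (Subtype.ext (congrArg Prod.fst this)) (Subtype.ext (congrArg Prod.snd this))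
    · rintro ⟨x, hx⟩
      obtain ⟨⟨y, z⟩, ⟨h1, h2, h3⟩, -⟩ := key x hx
      exact ⟨(⟨y, h1⟩, ⟨z, h2⟩), Subtype.ext h3.symm⟩
  · have hle : X ≤ Subgroup.normalizer (Subgroup.closure (Cfsg.invertedBy X t) : Set M) := by
      rw [Subgroup.le_normalizer_closure_iff]
      intro x hx g hg
      obtain ⟨⟨y, z⟩, ⟨h1, h2, h3⟩, -⟩ := key x hx
      simp only at h1 h2 h3
      have hy := (hcent y).mp h1.2
      have hy' : t * y⁻¹ * t = y⁻¹ := by
        calc t * y⁻¹ * t = (t * y * t)⁻¹ := by simp only [mul_inv_rev, hti, mul_assoc]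
          _ = y⁻¹ := by rw [hy]
      have hconj : ∀ w ∈ Cfsg.invertedBy X t, y * w * y⁻¹ ∈ Cfsg.invertedBy X t := by
        rintro w ⟨hw1, hw2⟩
        refine ⟨X.mul_mem (X.mul_mem h1.1 hw1) (X.inv_mem h1.1), ?_⟩
        calc t * (y * w * y⁻¹) * t⁻¹ = (t * y * t) * (t⁻¹ * w * t⁻¹) * (t * y⁻¹ * t⁻¹) := by group
          _ = (y * w * y⁻¹)⁻¹ := by
            rw [hti] at hw2 ⊢
            rw [hy, hy', hw2]; group
      have hz' : z⁻¹ ∈ Cfsg.invertedBy X t := by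
        refine ⟨X.inv_mem h2.1, ?_⟩
        calc t * z⁻¹ * t⁻¹ = (t * z * t⁻¹)⁻¹ := by group
          _ = _ := by rw [h2.2]
      have : x * g * x⁻¹ = (y * z * y⁻¹) * (y * g * y⁻¹) * (y * z⁻¹ * y⁻¹) := by
        rw [h3]; group
      rw [this]
      exact Subgroup.mul_mem _ (Subgroup.mul_mem _ (Subgroup.subset_closure (hconj z h2))
        (Subgroup.subset_closure (hconj g hg))) (Subgroup.subset_closure (hconj _ hz'))
    intro x hx
    exact Subgroup.mem_normalizer_iff_map_conj_eq.mp (hle hx)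

end Cfsg.Agent.S1124
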