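import Cfsg.Statements.S1126
import Cfsg.Agent.H38.RankOne2

set_option autoImplicit false
open Cfsg

namespace Cfsg.Agent.S1126

/-- In the rank-one set-up (`G` finite and doubly transitive on `Ω`, `t` an involution moving `a`, `Q` normal in `G_a` with `G_a = Q D`, `Q ⊓ D = 1` for the two-point stabiliser `D = G_a ⊓ G_{t • a}`, `|Q|` even, `|D|` odd), a subset `X ⊆ D` fixing at least three points of `Ω` is conjugate by an element of `D` into `V = C_D(t)`. -/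
theorem result {G Ω : Type*} [Group G] [Finite G] [MulAction G Ω] {a : Ω} {t : G} {Q : Subgroup G}
    (hS : Cfsg.IsRankOneSetup G Ω a t Q)
    (X : Set G) (hX : X ⊆ ((MulAction.stabilizer G a ⊓ MulAction.stabilizer G (t • a)) : Set G))
    (h3 : ∃ b c d : Ω, b ≠ c ∧ b ≠ d ∧ c ≠ d ∧ ∀ x ∈ X, x • b = b ∧ x • c = c ∧ x • d = d) :
    ∃ k ∈ (MulAction.stabilizer G a ⊓ MulAction.stabilizer G (t • a)), ∀ x ∈ X, (k * x * k⁻¹) * t = t * (k * x * k⁻¹) := by
  obtain ⟨s', hs', hs1', hs2', hc⟩ := H38.r1_C_invol hS (fun x hx => (hX hx).1) h3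
  obtain ⟨s, r, hs, hs1, hs2, hr, e⟩ := H38.r1_struct_exists hS
  obtain ⟨k, h1, h2, -, h4⟩ := H38.r1_K_trans hS (H38.r1_Q_fix hS hs') hs1' hs2'
    (H38.r1_Q_fix hS hs) hs1 hs2
  refine ⟨k, ⟨h1, h2⟩, fun x hx => ?_⟩
  have := H38.r1_mem_V_of_comm hS (H38.r1_Q_fix hS hs) hs1 hs2 hr e (d := k * x * k⁻¹)
    (H38.mul_smul_fix (H38.mul_smul_fix h1 (hX hx).1) (H38.smul_inv_fix h1))
    (H38.mul_smul_fix (H38.mul_smul_fix h2 (hX hx).2) (H38.smul_inv_fix h2))
    (by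
      rw [← h4]
      calc k * x * k⁻¹ * (k * s' * k⁻¹) = k * (x * s') * k⁻¹ := by group
        _ = _ := by rw [hc x hx]; group)
  calc k * x * k⁻¹ * t = (t * (k * x * k⁻¹) * t) * t := by rw [this]
    _ = _ := by rw [mul_assoc, hS.mul_self, mul_one]

end Cfsg.Agent.S1126
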