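import Cfsg.Statements.S1127
import Cfsg.Agent.H38.RankOne2

set_option autoImplicit false
open Cfsg

namespace Cfsg.Agent.S1127

/-- In the rank-one set-up (`G` finite and doubly transitive on `Ω`, `t` an involution moving `a`, `Q` normal in `G_a` with `G_a = Q D`, `Q ⊓ D = 1` for the two-point stabiliser `D = G_a ⊓ G_{t • a}`, `|Q|` even, `|D|` odd): if `s` is an involution of `G_a` and `r ∈ Q` satisfy `t s t = r⁻¹ t r`, then `C_D(t) = C_D(s)`; moreover `C_D(t) ⊓ C_D(K) = C_D(I ∩ G_a)`, where `K` is the set of elements of `D` inverted by `t` and `I ∩ G_a` the set of involutions of `G_a`. -/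
theorem result {G Ω : Type*} [Group G] [Finite G] [MulAction G Ω] {a : Ω} {t : G} {Q : Subgroup G}
    (hS : Cfsg.IsRankOneSetup G Ω a t Q) :
    (∀ s r : G, s ∈ Cfsg.involutionsIn (MulAction.stabilizer G a : Set G) → r ∈ Q → t * s * t = r⁻¹ * t * r →
        (MulAction.stabilizer G a ⊓ MulAction.stabilizer G (t • a)) ⊓ Subgroup.centralizer {t} = (MulAction.stabilizer G a ⊓ MulAction.stabilizer G (t • a)) ⊓ Subgroup.centralizer {s}) ∧
      (MulAction.stabilizer G a ⊓ MulAction.stabilizer G (t • a)) ⊓ Subgroup.centralizer {t} ⊓ Subgroup.centralizer (Cfsg.invertedBy (MulAction.stabilizer G a ⊓ MulAction.stabilizer G (t • a)) t) =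
        (MulAction.stabilizer G a ⊓ MulAction.stabilizer G (t • a)) ⊓ Subgroup.centralizer (Cfsg.involutionsIn (MulAction.stabilizer G a : Set G)) := by
  have hcent : ∀ y : G, y ∈ Subgroup.centralizer ({t} : Set G) ↔ t * y * t = y := by
    intro y
    rw [Subgroup.mem_centralizer_singleton_iff]
    constructor
    · intro h
      rw [← h, mul_assoc, hS.mul_self, mul_one]
    · intro h
      calc y * t = (t * y * t) * t := by rw [h]
        _ = t * y := by rw [mul_assoc, hS.mul_self, mul_one]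
  constructor
  · rintro s r ⟨hs, hs1, hs2⟩ hr e
    ext d
    constructor
    · rintro ⟨hd, hdt⟩
      refine ⟨hd, Subgroup.mem_centralizer_singleton_iff.mpr ?_⟩
      have := (H38.r1_V_comm hS hs hs1 hs2 hr e hd.1 ((hcent d).mp hdt)).1
      calc d * s = (d * s * d⁻¹) * d := by group
        _ = s * d := by rw [this]
    · rintro ⟨hd, hds⟩
      exact ⟨hd, (hcent d).mpr (H38.r1_mem_V_of_comm hS hs hs1 hs2 hr e hd.1 hd.2
        (Subgroup.mem_centralizer_singleton_iff.mp hds))⟩
  · obtain ⟨s, r, hs, hs1, hs2, hr, e⟩ := H38.r1_struct_exists hS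
    have hsa := H38.r1_Q_fix hS hs
    ext d
    constructor
    · rintro ⟨⟨hd, hdt⟩, hdK⟩
      refine ⟨hd, ?_⟩
      rintro s' ⟨h1, h2, h3⟩
      obtain ⟨k, e1, e2, e3, rfl⟩ := H38.r1_K_trans hS hsa hs1 hs2 h1 h2 h3
      have c1 : Commute k d := hdK k ⟨⟨e1, e2⟩, by rw [H38.r1_tinv hS, e3]⟩
      have c2 : Commute s d := by
        have := (H38.r1_V_comm hS hsa hs1 hs2 hr e hd.1 ((hcent d).mp hdt)).1
        calc s * d = (d * s * d⁻¹) * d := by rw [this]
          _ = d * s := by group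
      exact ((c1.mul_left c2).mul_left c1.inv_left).eq
    · rintro ⟨hd, hdI⟩
      have hds : s * d = d * s := hdI s ⟨hsa, hs1, hs2⟩
      have hdt := H38.r1_mem_V_of_comm hS hsa hs1 hs2 hr e hd.1 hd.2 hds.symm
      have hdt' : t * d⁻¹ * t = d⁻¹ := by
        calc t * d⁻¹ * t = (t * d * t)⁻¹ := by simp only [mul_inv_rev, H38.r1_tinv hS, mul_assoc]
          _ = d⁻¹ := by rw [hdt]
      refine ⟨⟨hd, (hcent d).mpr hdt⟩, ?_⟩
      rintro k ⟨⟨hk1, hk2⟩, hk⟩
      rw [H38.r1_tinv hS] at hk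
      have h1 : k * s * k⁻¹ * d = d * (k * s * k⁻¹) := by
        apply hdI
        refine ⟨hS.le (H38.r1_conj hS hk1 hs), ?_, ?_⟩
        · intro h
          apply hs1
          calc s = k⁻¹ * (k * s * k⁻¹) * k := by group
            _ = 1 := by rw [h]; simp
        · calc k * s * k⁻¹ * (k * s * k⁻¹) = k * (s * s) * k⁻¹ := by group
            _ = 1 := by rw [hs2]; simp
      have h2 : d * k * d⁻¹ = k := by
        apply H38.r1_K_inj hS hsa hs1 hs2
          (H38.mul_smul_fix (H38.mul_smul_fix hd.1 hk1) (H38.smul_inv_fix hd.1)) _ hk1 hk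
        · calc d * k * d⁻¹ * s * (d * k * d⁻¹)⁻¹ = d * k * d⁻¹ * (s * d) * k⁻¹ * d⁻¹ := by group
            _ = d * (k * s * k⁻¹) * d⁻¹ := by rw [hds]; group
            _ = k * s * k⁻¹ := by rw [← h1]; group
        · calc t * (d * k * d⁻¹) * t = (t * d * t) * (t * k * t) * (t * d⁻¹ * t) := by
                simp only [mul_assoc, H38.r1_ttx hS]
            _ = _ := by rw [hdt, hk, hdt']; group
      calc k * d = (d * k * d⁻¹) * d := by rw [h2]
        _ = d * k := by group

end Cfsg.Agent.S1127
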