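import Cfsg.Statements.S1131
import Cfsg.Agent.H38.SuzCoords
import Cfsg.Agent.S0205

set_option autoImplicit false
open Cfsg

namespace Cfsg.Agent.S1131

/-- In the rank-one set-up (`G` finite and doubly transitive on `Ω`, `t` an involution moving `a`, `Q` normal in `G_a` with `G_a = Q D`, `Q ⊓ D = 1` for the two-point stabiliser `D = G_a ⊓ G_{t • a}`, `|Q|` even, `|D|` odd), with the action faithful and `G` containing two distinct commuting involutions: the set `K` of elements of `D` inverted by `t` is (the underlying set of) a cyclic subgroup normal in `D`. -/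
theorem result {G Ω : Type*} [Group G] [Finite G] [MulAction G Ω] [FaithfulSMul G Ω] {a : Ω} {t : G} {Q : Subgroup G}
    (hS : Cfsg.IsRankOneSetup G Ω a t Q)
    (h2 : ∃ x y : G, x ≠ 1 ∧ y ≠ 1 ∧ x ≠ y ∧ x * x = 1 ∧ y * y = 1 ∧ x * y = y * x) :
    ∃ C : Subgroup G, (C : Set G) = Cfsg.invertedBy (MulAction.stabilizer G a ⊓ MulAction.stabilizer G (t • a)) t ∧ IsCyclic C ∧
      ∀ d ∈ (MulAction.stabilizer G a ⊓ MulAction.stabilizer G (t • a)), ∀ c ∈ C, d * c * d⁻¹ ∈ C := by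
  have := S0205.result hS.odd_card
  obtain ⟨κ, h1, h3, h4⟩ := H38.exists_K_gen hS
  have hmem : ∀ x, x ∈ Subgroup.zpowers κ ↔ x • a = a ∧ t * x * t = x⁻¹ := by
    intro x
    constructor
    · intro hx
      obtain ⟨n, rfl⟩ := (mem_powers_iff_mem_zpowers (x := κ)).2 hx
      exact ⟨H38.pow_smul_fix h1 n, H38.r1_K_pow hS h3 n⟩
    · rintro ⟨h5, h6⟩
      obtain ⟨n, rfl⟩ := h4 x h5 h6
      exact Subgroup.npow_mem_zpowers κ n
  refine ⟨Subgroup.zpowers κ, ?_, inferInstance, fun d hd c hc => ?_⟩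
  · ext x
    rw [SetLike.mem_coe, hmem]
    change _ ↔ (x • a = a ∧ x • t • a = t • a) ∧ t * x * t⁻¹ = x⁻¹
    rw [H38.r1_tinv hS]
    exact ⟨fun h => ⟨⟨h.1, H38.r1_K_fix_ta hS h.1 h.2⟩, h.2⟩, fun h => ⟨h.1.1, h.2⟩⟩
  · obtain ⟨v, k, hv1, -, hk1, -, hvt, hkt, rfl⟩ := H38.r1_D_decomp hS hd.1 hd.2
    have hk := (hmem k).2 ⟨hk1, hkt⟩
    obtain ⟨h5, h6⟩ := (hmem _).1 (mul_mem (mul_mem hk hc) (inv_mem hk))
    have hvt' : t * v⁻¹ * t = v⁻¹ := by
      calc t * v⁻¹ * t = (t * v * t)⁻¹ := by simp only [mul_inv_rev, H38.r1_tinv hS, mul_assoc]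
        _ = _ := by rw [hvt]
    rw [show v * k * c * (v * k)⁻¹ = v * (k * c * k⁻¹) * v⁻¹ by group, hmem]
    refine ⟨H38.mul_smul_fix (H38.mul_smul_fix hv1 h5) (H38.smul_inv_fix hv1), ?_⟩
    calc _ = (t * v * t) * (t * (k * c * k⁻¹) * t) * (t * v⁻¹ * t) := by
          simp only [mul_assoc, H38.r1_ttx hS]
      _ = _ := by rw [hvt, hvt', h6]; group

end Cfsg.Agent.S1131
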