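import Cfsg.Statements.S1132
import Cfsg.Agent.H38.SuzCoords
import Cfsg.Agent.S0205
import Cfsg.Agent.S1129

set_option autoImplicit false
open Cfsg

namespace Cfsg.Agent.S1132

/-- In the rank-one set-up (`G` finite and doubly transitive on `Ω`, `t` an involution moving `a`, `Q` normal in `G_a` with `G_a = Q D`, `Q ⊓ D = 1` for the two-point stabiliser `D = G_a ⊓ G_{t • a}`, `|Q|` even, `|D|` odd), with the action faithful and `G` containing two distinct commuting involutions: a Sylow 2-subgroup of `Q` is abelian or a Suzuki 2-group. -/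
theorem result {G Ω : Type*} [Group G] [Finite G] [MulAction G Ω] [FaithfulSMul G Ω] {a : Ω} {t : G} {Q : Subgroup G}
    (hS : Cfsg.IsRankOneSetup G Ω a t Q)
    (h2 : ∃ x y : G, x ≠ 1 ∧ y ≠ 1 ∧ x ≠ y ∧ x * x = 1 ∧ y * y = 1 ∧ x * y = y * x)
    (S : Sylow 2 ↥Q) : IsMulCommutative (S : Subgroup ↥Q) ∨ Cfsg.IsSuzukiTwoGroup ↥(S : Subgroup ↥Q) := by
  have := S0205.result hS.odd_card
  have := S1129.result hS h2
  obtain ⟨F, _, ⟨c⟩⟩ := H38.exists_coords_of_solvable hS h2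
  by_cases hc : ∀ x y : (S : Subgroup Q), x * y = y * x
  · exact Or.inl ⟨⟨hc⟩⟩
  right
  have hSn : (S : Subgroup Q).Normal := inferInstance
  have := Sylow.characteristic_of_normal S hSn
  have hz : ∀ b, (⟨c.z b, c.z_mem b⟩ : Q) ∈ (S : Subgroup Q) := fun b => by
    have hp : IsPGroup 2 (Subgroup.zpowers (⟨c.z b, c.z_mem b⟩ : Q)) := by
      rintro ⟨_, n, rfl⟩
      refine ⟨1, Subtype.ext ?_⟩
      change ((⟨c.z b, c.z_mem b⟩ : Q) ^ n) ^ (2 ^ 1) = 1
      rw [pow_one, ← zpow_natCast, ← zpow_mul, mul_comm, zpow_mul, zpow_natCast, sq,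
        show (⟨c.z b, c.z_mem b⟩ : Q) * ⟨c.z b, c.z_mem b⟩ = 1 from Subtype.ext (c.z_sq b), one_zpow]
    obtain ⟨T, hT⟩ := hp.exists_le_sylow
    have := Sylow.unique_of_normal S hSn
    rw [Subsingleton.elim S T]
    exact hT (Subgroup.mem_zpowers _)
  let φ₀ : Fˣ →* MulAut Q := MonoidHom.mk' (fun e =>
    { toFun := fun x => ⟨c.k e * x * (c.k e)⁻¹, c.k_conj_mem e x.2⟩
      invFun := fun x => ⟨c.k e⁻¹ * x * (c.k e⁻¹)⁻¹, c.k_conj_mem e⁻¹ x.2⟩
      left_inv := fun x => Subtype.ext (by simp [mul_assoc])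
      right_inv := fun x => Subtype.ext (by simp [mul_assoc])
      map_mul' := fun x y => Subtype.ext (by simp [mul_assoc]) })
    (fun e e' => by ext x; simp [mul_assoc])
  let φ : Fˣ →* MulAut (S : Subgroup Q) := (MulAut.characteristic (S : Subgroup Q)).comp φ₀
  have hφ : ∀ e (x : (S : Subgroup Q)), ((φ e x : Q) : G) = c.k e * x * (c.k e)⁻¹ := fun _ _ => rfl
  have := c.finite
  refine ⟨inferInstance, S.isPGroup', by push Not at hc; exact hc, ?_, φ.range,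
    isCyclic_of_surjective _ φ.rangeRestrict_surjective, fun x y hx1 hx2 hy1 hy2 => ?_⟩
  · obtain ⟨b, hb0, hb1⟩ := c.exists_ne_zero_one
    refine ⟨⟨_, hz 1⟩, ⟨_, hz b⟩, fun e => hb1 (c.z_inj (congrArg (fun x => (x.1 : G)) e)).symm,
      fun e => c.z_ne_one one_ne_zero (congrArg (fun x => (x.1 : G)) e),
      Subtype.ext (Subtype.ext (c.z_sq 1)),
      fun e => c.z_ne_one hb0 (congrArg (fun x => (x.1 : G)) e),
      Subtype.ext (Subtype.ext (c.z_sq b))⟩
  · obtain ⟨b, hb⟩ := c.z_surj x.1 x.1.2 (congrArg (fun x => (x.1 : G)) hx2)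
    obtain ⟨b', hb'⟩ := c.z_surj y.1 y.1.2 (congrArg (fun x => (x.1 : G)) hy2)
    have h0 : b ≠ 0 := fun e => hx1 (Subtype.ext (Subtype.ext (by rw [← hb, e, c.z_zero]; rfl)))
    have h0' : b' ≠ 0 := fun e => hy1 (Subtype.ext (Subtype.ext (by rw [← hb', e, c.z_zero]; rfl)))
    have key : ∀ e : Fˣ, φ e x = y ↔ (e : F) = b' / b := fun e => by
      rw [Subtype.ext_iff, Subtype.ext_iff, hφ, ← hb, ← hb', c.k_conj, c.z_inj.eq_iff,
        eq_div_iff h0]
    refine ⟨⟨_, Units.mk0 (b' / b) (div_ne_zero h0' h0), rfl⟩, (key _).2 rfl, ?_⟩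
    rintro ⟨_, e, rfl⟩ he
    exact Subtype.ext (congrArg φ (Units.ext ((key e).1 he)))

end Cfsg.Agent.S1132
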