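import Cfsg.Statements.S1133
import Cfsg.Agent.H38.SuzCoords
import Cfsg.Agent.S0205
import Cfsg.Agent.H39.SzSub

set_option autoImplicit false
open Cfsg

namespace Cfsg.Agent.S1133

theorem isCyclic_ringEquiv (F : Type*) [Field F] [Finite F] [CharP F 2] : IsCyclic (F ≃+* F) := by
  refine ⟨⟨frobeniusEquiv F 2, fun τ => ?_⟩⟩
  obtain ⟨i, hi⟩ := H39.exists_pow_of_ringHom (τ : F →+* F)
  refine ⟨i, ?_⟩
  ext x
  change ((frobeniusEquiv F 2 ^ (i : ℤ) : F ≃+* F)) x = τ x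
  rw [zpow_natCast, RingAut.coe_pow, coe_frobeniusEquiv, iterate_frobenius]
  exact (hi x).symm


/-- In the rank-one set-up (`G` finite and doubly transitive on `Ω`, `t` an involution moving `a`, `Q` normal in `G_a` with `G_a = Q D`, `Q ⊓ D = 1` for the two-point stabiliser `D = G_a ⊓ G_{t • a}`, `|Q|` even, `|D|` odd), with the action faithful and `G` containing two distinct commuting involutions, with `V = C_D(t)`, `K` the elements of `D` inverted by `t` and `W = C_V(K)`: `V/W` is cyclic, i.e. `V = W ⟨v⟩` for some `v ∈ V`. -/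
theorem result {G Ω : Type*} [Group G] [Finite G] [MulAction G Ω] [FaithfulSMul G Ω] {a : Ω} {t : G} {Q : Subgroup G}
    (hS : Cfsg.IsRankOneSetup G Ω a t Q)
    (h2 : ∃ x y : G, x ≠ 1 ∧ y ≠ 1 ∧ x ≠ y ∧ x * x = 1 ∧ y * y = 1 ∧ x * y = y * x) :
    ∃ v ∈ (MulAction.stabilizer G a ⊓ MulAction.stabilizer G (t • a)) ⊓ Subgroup.centralizer {t},
      ((MulAction.stabilizer G a ⊓ MulAction.stabilizer G (t • a)) ⊓ Subgroup.centralizer {t} ⊓ Subgroup.centralizer (Cfsg.invertedBy (MulAction.stabilizer G a ⊓ MulAction.stabilizer G (t • a)) t)) ⊔ Subgroup.closure {v} =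
        (MulAction.stabilizer G a ⊓ MulAction.stabilizer G (t • a)) ⊓ Subgroup.centralizer {t} := by
  have := S0205.result hS.odd_card
  obtain ⟨F, _, ⟨c⟩⟩ := H38.exists_coords_of_solvable hS h2
  have := c.finite
  have := c.charP
  generalize hV : (MulAction.stabilizer G a ⊓ MulAction.stabilizer G (t • a)) ⊓
    Subgroup.centralizer {t} = V
  have hV1 : ∀ v ∈ V, v • a = a := fun v hv => (hV.ge hv).1.1
  have hV2 : ∀ v ∈ V, v • t • a = t • a := fun v hv => (hV.ge hv).1.2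
  have hVt : ∀ v ∈ V, t * v * t = v := fun v hv => by
    rw [(hV.ge hv).2 t rfl, mul_assoc, hS.mul_self, mul_one]
  choose σ hσ using fun v : V => c.v_aut v (hV1 v v.2) (hVt v v.2)
  let ψ : V →* (F ≃+* F) := MonoidHom.mk' σ (fun v w => by
    ext b
    apply c.z_inj
    rw [← hσ, RingAut.mul_apply, ← hσ, ← hσ]
    simp [mul_assoc])
  have hcyc := isCyclic_ringEquiv F
  obtain ⟨v, hv⟩ : ∃ v : V, ∀ x : V, ∃ n : ℤ, ψ v ^ n = ψ x := by
    have hc : IsCyclic ψ.range := Subgroup.isCyclic _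
    obtain ⟨g, hg⟩ := hc.exists_generator
    obtain ⟨v, hv⟩ := g.2
    refine ⟨v, fun x => ?_⟩
    obtain ⟨n, hn⟩ := hg ⟨ψ x, x, rfl⟩
    exact ⟨n, by rw [hv]; exact congrArg Subtype.val hn⟩
  refine ⟨v, v.2, le_antisymm (sup_le inf_le_left ((Subgroup.closure_le _).2 ?_)) fun x hx => ?_⟩
  · rintro _ rfl
    exact v.2
  obtain ⟨n, hn⟩ := hv ⟨x, hx⟩
  have hn' : ψ (⟨x, hx⟩ * (v ^ n)⁻¹) = 1 := by
    rw [map_mul, map_inv, map_zpow, mul_inv_eq_one]
    exact hn.symm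
  have hw : ∀ y ∈ Q, y * y = 1 → (x * ((v : G) ^ n)⁻¹) * y = y * (x * ((v : G) ^ n)⁻¹) := by
    intro y hy hy2
    obtain ⟨b, rfl⟩ := c.z_surj y hy hy2
    have := hσ (⟨x, hx⟩ * (v ^ n)⁻¹) b
    rw [show σ (⟨x, hx⟩ * (v ^ n)⁻¹) = 1 from hn'] at this
    exact mul_inv_eq_iff_eq_mul.1 this
  have hm : x * ((v : G) ^ n)⁻¹ ∈ V := V.mul_mem hx (V.inv_mem (V.zpow_mem v.2 n))
  have hv' : (v : G) ^ n ∈ Subgroup.closure {(v : G)} :=
    Subgroup.zpow_mem _ (Subgroup.subset_closure (Set.mem_singleton _)) n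
  rw [← inv_mul_cancel_right x ((v : G) ^ n)]
  refine Subgroup.mul_mem_sup ⟨hm, fun k hk => ?_⟩ hv'
  exact ((H38.r1_W_comm hS (hV1 _ hm) (hV2 _ hm) hw).2 k hk.1.1 (by rw [← hk.2, H38.r1_tinv hS])).symm

end Cfsg.Agent.S1133
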