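import Cfsg.Statements.S1134
import Cfsg.Agent.H38.RankOne2

set_option autoImplicit false
open Cfsg

namespace Cfsg.Agent.S1134

/-- In the rank-one set-up (`G` finite and doubly transitive on `Ω`, `t` an involution moving `a`, `Q` normal in `G_a` with `G_a = Q D`, `Q ⊓ D = 1` for the two-point stabiliser `D = G_a ⊓ G_{t • a}`, `|Q|` even, `|D|` odd), with the action faithful and `G` containing two distinct commuting involutions, with `V = C_D(t)`: subsets of `V` conjugate in `G` are conjugate in `V`. -/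
theorem result {G Ω : Type*} [Group G] [Finite G] [MulAction G Ω] [FaithfulSMul G Ω] {a : Ω} {t : G} {Q : Subgroup G}
    (hS : Cfsg.IsRankOneSetup G Ω a t Q)
    (h2 : ∃ x y : G, x ≠ 1 ∧ y ≠ 1 ∧ x ≠ y ∧ x * x = 1 ∧ y * y = 1 ∧ x * y = y * x)
    (X : Set G) (hX : X ⊆ (((MulAction.stabilizer G a ⊓ MulAction.stabilizer G (t • a)) ⊓ Subgroup.centralizer {t} : Subgroup G) : Set G)) (g : G)
    (hY : (fun x => g * x * g⁻¹) '' X ⊆ (((MulAction.stabilizer G a ⊓ MulAction.stabilizer G (t • a)) ⊓ Subgroup.centralizer {t} : Subgroup G) : Set G)) :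
    ∃ v ∈ (MulAction.stabilizer G a ⊓ MulAction.stabilizer G (t • a)) ⊓ Subgroup.centralizer {t}, (fun x => v * x * v⁻¹) '' X = (fun x => g * x * g⁻¹) '' X := by
  have hcent : ∀ y : G, y ∈ Subgroup.centralizer ({t} : Set G) ↔ t * y * t = y := by
    intro y
    rw [Subgroup.mem_centralizer_singleton_iff]
    constructor
    · intro h
      rw [← h, mul_assoc, hS.mul_self, mul_one]
    · intro h
      calc y * t = (t * y * t) * t := by rw [h]
        _ = t * y := by rw [mul_assoc, hS.mul_self, mul_one]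
  obtain ⟨ct, hct, hct'⟩ := H38.r1_invol_fix hS hS.ne_one hS.mul_self
  have hcta : ct ≠ a := by rintro rfl; exact H38.r1_ta_ne hS hct
  have hctb : t • a ≠ ct := by
    intro h
    apply hcta
    rw [← hct, ← h, H38.r1_tta hS]
  set Y := (fun x => g * x * g⁻¹) '' X with hYdef
  have h3 : ∃ b c d : Ω, b ≠ c ∧ b ≠ d ∧ c ≠ d ∧ ∀ x ∈ Y, x • b = b ∧ x • c = c ∧ x • d = d := by
    refine ⟨a, t • a, ct, (H38.r1_ta_ne hS).symm, hcta.symm, hctb, fun y hy =>
      ⟨(hY hy).1.1, (hY hy).1.2, hct' _ ?_⟩⟩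
    rw [← mul_smul, ← Subgroup.mem_centralizer_singleton_iff.mp (hY hy).2, mul_smul, hct]
  obtain ⟨c, hc1, hc2, hc3⟩ := H38.r1_C_two_trans hS h3 (b₁ := g • a) (b₂ := g • t • a) (c₁ := a)
    (c₂ := t • a)
    (by
      rintro _ ⟨x, hx, rfl⟩
      have : x • a = a := (hX hx).1.1
      simp only [mul_smul, inv_smul_smul, this])
    (by
      rintro _ ⟨x, hx, rfl⟩
      have : x • t • a = t • a := (hX hx).1.2
      simp only [mul_smul, inv_smul_smul, this])
    (fun y hy => (hY hy).1.1) (fun y hy => (hY hy).1.2)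
    (fun h => (H38.r1_ta_ne hS) (smul_left_cancel g h).symm) (H38.r1_ta_ne hS).symm
  obtain ⟨v, k, hv1, hv2, hk1, hk2, hvt, hkt, e⟩ := H38.r1_D_decomp hS (d := c * g)
    (by rw [mul_smul, hc1]) (by rw [mul_smul, hc2])
  have hvt' : t * v⁻¹ * t = v⁻¹ := by
    calc t * v⁻¹ * t = (t * v * t)⁻¹ := by simp only [mul_inv_rev, H38.r1_tinv hS, mul_assoc]
      _ = v⁻¹ := by rw [hvt]
  refine ⟨v, ⟨⟨hv1, hv2⟩, (hcent v).mpr hvt⟩, ?_⟩
  apply Set.image_congr
  intro x hx
  have hy : g * x * g⁻¹ ∈ Y := ⟨x, hx, rfl⟩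
  have e1 : g * x * g⁻¹ = v * (k * x * k⁻¹) * v⁻¹ := by
    calc g * x * g⁻¹ = (g * x * g⁻¹ * c) * c⁻¹ := by group
      _ = (c * g) * x * (c * g)⁻¹ := by rw [hc3 _ hy]; group
      _ = _ := by rw [e]; group
  have hxt := (hcent x).mp (hX hx).2
  have hyt := (hcent _).mp (hY hy).2
  have e2 : k * x * k⁻¹ = k⁻¹ * x * k := by
    calc k * x * k⁻¹ = v⁻¹ * (g * x * g⁻¹) * v := by rw [e1]; group
      _ = (t * v⁻¹ * t) * (t * (g * x * g⁻¹) * t) * (t * v * t) := by rw [hvt, hvt', hyt]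
      _ = t * (v⁻¹ * (g * x * g⁻¹) * v) * t := by simp only [mul_assoc, H38.r1_ttx hS]
      _ = t * (k * x * k⁻¹) * t := by rw [e1]; group
      _ = (t * k * t) * (t * x * t) * (t * k⁻¹ * t) := by simp only [mul_assoc, H38.r1_ttx hS]
      _ = _ := by rw [hkt, hxt, H38.r1_K_inv hS hkt]
  have hc : Commute (k * k) x := by
    calc k * k * x = k * (k * x * k⁻¹) * k := by group
      _ = x * (k * k) := by rw [e2]; group
  obtain ⟨m, hm⟩ := H38.exists_pow_sq_eq_of_odd (H38.r1_D_odd hS hk1 hk2)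
  have hc' : Commute k x := by
    have h7 : k ^ m * k ^ m = (k * k) ^ m := by
      rw [← sq, ← sq, ← pow_mul, ← pow_mul, mul_comm m 2]
    rw [← hm, h7]
    exact hc.pow_left m
  rw [e1, hc'.eq]; group

end Cfsg.Agent.S1134
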