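import Cfsg.Statements.S1135
import Cfsg.Agent.H38.RankOne2

set_option autoImplicit false
open Cfsg

namespace Cfsg.Agent.S1135

/-- In the rank-one set-up (`G` finite and doubly transitive on `Ω`, `t` an involution moving `a`, `Q` normal in `G_a` with `G_a = Q D`, `Q ⊓ D = 1` for the two-point stabiliser `D = G_a ⊓ G_{t • a}`, `|Q|` even, `|D|` odd), with the action faithful and `G` containing two distinct commuting involutions: if `x = u v` with `u, v` involutions and `x² ≠ 1`, then `x` is conjugate to `u' t` for some involution `u'` of `G_a`, and `|C_G(x)|` is odd. -/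
theorem result {G Ω : Type*} [Group G] [Finite G] [MulAction G Ω] [FaithfulSMul G Ω] {a : Ω} {t : G} {Q : Subgroup G}
    (hS : Cfsg.IsRankOneSetup G Ω a t Q)
    (h2 : ∃ x y : G, x ≠ 1 ∧ y ≠ 1 ∧ x ≠ y ∧ x * x = 1 ∧ y * y = 1 ∧ x * y = y * x)
    (u v : G) (hu1 : u ≠ 1) (hu2 : u * u = 1) (hv1 : v ≠ 1) (hv2 : v * v = 1) (hx : (u * v) * (u * v) ≠ 1) :
    (∃ g : G, ∃ u' ∈ Cfsg.involutionsIn (MulAction.stabilizer G a : Set G), g * (u * v) * g⁻¹ = u' * t) ∧
      Odd (Nat.card ↥(Subgroup.centralizer {u * v})) := by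
  -- move the fixed point of `u` to `a` and that of `v` to the fixed point of `t`
  have sq_conj : ∀ g w : G, w * w = 1 → (g * w * g⁻¹) * (g * w * g⁻¹) = 1 := by
    intro g w hw
    calc (g * w * g⁻¹) * (g * w * g⁻¹) = g * (w * w) * g⁻¹ := by group
      _ = 1 := by rw [hw]; simp
  have ne_conj : ∀ g w : G, w ≠ 1 → g * w * g⁻¹ ≠ 1 := by
    intro g w hw h
    apply hw
    calc w = g⁻¹ * (g * w * g⁻¹) * g := by group
      _ = 1 := by rw [h]; simp
  have fix_conj : ∀ (g w : G) (c : Ω), w • c = c → (g * w * g⁻¹) • g • c = g • c := by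
    intro g w c h
    rw [mul_smul, mul_smul, inv_smul_smul, h]
  have main : ∃ g : G, ∃ u' ∈ Cfsg.involutionsIn (MulAction.stabilizer G a : Set G),
      g * (u * v) * g⁻¹ = u' * t := by
    obtain ⟨cu, hcu, -⟩ := H38.r1_invol_fix hS hu1 hu2
    obtain ⟨cv, hcv, -⟩ := H38.r1_invol_fix hS hv1 hv2
    obtain ⟨ct, hct, -⟩ := H38.r1_invol_fix hS hS.ne_one hS.mul_self
    have hcta : ct ≠ a := by rintro rfl; exact H38.r1_ta_ne hS hct
    have hne : cu ≠ cv := by
      rintro rfl
      obtain ⟨g, hg⟩ := H38.r1_trans hS cu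
      have hg' : g⁻¹ • cu = a := by rw [← hg, inv_smul_smul]
      have h1 := fix_conj g⁻¹ u cu hcu
      have h2 := fix_conj g⁻¹ v cu hcv
      rw [hg'] at h1 h2
      have h3 := H38.r1_invol_central hS h1 (ne_conj _ _ hu1) (sq_conj _ _ hu2)
        (H38.r1_invol_mem_Q hS h2 (sq_conj _ _ hv2))
      have h4 : u * v = v * u := by
        calc u * v = g * (g⁻¹ * u * g⁻¹⁻¹ * (g⁻¹ * v * g⁻¹⁻¹)) * g⁻¹ := by group
          _ = v * u := by rw [h3]; group
      apply hx
      calc u * v * (u * v) = u * (v * u) * v := by group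
        _ = (u * u) * (v * v) := by rw [← h4]; group
        _ = 1 := by rw [hu2, hv2, one_mul]
    -- `g₁` sends `cv` to `a` and `cu` to `t • a`; `g₂` sends `ct` to `a` and `a` to `t • a`
    obtain ⟨g₁, h11, h12⟩ := H38.r1_two hS hne.symm (H38.r1_ta_ne hS).symm
    obtain ⟨g₂, h21, h22⟩ := H38.r1_two hS hcta (H38.r1_ta_ne hS).symm
    have e1 := fix_conj g₁ v cv hcv
    have e2 := fix_conj g₂ t ct hct
    rw [h11] at e1
    rw [h21] at e2
    obtain ⟨k, -, hk2, -, hk⟩ := H38.r1_K_trans hS e1 (ne_conj _ _ hv1) (sq_conj _ _ hv2) e2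
      (ne_conj _ _ hS.ne_one) (sq_conj _ _ hS.mul_self)
    refine ⟨g₂⁻¹ * k * g₁, (g₂⁻¹ * k * g₁) * u * (g₂⁻¹ * k * g₁)⁻¹,
      ⟨?_, ne_conj _ _ hu1, sq_conj _ _ hu2⟩, ?_⟩
    · have e3 := fix_conj (g₂⁻¹ * k * g₁) u cu hcu
      have e4 : (g₂⁻¹ * k * g₁) • cu = a := by
        rw [mul_smul, mul_smul, h12, hk2, ← h22, inv_smul_smul]
      rw [e4] at e3
      exact e3
    · have : t = g₂⁻¹ * (k * (g₁ * v * g₁⁻¹) * k⁻¹) * g₂ := by rw [hk]; group
      rw [this]; group
  refine ⟨main, ?_⟩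
  obtain ⟨g, s, ⟨hs, hs1, hs2⟩, e⟩ := main
  rw [← Nat.not_even_iff_odd]
  intro heven
  obtain ⟨z, hz, hz1, hz2⟩ := H38.exists_invol_of_even heven
  rw [Subgroup.mem_centralizer_singleton_iff] at hz
  have hc : Commute (g * z * g⁻¹) (s * t) := by
    show g * z * g⁻¹ * (s * t) = s * t * (g * z * g⁻¹)
    rw [← e]
    calc g * z * g⁻¹ * (g * (u * v) * g⁻¹) = g * (z * (u * v)) * g⁻¹ := by group
      _ = _ := by rw [hz]; group
  have hz1' := ne_conj g z hz1
  have hz2' := sq_conj g z hz2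
  set w := g * z * g⁻¹ with hw
  have hsi := H38.inv_eq_of_mul_self hs2
  by_cases hwa : w • a = a
  · have := H38.r1_comm_fix hS (H38.r1_invol_mem_Q hS hwa hz2') hz1' hc.symm.eq
    apply H38.r1_ta_ne hS
    have hs' : s • a = a := hs
    rw [mul_smul] at this
    exact smul_left_cancel s (this.trans hs'.symm)
  · obtain ⟨m, hm⟩ := H38.exists_pow_sq_eq_of_odd (H38.r1_odd_mul hS hs hs1 hs2 hwa hz2')
    have hinv : s * (s * t) * s = (s * t)⁻¹ := by
      rw [mul_inv_rev, hsi, H38.r1_tinv hS, ← mul_assoc, hs2, one_mul]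
    have hc2 : Commute (s * w * s) (s * t) := by
      have h1 : Commute w (s * t)⁻¹ := hc.inv_right
      rw [← hinv] at h1
      show s * w * s * (s * t) = s * t * (s * w * s)
      calc s * w * s * (s * t) = s * (w * (s * (s * t) * s)) * s⁻¹ := by group
        _ = (s * s) * (s * t * (s * w * s⁻¹)) := by rw [h1.eq]; group
        _ = _ := by rw [hs2, one_mul, hsi]
    have hc3 : Commute (s * w) (s * t) := by
      have h7 : (s * w) ^ m * (s * w) ^ m = (s * w * s * w) ^ m := by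
        rw [mul_assoc (s * w) s w, ← sq, ← sq, ← pow_mul, ← pow_mul, mul_comm m 2]
      rw [← hm, h7]
      exact ((hc2.mul_left hc).pow_left m)
    have hc4 : Commute s (s * t) := by
      have : s = s * w * w := by rw [mul_assoc, hz2', mul_one]
      have h5 := hc3.mul_left hc
      rwa [← this] at h5
    apply hx
    have h6 : s * t * (s * t) = 1 := by
      calc s * t * (s * t) = (s * t * s) * t := by group
        _ = (s * (s * t)) * t := by rw [← hc4.eq]
        _ = 1 := by rw [← mul_assoc, hs2, one_mul, hS.mul_self]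
    calc u * v * (u * v) = g⁻¹ * (g * (u * v) * g⁻¹ * (g * (u * v) * g⁻¹)) * g := by group
      _ = 1 := by rw [e, h6]; simp

end Cfsg.Agent.S1135
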