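import Cfsg.Statements.S1147
import Cfsg.Agent.H61.ZassTwo

set_option autoImplicit false
open Cfsg

namespace Cfsg.Agent.S1147

/-- Let a finite simple Zassenhaus group `G` on `Ω` have a normal subgroup `U` of `G_a`, regular on `Ω` minus `a`, which is a non-abelian 2-group. Then `|Ω| = 2^(2n) + 1` with `n` odd, `n > 1`, a two-point stabiliser `G_a ⊓ G_b` is cyclic of order `2^n - 1`, and `U` is isomorphic to the type-A group over a field with `2^n` elements for some field automorphism `φ`. -/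
theorem result {G Ω : Type*} [Group G] [Finite G] [MulAction G Ω] [Finite Ω]
    (hZ : Cfsg.IsZassenhausGroup G Ω) [IsSimpleGroup G] {a b : Ω} (hab : a ≠ b)
    (U : Subgroup G) (hUle : U ≤ MulAction.stabilizer G a)
    (hUn : ∀ h ∈ MulAction.stabilizer G a, ∀ u ∈ U, h * u * h⁻¹ ∈ U)
    (hreg : ∀ c d : Ω, c ≠ a → d ≠ a → ∃! u : U, (u : G) • c = d)
    (hU2 : IsPGroup 2 U) (hUna : ∃ u ∈ U, ∃ v ∈ U, u * v ≠ v * u) :
    ∃ n : ℕ, Odd n ∧ 1 < n ∧ Nat.card Ω = 2 ^ (2 * n) + 1 ∧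
      IsCyclic ↥(MulAction.stabilizer G a ⊓ MulAction.stabilizer G b) ∧
      Nat.card ↥(MulAction.stabilizer G a ⊓ MulAction.stabilizer G b) = 2 ^ n - 1 ∧
      ∃ (F : Type) (_ : Field F) (_ : Fintype F) (φ : F ≃+* F), Fintype.card F = 2 ^ n ∧
        Nonempty (U ≃* Cfsg.suzukiTypeA F (φ : F →+* F)) := by
  obtain ⟨t, F, _, c, hV⟩ := H61.ZC.zass_coords hZ hUle hUn hreg hU2
  have hcard := (H61.ZC.concl_of_V_trivial c hV hU2).2.resolve_left fun h => by
    obtain ⟨u, hu, v, hv, huv⟩ := hUna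
    exact huv (H61.ZC.comm_of_sq h u hu v hv)
  obtain ⟨⟨m, hm1, hm⟩, -⟩ := H61.ZC.recog_sz c hU2 hUna hcard
  obtain ⟨f⟩ := H61.ZC.nonempty_equiv_stab c hV hab.symm
  have := c.finite
  have := Fintype.ofFinite F
  have := c.charP
  refine ⟨2 * m + 1, odd_two_mul_add_one m, by omega, ?_, isCyclic_of_surjective f f.surjective,
    by rw [← Nat.card_congr f.toEquiv, Nat.card_units, hm], ?_⟩
  · rw [H61.ZC.card_Ω c.hS, hcard, hm, ← pow_mul, mul_comm]
  obtain ⟨ξ, g, hξ, -, -⟩ := c.hig hU2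
  obtain ⟨π, r, φ, μ, -, -, -, -, hb, hπ, hr, -⟩ := hξ.typeA (H61.ZC.not_commute hUna)
    (by rw [hcard, Nat.card_eq_fintype_card])
  exact ⟨F, inferInstance, inferInstance, φ, by rw [← Nat.card_eq_fintype_card, hm],
    H38.nonempty_equiv_suzukiTypeA _ π r hb hπ hr⟩

end Cfsg.Agent.S1147
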