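import Cfsg.Statements.S1151
import Cfsg.Agent.H39.ReeInst
import Cfsg.Agent.H39.ReeBasic

set_option autoImplicit false
open Cfsg

namespace Cfsg.Agent.S1151

/-- In the small Ree group ²G₂(q), q = 3^(2m+1), realised as G¹ inside the Chevalley group G₂ over the field with q elements (θ the 3^m-th power map), with H¹ = G¹ ∩ H and U¹ = G¹ ∩ U the intersections with the ambient diagonal and positive unipotent subgroups: `H¹` has exactly `(q - 1)/2` elements of odd order, and each non-identity one centralises no non-identity element of `U¹`. -/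
theorem result {K : Type*} [Field K] [Fintype K] {m : ℕ} (hK : Fintype.card K = 3 ^ (2 * m + 1)) :
    2 * Nat.card {h : ↥(Cfsg.Lie.chevG2.diagonalSubgroup K ⊓ Cfsg.Lie.twistedG2 K (3 ^ m)) // Odd (orderOf h)} = 3 ^ (2 * m + 1) - 1 ∧
      ∀ h ∈ (Cfsg.Lie.chevG2.diagonalSubgroup K ⊓ Cfsg.Lie.twistedG2 K (3 ^ m)), h ≠ 1 → Odd (orderOf h) →
        (Cfsg.Lie.chevG2.posUnipotent K ⊓ Cfsg.Lie.twistedG2 K (3 ^ m)) ⊓ Subgroup.centralizer {h} = ⊥ := by
  obtain ⟨S, hU, hH, -⟩ := H39.exists_ree hK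
  have := H39.reeCard_of_card hK
  have hs : ∀ k : Kˣ, Odd (orderOf k) ↔ ∃ r, r ^ 2 = k := fun k => by
    obtain ⟨n, hn⟩ := H39.ReeCard.exists_eq K
    have hc : Nat.card Kˣ = 2 * (12 * n + 1) := by rw [Nat.card_units, hn]; omega
    constructor
    · rintro ⟨j, hj⟩
      exact ⟨k ^ (j + 1), by rw [← pow_mul, show (j + 1) * 2 = 2 * j + 1 + 1 by ring, pow_succ, ← hj,
        pow_orderOf_eq_one, one_mul]⟩
    · rintro ⟨r, rfl⟩
      refine Odd.of_dvd_nat (n := 12 * n + 1) ⟨6 * n, by ring⟩ (orderOf_dvd_of_pow_eq_one ?_)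
      rw [← pow_mul, ← hc, pow_card_eq_one']
  constructor
  · let e : Kˣ ≃* ↥(Cfsg.Lie.chevG2.diagonalSubgroup K ⊓ Cfsg.Lie.twistedG2 K (3 ^ m)) :=
      (S.h.ofInjective S.h_inj).trans (H39.infEquiv hH)
    rw [← Nat.card_congr (e.toEquiv.subtypeEquiv (p := fun k => k ∈ (powMonoidHom 2 : Kˣ →* Kˣ).range)
      fun k => by
        rw [MulEquiv.toEquiv_eq_coe, MulEquiv.coe_toEquiv, MulEquiv.orderOf_eq, hs]; rfl),
      ← hK, ← Nat.card_eq_fintype_card, ← Nat.card_units, ← Subgroup.index_ker,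
      ← (powMonoidHom 2 : Kˣ →* Kˣ).ker.card_mul_index]
    congr 1
    symm
    rw [Nat.card_eq_two_iff' 1]
    refine ⟨⟨-1, by simp [MonoidHom.mem_ker]⟩, fun h => S.neg_one_ne_one (congrArg Subtype.val h),
      fun ⟨x, hx⟩ h => Subtype.ext (Units.ext ?_)⟩
    have h1 : (x : K) ^ 2 = 1 := congrArg Units.val hx
    exact (sq_eq_one_iff.mp h1).resolve_left fun e => h (Subtype.ext (Units.ext e))
  · intro h hh h1 ho
    rw [Subgroup.eq_bot_iff_forall]
    rintro x ⟨hx, hc⟩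
    obtain ⟨k, hk⟩ := S.mem_H.mp ((hH ⟨h, hh.2⟩).2 hh.1)
    obtain ⟨a, b, c, e⟩ := (hU ⟨x, hx.2⟩).2 hx.1
    have h2 : S.u a b c * S.h k = S.h k * S.u a b c := by
      rw [← hk, ← e]; exact Subtype.ext (Subgroup.mem_centralizer_singleton_iff.mp hc)
    rw [S.h_mul_u, mul_left_inj, eq_comm, S.u_eq_iff] at h2
    obtain ⟨rfl, rfl, rfl⟩ := S.eq_zero_of_fix (k := k) (by
      rintro rfl; exact h1 (by simpa using congrArg Subtype.val hk)) (by
      rintro rfl
      have : orderOf h = 2 := by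
        rw [← S.orderOf_t, H39.Ree.t, ← hk, Subgroup.orderOf_mk]
      rw [this] at ho
      exact absurd ho (by decide)) h2
    simpa [S.u_zero] using congrArg Subtype.val e

end Cfsg.Agent.S1151
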