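import Cfsg.Statements.S1167
import Cfsg.Agent.H38.Zassenhaus
import Cfsg.Agent.S0885
import Cfsg.Agent.S1119

set_option autoImplicit false
open Cfsg

namespace Cfsg.Agent.S1167

/-- Let `G` be a finite simple Zassenhaus group on `Ω`, `U` a normal subgroup of `G_a` regular on `Ω` minus `a` which is an abelian 2-group, and `v` an involution with `v • a ≠ a`. Then there is a unique `u₀ ∈ U`, `u₀ ≠ 1`, with `v u₀ v = u₀ v u₀`. -/
theorem result {G Ω : Type*} [Group G] [Finite G] [MulAction G Ω] [Finite Ω]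
    (hZ : Cfsg.IsZassenhausGroup G Ω) [IsSimpleGroup G] {a : Ω}
    (U : Subgroup G) (hUle : U ≤ MulAction.stabilizer G a)
    (hUn : ∀ h ∈ MulAction.stabilizer G a, ∀ u ∈ U, h * u * h⁻¹ ∈ U)
    (hreg : ∀ c d : Ω, c ≠ a → d ≠ a → ∃! u : U, (u : G) • c = d)
    (hU2 : IsPGroup 2 U) (hUab : ∀ u ∈ U, ∀ u' ∈ U, u * u' = u' * u)
    (v : G) (hv1 : v ≠ 1) (hv2 : v * v = 1) (hva : v • a ≠ a) :
    ∃! u₀ : G, u₀ ∈ U ∧ u₀ ≠ 1 ∧ v * u₀ * v = u₀ * v * u₀ := by
  classical
  have hS := H38.zass_setup hZ hUle hUn hreg hU2 hv2 hva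
  let _ : Fintype Ω := Fintype.ofFinite Ω
  have hΩ : Nat.card Ω = Nat.card U + 1 := (Cfsg.Agent.S1119.result hS).2.1
  have hF := Cfsg.Agent.S0885.result hZ hva.symm (Nat.card U) _
    (by rw [← Nat.card_eq_fintype_card, hΩ]) rfl hS.odd_card U hUle
    (by rw [← Nat.card_eq_fintype_card, hΩ])
    (fun u hu hu1 c hc => H38.r1_Q_fix_eq hS hu hu1 hc)
  have hle : Nat.card U - 1 ≤
      2 * Nat.card ↥(MulAction.stabilizer G a ⊓ MulAction.stabilizer G (v • a)) := by
    rcases hF with h | ⟨-, ⟨x, y, hxy⟩, -⟩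
    · exact h
    · exact absurd (Subtype.ext (hUab x x.2 y y.2)) hxy
  obtain ⟨s, r, hs, hs1, hs2, hr, e⟩ := H38.r1_struct_exists hS
  have hr1 : r ≠ 1 := by
    rintro rfl
    apply hva
    have : s = v := by
      calc s = v * (v * s * v) * v := by
            simp only [mul_assoc, H38.r1_ttx hS, hv2, mul_one]
        _ = v := by rw [e]; simp [hv2]
    rw [← this]; exact hUle hs
  have hr2 : r * r = 1 := by
    by_contra hr2
    -- `1`, the `D`-classes of `s`, `r` and `r⁻¹` are disjoint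
    set D := MulAction.stabilizer G a ⊓ MulAction.stabilizer G (v • a) with hD
    have fpf : ∀ d ∈ D, ∀ u ∈ U, u ≠ 1 → d * u * d⁻¹ = u → d = 1 := by
      intro d hd u hu hu1 h
      apply H38.zass_fpf hZ hva hUle hreg hd.1 hd.2 hu hu1
      calc d * u = (d * u * d⁻¹) * d := by group
        _ = u * d := by rw [h]
    have inj : ∀ d ∈ D, ∀ d' ∈ D, ∀ u ∈ U, u ≠ 1 → d * u * d⁻¹ = d' * u * d'⁻¹ → d = d' := by
      intro d hd d' hd' u hu hu1 h
      have := fpf (d'⁻¹ * d) (D.mul_mem (D.inv_mem hd') hd) u hu hu1 (by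
        calc d'⁻¹ * d * u * (d'⁻¹ * d)⁻¹ = d'⁻¹ * (d * u * d⁻¹) * d' := by group
          _ = u := by rw [h]; group)
      exact (eq_of_inv_mul_eq_one this).symm
    have ne1 : ∀ d u : G, u ≠ 1 → d * u * d⁻¹ ≠ 1 := by
      intro d u hu h
      apply hu
      calc u = d⁻¹ * (d * u * d⁻¹) * d := by group
        _ = 1 := by rw [h]; simp
    have sq : ∀ d d' u w : G, d * u * d⁻¹ = d' * w * d'⁻¹ → u * u = 1 → w * w = 1 := by
      intro d d' u w h hu
      calc w * w = d'⁻¹ * ((d' * w * d'⁻¹) * (d' * w * d'⁻¹)) * d' := by group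
        _ = d'⁻¹ * d * (u * u) * d⁻¹ * d' := by rw [← h]; group
        _ = 1 := by rw [hu]; group
    have hri2 : r⁻¹ * r⁻¹ ≠ 1 := fun h => hr2 (by rw [← mul_inv_rev, inv_eq_one] at h; exact h)
    have hrr : ∀ d ∈ D, ∀ d' ∈ D, d * r * d⁻¹ ≠ d' * r⁻¹ * d'⁻¹ := by
      intro d hd d' hd' h
      have hk := D.mul_mem (D.inv_mem hd') hd
      have h1 : (d'⁻¹ * d) * r * (d'⁻¹ * d)⁻¹ = r⁻¹ := by
        calc d'⁻¹ * d * r * (d'⁻¹ * d)⁻¹ = d'⁻¹ * (d * r * d⁻¹) * d' := by group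
          _ = r⁻¹ := by rw [h]; group
      set k := d'⁻¹ * d
      have h2 : k * k = 1 := by
        apply fpf _ (D.mul_mem hk hk) r hr hr1
        calc k * k * r * (k * k)⁻¹ = k * (k * r * k⁻¹) * k⁻¹ := by group
          _ = k * r⁻¹ * k⁻¹ := by rw [h1]
          _ = (k * r * k⁻¹)⁻¹ := by group
          _ = r := by rw [h1, inv_inv]
      have h3 := H38.eq_one_of_odd_of_sq (H38.r1_D_odd hS hk.1 hk.2) h2
      rw [h3] at h1
      apply hr2
      have h4 : r = r⁻¹ := by simpa using h1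
      calc r * r = r⁻¹ * r := by rw [← h4]
        _ = 1 := by simp
    let φ : Option (D ⊕ D ⊕ D) → U := fun o => match o with
      | none => 1
      | some (Sum.inl d) => ⟨d * s * (d : G)⁻¹, hUn d d.2.1 s hs⟩
      | some (Sum.inr (Sum.inl d)) => ⟨d * r * (d : G)⁻¹, hUn d d.2.1 r hr⟩
      | some (Sum.inr (Sum.inr d)) => ⟨d * r⁻¹ * (d : G)⁻¹, hUn d d.2.1 _ (U.inv_mem hr)⟩
    have hφ : Function.Injective φ := by
      rintro (_ | d | d | d) (_ | d' | d' | d') h <;> have h' := congrArg Subtype.val h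
      · rfl
      · exact absurd h'.symm (ne1 _ _ hs1)
      · exact absurd h'.symm (ne1 _ _ hr1)
      · exact absurd h'.symm (ne1 _ _ (inv_ne_one.mpr hr1))
      · exact absurd h' (ne1 _ _ hs1)
      · rw [Subtype.ext (inj d d.2 d' d'.2 s hs hs1 h')]
      · exact absurd (sq _ _ _ _ h' hs2) hr2
      · exact absurd (sq _ _ _ _ h' hs2) hri2
      · exact absurd h' (ne1 _ _ hr1)
      · exact absurd (sq _ _ _ _ h'.symm hs2) hr2
      · rw [Subtype.ext (inj d d.2 d' d'.2 r hr hr1 h')]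
      · exact absurd h' (hrr d d.2 d' d'.2)
      · exact absurd h' (ne1 _ _ (inv_ne_one.mpr hr1))
      · exact absurd (sq _ _ _ _ h'.symm hs2) hri2
      · exact absurd h'.symm (hrr d' d'.2 d d.2)
      · rw [Subtype.ext (inj d d.2 d' d'.2 r⁻¹ (U.inv_mem hr) (inv_ne_one.mpr hr1) h')]
    have hcard := Nat.card_le_card_of_injective φ hφ
    rw [Finite.card_option, Nat.card_sum, Nat.card_sum] at hcard
    have hpos : 0 < Nat.card D := Nat.card_pos
    omega
  have hri := H38.inv_eq_of_mul_self hr2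
  have hsi := H38.inv_eq_of_mul_self hs2
  have hrs : r = s := by
    have h1 : v * r * v = r * v * s := by
      calc v * r * v = r * (r⁻¹ * v * r) * v := by group
        _ = r * v * s := by rw [← e]; simp only [mul_assoc, hv2, mul_one]
    have h2 : v * r * v = s * v * r := by
      calc v * r * v = (v * r * v)⁻¹ := by simp only [mul_inv_rev, H38.r1_tinv hS, hri, mul_assoc]
        _ = s * v * r := by rw [h1]; simp only [mul_inv_rev, H38.r1_tinv hS, hri, hsi, mul_assoc]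
    exact (H38.r1_canon_unique hS (hUle hr) hs (hUle hs) hr (h1.symm.trans h2)).1
  subst hrs
  refine ⟨r, ⟨hr, hr1, by rw [e, hri]⟩, ?_⟩
  rintro u ⟨hu, hu1, hue⟩
  have hu2 : u * u = 1 := by
    have h1 : u = (u * v)⁻¹ * v * (u * v) := by
      calc u = (u * v)⁻¹ * (u * v * u) := by group
        _ = _ := by rw [← hue]; group
    calc u * u = (u * v)⁻¹ * v * (u * v) * ((u * v)⁻¹ * v * (u * v)) := by rw [← h1]
      _ = (u * v)⁻¹ * (v * v) * (u * v) := by group
      _ = 1 := by rw [hv2]; group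
  exact (H38.r1_struct_unique hS (hUle hu) hu1 hu2 hu
    (by rw [hue, H38.inv_eq_of_mul_self hu2]) (hUle hr) hr1 hr2 hr e).1

end Cfsg.Agent.S1167
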