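import Cfsg.Statements.S1168
import Cfsg.Agent.H38.FieldMaps
import Cfsg.Agent.H38.QuadF2

set_option autoImplicit false
open Cfsg

namespace Cfsg.Agent.S1168

/-- For a finite field `F` of characteristic 2: if `q : F → F` is quadratic over the prime field, i.e. `(x, y) ↦ q (x + y) + q x + q y` is additive in each variable, then `q x = Σ c_{σ,τ} σ(x) τ(x)` for some coefficients indexed by pairs of field automorphisms. -/
theorem result {F : Type*} [Field F] [Fintype F] [CharP F 2]
    (q : F → F)
    (hq : ∀ x y z : F, q (x + y + z) + q (x + y) + q (x + z) + q (y + z) + q x + q y + q z = 0) :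
    ∃ (s : Finset ((F ≃+* F) × (F ≃+* F))) (c : (F ≃+* F) × (F ≃+* F) → F),
      ∀ x : F, q x = ∑ p ∈ s, c p * (p.1 x * p.2 x) := by
  have h2 : (2 : F) = 0 := CharTwo.two_eq_zero
  let _ : Algebra (ZMod 2) F := ZMod.algebra F 2
  have hq0 : q 0 = 0 := by
    have := hq 0 0 0
    simp only [add_zero] at this
    linear_combination this - 3 * q 0 * h2
  obtain ⟨B, hB⟩ := H38.exists_bilin_of_quadratic q hq0 (fun x x' y => by
    linear_combination hq x x' y - (q (x + x') + q (x + y) + q (x' + y)) * h2)
  obtain ⟨s, c, -, h⟩ := H38.exists_sum_pair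
    (AddMonoidHom.mk' (fun x => (B x).toAddMonoidHom) (fun x y => by ext; simp))
  exact ⟨s, c, fun x => by rw [hB]; exact h x x⟩

end Cfsg.Agent.S1168
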