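import Cfsg.Statements.S1176
import Cfsg.Agent.H10.StronglyEmbedded

set_option autoImplicit false
open Cfsg
open scoped commutatorElement

namespace Cfsg.Agent.S1176

/-- Let x₀ be an involution of the finite group G and D its conjugacy class. Assume (a) for each x ∈ D the subgroup W(x) generated by the members of D commuting with x is a 2-group of nilpotency class at most 2, and (b) the product of two distinct commuting members of D again lies in D. Then for all x, y ∈ D, if xy has even order greater than 2, its order is 4. -/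
theorem result {G : Type*} [Group G] [Finite G] (x₀ : G) (hx₀ : orderOf x₀ = 2) (ha : ∀ x : G, IsConj x₀ x → IsPGroup 2 ↥(Subgroup.closure {y : G | IsConj x₀ y ∧ Commute y x}) ∧ ⁅⁅Subgroup.closure {y : G | IsConj x₀ y ∧ Commute y x}, Subgroup.closure {y : G | IsConj x₀ y ∧ Commute y x}⁆, Subgroup.closure {y : G | IsConj x₀ y ∧ Commute y x}⁆ = ⊥) (hb : ∀ x y : G, IsConj x₀ x → IsConj x₀ y → x ≠ y → Commute x y → IsConj x₀ (x * y)) (x y : G) (hx : IsConj x₀ x) (hy : IsConj x₀ y) (heven : Even (orderOf (x * y))) (hgt : 2 < orderOf (x * y)) : orderOf (x * y) = 4 := by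
  have hinv : ∀ a, IsConj x₀ a → orderOf a = 2 := by
    intro a ha
    obtain ⟨c, rfl⟩ := isConj_iff.mp ha
    rw [H10.orderOf_conj, hx₀]
  have hxx := H10.mul_self_of_orderOf_two (hinv x hx)
  have hyy := H10.mul_self_of_orderOf_two (hinv y hy)
  obtain ⟨m, hm⟩ := heven
  have hm0 : m ≠ 0 := by omega
  obtain ⟨h1, h2, h3, h4⟩ := H10.central_involution hyy hxx hm0 (by omega)
  set w := (x * y) ^ m with hw
  have hwy : IsConj x₀ (w * y) := by
    rcases Nat.even_or_odd m with ⟨a, ha⟩ | ⟨a, ha⟩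
    · have h5 := H10.pow_conj_pow_mul (H10.inverts_mul_right hyy hxx) a 0
      rw [pow_zero, one_mul, show 2 * a + 0 = m by omega] at h5
      exact hy.trans (isConj_iff.mpr ⟨_, h5⟩)
    · have h5 := H10.pow_conj_pow_mul (H10.inverts_mul_right hyy hxx) a 1
      rw [pow_one, mul_assoc x y y, hyy, mul_one, ← ha] at h5
      exact hx.trans (isConj_iff.mpr ⟨_, h5⟩)
  have hwD : IsConj x₀ w := by
    have := hb (w * y) y hwy hy (fun h => h1 (by simpa using h)) (h3.mul_left (Commute.refl y))
    rwa [mul_assoc, hyy, mul_one] at this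
  obtain ⟨-, hW⟩ := ha w hwD
  set W := Subgroup.closure {y : G | IsConj x₀ y ∧ Commute y w}
  have hxW : x ∈ W := Subgroup.subset_closure ⟨hx, h4.symm⟩
  have hyW : y ∈ W := Subgroup.subset_closure ⟨hy, h3.symm⟩
  have h6 : ⁅⁅x, y⁆, x⁆ ∈ ⁅⁅W, W⁆, W⁆ :=
    Subgroup.commutator_mem_commutator (Subgroup.commutator_mem_commutator hxW hyW) hxW
  rw [hW, Subgroup.mem_bot, commutatorElement_eq_one_iff_mul_comm] at h6
  have h7 : ⁅x, y⁆ = (x * y) ^ 2 := by
    rw [commutatorElement_def, inv_eq_of_mul_eq_one_right hxx, inv_eq_of_mul_eq_one_right hyy,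
      pow_two]
    group
  rw [h7] at h6
  have h8 := H10.conj_pow_of_inverts (H10.inverts_mul_left hyy hxx) 2
  rw [← h6, mul_inv_cancel_right] at h8
  have h9 : (x * y) ^ 4 = 1 := by
    rw [show 4 = 2 + 2 by rfl, pow_add]
    nth_rewrite 2 [h8]
    exact mul_inv_cancel _
  have h10 : orderOf (x * y) ∣ 4 := orderOf_dvd_of_pow_eq_one h9
  have h11 := Nat.le_of_dvd (by norm_num) h10
  interval_cases h : orderOf (x * y) <;> omega

end Cfsg.Agent.S1176
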