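import Cfsg.Statements.S1177
import Cfsg.Agent.H10.SylowUtil

set_option autoImplicit false
open Cfsg

namespace Cfsg.Agent.S1177

/-- Let A be a nontrivial elementary abelian 2-subgroup of a finite group G which is a T.I. set (each conjugate of A meets A trivially or equals A) and which does not commute elementwise with any conjugate of A other than A itself. Then for every a ∈ A, a ≠ 1, every conjugate of A contained in C_G(a) is equal to A (A is weakly closed in C_G(a)). -/
theorem result {G : Type*} [Group G] [Finite G] (A : Subgroup G) (hA : Cfsg.IsElementaryAbelian 2 A) (hA1 : A ≠ ⊥) (hTI : ∀ g : G, A.map (MulAut.conj g).toMonoidHom ⊓ A = ⊥ ∨ A.map (MulAut.conj g).toMonoidHom = A) (hb : ∀ g : G, (∀ a ∈ A, ∀ b ∈ A.map (MulAut.conj g).toMonoidHom, a * b = b * a) → A.map (MulAut.conj g).toMonoidHom = A) (a : G) (ha : a ∈ A) (ha1 : a ≠ 1) (g : G) (hg : A.map (MulAut.conj g).toMonoidHom ≤ Subgroup.centralizer ({a} : Set G)) : A.map (MulAut.conj g).toMonoidHom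 = A := by
  set B := A.map (MulAut.conj g).toMonoidHom with hB
  have hcomm : ∀ x ∈ A, ∀ y ∈ A, x * y = y * x := fun x hx y hy =>
    congrArg Subtype.val (hA.1.is_comm.comm ⟨x, hx⟩ ⟨y, hy⟩)
  have hsq : ∀ b ∈ B, b * b = 1 := by
    rintro _ ⟨x, hx, rfl⟩
    rw [← map_mul, ← pow_two, hA.2 x hx, map_one]
  rcases hTI g with hAB | hAB
  swap
  · exact hAB
  -- `B` normalises `A`
  have hBA : ∀ b ∈ B, ∀ x ∈ A, b * x * b⁻¹ ∈ A := by
    intro b hb x hx
    rcases hTI b with h | h
    · exfalso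
      have hba : b * a * b⁻¹ = a := by
        rw [Subgroup.mem_centralizer_singleton_iff.mp (hg hb), mul_inv_cancel_right]
      have : a ∈ A.map (MulAut.conj b).toMonoidHom ⊓ A :=
        ⟨by rw [← hba]; exact H10.conj_mem_map_conj.mpr ha, ha⟩
      rw [h] at this
      exact ha1 this
    · rw [← h]; exact H10.conj_mem_map_conj.mpr hx
  -- an element of `A` centralising a nontrivial element of `B` centralises `B`
  have hC : ∀ x ∈ A, ∀ b ∈ B, b ≠ 1 → x * b = b * x → ∀ c ∈ B, x * c = c * x := by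
    intro x hx b hb' hb1 hxb c hc
    have h1 : x * c * x⁻¹ ∈ B := by
      rcases hTI (g⁻¹ * x * g) with h | h
      · exfalso
        have hb0 : g⁻¹ * b * g ∈ A := H10.mem_map_conj.mp hb'
        have : g⁻¹ * b * g ∈ A.map (MulAut.conj (g⁻¹ * x * g)).toMonoidHom ⊓ A := by
          refine ⟨H10.mem_map_conj.mpr ?_, hb0⟩
          rwa [show (g⁻¹ * x * g)⁻¹ * (g⁻¹ * b * g) * (g⁻¹ * x * g) = g⁻¹ * (x⁻¹ * (b * x)) * g by
            group, ← hxb, inv_mul_cancel_left]
        rw [h, Subgroup.mem_bot] at this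
        apply hb1
        calc b = g * (g⁻¹ * b * g) * g⁻¹ := by group
          _ = 1 := by rw [this]; group
      · rw [H10.mem_map_conj, ← h, H10.mem_map_conj]
        have := H10.mem_map_conj.mp hc
        rwa [show (g⁻¹ * x * g)⁻¹ * (g⁻¹ * (x * c * x⁻¹) * g) * (g⁻¹ * x * g) = g⁻¹ * c * g by group]
    have h2 : x * c * x⁻¹ * c⁻¹ ∈ B ⊓ A := by
      refine ⟨B.mul_mem h1 (B.inv_mem hc), ?_⟩
      have := A.mul_mem hx (hBA c hc _ (A.inv_mem hx))
      simpa [mul_assoc] using this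
    rw [hAB, Subgroup.mem_bot] at h2
    calc x * c = (x * c * x⁻¹ * c⁻¹) * (c * x) := by group
      _ = c * x := by rw [h2, one_mul]
  apply hb g
  by_contra hne
  push Not at hne
  obtain ⟨x, hx, c, hc, hxc⟩ := hne
  let f : B → A := fun b => ⟨x * (b * x * (b : G)⁻¹), A.mul_mem hx (hBA b b.2 x hx)⟩
  have hinj : Function.Injective f := by
    rintro ⟨b, hb1⟩ ⟨b', hb2⟩ h
    have h' : b * x * b⁻¹ = b' * x * b'⁻¹ := mul_left_cancel (congrArg Subtype.val h)
    by_contra hne
    have hne' : b'⁻¹ * b ≠ 1 := fun h0 => hne (Subtype.ext (inv_mul_eq_one.mp h0).symm)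
    refine hxc (hC x hx _ (B.mul_mem (B.inv_mem hb2) hb1) hne' ?_ c hc)
    calc x * (b'⁻¹ * b) = b'⁻¹ * (b' * x * b'⁻¹) * b := by group
      _ = b'⁻¹ * b * x := by rw [← h']; group
  have hbij : Function.Bijective f :=
    hinj.bijective_of_nat_card_le (by rw [hB, H10.card_map_conj])
  obtain ⟨⟨b, hb1⟩, h⟩ := hbij.2 ⟨x, hx⟩
  have h' : x * (b * x * b⁻¹) = x := congrArg Subtype.val h
  have h3 : b * x * b⁻¹ = 1 := by simpa using h'
  have h4 : x = 1 := by
    calc x = b⁻¹ * (b * x * b⁻¹) * b := by group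
      _ = 1 := by rw [h3]; group
  exact hxc (by simp [h4])

end Cfsg.Agent.S1177
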