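import Cfsg.Statements.S1183
import Cfsg.Agent.H10.Isolated
import Cfsg.Agent.H8.Fusion

set_option autoImplicit false
open Cfsg

namespace Cfsg.Agent.S1183

/-- Let z be an isolated involution of the finite group G and C = C_G(z). Then the subgroup of G generated by its elements of odd order is all of G if and only if the subgroup of C generated by its elements of odd order is all of C. -/
theorem result {G : Type*} [Group G] [Finite G] (z : G) (hz : Cfsg.IsIsolatedInvolution z) : Cfsg.pResidual 2 G = ⊤ ↔ Cfsg.pResidual 2 ↥(Subgroup.centralizer ({z} : Set G)) = ⊤ := by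
  constructor
  · intro h
    have hp : IsPGroup 2 (Subgroup.zpowers z) :=
      H8.isPGroup_zpowers_of_pow_eq_one (k := 1) (by rw [pow_one, ← hz.1, pow_orderOf_eq_one])
    obtain ⟨P, hP⟩ := hp.exists_le_sylow
    have hzP : z ∈ (P : Subgroup G) := hP (Subgroup.mem_zpowers z)
    have hPC : (P : Subgroup G) ≤ Subgroup.centralizer ({z} : Set G) := fun x hx =>
      Subgroup.mem_centralizer_singleton_iff.mpr
        (H10.Isolated.commute_of_mem_two_subgroup hz P.isPGroup' hzP hx)
    have h1 := H8.sylow_inf_pResidual_eq_of_fusion P hPC (by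
      intro x hx g hg
      obtain ⟨c, -, hc, h2⟩ := H10.Isolated.exists_conj_centralizer hz (H := ⊤) (h := g)
        (Subgroup.le_normalizer (Subgroup.mem_top z)) trivial
      exact ⟨c, Subgroup.mem_centralizer_singleton_iff.mpr hc,
        h2 x (Subgroup.mem_centralizer_singleton_iff.mp (hPC hx))
          (Subgroup.mem_centralizer_singleton_iff.mp (hPC hg))⟩)
    rw [h, inf_top_eq, left_eq_inf] at h1
    rw [← H8.sylow_sup_pResidual (P.subtype hPC), eq_comm, sup_eq_right]
    intro x hx
    obtain ⟨y, hy, e⟩ := h1 hx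
    rwa [← Subtype.ext e]
  · intro h
    rw [Subgroup.eq_top_iff']
    intro g
    obtain ⟨a, h1, -, h3⟩ := H10.Isolated.exists_inverted hz g
    set k := (g * z * g⁻¹ * z) ^ a
    have hk : k ∈ pResidual 2 G := H8.mem_pResidual_of_coprime (Nat.coprime_two_right.mpr h1)
    have hc : g⁻¹ * k ∈ pResidual 2 G := by
      apply H8.map_pResidual_le 2 (Subgroup.centralizer ({z} : Set G)).subtype
      exact ⟨⟨_, Subgroup.mem_centralizer_singleton_iff.mpr h3⟩, by rw [h]; trivial, rfl⟩
    simpa using (pResidual 2 G).mul_mem hk ((pResidual 2 G).inv_mem hc)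

end Cfsg.Agent.S1183
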