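import Cfsg.Statements.S1185
import Cfsg.Agent.H10.Isolated

set_option autoImplicit false
open Cfsg

namespace Cfsg.Agent.S1185

/-- Let z be an isolated involution of the finite group G with centralizer C. Then for every g ∈ G there is exactly one element k in the coset gC that has odd order and is inverted by z. -/
theorem result {G : Type*} [Group G] [Finite G] (z : G) (hz : Cfsg.IsIsolatedInvolution z) (g : G) : ∃! k : G, (Odd (orderOf k) ∧ z * k * z⁻¹ = k⁻¹) ∧ g⁻¹ * k ∈ Subgroup.centralizer ({z} : Set G) := by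
  obtain ⟨a, h1, h2, h3⟩ := H10.Isolated.exists_inverted hz g
  have key : ∀ k : G, g⁻¹ * k ∈ Subgroup.centralizer ({z} : Set G) → k * z * k⁻¹ = g * z * g⁻¹ := by
    intro k hk
    rw [Subgroup.mem_centralizer_singleton_iff] at hk
    calc k * z * k⁻¹ = g * (g⁻¹ * k * z) * k⁻¹ := by group
      _ = g * z * g⁻¹ := by rw [hk]; group
  have h4 : g⁻¹ * (g * z * g⁻¹ * z) ^ a ∈ Subgroup.centralizer ({z} : Set G) :=
    Subgroup.mem_centralizer_singleton_iff.mpr h3
  refine ⟨_, ⟨⟨h1, h2⟩, h4⟩, ?_⟩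
  rintro k ⟨⟨k1, k2⟩, k3⟩
  exact H10.Isolated.inverted_unique k1 h1 k2 h2 (by rw [key k k3, key _ h4])

end Cfsg.Agent.S1185
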