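import Cfsg.Statements.S1227
import Cfsg.Agent.H10.ElemCent

set_option autoImplicit false
open Cfsg

namespace Cfsg.Agent.S1227

/-- Let G be a finite group with a Sylow 2-subgroup T that is neither cyclic nor normal, such that the centralizer of every involution is an elementary abelian 2-group; put H = N_G(T), let u be an involution outside H and D = H ∩ uHu⁻¹. Then u inverts every element of D, |H| = |T|·(|T| − 1), and D is a complement to T in H. -/
theorem result {G : Type*} [Group G] [Finite G] (T : Sylow 2 G) (hnc : ¬ IsCyclic (T : Subgroup G)) (hnn : ¬ (T : Subgroup G).Normal) (hC : ∀ t : G, orderOf t = 2 → IsMulCommutative (Subgroup.centralizer ({t} : Set G)) ∧ ∀ c ∈ Subgroup.centralizer ({t} : Set G), c ^ 2 = 1) (u : G) (hu : orderOf u = 2) (huH : u ∉ Subgroup.normalizer ((T : Subgroup G) : Set G)) : (∀ d ∈ Subgroup.normalizer ((T : Subgroup G) : Set G) ⊓ (Subgroup.normalizer ((T : Subgroup G) : Set G)).map (MulAut.conj u).toMonoidHom, u * d * u⁻¹ = d⁻¹) ∧ Nat.card (Subgroup.normalizer ((T : Subgroup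 G) : Set G)) = Nat.card T * (Nat.card T - 1) ∧ Subgroup.IsComplement' ((Subgroup.normalizer ((T : Subgroup G) : Set G) ⊓ (Subgroup.normalizer ((T : Subgroup G) : Set G)).map (MulAut.conj u).toMonoidHom).subgroupOf (Subgroup.normalizer ((T : Subgroup G) : Set G))) ((T : Subgroup G).subgroupOf (Subgroup.normalizer ((T : Subgroup G) : Set G))) := by
  have hT : (T : Subgroup G) ≠ ⊥ := fun h => hnc (by rw [h]; infer_instance)
  have hC' : H10.ElemCent G := hC
  have hH := hC'.stronglyEmbedded T hT hnn
  set N := Subgroup.normalizer ((T : Subgroup G) : Set G) with hN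
  have hy : (u : G ⧸ N) ≠ (1 : G) := fun h => huH (H10.mk_eq_one_iff.mp h)
  have e : N.map (MulAut.conj u).toMonoidHom = MulAction.stabilizer G (u : G ⧸ N) := by
    ext x
    rw [H10.mem_map_conj, MulAction.mem_stabilizer_iff, H10.smul_mk_eq_iff]
  rw [e]
  refine ⟨fun d hd => ?_, hC'.card_normalizer T hT hnn, hC'.isComplement' T hT hnn hy⟩
  refine hC'.inverts hH hy.symm hu ?_ ?_ (H10.smul_one_eq_iff.mpr hd.1) hd.2
  · rw [MulAction.Quotient.smul_mk, smul_eq_mul, mul_one]
  · rw [MulAction.Quotient.smul_mk, smul_eq_mul, H10.mul_self_of_orderOf_two hu]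

end Cfsg.Agent.S1227
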