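import Cfsg.Statements.S1228
import Cfsg.Agent.H10.ElemCent

set_option autoImplicit false
open Cfsg

namespace Cfsg.Agent.S1228

/-- Let G be a finite group with a Sylow 2-subgroup T that is neither cyclic nor normal, such that the centralizer of every involution is an elementary abelian 2-group; put H = N_G(T), let u be an involution outside H and D = H ∩ uHu⁻¹. Then N_G(D) = D ⊔ ⟨u⟩, and a coset gH is fixed by every element of D exactly when gH = H or gH = uH. -/
theorem result {G : Type*} [Group G] [Finite G] (T : Sylow 2 G) (hnc : ¬ IsCyclic (T : Subgroup G)) (hnn : ¬ (T : Subgroup G).Normal) (hC : ∀ t : G, orderOf t = 2 → IsMulCommutative (Subgroup.centralizer ({t} : Set G)) ∧ ∀ c ∈ Subgroup.centralizer ({t} : Set G), c ^ 2 = 1) (u : G) (hu : orderOf u = 2) (huH : u ∉ Subgroup.normalizer ((T : Subgroup G) : Set G)) : Subgroup.normalizer ((Subgroup.normalizer ((T : Subgroup G) : Set G) ⊓ (Subgroup.normalizer ((T : Subgroup G) : Set G)).map (MulAut.conj u).toMonoidHom : Subgroup G) : Set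 G) = (Subgroup.normalizer ((T : Subgroup G) : Set G) ⊓ (Subgroup.normalizer ((T : Subgroup G) : Set G)).map (MulAut.conj u).toMonoidHom) ⊔ Subgroup.zpowers u ∧ ∀ g : G, ((∀ d ∈ Subgroup.normalizer ((T : Subgroup G) : Set G) ⊓ (Subgroup.normalizer ((T : Subgroup G) : Set G)).map (MulAut.conj u).toMonoidHom, d • (QuotientGroup.mk g : G ⧸ Subgroup.normalizer ((T : Subgroup G) : Set G)) = QuotientGroup.mk g) ↔ (QuotientGroup.mk g : G ⧸ Subgroup.normalizer ((T : Subgroup G) : Set G)) = QuotientGroup.mk 1 ∨ (QuotientGroup.mk g : G ⧸ Subgroup.normalizer ((T : Subgroup G) : Set G)) = QuotientGroup.mk u) := by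
  have hT : (T : Subgroup G) ≠ ⊥ := fun h => hnc (by rw [h]; infer_instance)
  have hC' : H10.ElemCent G := hC
  have hH := hC'.stronglyEmbedded T hT hnn
  set N := Subgroup.normalizer ((T : Subgroup G) : Set G) with hN
  have hy : (u : G ⧸ N) ≠ (1 : G) := fun h => huH (H10.mk_eq_one_iff.mp h)
  have e : N.map (MulAut.conj u).toMonoidHom = MulAction.stabilizer G (u : G ⧸ N) := by
    ext x
    rw [H10.mem_map_conj, MulAction.mem_stabilizer_iff, H10.smul_mk_eq_iff]
  rw [e]
  have u1 : u • ((1 : G) : G ⧸ N) = u := by rw [MulAction.Quotient.smul_mk, smul_eq_mul, mul_one]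
  have u2 : u • (u : G ⧸ N) = (1 : G) := by
    rw [MulAction.Quotient.smul_mk, smul_eq_mul, H10.mul_self_of_orderOf_two hu]
  set D := N ⊓ MulAction.stabilizer G (u : G ⧸ N) with hD
  have hDcard : Nat.card D = Nat.card T - 1 := hC'.card_stabilizer_two T hT hnn hy
  have h2 : 2 < Nat.card T := H10.two_lt_card_of_not_isCyclic hnc
  obtain ⟨d, hd, hd1⟩ : ∃ d ∈ D, d ≠ 1 := by
    by_contra h
    push Not at h
    have : D = ⊥ := (Subgroup.eq_bot_iff_forall D).mpr h
    rw [this, Subgroup.card_bot] at hDcard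
    omega
  have hfix : ∀ w : G ⧸ N, (∀ d ∈ D, d • w = w) ↔ (w = (1 : G) ∨ w = u) := by
    intro w
    constructor
    · intro h
      by_contra hne
      push Not at hne
      exact hd1 (hC'.eq_one_of_fix_three T hT hnn hy.symm hne.1.symm hne.2.symm
        (H10.smul_one_eq_iff.mpr hd.1) hd.2 (h d hd))
    · rintro (rfl | rfl) d hd
      · exact H10.smul_one_eq_iff.mpr hd.1
      · exact hd.2
  refine ⟨le_antisymm (fun g hg => ?_) (sup_le Subgroup.le_normalizer ?_), fun g => hfix _⟩
  · have key : ∀ w : G ⧸ N, (w = (1 : G) ∨ w = u) → (g • w = (1 : G) ∨ g • w = u) := by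
      intro w hw
      rw [← hfix] at hw ⊢
      intro d hd
      have : g⁻¹ * d * g ∈ D := by
        apply (Subgroup.mem_normalizer_iff.mp hg _).mpr
        simpa [mul_assoc] using hd
      rw [smul_smul, show d * g = g * (g⁻¹ * d * g) by group, mul_smul, hw _ this]
    have hne : g • ((1 : G) : G ⧸ N) ≠ g • (u : G ⧸ N) := fun h => hy (smul_left_cancel _ h).symm
    rcases key _ (Or.inl rfl) with h1 | h1 <;> rcases key _ (Or.inr rfl) with h3 | h3
    · exact absurd (h1.trans h3.symm) hne
    · exact Subgroup.mem_sup_left ⟨H10.smul_one_eq_iff.mp h1, h3⟩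
    · have : u * g ∈ D := ⟨H10.smul_one_eq_iff.mp (by rw [mul_smul, h1, u2]), by
        change (u * g) • (u : G ⧸ N) = u
        rw [mul_smul, h3, u1]⟩
      have h4 := (D ⊔ Subgroup.zpowers u).mul_mem
        (Subgroup.mem_sup_right (Subgroup.mem_zpowers u)) (Subgroup.mem_sup_left this)
      rwa [← mul_assoc, H10.mul_self_of_orderOf_two hu, one_mul] at h4
    · exact absurd (h1.trans h3.symm) hne
  · rw [Subgroup.zpowers_le]
    apply H10.mem_normalizer_of_conj_mem
    intro x hx
    rw [hC'.inverts hH hy.symm hu u1 u2 (H10.smul_one_eq_iff.mpr hx.1) hx.2]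
    exact D.inv_mem hx

end Cfsg.Agent.S1228
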