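import Cfsg.Statements.S1234
import Cfsg.Agent.H2.Har2

set_option autoImplicit false
open Cfsg

namespace Cfsg.Agent.S1234

/-- Let S be a finite 2-group and Q ≤ S a subgroup of order 32 having an elementary abelian subgroup E of order 16 and an involution s ∉ E whose centralizer in E has order 4 (so Q ≅ (Z₂ × Z₂) ≀ Z₂). If C_S(Z(Q)) = Q, then every section of S has 2-rank at most 4. -/
theorem result {S : Type*} [Group S] [Finite S] (hS : IsPGroup 2 S) (Q E : Subgroup S) (hEQ : E ≤ Q) (hE : Cfsg.IsElementaryAbelian 2 E) (hE16 : Nat.card E = 16) (hQ32 : Nat.card Q = 32) (s : S) (hsQ : s ∈ Q) (hsE : s ∉ E) (hs : orderOf s = 2) (hfix : Nat.card ↥(E ⊓ Subgroup.centralizer ({s} : Set S)) = 4) (hC : Subgroup.centralizer (((Subgroup.center Q).map Q.subtype : Subgroup S) : Set S) = Q) : Cfsg.SectionalPRankLE 2 4 S := by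
  have ss := H9.mul_self_of_orderOf_two hs
  have eE : ∀ a ∈ E, a * a = 1 := fun a ha => by rw [← sq, hE.2 a ha]
  have cos := H2.mul_inv_mem_of_card hEQ (by omega)
  refine H2.Sec.sectional (k := 4) (H2.SC.sec hS (A := Q ⊓ Subgroup.centralizer {s})
    ⟨?_, fun a ha => ?_, fun x hx => ⟨?_, Subgroup.mem_centralizer_singleton_iff.2
      (hx s ⟨hsQ, Subgroup.mem_centralizer_singleton_iff.2 rfl⟩)⟩⟩)
  · have h1 := H7.card_inf_mul_relIndex E (Q ⊓ Subgroup.centralizer {s})
    rw [← inf_assoc, inf_eq_left.2 hEQ, hfix] at h1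
    have h2 := Subgroup.relIndex_le_of_le_right (H := E)
      (inf_le_left : Q ⊓ Subgroup.centralizer {s} ≤ Q) Subgroup.index_ne_zero_of_finite
    have h3 := H7.card_mul_relIndex hEQ
    have h4 := H2.two_mul_relIndex_le (M := E) (M' := ⊤) (K := Q ⊓ Subgroup.centralizer {s}) le_top
      ⟨hsQ, Subgroup.mem_centralizer_singleton_iff.2 rfl⟩ trivial hsE
    rw [Subgroup.relIndex_top_left] at h4
    rw [hE16, hQ32] at h3
    omega
  · by_cases e : a ∈ E
    · exact eE a e
    · have h1 := eE _ (cos a ha.1 s hsQ e hsE)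
      have h2 : Commute a s := Subgroup.mem_centralizer_singleton_iff.1 ha.2
      rwa [← sq, h2.inv_right.mul_pow, inv_pow, sq s, ss, inv_one, mul_one, sq] at h1
  · rw [← hC]
    rintro _ ⟨y, hy, rfl⟩
    exact (hx y ⟨y.2, Subgroup.mem_centralizer_singleton_iff.2 (congrArg Subtype.val
      (Subgroup.mem_center_iff.1 hy ⟨s, hsQ⟩)).symm⟩).symm

end Cfsg.Agent.S1234
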