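import Cfsg.Statements.S1236
import Cfsg.Agent.H8.MCFusion

set_option autoImplicit false
open Cfsg

namespace Cfsg.Agent.S1236

/-- Four-subgroups of dihedral groups are self-centralizing. -/
theorem dihedral {D : Type*} [Group D] {m : ℕ} (e : D ≃* DihedralGroup m) {U : Subgroup D}
    (hU : IsKleinFour U) : Subgroup.centralizer (U : Set D) ≤ U := by
  obtain ⟨a, b, ha, hb, hab, hba, hall⟩ := H9.exists_gens_of_equiv_dihedral e
  obtain ⟨w, hw, hw'⟩ := SetLike.not_le_iff_exists.mp (H8.four_not_le_zpowers hU a)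
  have hout : ∀ v : D, v ∉ Subgroup.zpowers a → ∃ k : ℤ, v = a ^ k * b := fun v hv =>
    (hall v).resolve_left fun ⟨k, hk⟩ => hv ⟨k, hk.symm⟩
  obtain ⟨j, rfl⟩ := hout w hw'
  have hw1 : a ^ j * b ≠ 1 := fun h => hw' (h ▸ one_mem _)
  -- an involution of `U` inside `⟨a⟩`
  obtain ⟨c, hcU, hc1⟩ : ∃ c : ℤ, a ^ c ∈ U ∧ a ^ c ≠ 1 := by
    obtain ⟨y, hy, hy1, hwy⟩ := H8.four_exists_ne hU (a ^ j * b)
    rcases hall y with ⟨k, rfl⟩ | ⟨k, rfl⟩
    · exact ⟨k, hy, hy1⟩
    · refine ⟨k - j, ?_, fun h => hwy ?_⟩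
      · have := mul_mem hy (inv_mem hw)
        convert this using 1
        group
      · rw [zpow_sub, mul_inv_eq_one] at h
        rw [h]
  have hinv : ∀ i : ℤ, a ^ i * a ^ i = 1 → a ^ i ∈ U := by
    intro i hi
    have hc2 := H8.four_mul_self hU hcU
    rw [← zpow_add, H9.zpow_eq_one_iff_dvd ha] at hi hc2
    rw [Ne, H9.zpow_eq_one_iff_dvd ha] at hc1
    obtain ⟨p, hp⟩ := hi
    obtain ⟨q, hq⟩ := hc2
    rcases Int.even_or_odd' p with ⟨p, rfl | rfl⟩
    · rw [(H9.zpow_eq_one_iff_dvd ha i).mpr ⟨p, by linarith⟩]; exact one_mem _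
    · rcases Int.even_or_odd' q with ⟨q, rfl | rfl⟩
      · exact absurd ⟨q, by linarith⟩ hc1
      · rw [(H9.zpow_eq_zpow_iff_dvd ha i c).mpr ⟨q - p, by linarith⟩]; exact hcU
  have hcomm : ∀ i : ℤ, a ^ j * b * a ^ i = a ^ i * (a ^ j * b) → a ^ i ∈ U := by
    intro i hi
    apply hinv
    rw [mul_assoc, H9.mul_zpow_of_inverts hab, ← mul_assoc, ← mul_assoc, mul_left_inj, ← zpow_add,
      ← zpow_add] at hi
    calc a ^ i * a ^ i = a ^ (i + j) * (a ^ (j + -i))⁻¹ := by group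
      _ = 1 := by rw [hi, mul_inv_cancel]
  intro g hg
  have h1 := hg _ hw
  rcases hall g with ⟨k, rfl⟩ | ⟨k, rfl⟩
  · exact hcomm k h1
  · have e1 : a ^ k * b = a ^ (k - j) * (a ^ j * b) := by group
    rw [e1] at h1 ⊢
    refine mul_mem (hcomm _ ?_) hw
    rw [← mul_assoc] at h1
    exact mul_right_cancel h1

/-- Let R be a finite group, t a central involution of R such that R ⧸ ⟨t⟩ is dihedral (of order ≥ 4) or quasi-dihedral, and A ≤ R an elementary abelian subgroup of order 8 containing t. Then C_R(A) = A. -/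
theorem result {R : Type*} [Group R] [Finite R] (t : R) (ht : orderOf t = 2) (htz : t ∈ Subgroup.center R) [(Subgroup.zpowers t).Normal] (hq : (∃ m : ℕ, 2 ≤ m ∧ Nonempty (R ⧸ Subgroup.zpowers t ≃* DihedralGroup m)) ∨ Cfsg.IsQuasiDihedral (R ⧸ Subgroup.zpowers t)) (A : Subgroup R) (hA : Cfsg.IsElementaryAbelian 2 A) (hA8 : Nat.card A = 8) (htA : t ∈ A) : Subgroup.centralizer (A : Set R) = A := by
  let π := QuotientGroup.mk' (Subgroup.zpowers t)
  have hle : Subgroup.zpowers t ≤ A := Subgroup.zpowers_le.mpr htA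
  have hU : IsKleinFour (A.map π) := by
    refine H8.isKleinFour_of_card ?_ ?_
    · have h1 := H8.card_eq_card_mul_relIndex hle
      rw [hA8, Nat.card_zpowers, ht] at h1
      rw [← Subgroup.relIndex_ker, QuotientGroup.ker_mk']
      omega
    · rintro _ ⟨x, hx, rfl⟩
      rw [← map_mul, ← sq, hA.2 x hx, map_one]
  have hC : Subgroup.centralizer ((A.map π : Subgroup _) : Set (R ⧸ Subgroup.zpowers t)) ≤
      A.map π := by
    rcases hq with ⟨m, -, ⟨e⟩⟩ | hq
    · exact dihedral e hU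
    · obtain ⟨a, b, n, -, h, -, -⟩ := H8.exists_qd_top hq
      obtain ⟨w, hw, -, h1⟩ := H8.exists_eq_sub_of_isKleinFour h hU le_top
      rw [h1]
      simpa using (H8.inf_centralizer_sub_top hw).le
  have := hA.1
  refine le_antisymm (fun g hg => ?_) A.le_centralizer
  have h1 : π g ∈ A.map π := hC (by
    rintro _ ⟨x, hx, rfl⟩
    rw [← map_mul, hg x hx, map_mul])
  rwa [← Subgroup.mem_comap, Subgroup.comap_map_eq_self (by rwa [QuotientGroup.ker_mk'])] at h1

end Cfsg.Agent.S1236
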