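import Cfsg.Statements.S1237
import Cfsg.Agent.H2.Tri

set_option autoImplicit false
open Cfsg

namespace Cfsg.Agent.S1237

/-- Let T be a finite 2-group of 2-rank exactly 2 (it has a Klein four-subgroup but no elementary abelian subgroup of order 8) admitting an automorphism φ such that any two involutions of T are carried to one another by a power of φ. Then T ≅ Z_{2^n} × Z_{2^n} for some n ≥ 1, or T is isomorphic to a Sylow 2-subgroup of PSU(3) over the field with 16 elements. -/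
theorem result {T : Type*} [Group T] [Finite T] (hT : IsPGroup 2 T) (h2 : Cfsg.PRankLE 2 2 T) (h1 : ¬ Cfsg.PRankLE 2 1 T) (φ : MulAut T) (htrans : ∀ s t : T, orderOf s = 2 → orderOf t = 2 → ∃ k : ℕ, (φ ^ k) s = t) {F : Type*} [Field F] [Fintype F] (hF : Fintype.card F = 16) (P : Sylow 2 (Cfsg.PSU 3 F 4)) : (∃ n : ℕ, 1 ≤ n ∧ Nonempty (T ≃* Multiplicative (ZMod (2 ^ n) × ZMod (2 ^ n)))) ∨ Nonempty (T ≃* (P : Subgroup (Cfsg.PSU 3 F 4))) := by
  have : Fact (Nat.Prime 2) := ⟨Nat.prime_two⟩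
  have hr := H2.rk2_of_pRankLE h2
  obtain ⟨a, b, ha, hb, a1, b1, hab, -⟩ := H2.exists_two_of_not_pRankLE h1
  have : Nontrivial T := ⟨⟨a, 1, a1⟩⟩
  obtain ⟨w, -, hw, ho⟩ := H7.exists_mem_center_orderOf hT (M := ⊤) top_ne_bot
  have o2 : ∀ {x : T}, x ≠ 1 → x * x = 1 → orderOf x = 2 := fun h1 h2 =>
    H9.orderOf_eq_two_iff.2 ⟨h1, h2⟩
  have hc : ∀ x : T, x * x = 1 → ∀ s, Commute x s := fun x hx s => by
    by_cases x1 : x = 1
    · rw [x1]; exact Commute.one_left s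
    obtain ⟨k, rfl⟩ := htrans w x ho (o2 x1 hx)
    exact (Subgroup.mem_center_iff.1 (H7.mem_of_char (φ ^ k) hw) s).symm
  have h3 : H2.Three a b := ⟨a1, b1, hab, ha, hb, hc a ha b, fun x hx =>
    hr a b x ha hb hx a1 b1 hab (hc a ha b) (hc a ha x) (hc b hb x)⟩
  have mv : ∀ x y : T, x ≠ 1 → x * x = 1 → y ≠ 1 → y * y = 1 → y ≠ x →
      ∃ ψ ∈ (⊤ : Subgroup (MulAut T)), ψ x ≠ x := fun x y x1 hx y1 hy hne => by
    obtain ⟨k, hk⟩ := htrans x y (o2 x1 hx) (o2 y1 hy)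
    exact ⟨φ ^ k, trivial, hk ▸ hne⟩
  obtain ⟨ρ, -, e1, e2⟩ := h3.exists_cycle ⊤ (mv a b a1 ha b1 hb hab.symm) (mv b a b1 hb a1 ha hab)
    (mv _ a h3.mul_ne_one h3.mul_mul a1 ha h3.mul_ne_z.symm)
  rcases h3.cases hT e1 e2 with ⟨n, hn⟩ | h
  · exact Or.inl ⟨n + 1, by omega, hn.equiv h3⟩
  · exact Or.inr (h.equiv (H2.u34_sylow hF P))

end Cfsg.Agent.S1237
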