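import Cfsg.Statements.S1238
import Cfsg.Agent.H2.Rank2

set_option autoImplicit false
open Cfsg

namespace Cfsg.Agent.S1238

/-- Let G be a finite group of 2-rank 2 (a Klein four-subgroup but no elementary abelian subgroup of order 8) which is fusion simple: G has no subgroup of index 2 and no isolated involution. Let S be a Sylow 2-subgroup. Then S is dihedral, quasi-dihedral, wreathed, isomorphic to Z_{2^n} × Z_{2^n} for some n ≥ 2, or isomorphic to a Sylow 2-subgroup of PSU(3) over the field with 16 elements. -/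
theorem result {G : Type*} [Group G] [Finite G] (h2 : Cfsg.PRankLE 2 2 G) (h1 : ¬ Cfsg.PRankLE 2 1 G) (hidx : ∀ H : Subgroup G, H.index ≠ 2) (hiso : ∀ z : G, ¬ Cfsg.IsIsolatedInvolution z) (S : Sylow 2 G) {F : Type*} [Field F] [Fintype F] (hF : Fintype.card F = 16) (P : Sylow 2 (Cfsg.PSU 3 F 4)) : (∃ m : ℕ, 2 ≤ m ∧ Nonempty ((S : Subgroup G) ≃* DihedralGroup m)) ∨ Cfsg.IsQuasiDihedral (S : Subgroup G) ∨ Cfsg.IsWreathed (S : Subgroup G) ∨ (∃ n : ℕ, 2 ≤ n ∧ Nonempty ((S : Subgroup G) ≃* Multiplicative (ZMod (2 ^ n) × ZMod (2 ^ n)))) ∨ Nonempty ((S : Subgroup G) ≃* (P : Subgroup (Cfsg.PSU 3 F 4))) := by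
  have : Fact (Nat.Prime 2) := ⟨Nat.prime_two⟩
  have inv2 : ∀ a : G, a * a = 1 → IsPGroup 2 (Subgroup.zpowers a) := fun a ha =>
    IsPGroup.of_card_dvd_pow (n := 1) (by
      rw [Nat.card_zpowers, pow_one]; exact orderOf_dvd_of_pow_eq_one (by rw [sq, ha]))
  have key := H2.r2t_of_group S h2 (by
    obtain ⟨a, -, ha, -, a1, -⟩ := H2.exists_two_of_not_pRankLE h1
    obtain ⟨h, -, hh⟩ := H2.exists_conj_into S (z := 1) (fun s _ => Commute.one_left s) (inv2 a ha)
      (fun x _ => Commute.one_right x)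
    intro e
    have := hh a (Subgroup.mem_zpowers a)
    rw [← SetLike.mem_coe, ← Sylow.coe_coe, e] at this
    exact a1 (by simpa [mul_inv_eq_one] using this)) (fun z hz ho hc => by
    have := hiso z
    simp only [Cfsg.IsIsolatedInvolution, ho, true_and, not_forall] at this
    obtain ⟨g, hg, hne⟩ := this
    obtain ⟨h, hhz, hh⟩ := H2.exists_conj_into S hc (inv2 (g * z * g⁻¹) (by
      have := H9.mul_self_of_orderOf_two ho
      calc g * z * g⁻¹ * (g * z * g⁻¹) = g * (z * z) * g⁻¹ := by group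
        _ = 1 := by rw [this]; group)) (by
      rintro x ⟨k, rfl⟩
      exact hg.symm.zpow_left k)
    have e : h * g * z * (h * g)⁻¹ = h * (g * z * g⁻¹) * h⁻¹ := by group
    refine ⟨h * g, e ▸ hh _ (Subgroup.mem_zpowers _), fun e' => hne ?_⟩
    rw [e, mul_inv_eq_iff_eq_mul, ← hhz.eq] at e'
    exact mul_left_cancel e')
  rcases key with (h | h) | h | h | h
  · exact Or.inl h
  · exact Or.inr (Or.inl h)
  · exact Or.inr (Or.inr (Or.inl h))
  · exact Or.inr (Or.inr (Or.inr (Or.inl h)))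
  · exact Or.inr (Or.inr (Or.inr (Or.inr (h.equiv (H2.u34_sylow hF P)))))

end Cfsg.Agent.S1238
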