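import Cfsg.Statements.S1242
import Cfsg.Agent.H8.Tate

set_option autoImplicit false
open Cfsg
open scoped IsMulCommutative

namespace Cfsg.Agent.S1242

/-- Let G be a finite group, p a prime and H a subgroup of index prime to p such that any two elements of H of p-power order that are conjugate in G are conjugate in H. Then (O^p(G)·G') ∩ H = O^p(H)·H', where O^p denotes the subgroup generated by the elements of order prime to p. -/
theorem result {G : Type*} [Group G] [Finite G] {p : ℕ} [Fact p.Prime] (H : Subgroup G) (hidx : Nat.Coprime p H.index) (hfus : ∀ g ∈ H, (∃ k : ℕ, orderOf g = p ^ k) → ∀ a : G, a * g * a⁻¹ ∈ H → ∃ h ∈ H, h * g * h⁻¹ = a * g * a⁻¹) : (Cfsg.pResidual p G ⊔ commutator G) ⊓ H = (Cfsg.pResidual p ↥H ⊔ commutator ↥H).map H.subtype := by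
  apply le_antisymm
  · rintro x ⟨hx, hxH⟩
    set K : Subgroup H := pResidual p H ⊔ commutator H with hK
    have : IsMulCommutative (H ⧸ K) :=
      Subgroup.Normal.quotient_commutative_iff_commutator_le.mpr le_sup_right
    have hKp : IsPGroup p (H ⧸ K) := H8.isPGroup_quotient_of_pResidual_le le_sup_left
    obtain ⟨a, b, ha, hb, hab, ⟨k, hk⟩, hc⟩ := H8.exists_pPart_mul_pPrimePart p x
    have haH : a ∈ H := Subgroup.zpowers_le.mpr hxH ha
    have hbH : b ∈ H := Subgroup.zpowers_le.mpr hxH hb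
    have h1 := H8.transfer_eq_pow_of_conj (QuotientGroup.mk' K) ⟨a, haH⟩ (by
      intro j c hc
      have h2 : (a ^ j) ^ p ^ k = 1 := by rw [← pow_mul, mul_comm, pow_mul, hk, one_pow]
      obtain ⟨i, -, hi⟩ := (Nat.dvd_prime_pow Fact.out).mp (orderOf_dvd_of_pow_eq_one h2)
      obtain ⟨h, hh, he⟩ := hfus (a ^ j) (H.pow_mem haH j) ⟨i, hi⟩ c⁻¹ (by simpa using hc)
      have h3 : (⟨c⁻¹ * a ^ j * c, hc⟩ : H) = ⟨h, hh⟩ * ⟨a, haH⟩ ^ j * ⟨h, hh⟩⁻¹ :=
        Subtype.ext (by simpa using he.symm)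
      rw [h3, map_mul, map_mul, map_inv, map_pow, mul_inv_cancel_comm])
    have h4 : pResidual p G ⊔ commutator G ≤ (MonoidHom.transfer (QuotientGroup.mk' K)).ker :=
      sup_le (H8.pResidual_le_ker hKp _) (Abelianization.commutator_subset_ker _)
    rw [show MonoidHom.transfer (QuotientGroup.mk' K) a = 1 from
      h4 (Subgroup.zpowers_le.mpr hx ha), ← map_pow, eq_comm, QuotientGroup.mk'_apply,
      QuotientGroup.eq_one_iff] at h1
    have h5 : (⟨a, haH⟩ : H) ∈ K := H8.mem_of_pow_mem_of_coprime h1 (by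
      rw [← Subgroup.orderOf_coe]
      exact (hidx.pow_left k).coprime_dvd_left (orderOf_dvd_of_pow_eq_one hk))
    have h6 : (⟨b, hbH⟩ : H) ∈ K := Subgroup.mem_sup_left
      (H8.mem_pResidual_of_coprime (by rwa [← Subgroup.orderOf_coe]))
    exact ⟨_, K.mul_mem h5 h6, hab.symm⟩
  · refine le_inf ?_ (Subgroup.map_subtype_le _)
    rw [Subgroup.map_sup, Subgroup.map_subtype_commutator]
    exact sup_le_sup (H8.map_pResidual_le p _) (Subgroup.commutator_mono le_top le_top)

end Cfsg.Agent.S1242
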