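import Cfsg.Statements.S1244
import Cfsg.Agent.H8.Tate

set_option autoImplicit false
open Cfsg

namespace Cfsg.Agent.S1244

open scoped IsMulCommutative

/-- The elements of order dividing `2` of a commutative subgroup. -/
def omega {G : Type*} [Group G] (S : Subgroup G) (hS : IsMulCommutative S) : Subgroup G where
  carrier := {x | x ∈ S ∧ x ^ 2 = 1}
  one_mem' := ⟨S.one_mem, one_pow _⟩
  mul_mem' := by
    rintro a b ⟨ha, ha'⟩ ⟨hb, hb'⟩
    have h : Commute a b := S.le_centralizer hb a ha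
    exact ⟨S.mul_mem ha hb, by rw [h.mul_pow, ha', hb', one_mul]⟩
  inv_mem' := by
    rintro a ⟨ha, ha'⟩
    exact ⟨S.inv_mem ha, by rw [inv_pow, ha', inv_one]⟩

theorem pRankLE_iff {G : Type*} [Group G] [Finite G] (S : Subgroup G) (hS : IsMulCommutative S)
    (k : ℕ) : PRankLE 2 k S ↔ Nat.card (omega S hS) ≤ 2 ^ k := by
  have hle : omega S hS ≤ S := fun x hx => hx.1
  constructor
  · intro h
    rw [← Nat.card_congr (Subgroup.subgroupOfEquivOfLe hle).toEquiv]
    exact h _ inferInstance fun a ha => Subtype.ext ha.2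
  · intro h A _ hA
    refine le_trans ?_ h
    rw [← Subgroup.card_map_of_injective S.subtype_injective]
    apply Subgroup.card_le_of_le
    rintro _ ⟨a, ha, rfl⟩
    exact ⟨a.2, congrArg Subtype.val (hA a ha)⟩

/-- Let G be a finite group with no subgroup of index 2 whose Sylow 2-subgroup S is commutative, and let R ≤ S be a subgroup whose 2-rank is exactly one less than the 2-rank r of S. Then every involution of S is conjugate, by an element of N_G(S), to an element of R. -/
theorem result {G : Type*} [Group G] [Finite G] (hG : ∀ H : Subgroup G, H.index ≠ 2) (S : Sylow 2 G) (hS : IsMulCommutative (S : Subgroup G)) (r : ℕ) (hr1 : 1 ≤ r) (hSr : Cfsg.PRankLE 2 r (S : Subgroup G) ∧ ¬ Cfsg.PRankLE 2 (r - 1) (S : Subgroup G)) (R : Subgroup G) (hRS : R ≤ S) (hRr : Cfsg.PRankLE 2 (r - 1) R ∧ (r = 1 ∨ ¬ Cfsg.PRankLE 2 (r - 2) R)) (t : G) (ht : orderOf t = 2) (htS : t ∈ S) : ∃ n ∈ Subgroup.normalizer ((S : Subgroup G) : Set G), n * t * n⁻¹ ∈ R := by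
  by_contra hcon
  push Not at hcon
  have hR : IsMulCommutative R := Subgroup.le_centralizer_iff_isMulCommutative.mp
    fun x hx y hy => (S : Subgroup G).le_centralizer (hRS hx) y (hRS hy)
  have hle : omega R hR ≤ omega (S : Subgroup G) hS := fun x hx => ⟨hRS hx.1, hx.2⟩
  rw [pRankLE_iff _ hS, pRankLE_iff _ hS] at hSr
  rw [pRankLE_iff _ hR, pRankLE_iff _ hR] at hRr
  obtain ⟨a, ha⟩ : ∃ a, Nat.card (omega (S : Subgroup G) hS) = 2 ^ a :=
    (S.2.to_le (fun x hx => hx.1 : omega (S : Subgroup G) hS ≤ S)).exists_card_eq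
  obtain ⟨b, hb⟩ : ∃ b, Nat.card (omega R hR) = 2 ^ b :=
    (S.2.to_le (hle.trans fun x hx => hx.1 : omega R hR ≤ S)).exists_card_eq
  rw [ha, Nat.pow_le_pow_iff_right one_lt_two, Nat.pow_le_pow_iff_right one_lt_two] at hSr
  rw [hb, Nat.pow_le_pow_iff_right one_lt_two, Nat.pow_le_pow_iff_right one_lt_two] at hRr
  have hab : a = b + 1 := by omega
  have hidx : (omega R hR).relIndex (omega (S : Subgroup G) hS) = 2 := by
    have := H8.card_eq_card_mul_relIndex hle
    rw [ha, hb, hab, pow_succ] at this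
    exact (Nat.eq_of_mul_eq_mul_left (by positivity) this).symm
  have ht2 : t ^ 2 = 1 := ht ▸ pow_orderOf_eq_one t
  have htR : t ∉ R := by simpa using hcon 1 (one_mem _)
  have : (R.subgroupOf S).Normal := inferInstance
  have h1 := H8.transfer_eq_pow_of_conj (QuotientGroup.mk' (R.subgroupOf S)) ⟨t, htS⟩ (by
    intro k c hc
    rw [← map_pow, QuotientGroup.mk'_apply, QuotientGroup.mk'_apply, QuotientGroup.eq_iff_div_mem,
      Subgroup.mem_subgroupOf]
    change c⁻¹ * t ^ k * c / t ^ k ∈ R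
    change c⁻¹ * t ^ k * c ∈ S at hc
    rcases Nat.even_or_odd' k with ⟨j, rfl | rfl⟩
    · simp [pow_mul, ht2]
    · rw [pow_succ, pow_mul, ht2, one_pow, one_mul] at hc ⊢
      obtain ⟨n, hn, he⟩ := H8.exists_normalizer_conj_eq_of_comm S hS (g := c⁻¹) htS
        (by simpa using hc)
      have h2 : c⁻¹ * t * c ∉ R := by
        have := hcon n hn
        rwa [he, inv_inv] at this
      have h3 : c⁻¹ * t * c ∈ omega (S : Subgroup G) hS := ⟨hc, by
        have : (c⁻¹ * t * c) ^ 2 = c⁻¹ * t ^ 2 * c := by rw [sq, sq]; group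
        rw [this, ht2]; simp⟩
      have h4 : t⁻¹ ∈ omega (S : Subgroup G) hS := (omega (S : Subgroup G) hS).inv_mem ⟨htS, ht2⟩
      have h5 := (Subgroup.mul_mem_iff_of_index_two hidx (a := ⟨_, h3⟩) (b := ⟨_, h4⟩)).mpr
        (iff_of_false (fun h => h2 h.1) (fun h => htR (by simpa using R.inv_mem h.1)))
      rw [div_eq_mul_inv]
      exact h5.1)
  refine H8.pResidual_ne_top_of_hom (S.2.to_quotient (R.subgroupOf S))
    (MonoidHom.transfer (QuotientGroup.mk' (R.subgroupOf S))) (g := t) ?_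
    (H8.pResidual_two_eq_top_iff.mpr hG)
  rw [h1, ← map_pow, QuotientGroup.mk'_apply, Ne, QuotientGroup.eq_one_iff,
    Subgroup.mem_subgroupOf]
  intro h
  refine htR (H8.mem_of_pow_mem_of_coprime h ?_)
  rw [ht]
  exact (Nat.Prime.coprime_iff_not_dvd Nat.prime_two).mpr S.not_dvd_index

end Cfsg.Agent.S1244
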