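import Cfsg.Statements.S1246
import Cfsg.Agent.H83.CharP
import Cfsg.Agent.H52.FStar
import Cfsg.Agent.H7.PBasic

set_option autoImplicit false
open Cfsg

namespace Cfsg.Agent.S1246

open Subgroup in
theorem step {G : Type*} [Group G] [Finite G] {p : ℕ} [Fact p.Prime] (U : Subgroup G)
    (hU : IsPGroup p U) (n : ℕ) : ∀ V : Subgroup G, V ≤ U → Nat.card U - Nat.card V = n →
      H83.CharP p (centralizer (V : Set G)) → H83.CharP p (centralizer (U : Set G)) := by
  induction n using Nat.strong_induction_on with
  | _ n ih =>
    intro V hVU hn hV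
    rcases eq_or_lt_of_le hVU with h | h
    · rwa [← h]
    have hnil : Group.IsNilpotent U := hU.isNilpotent
    have hlt : V < U ⊓ normalizer (V : Set G) := by
      have h1 : V.subgroupOf U < ⊤ := by
        rw [lt_top_iff_ne_top, Ne, subgroupOf_eq_top]
        exact not_le_of_gt h
      have h2 := normalizerCondition_of_isNilpotent (G := U) _ h1
      refine lt_of_le_of_ne (le_inf hVU le_normalizer) fun he => h2.ne ?_
      rw [← subgroupOf_normalizer_eq hVU]
      conv_lhs => rw [he]
      rw [inf_subgroupOf_left]
    have hW : H83.CharP p (centralizer ((U ⊓ normalizer (V : Set G) : Subgroup G) : Set G)) := by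
      have := hV.inf_centralizer (P := U ⊓ normalizer (V : Set G)) hU.to_inf_left
        (inf_le_right.trans ((H52.normalizer_le_normalizer_centralizer V).trans
          (haveI := H52.pCore_characteristic (G := centralizer (V : Set G)) (p := p)
          H52.normalizer_le_normalizer_map_subtype _)))
      rwa [inf_eq_right.mpr (centralizer_le hlt.le)] at this
    refine ih _ ?_ _ inf_le_left rfl hW
    have h1 := H7.card_lt_of_lt hlt
    have h2 : Nat.card (U ⊓ normalizer (V : Set G) : Subgroup G) ≤ Nat.card U :=
      card_le_of_le inf_le_left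
    omega

/-- Let V ≤ U be p-subgroups of the finite group G. If the generalized Fitting subgroup of C_G(V) is a p-group, then so is that of C_G(U). -/
theorem result {G : Type*} [Group G] [Finite G] {p : ℕ} [Fact p.Prime] (U V : Subgroup G) (hVU : V ≤ U) (hU : IsPGroup p U) (hV : IsPGroup p ↥(Cfsg.generalizedFittingSubgroup ↥(Subgroup.centralizer (V : Set G)))) : IsPGroup p ↥(Cfsg.generalizedFittingSubgroup ↥(Subgroup.centralizer (U : Set G))) := by
  rw [← H52.fstar_eq_pCore_iff_isPGroup, H52.fstar_eq_pCore_iff_centralizer_le,
    ← H83.charP_iff] at hV ⊢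
  exact step U hU _ V hVU rfl hV

end Cfsg.Agent.S1246
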