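import Cfsg.Statements.S1253
import Cfsg.Agent.S1187

set_option autoImplicit false
open Cfsg

namespace Cfsg.Agent.S1253

/-- Let z be an isolated involution of the finite group G with centralizer C, p an odd prime and P a Sylow p-subgroup of G normalized by z. Then P ∩ C has p-power-free index in C (it is a Sylow p-subgroup of C), and |P : C_P(z)| equals the number of elements x ∈ P with z x z⁻¹ = x⁻¹. -/
theorem result {G : Type*} [Group G] [Finite G] (z : G) (hz : Cfsg.IsIsolatedInvolution z) {p : ℕ} [Fact p.Prime] (hp : p ≠ 2) (P : Sylow p G) (hzP : z ∈ Subgroup.normalizer ((P : Subgroup G) : Set G)) : ¬ p ∣ ((P : Subgroup G) ⊓ Subgroup.centralizer ({z} : Set G)).relIndex (Subgroup.centralizer ({z} : Set G)) ∧ ((P : Subgroup G) ⊓ Subgroup.centralizer ({z} : Set G)).relIndex (P : Subgroup G) = Nat.card {x : G // x ∈ P ∧ z * x * z⁻¹ = x⁻¹} := by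
  have hzz := H10.Isolated.mul_self hz
  set C := Subgroup.centralizer ({z} : Set G) with hC
  constructor
  · obtain ⟨R, hR⟩ := (P.isPGroup'.to_inf_left (K := C)).comap_subtype (K := C) |>.exists_le_sylow
    set R' : Subgroup G := (R : Subgroup C).map C.subtype with hR'
    have hR'C : R' ≤ C := Subgroup.map_subtype_le _
    have hzR : z ∈ Subgroup.normalizer (R' : Set G) := by
      apply H10.mem_normalizer_of_conj_mem
      intro x hx
      rwa [← Subgroup.mem_centralizer_singleton_iff.mp (hR'C hx), mul_inv_cancel_right]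
    obtain ⟨Q, hQ, hmax⟩ := Finite.exists_le_maximal
      (p := fun Q : Subgroup G => IsPGroup p Q ∧ z ∈ Subgroup.normalizer (Q : Set G))
      (a := R') ⟨R.isPGroup'.map _, hzR⟩
    obtain ⟨P', rfl⟩ := S1187.result z hz Q hmax.1.1 hmax.1.2
      (fun S h1 h2 h3 => le_antisymm (hmax.2 ⟨h1, h2⟩ h3) h3)
    obtain ⟨g, rfl⟩ := MulAction.exists_smul_eq G P P'
    have h1 : g⁻¹ * z * g ∈ Subgroup.normalizer ((P : Subgroup G) : Set G) := by
      have := hmax.1.2
      rwa [H10.coe_smul_sylow, H10.normalizer_map_conj, H10.mem_map_conj] at this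
    obtain ⟨n, hn, e⟩ := H10.Isolated.exists_conj_mem hz hzP
      (isConj_iff.mpr ⟨g⁻¹, by rw [inv_inv]⟩) h1
    have hc : Commute (g * n) z := by
      change g * n * z = z * (g * n)
      calc g * n * z = g * (n * z * n⁻¹) * n := by group
        _ = z * (g * n) := by rw [e]; group
    have h2 : Nat.card R' ≤ Nat.card ↥((P : Subgroup G) ⊓ C) := by
      rw [← H10.card_map_conj ((P : Subgroup G) ⊓ C) (g * n)]
      apply Subgroup.card_le_of_le
      intro x hx
      rw [H10.mem_map_conj]
      constructor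
      · have h3 := H10.mem_smul_sylow.mp (hQ hx)
        have h4 := (Subgroup.mem_normalizer_iff.mp
          ((Subgroup.normalizer ((P : Subgroup G) : Set G)).inv_mem hn) _).mp h3
        rwa [show n⁻¹ * (g⁻¹ * x * g) * n⁻¹⁻¹ = (g * n)⁻¹ * x * (g * n) by group] at h4
      · have hc' : g * n ∈ C := Subgroup.mem_centralizer_singleton_iff.mpr hc
        exact C.mul_mem (C.mul_mem (C.inv_mem hc') (hR'C hx)) hc'
    have h3 : ((P : Subgroup G) ⊓ C).subgroupOf C = R := by
      apply Subgroup.eq_of_le_of_card_ge hR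
      rwa [hR', Subgroup.card_map_of_injective C.subtype_injective,
        ← Nat.card_congr (Subgroup.subgroupOfEquivOfLe inf_le_right).toEquiv] at h2
    rw [Subgroup.relIndex, h3]
    exact R.not_dvd_index
  · rw [Subgroup.inf_relIndex_left]
    apply H10.relIndex_centralizer_eq_card_inverted _ hzz
      (fun x hx => (Subgroup.mem_normalizer_iff.mp hzP x).mp hx)
    obtain ⟨k, hk⟩ := IsPGroup.iff_card.mp P.isPGroup'
    rw [hk]
    exact ((Fact.out : p.Prime).odd_of_ne_two hp).pow

end Cfsg.Agent.S1253
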