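import Cfsg.Statements.S1254
import Cfsg.Agent.H8.MCFusion

set_option autoImplicit false
open Cfsg

namespace Cfsg.Agent.S1254

/-- Let X be a finite group whose Sylow 2-subgroup S is dihedral (of order at least 4). Then X has a normal 2-complement if and only if, for every Klein four-subgroup U ≤ S, the normalizer N_X(U) is generated by C_X(U) and N_S(U). -/
theorem result {X : Type*} [Group X] [Finite X] (S : Sylow 2 X) (m : ℕ) (hm : 2 ≤ m) (eS : (S : Subgroup X) ≃* DihedralGroup m) : Cfsg.HasNormalPComplement 2 X ↔ ∀ U : Subgroup X, U ≤ S → IsKleinFour U → Subgroup.normalizer (U : Set X) = Subgroup.centralizer (U : Set X) ⊔ ((S : Subgroup X) ⊓ Subgroup.normalizer (U : Set X)) := by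
  constructor
  · intro hN U hU _
    refine le_antisymm (fun g hg => ?_)
      (sup_le (Subgroup.centralizer_le_normalizer _) inf_le_right)
    obtain ⟨v, hv, h1⟩ := H8.fusion_of_isComplement' (H8.HasNormalPComplement.isComplement' hN S) g
    have h2 : ∀ x ∈ U, v * x * v⁻¹ = g * x * g⁻¹ := fun x hx =>
      h1 x (hU hx) (hU ((Subgroup.mem_normalizer_iff.mp hg x).mp hx))
    have h3 : v⁻¹ * g ∈ Subgroup.centralizer (U : Set X) := by
      intro x hx
      calc x * (v⁻¹ * g) = v⁻¹ * (v * x * v⁻¹) * g := by group
        _ = v⁻¹ * g * x := by rw [h2 x hx]; group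
    have h4 : v ∈ Subgroup.normalizer (U : Set X) := by
      simpa using mul_mem hg (inv_mem (Subgroup.centralizer_le_normalizer _ h3))
    simpa using mul_mem (Subgroup.mem_sup_right (S := Subgroup.centralizer (U : Set X))
      (T := (S : Subgroup X) ⊓ Subgroup.normalizer (U : Set X)) ⟨hv, h4⟩) (Subgroup.mem_sup_left h3)
  · intro h
    have key : ∀ U : Subgroup X, U ≤ S → IsKleinFour U → ¬ H8.Active U := by
      intro U hU hU4
      rw [H8.not_active_iff_relIndex]
      have hn : (S : Subgroup X) ⊓ Subgroup.normalizer (U : Set X) ≤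
          Subgroup.normalizer (Subgroup.centralizer (U : Set X) : Set X) :=
        inf_le_right.trans (H8.normalizer_le_normalizer_centralizer U)
      apply (H8.forall_coprime_mem_iff_relIndex (H8.normalizer_le_normalizer_centralizer U)).mp
      intro g hg hc
      have hg' := hg
      rw [h U hU hU4] at hg'
      let N := Subgroup.normalizer (U : Set X)
      have : ((Subgroup.centralizer (U : Set X)).subgroupOf N).Normal :=
        Subgroup.normal_subgroupOf_of_le_normalizer (H8.normalizer_le_normalizer_centralizer U)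
      have h2 : IsPGroup 2 (N ⧸ (Subgroup.centralizer (U : Set X)).subgroupOf N) := by
        have h3 : IsPGroup 2 ((S : Subgroup X).subgroupOf N) := S.2.comap_subtype
        refine (h3.of_surjective ((QuotientGroup.mk' _).comp (Subgroup.subtype _)) ?_)
        intro y
        obtain ⟨⟨y, hy⟩, rfl⟩ := QuotientGroup.mk'_surjective _ y
        have hy' := hy
        change y ∈ Subgroup.normalizer (U : Set X) at hy'
        rw [h U hU hU4, sup_comm, ← SetLike.mem_coe,
          Subgroup.coe_mul_of_left_le_normalizer_right _ _ hn] at hy'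
        obtain ⟨s, hs, c, hc, rfl⟩ := hy'
        refine ⟨⟨⟨s, hs.2⟩, hs.1⟩, ?_⟩
        simp only [MonoidHom.comp_apply, Subgroup.coe_subtype, QuotientGroup.mk'_apply,
          QuotientGroup.eq, Subgroup.mem_subgroupOf]
        simpa using hc
      exact H8.pResidual_le_of_isPGroup_quotient h2
        (H8.mem_pResidual_of_coprime (g := (⟨g, hg⟩ : N)) (by rwa [← Subgroup.orderOf_coe]))
    rw [H8.hasNormalPComplement_two_iff_not_active S]
    intro Q hQ hA
    rcases hm.eq_or_lt with rfl | hm
    · have h4 : IsKleinFour (S : Subgroup X) := H8.isKleinFour_of_equiv eS.symm inferInstance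
      exact key Q hQ (hA.eq_of_le_four h4 hQ ▸ h4) hA
    · obtain ⟨a, b, n, h1, hb, hc, -⟩ := H9.exists_MC_of_dihedral' eS S.2 hm
      obtain ⟨w, hw, -, ⟨h2, rfl⟩ | ⟨h2, -⟩⟩ := H8.exists_act_of_active h1 hQ hA
      · exact key _ hQ (H8.isKleinFour_sub hw h2) hA
      · exact h1.z_ne_one (h2.symm.trans
          ((H8.mul_self_of_inverts h1 hc hw.b_mem hw.not_mem).trans hb))

end Cfsg.Agent.S1254
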