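import Cfsg.Statements.S1255
import Cfsg.Agent.H8.MCFusion

set_option autoImplicit false
open Cfsg

namespace Cfsg.Agent.S1255

/-- Let X be a finite group whose Sylow 2-subgroup S is dihedral of order 2m ≥ 4. Then X has no subgroup of index 2 and no isolated involution if and only if either all involutions of X are conjugate, or for every Klein four-subgroup U ≤ S the index |N_X(U) : C_X(U)| equals 3 when |S| = 4 and equals 6 when |S| > 4. -/
theorem result {X : Type*} [Group X] [Finite X] (S : Sylow 2 X) (m : ℕ) (hm : 2 ≤ m) (eS : (S : Subgroup X) ≃* DihedralGroup m) : ((∀ H : Subgroup X, H.index ≠ 2) ∧ (∀ z : X, ¬ Cfsg.IsIsolatedInvolution z)) ↔ ((∀ a b : X, orderOf a = 2 → orderOf b = 2 → IsConj a b) ∨ (∀ U : Subgroup X, U ≤ S → IsKleinFour U → (Subgroup.centralizer (U : Set X)).relIndex (Subgroup.normalizer (U : Set X)) = (if Nat.card S = 4 then 3 else 6))) := by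
  have four : ∃ V : Subgroup X, V ≤ S ∧ IsKleinFour V := by
    rcases hm.eq_or_lt with rfl | hm
    · exact ⟨S, le_rfl, H8.isKleinFour_of_equiv eS.symm inferInstance⟩
    · obtain ⟨a, b, n, h, hb, hc, -⟩ := H9.exists_MC_of_dihedral' eS S.2 hm
      exact ⟨_, H8.sub_le h n, H8.isKleinFour_sub h hb⟩
  -- one class of involutions when all four-subgroups are active
  have key : (∀ U : Subgroup X, U ≤ S → IsKleinFour U → H8.Active U) →
      ∀ x y : X, orderOf x = 2 → orderOf y = 2 → IsConj x y := by
    intro hU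
    rcases hm.eq_or_lt with rfl | hm
    · have h4 : IsKleinFour (S : Subgroup X) := H8.isKleinFour_of_equiv eS.symm inferInstance
      intro x y hx hy
      obtain ⟨s, hs, h1, h2⟩ := H8.exists_isConj_mem_sylow S (k := 1) hx
      obtain ⟨t, ht, h3, h5⟩ := H8.exists_isConj_mem_sylow S (k := 1) hy
      exact h2.symm.trans (((hU S le_rfl h4).four_isConj h4 hs ht
        (H9.ne_one_of_orderOf_two (h1.trans hx)) (H9.ne_one_of_orderOf_two (h3.trans hy))).trans h5)
    · obtain ⟨a, b, n, h, hb, hc, -⟩ := H9.exists_MC_of_dihedral' eS S.2 hm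
      have h' := H8.mc_mul h
      have hab := (H8.mul_self_of_inverts h hc h'.b_mem h'.not_mem).trans hb
      have h1 : ∀ t : X, orderOf t = 2 → IsConj (a ^ 2 ^ n) t := by
        intro t ht
        rcases H8.isConj_cases_two S h ht with h4 | ⟨-, h4⟩ | ⟨-, h4⟩
        · exact h4
        · exact (H8.isConj_z_of_act h hb
            (Or.inl ⟨hb, hU _ (H8.sub_le h n) (H8.isKleinFour_sub h hb)⟩)).trans h4
        · exact (H8.isConj_z_of_act h' hab
            (Or.inl ⟨hab, hU _ (H8.sub_le h' n) (H8.isKleinFour_sub h' hab)⟩)).trans h4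
      exact fun x y hx hy => (h1 x hx).symm.trans (h1 y hy)
  have back : (∀ x y : X, orderOf x = 2 → orderOf y = 2 → IsConj x y) →
      (∀ H : Subgroup X, H.index ≠ 2) ∧ (∀ z : X, ¬ Cfsg.IsIsolatedInvolution z) := by
    intro hc
    obtain ⟨V, -, hV⟩ := four
    obtain ⟨x, hx, y, hy, hx1, hy1, hxy⟩ := H8.four_exists hV
    have hxy1 : x * y ≠ 1 := fun h => hxy (by
      rw [← inv_eq_of_mul_eq_one_right h, inv_eq_of_mul_eq_one_right (H8.four_mul_self hV hx)])
    constructor
    · intro H hH
      have hn : H.Normal := H.normal_of_index_eq_two hH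
      have h1 : ∀ t : X, orderOf t = 2 → t ∈ H := by
        have h2 : ∀ s t : X, orderOf s = 2 → orderOf t = 2 → s ∈ H → t ∈ H := by
          intro s t hs ht hsH
          obtain ⟨g, rfl⟩ := isConj_iff.mp (hc s t hs ht)
          exact hn.conj_mem s hsH g
        intro t ht
        by_cases hxH : x ∈ H
        · exact h2 x t (H8.four_orderOf hV hx hx1) ht hxH
        · refine h2 (x * y) t (H8.four_orderOf hV (mul_mem hx hy) hxy1) ht ?_
          rw [Subgroup.mul_mem_iff_of_index_two hH]
          exact ⟨fun h => absurd h hxH,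
            fun h => h2 y x (H8.four_orderOf hV hy hy1) (H8.four_orderOf hV hx hx1) h⟩
      have h3 : (S : Subgroup X) ≤ H := by
        obtain ⟨a, b, -, hb, hab, hba, hall⟩ := H9.exists_gens_of_equiv_dihedral eS
        have hb' : (b : X) ∈ H := h1 b (by rw [Subgroup.orderOf_coe, hb])
        have hab' : ((a * b : (S : Subgroup X)) : X) ∈ H := h1 _ (by
          rw [Subgroup.orderOf_coe, H9.orderOf_eq_two_iff]
          refine ⟨fun h => hba ?_, ?_⟩
          · rw [← inv_eq_of_mul_eq_one_right h]
            exact inv_mem (Subgroup.mem_zpowers a)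
          · calc a * b * (a * b) = a * (b * a * b⁻¹) * (b * b) := by group
              _ = 1 := by rw [hab, H9.mul_self_of_orderOf_two hb]; simp)
        have ha' : (a : X) ∈ H := (mul_mem_cancel_right hb').mp hab'
        intro s hs
        rcases hall ⟨s, hs⟩ with ⟨k, hk⟩ | ⟨k, hk⟩
        · rw [show s = (a : X) ^ k from congrArg Subtype.val hk]
          exact zpow_mem ha' k
        · rw [show s = (a : X) ^ k * b from congrArg Subtype.val hk]
          exact mul_mem (zpow_mem ha' k) hb'
      exact S.not_dvd_index (hH.symm.dvd.trans (Subgroup.index_dvd_of_le h3))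
    · rintro z ⟨hz, hiso⟩
      obtain ⟨g, rfl⟩ := isConj_iff.mp (hc x z (H8.four_orderOf hV hx hx1) hz)
      obtain ⟨k, hk⟩ := isConj_iff.mp (hc x y (H8.four_orderOf hV hx hx1)
        (H8.four_orderOf hV hy hy1))
      have e : g * k * g⁻¹ * (g * x * g⁻¹) * (g * k * g⁻¹)⁻¹ = g * y * g⁻¹ := by rw [← hk]; group
      have := hiso (g * k * g⁻¹) (by
        rw [e]
        change _ = _
        calc g * x * g⁻¹ * (g * y * g⁻¹) = g * (x * y) * g⁻¹ := by group
          _ = g * y * g⁻¹ * (g * x * g⁻¹) := by rw [H8.four_comm hV hx hy]; group)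
      rw [e] at this
      exact hxy (by simpa using this.symm)
  constructor
  · rintro ⟨h1, -⟩
    left
    have hO := H8.pResidual_two_eq_top_iff.mpr h1
    apply key
    intro U hU hU4
    rcases hm.eq_or_lt with rfl | hm
    · have h4 : IsKleinFour (S : Subgroup X) := H8.isKleinFour_of_equiv eS.symm inferInstance
      by_contra hA
      have hN : HasNormalPComplement 2 X := (H8.hasNormalPComplement_two_iff_not_active S).mpr
        fun Q hQ hA' => hA (by
          rwa [Subgroup.eq_of_le_of_card_ge hU (by rw [h4.card_four, hU4.card_four]),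
            ← hA'.eq_of_le_four h4 hQ])
      rw [H8.hasNormalPComplement_iff_inf_eq_bot S, hO, inf_top_eq] at hN
      have := h4.card_four
      rw [hN] at this
      simp at this
    · obtain ⟨a, b, n, h, hb, hc, -⟩ := H9.exists_MC_of_dihedral' eS S.2 hm
      obtain ⟨w, hw, h2, rfl⟩ := H8.exists_eq_sub_of_isKleinFour h hU4 hU
      have h' := H8.mc_mul hw
      exact (H8.act_iff_of_mul_self_eq_one hw h2).mp (H8.act_of_pResidual_eq_top S hw
        (Or.inl ((H8.mul_self_of_inverts h hc h'.b_mem h'.not_mem).trans hb)) hO)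
  · rintro (h | h)
    · exact back h
    · refine back (key fun U hU hU4 => ?_)
      by_contra hA
      obtain ⟨k, hk⟩ := H8.not_active_iff_relIndex.mp hA
      refine H8.ne_two_pow_of_three_dvd ?_ k hk
      rw [h U hU hU4]
      split_ifs <;> norm_num

end Cfsg.Agent.S1255
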