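import Cfsg.Statements.S1256
import Cfsg.Agent.H8.MCFusion

set_option autoImplicit false
open Cfsg

namespace Cfsg.Agent.S1256

open scoped Pointwise in
theorem aux {X : Type*} [Group X] [Finite X] (S : Sylow 2 X) {a b : X} {n : ℕ}
    (h : H9.MC (S : Subgroup X) a b n) (hb : b * b = 1) (hc : b * a * b⁻¹ = a⁻¹)
    {A : Subgroup X} (hA : A ≤ S) (h4 : IsKleinFour A) {g : X} (hg : MulAut.conj g • A ≤ S) :
    ∃ s ∈ S, MulAut.conj s • A = MulAut.conj g • A := by
  refine H8.alperin_induction S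
    (fun A g => IsKleinFour A → ∃ s ∈ S, MulAut.conj s • A = MulAut.conj g • A) ?_ ?_ ?_ ?_ hA hg h4
  · intro A g k _ _ h1 h2 h3
    obtain ⟨s, hs, h5⟩ := h1 h3
    obtain ⟨t, ht, h6⟩ := h2 (H8.isKleinFour_conj_smul h3 g)
    exact ⟨t * s, mul_mem ht hs, by
      rw [← H8.conj_smul_conj_smul, h5, h6, H8.conj_smul_conj_smul]⟩
  · intro A _ c hc _
    exact ⟨1, one_mem _, by rw [H8.conj_smul_eq_of_mem_centralizer hc]; simp⟩
  · intro A _ s hs _
    exact ⟨s, hs, rfl⟩
  · intro Q hQ _ _ m h1 h2 h3 A hA h5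
    obtain ⟨w, hw, -, ⟨h6, rfl⟩ | ⟨h6, -⟩⟩ :=
      H8.exists_act_of_active h hQ ⟨m, h1, Nat.coprime_two_right.mp h2, h3⟩
    · have : A = H8.sub a n w := Subgroup.eq_of_le_of_card_ge hA
        (by rw [h5.card_four, (H8.isKleinFour_sub hw h6).card_four])
      subst this
      exact ⟨1, one_mem _, by rw [H8.mem_normalizer_iff_conj_smul_eq.mp h1]; simp⟩
    · exact absurd (h6.symm.trans ((H8.mul_self_of_inverts h hc hw.b_mem hw.not_mem).trans hb))
        h.z_ne_one

/-- Let X be a finite group whose Sylow 2-subgroup S is dihedral of order 2m ≥ 4. If |S| = 4, any two Klein four-subgroups of X are conjugate; if |S| > 4, there are Klein four-subgroups U₁, U₂ of X that are not conjugate, and every Klein four-subgroup of X is conjugate to U₁ or to U₂. -/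
theorem result {X : Type*} [Group X] [Finite X] (S : Sylow 2 X) (m : ℕ) (hm : 2 ≤ m) (eS : (S : Subgroup X) ≃* DihedralGroup m) : (Nat.card S = 4 → ∀ U V : Subgroup X, IsKleinFour U → IsKleinFour V → (∃ x : X, U.map (MulAut.conj x).toMonoidHom = V)) ∧ (4 < Nat.card S → ∃ U₁ U₂ : Subgroup X, IsKleinFour U₁ ∧ IsKleinFour U₂ ∧ ¬ (∃ x : X, U₁.map (MulAut.conj x).toMonoidHom = U₂) ∧ ∀ V : Subgroup X, IsKleinFour V → (∃ x : X, V.map (MulAut.conj x).toMonoidHom = U₁) ∨ (∃ x : X, V.map (MulAut.conj x).toMonoidHom = U₂)) := by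
  constructor
  · intro h4 U V hU hV
    have h1 : ∀ U : Subgroup X, IsKleinFour U → H8.IsSylowIn 2 U ⊤ := fun U hU =>
      (H8.isSylowIn_top S).of_card_ge (H8.four_isPGroup hU) le_top (by rw [hU.card_four]; exact h4.le)
    obtain ⟨x, -, hx⟩ := (h1 U hU).exists_conj_eq (h1 V hV)
    exact ⟨x, hx⟩
  · intro h4
    have hm3 : 3 ≤ m := by
      have : Nat.card (S : Subgroup X) = 2 * m := by
        rw [Nat.card_congr eS.toEquiv, DihedralGroup.nat_card]
      have h5 : 4 < Nat.card (S : Subgroup X) := h4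
      omega
    obtain ⟨a, b, n, h, hb, hc, -⟩ := H9.exists_MC_of_dihedral' eS S.2 hm3
    have h' := H8.mc_mul h
    have hab := (H8.mul_self_of_inverts h hc h'.b_mem h'.not_mem).trans hb
    refine ⟨H8.sub a n b, H8.sub a n (a * b), H8.isKleinFour_sub h hb, H8.isKleinFour_sub h' hab,
      ?_, fun V hV => ?_⟩
    · rintro ⟨x, hx⟩
      rw [H8.map_conj_eq_smul] at hx
      obtain ⟨s, hs, h1⟩ := aux S h hb hc (H8.sub_le h n) (H8.isKleinFour_sub h hb) (g := x)
        (hx ▸ H8.sub_le h' n)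
      rw [hx, H8.conj_smul_sub_of_mem h n hs] at h1
      have h2 := (H8.exists_conj_iff h).mp ⟨s, hs, rfl⟩
      exact H8.mul_not_mem_sub h (H8.sub_le_iff.mpr ⟨H8.pow_mem_sub_of_le a h.one_le b, h2.1⟩
        (h1.ge (H8.self_mem_sub _ _ _)))
    · obtain ⟨g, -, hg⟩ := (H8.isSylowIn_top S).exists_conj_le (H8.four_isPGroup hV) le_top
      obtain ⟨w, hw, -, h1⟩ := H8.exists_eq_sub_of_isKleinFour h (H8.isKleinFour_conj_smul hV g) hg
      rcases H8.outer_cases h hw.b_mem hw.not_mem with ⟨s, hs, rfl⟩ | ⟨s, hs, rfl⟩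
      · left
        rw [← H8.conj_smul_sub_of_mem h n hs] at h1
        exact ⟨s⁻¹ * g, by
          rw [H8.map_conj_eq_smul, ← H8.conj_smul_conj_smul, h1, H8.conj_inv_smul_conj_smul]⟩
      · right
        rw [← H8.conj_smul_sub_of_mem h' n hs] at h1
        exact ⟨s⁻¹ * g, by
          rw [H8.map_conj_eq_smul, ← H8.conj_smul_conj_smul, h1, H8.conj_inv_smul_conj_smul]⟩

end Cfsg.Agent.S1256
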