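import Cfsg.Statements.S1271
import Cfsg.Agent.H52.Balance

set_option autoImplicit false
open Cfsg

namespace Cfsg.Agent.S1271

/-- Let G be finite with O_{p'}(G) = 1. Suppose that for every component L of G and every subgroup H ≥ L in which L is normal, the quotient H / C_H(L) is balanced for the prime p. Then G is balanced for p. -/
theorem result {G : Type*} [Group G] [Finite G] (p : ℕ) [Fact p.Prime] (hO : Cfsg.pPrimeCore p G = ⊥) (h : ∀ L : Subgroup G, Cfsg.IsComponent L → ∀ H : Subgroup G, L ≤ H → (L.subgroupOf H).Normal → ∀ [((Subgroup.centralizer (L : Set G)).subgroupOf H).Normal], Cfsg.IsBalancedFor p (↥H ⧸ (Subgroup.centralizer (L : Set G)).subgroupOf H)) : Cfsg.IsBalancedFor p G := by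
  intro x hx
  rw [hO, le_bot_iff]
  have hxp := H52.isPGroup_zpowers_of_orderOf_eq_prime hx
  have hc := H52.commutator_Opp_centralizer_pCore hxp
  have hn := fun L hL => H52.Opp_centralizer_le_normalizer hO hxp (L := L) hL
  rw [H52.centralizer_zpowers] at hc hn
  refine H52.eq_bot_of_commutator_components hO (H52.coprime_card_map_pPrimeCore_subtype _) hc
    fun L hL => ?_
  by_cases hne : ⁅L, Subgroup.zpowers x⁆ = L
  swap
  · exact H52.IsComponent.commutator_Opp_centralizer_of_ne hO hx hL hne
  set Y := H52.Opp p (Subgroup.centralizer ({x} : Set G))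
  have hxN := H52.mem_normalizer_of_commutator_zpowers_eq hne
  have hxC := H52.not_mem_centralizer_of_commutator_zpowers_eq (H52.IsComponent.ne_bot hL) hne
  have hW : Subgroup.zpowers x ⊔ Y ≤ Subgroup.normalizer (L : Set G) :=
    sup_le (Subgroup.zpowers_le.mpr hxN) (hn L hL)
  have hH : L ⊔ (Subgroup.zpowers x ⊔ Y) ≤ Subgroup.normalizer (L : Set G) :=
    sup_le Subgroup.le_normalizer hW
  have hCn : ((Subgroup.centralizer (L : Set G)).subgroupOf (L ⊔ (Subgroup.zpowers x ⊔ Y))).Normal :=
    Subgroup.normal_subgroupOf_of_le_normalizer (hH.trans (H52.normalizer_le_normalizer_centralizer L))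
  have hLn : (L.subgroupOf (L ⊔ (Subgroup.zpowers x ⊔ Y))).Normal :=
    Subgroup.normal_subgroupOf_of_le_normalizer hH
  have hb := h L hL _ le_sup_left hLn
  set f := QuotientGroup.mk' ((Subgroup.centralizer (L : Set G)).subgroupOf
    (L ⊔ (Subgroup.zpowers x ⊔ Y)))
  have hk : ∀ h, f h = 1 → (h : G) ∈ Subgroup.centralizer (L : Set G) := fun h hh =>
    (QuotientGroup.eq_one_iff h).mp hh
  have h1 := H52.map_Opp_le_centralizerPPrimeCore hO hL hW
    (Subgroup.mem_sup_left (Subgroup.mem_zpowers x)) hxp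
    (sup_le (Subgroup.zpowers_le.mpr (H52.mem_centralizer_singleton_iff'.mpr rfl)) (H52.Opp_le _))
    f (QuotientGroup.mk'_surjective _) hk
  have h2 := h1.trans (hb _ (orderOf_eq_prime (by
    rw [← map_pow]
    have : (⟨x, Subgroup.mem_sup_right (Subgroup.mem_sup_left (Subgroup.mem_zpowers x))⟩ :
      (L ⊔ (Subgroup.zpowers x ⊔ Y) : Subgroup G)) ^ p = 1 :=
        Subtype.ext (by rw [← hx]; exact pow_orderOf_eq_one x)
    rw [this, map_one]) fun e => hxC (hk _ e)))
  have hLq : IsQuasisimple (L.subgroupOf (L ⊔ (Subgroup.zpowers x ⊔ Y))) :=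
    (H52.isQuasisimple_subgroupOf_iff le_sup_left).mpr hL.2
  have hne' : (L.subgroupOf (L ⊔ (Subgroup.zpowers x ⊔ Y))).map f ≠ ⊥ := by
    intro e
    rw [Subgroup.map_eq_bot_iff] at e
    exact H52.IsComponent.not_le_centralizer hL fun l hl =>
      hk ⟨l, Subgroup.mem_sup_left hl⟩ (e hl)
  have hLc : IsComponent ((L.subgroupOf (L ⊔ (Subgroup.zpowers x ⊔ Y))).map f) :=
    H52.IsComponent.map_of_surjective (H52.IsComponent.subgroupOf hL le_sup_left)
      (QuotientGroup.mk'_surjective _) hne'
  have hd : p ∣ Nat.card ((L.subgroupOf (L ⊔ (Subgroup.zpowers x ⊔ Y))).map f) := by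
    rw [H3.card_map_mk', Subgroup.relIndex_subgroupOf le_sup_left]
    exact H52.IsQuasisimple.dvd_relIndex_centralizer hL.2
      (H52.IsComponent.dvd_card_of_pPrimeCore_eq_bot hO hL)
  have h3 := (H52.IsComponent.le_or_commutator_eq_bot_of_normal hLc (pPrimeCore p _)).resolve_left
    ((H52.IsQuasisimple.isPQS hLc.2 hd).not_le_of_coprime H52.coprime_card_pPrimeCore)
  have h4 := H52.commutator_le_of_map_commutator_eq_bot
    (H52.commutator_eq_bot_symm (H52.commutator_eq_bot_mono h3 le_rfl h2))
  refine H52.commutator_eq_bot_symm (H52.commutator_eq_bot_of_commutator_le_centralizer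
    (H52.IsComponent.commutator_self hL) ?_)
  have h5 := Subgroup.map_mono (f := Subgroup.subtype _) h4
  rw [Subgroup.map_commutator, Subgroup.map_subgroupOf_eq_of_le le_sup_left,
    Subgroup.map_subgroupOf_eq_of_le (le_sup_of_le_right le_sup_right),
    Subgroup.subgroupOf_map_subtype] at h5
  exact h5.trans inf_le_left

end Cfsg.Agent.S1271
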