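import Cfsg.Statements.S1273
import Cfsg.Agent.H52.PComponent

set_option autoImplicit false
open Cfsg

namespace Cfsg.Agent.S1273

/-- Let K be a p-component of the finite group X and N a normal subgroup of K whose index in K is prime to p. Then N = K. -/
theorem result {X : Type*} [Group X] [Finite X] (p : ℕ) [Fact p.Prime] (K : Subgroup X) (hK : Cfsg.IsPComponent p K) (N : Subgroup ↥K) [N.Normal] (hidx : (N.index).Coprime p) : N = ⊤ := by
  have h1 : pElementClosure p K ≤ N.map K.subtype := by
    refine H52.pElementClosure_le_of_coprime_relIndex (H52.le_normalizer_map_subtype N) ?_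
    rwa [Subgroup.relIndex, Subgroup.subgroupOf,
      Subgroup.comap_map_eq_self_of_injective K.subtype_injective]
  rw [H52.IsPComponent.pElementClosure_eq hK] at h1
  rw [eq_top_iff]
  intro x _
  obtain ⟨y, hy, hxy⟩ := h1 x.2
  rwa [← Subtype.ext hxy]

end Cfsg.Agent.S1273
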