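import Cfsg.Statements.S1278
import Cfsg.Agent.H52.PComponent

set_option autoImplicit false
open Cfsg

namespace Cfsg.Agent.S1278

/-- Let K ≠ L be 2-components of the finite group X. Then ⁅K, L⁆ ≤ O(K) ⊓ O(L), and if K is quasisimple then ⁅K, L⁆ = 1. -/
theorem result {X : Type*} [Group X] [Finite X] (K L : Subgroup X) (hK : Cfsg.IsPComponent 2 K) (hL : Cfsg.IsPComponent 2 L) (hne : K ≠ L) : ⁅K, L⁆ ≤ ((Cfsg.oddCore ↥K).map K.subtype) ⊓ ((Cfsg.oddCore ↥L).map L.subtype) ∧ (Cfsg.IsQuasisimple ↥K → ⁅K, L⁆ = ⊥) := by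
  have h1 := H52.IsPComponent.commutator_le_of_ne hK hL hne
  have h2 : ⁅K, L⁆ ≤ K ⊓ L := H52.commutator_le_inf_of_normalizer
    ((H52.IsPComponent.le_pLayer hK).trans (H52.IsPComponent.pLayer_le_normalizer hL))
    ((H52.IsPComponent.le_pLayer hL).trans (H52.IsPComponent.pLayer_le_normalizer hK))
  refine ⟨?_, fun hq => ?_⟩
  · rw [H52.map_pPrimeCore_subtype_of_subnormal hK.1, H52.map_pPrimeCore_subtype_of_subnormal hL.1]
    exact le_inf (le_inf h1 (h2.trans inf_le_left)) (le_inf h1 (h2.trans inf_le_right))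
  · exact (H52.IsComponent.le_or_commutator_eq_bot ⟨hK.1, hq⟩ hL.1).resolve_left
      fun hle => hne (H52.IsPComponent.eq_of_le hK hL hle)

end Cfsg.Agent.S1278
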