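import Cfsg.Statements.S1281
import Cfsg.Agent.H55.Basic
-- import your own Cfsg.Agent.* helpers here

set_option autoImplicit false
open Cfsg
open scoped commutatorElement

namespace Cfsg.Agent.S1281

/-- Let θ be a solvable A-signalizer functor on the finite group G (A a noncyclic elementary abelian p-subgroup) and N a normal subgroup of order prime to p. Then for all non-identity a, b ∈ A, the image of θ a in G / N meets the centralizer of the image of b inside the image of θ b. -/
theorem result {G : Type*} [Group G] [Finite G] (p : ℕ) [Fact p.Prime] (A : Subgroup G) (hA : Cfsg.IsElementaryAbelian p A) (hA2 : p ^ 2 ≤ Nat.card ↥A) (θ : G → Subgroup G) (hθ : Cfsg.IsSolvableSignalizerFunctor p A θ) (N : Subgroup G) [N.Normal] (hN : ¬ p ∣ Nat.card ↥N) (a b : G) (ha : a ∈ A) (ha1 : a ≠ 1) (hb : b ∈ A) (hb1 : b ≠ 1) : (θ a).map (QuotientGroup.mk' N) ⊓ Subgroup.centralizer {QuotientGroup.mk' N b} ≤ (θ b).map (QuotientGroup.mk' N) := by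
  rintro _ ⟨⟨x, hx, rfl⟩, hc⟩
  have hz : Subgroup.zpowers b ≤ A := Subgroup.zpowers_le.mpr hb
  have hAa := H55.SF.norm hθ.1 ha ha1
  have hcomm : ∀ c ∈ Subgroup.zpowers b, ⁅c, x⁆ ∈ θ a ⊓ N := by
    intro c hc'
    refine ⟨?_, ?_⟩
    · rw [commutatorElement_def]
      exact (θ a).mul_mem (H4.conj_mem_of_mem_normalizer (hAa (hz hc')) hx) ((θ a).inv_mem hx)
    · obtain ⟨k, rfl⟩ := hc'
      have h1 : Commute (QuotientGroup.mk' N b) (QuotientGroup.mk' N x) :=
        (Subgroup.mem_centralizer_singleton_iff.mp hc).symm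
      have h2 : QuotientGroup.mk' N ⁅b ^ k, x⁆ = 1 := by
        rw [map_commutatorElement, map_zpow]
        exact commutatorElement_eq_one_iff_commute.mpr (h1.zpow_left k)
      exact (QuotientGroup.eq_one_iff _).mp h2
  obtain ⟨n, hn, hnx⟩ := H4.exists_centralizer_of_fixed_mod (A := Subgroup.zpowers b)
    (N := θ a ⊓ N) (H4.le_normalizer_inf (hz.trans hAa) (by rw [Subgroup.normalizer_eq_top]; exact le_top))
    (H55.ea_coprime (H55.ea_mono hA hz) (H55.not_dvd_card_of_le inf_le_right hN))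
    (Or.inl (H55.ea_solvable (H55.ea_mono hA hz))) hcomm
  rw [H52.centralizer_zpowers] at hnx
  refine ⟨n * x, H55.SF.bal hθ.1 ha ha1 hb hb1 ⟨(θ a).mul_mem hn.1 hx, hnx⟩, ?_⟩
  rw [map_mul, (QuotientGroup.eq_one_iff n).mpr hn.2 |> (show QuotientGroup.mk' N n = 1 from ·), one_mul]

end Cfsg.Agent.S1281
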