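import Cfsg.Statements.S1286
import Cfsg.Agent.H55.Basic
-- import your own Cfsg.Agent.* helpers here

set_option autoImplicit false
open Cfsg

namespace Cfsg.Agent.S1286

/-- There exist a finite group X, an elementary abelian subgroup A of order 4 and a solvable A-signalizer functor θ on X for the prime 2 which is not complete. -/
theorem result : ∃ (X : Type) (_ : Group X) (_ : Finite X) (A : Subgroup X) (θ : X → Subgroup X), Cfsg.IsElementaryAbelian 2 A ∧ Nat.card ↥A = 4 ∧ Cfsg.IsSolvableSignalizerFunctor 2 A θ ∧ ¬ Cfsg.IsCompleteSignalizerFunctor 2 A θ := by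
  let s : Equiv.Perm (Fin 5) := Equiv.swap 3 4
  let t : Equiv.Perm (Fin 5) := Equiv.swap 0 1
  let x : Equiv.Perm (Fin 5) := Equiv.swap 0 2 * Equiv.swap 0 1
  let y : Equiv.Perm (Fin 5) := Equiv.swap 2 4 * Equiv.swap 2 3
  let A : Subgroup (Equiv.Perm (Fin 5)) :=
    { carrier := (({1, s, t, s * t} : Finset (Equiv.Perm (Fin 5))) : Set (Equiv.Perm (Fin 5)))
      one_mem' := by simp
      mul_mem' := by
        intro a b ha hb
        simp only [Finset.coe_insert, Finset.coe_singleton, Set.mem_insert_iff,
          Set.mem_singleton_iff] at ha hb ⊢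
        rcases ha with rfl | rfl | rfl | rfl <;> rcases hb with rfl | rfl | rfl | rfl <;> decide
      inv_mem' := by
        intro a ha
        simp only [Finset.coe_insert, Finset.coe_singleton, Set.mem_insert_iff,
          Set.mem_singleton_iff] at ha ⊢
        rcases ha with rfl | rfl | rfl | rfl <;> decide }
  have hA : ∀ a, a ∈ A ↔ a = 1 ∨ a = s ∨ a = t ∨ a = s * t := fun a => by
    show a ∈ (({1, s, t, s * t} : Finset (Equiv.Perm (Fin 5))) : Set (Equiv.Perm (Fin 5))) ↔ _
    simp
  have hz : ∀ u g : Equiv.Perm (Fin 5), u ^ 3 = 1 → u ≠ 1 →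
      (g ∈ Subgroup.zpowers u ↔ g = 1 ∨ g = u ∨ g = u * u) := by
    intro u g h3 h1
    have := Fact.mk Nat.prime_three
    rw [mem_zpowers_iff_mem_range_orderOf, orderOf_eq_prime h3 h1]
    simp [Finset.range_add_one, pow_two, eq_comm, or_comm, or_left_comm, or_assoc]
  have hx := fun g => hz x g (by decide) (by decide)
  have hy := fun g => hz y g (by decide) (by decide)
  have h3 := Fact.mk Nat.prime_three
  let θ : Equiv.Perm (Fin 5) → Subgroup (Equiv.Perm (Fin 5)) := fun a =>
    if a = s then Subgroup.zpowers x else if a = t then Subgroup.zpowers y else ⊥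
  have hs : θ s = Subgroup.zpowers x := if_pos rfl
  have ht : θ t = Subgroup.zpowers y := by
    show (if t = s then _ else if t = t then _ else _) = _
    rw [if_neg (by decide), if_pos rfl]
  have hst : θ (s * t) = ⊥ := by
    show (if s * t = s then _ else if s * t = t then _ else _) = _
    rw [if_neg (by decide), if_neg (by decide)]
  refine ⟨Equiv.Perm (Fin 5), inferInstance, inferInstance, A, θ, ⟨H7.isMulCommutative_of_forall ?_, ?_⟩,
    ?_, ⟨⟨?_, ?_, ?_, ?_⟩, ?_⟩, ?_⟩
  · intro a ha b hb
    rcases (hA a).mp ha with rfl | rfl | rfl | rfl <;> rcases (hA b).mp hb with rfl | rfl | rfl | rfl <;>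
      decide
  · intro a ha
    rcases (hA a).mp ha with rfl | rfl | rfl | rfl <;> decide
  · exact (Nat.card_eq_finsetCard ({1, s, t, s * t} : Finset (Equiv.Perm (Fin 5)))).trans (by decide)
  · intro a ha ha1
    rcases (hA a).mp ha with rfl | rfl | rfl | rfl
    · exact absurd rfl ha1
    · rw [hs, Subgroup.zpowers_le, Subgroup.mem_centralizer_singleton_iff]; decide
    · rw [ht, Subgroup.zpowers_le, Subgroup.mem_centralizer_singleton_iff]; decide
    · rw [hst]; exact bot_le
  · intro a ha ha1
    rcases (hA a).mp ha with rfl | rfl | rfl | rfl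
    · exact absurd rfl ha1
    · rw [hs, Nat.card_zpowers, orderOf_eq_prime (p := 3) (by decide) (by decide)]; decide
    · rw [ht, Nat.card_zpowers, orderOf_eq_prime (p := 3) (by decide) (by decide)]; decide
    · rw [hst]; simp
  · intro a ha ha1 b hb g hg
    rcases (hA a).mp ha with rfl | rfl | rfl | rfl
    · exact absurd rfl ha1
    · rw [hs, hx] at hg ⊢
      rcases (hA b).mp hb with rfl | rfl | rfl | rfl <;> rcases hg with rfl | rfl | rfl <;> decide
    · rw [ht, hy] at hg ⊢
      rcases (hA b).mp hb with rfl | rfl | rfl | rfl <;> rcases hg with rfl | rfl | rfl <;> decide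
    · rw [hst] at hg ⊢
      simpa using hg
  · intro a ha ha1 b hb hb1 g hg
    rw [Subgroup.mem_inf, Subgroup.mem_centralizer_singleton_iff] at hg
    obtain ⟨hg, hc⟩ := hg
    by_cases hab : a = b
    · exact hab ▸ hg
    have : g = 1 := by
      rcases (hA a).mp ha with rfl | rfl | rfl | rfl
      · exact absurd rfl ha1
      · rw [hs, hx] at hg
        revert hab hc hb1
        rcases (hA b).mp hb with rfl | rfl | rfl | rfl <;> rcases hg with rfl | rfl | rfl <;> decide
      · rw [ht, hy] at hg
        revert hab hc hb1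
        rcases (hA b).mp hb with rfl | rfl | rfl | rfl <;> rcases hg with rfl | rfl | rfl <;> decide
      · rw [hst] at hg
        simpa using hg
    rw [this]; exact one_mem _
  · intro a ha ha1
    rcases (hA a).mp ha with rfl | rfl | rfl | rfl
    · exact absurd rfl ha1
    · rw [hs]; exact H3.isSolvable_of_isMulCommutative
    · rw [ht]; exact H3.isSolvable_of_isMulCommutative
    · rw [hst]; infer_instance
  · rintro ⟨-, X, -, hX, h⟩
    have h1 : x ∈ X := by
      have := h s ((hA s).mpr (by simp)) (by decide)
      exact (this.ge.trans inf_le_left) (hs ▸ Subgroup.mem_zpowers x)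
    have h2 : y ∈ X := by
      have := h t ((hA t).mpr (by simp)) (by decide)
      exact (this.ge.trans inf_le_left) (ht ▸ Subgroup.mem_zpowers y)
    have h4 : x * y * x * y * y ∈ X :=
      X.mul_mem (X.mul_mem (X.mul_mem (X.mul_mem h1 h2) h1) h2) h2
    have h5 := X.orderOf_dvd_natCard h4
    rw [orderOf_eq_prime (p := 2) (by decide) (by decide)] at h5
    exact hX h5

end Cfsg.Agent.S1286
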