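import Cfsg.Statements.S1297
import Cfsg.Agent.H52.Balance

set_option autoImplicit false
open Cfsg

namespace Cfsg.Agent.S1297

/-- Let G be finite. Suppose that for every involution x, writing C = C_G(x), every component K of C / O(C) has K / Z(K) locally balanced. Then G is balanced. -/
theorem result {G : Type*} [Group G] [Finite G] (h : ∀ x : G, orderOf x = 2 → ∀ K : Subgroup (↥(Subgroup.centralizer ({x} : Set G)) ⧸ Cfsg.oddCore ↥(Subgroup.centralizer ({x} : Set G))), Cfsg.IsComponent K → Cfsg.IsLocallyBalanced (↥K ⧸ Subgroup.center ↥K)) : Cfsg.IsBalanced G := by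
  have : Fact (Nat.Prime 2) := ⟨Nat.prime_two⟩
  have key : ∀ x y : G, orderOf x = 2 → orderOf y = 2 → x * y = y * x →
      centralizerPPrimeCore 2 x ⊓ Subgroup.centralizer {y} ≤
        centralizerPPrimeCore 2 y ⊓ Subgroup.centralizer {x} := by
    intro x y hx hy hxy
    refine le_inf ?_ (inf_le_left.trans (H52.Opp_le _))
    have hA : IsElementaryAbelian 2 (Subgroup.zpowers x) := ⟨inferInstance, fun a ha => by
      rw [← hx, ← Nat.card_zpowers]; exact H4.pow_card_eq_one_of_mem ha⟩
    refine le_trans (inf_le_inf_right _ ?_) (H52.signalizerDelta_inf_le_Opp (k := 1) le_rfl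
      (fun L hL => H52.kBal_of_isLocallyKBalanced_quotient H52.pPrimeCore_quotient_pPrimeCore hL
        (H52.isLocallyKBalanced_one_of_isLocallyBalanced (h y hy L hL)))
      (Subgroup.zpowers_le.mpr (H52.mem_centralizer_singleton_iff'.mpr hxy.symm)) hA
      (by rw [Nat.card_zpowers, hx, pow_one]))
    refine le_iInf ?_
    rintro ⟨a, ha, ha1⟩
    obtain rfl := (H52.zpowers_cases_of_orderOf_eq_two hx ha).resolve_left ha1
    exact le_rfl
  intro x y hx hy hxy
  exact le_antisymm (key x y hx hy hxy) (key y x hy hx hxy.symm)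

end Cfsg.Agent.S1297
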