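import Cfsg.Statements.S1299
import Cfsg.Agent.H55.Balance
-- import your own Cfsg.Agent.* helpers here

set_option autoImplicit false
open Cfsg

namespace Cfsg.Agent.S1299

/-- Let G be finite and k-balanced for the prime p (k ≥ 1), A an elementary abelian p-subgroup of order at least p^(k+2) such that O_{p'}(C_G(a)) is solvable for every non-identity a ∈ A. For a ∈ A put θ a = the subgroup generated by the Δ_G(D) ∩ C_G(a) over the subgroups D ≤ A of order p^k. Then θ is an A-signalizer functor. -/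
theorem result {G : Type*} [Group G] [Finite G] (p k : ℕ) [Fact p.Prime] (hk : 1 ≤ k) (hbal : Cfsg.IsKBalanced p k G) (A : Subgroup G) (hA : Cfsg.IsElementaryAbelian p A) (hAk : p ^ (k + 2) ≤ Nat.card ↥A) (hsolv : ∀ a ∈ A, a ≠ 1 → Group.IsSolvable ↥(Cfsg.centralizerPPrimeCore p a)) : Cfsg.IsSignalizerFunctor p A (fun a => ⨆ D : {D : Subgroup G // D ≤ A ∧ Nat.card ↥D = p ^ k}, Cfsg.signalizerDelta p (D : Subgroup G) ⊓ Subgroup.centralizer {a}) := by
  have hne : A ≠ ⊥ := H55.ne_bot_of_pow_le_card (by omega) hAk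
  have hbal' : ∀ B ≤ A, p ^ k ≤ Nat.card B → ∀ a ∈ A, a ≠ 1 →
      signalizerDelta p B ⊓ Subgroup.centralizer {a} ≤ centralizerPPrimeCore p a := by
    intro B hB hBn a ha ha1
    obtain ⟨D, hD, hc⟩ := H55.exists_le_card_eq (H55.ea_isPGroup (H55.ea_mono hA hB)) hBn
    exact (inf_le_inf_right _ (H55.delta_anti hD)).trans
      (hbal D (H55.ea_mono hA (hD.trans hB)) hc a (H55.ea_orderOf hA ha ha1)
        fun d hd => H55.ea_comm hA (hB (hD hd)) ha)
  have hle : ∀ a ∈ A, a ≠ 1 → (⨆ D : {D : Subgroup G // D ≤ A ∧ Nat.card ↥D = p ^ k},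
      Cfsg.signalizerDelta p (D : Subgroup G) ⊓ Subgroup.centralizer {a}) ≤
      centralizerPPrimeCore p a := fun a ha ha1 =>
    iSup_le fun D => hbal' D D.2.1 D.2.2.ge a ha ha1
  have hnorm : ∀ a ∈ A, A ≤ Subgroup.normalizer
      ((⨆ D : {D : Subgroup G // D ≤ A ∧ Nat.card ↥D = p ^ k},
      Cfsg.signalizerDelta p (D : Subgroup G) ⊓ Subgroup.centralizer {a} : Subgroup G) : Set G) :=
    fun a ha => H55.le_normalizer_iSup fun D => H4.le_normalizer_inf (H55.delta_norm hA D.2.1)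
      (H55.ea_le_normalizer_centralizer_singleton hA ha)
  refine H55.sf_mk (fun a _ _ => iSup_le fun _ => inf_le_right)
    (fun a ha ha1 => H55.not_dvd_card_of_le (hle a ha ha1) (H55.core_not_dvd a))
    (fun a ha _ => hnorm a ha) fun a ha ha1 b hb hb1 => ?_
  refine H55.gen_hyp hA hne (H55.not_dvd_card_of_le (inf_le_left.trans (hle a ha ha1))
    (H55.core_not_dvd a)) (H4.le_normalizer_inf (hnorm a ha)
      (H55.ea_le_normalizer_centralizer_singleton hA hb)) fun H hH => ?_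
  have h1 := H55.kbal_fix (U := ⨆ D : {D : Subgroup G // D ≤ A ∧ Nat.card ↥D = p ^ k},
      Cfsg.signalizerDelta p (D : Subgroup G) ⊓ Subgroup.centralizer {a})
    hA hne (by rwa [← pow_add]) hbal' (H55.core_not_dvd a) (hsolv a ha ha1) (H55.core_norm hA ha)
    (fun V hV => iSup_le fun D => (le_inf (hbal' D D.2.1 D.2.2.ge a ha ha1) inf_le_left).trans
      (hV D D.2.1 D.2.2.ge)) hH
  obtain ⟨D, hD, hc⟩ := H55.exists_le_card_eq (k := k) (H55.ea_isPGroup (H55.ea_mono hA hH.le))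
    ((Nat.pow_le_pow_right (Fact.out : p.Prime).pos (Nat.le_succ k)).trans (hH.pow_le hAk))
  refine le_trans (le_inf ?_ (inf_le_left.trans inf_le_right))
    (le_iSup (fun D : {D : Subgroup G // D ≤ A ∧ Nat.card ↥D = p ^ k} =>
      Cfsg.signalizerDelta p (D : Subgroup G) ⊓ Subgroup.centralizer {b}) ⟨D, hD.trans hH.le, hc⟩)
  exact ((inf_le_inf_right _ inf_le_left).trans h1).trans (H55.delta_anti hD)

end Cfsg.Agent.S1299
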