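import Cfsg.Statements.S1300
import Cfsg.Agent.H55.Balance
-- import your own Cfsg.Agent.* helpers here

set_option autoImplicit false
open Cfsg

namespace Cfsg.Agent.S1300

/-- For a finite group G, balance in the sense of commuting involutions is the same as 1-balance for the prime 2. -/
theorem result {G : Type*} [Group G] [Finite G] : Cfsg.IsBalanced G ↔ Cfsg.IsKBalanced 2 1 G := by
  constructor
  · intro h A hA hc b hb hab
    obtain ⟨a, ha, ha1⟩ := H55.exists_ne_one_of_ne_bot
      (H55.ne_bot_of_pow_le_card (k := 1) one_ne_zero hc.ge)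
    refine (inf_le_inf_right _ (H55.delta_le ha ha1)).trans ?_
    rw [h a b (H55.ea_orderOf hA ha ha1) hb (hab a ha)]
    exact inf_le_left
  · intro h
    have key : ∀ x y : G, orderOf x = 2 → orderOf y = 2 → x * y = y * x →
        Cfsg.centralizerPPrimeCore 2 x ⊓ Subgroup.centralizer {y} ≤
          Cfsg.centralizerPPrimeCore 2 y ⊓ Subgroup.centralizer {x} := by
      intro x y hx hy hxy
      have hx2 : x ^ 2 = 1 := hx ▸ pow_orderOf_eq_one x
      have hx1 : x ≠ 1 := by rintro rfl; simp at hx
      have := h (Subgroup.zpowers x) (H55.ea_zpowers hx2) (by rw [Nat.card_zpowers, hx]; rfl) y hy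
        (by rintro _ ⟨k, rfl⟩; exact (Commute.zpow_left hxy k).eq)
      rw [H55.delta_zpowers hx2 hx1] at this
      exact le_inf this (inf_le_left.trans (H55.core_le_centralizer x))
    exact fun x y hx hy hxy => le_antisymm (key x y hx hy hxy) (key y x hy hx hxy.symm)

end Cfsg.Agent.S1300
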