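import Cfsg.Statements.S1302
import Cfsg.Agent.H55.BenderOmega
-- import your own Cfsg.Agent.* helpers here

set_option autoImplicit false
open Cfsg

namespace Cfsg.Agent.S1302

/-- Let X be a finite p-constrained group, p an odd prime, and A an abelian p-subgroup of X containing every element of order p of C_X(A). Then every subgroup of X of order prime to p that is normalized by A lies in O_{p'}(X). -/
theorem result {X : Type*} [Group X] [Finite X] (p : ℕ) [Fact p.Prime] (hp : p ≠ 2) (hX : Cfsg.IsPConstrained p X) (A : Subgroup X) (hA : IsMulCommutative ↥A) (hAp : IsPGroup p ↥A) (hΩ : ∀ x ∈ Subgroup.centralizer (A : Set X), orderOf x = p → x ∈ A) (Q : Subgroup X) (hQ : ¬ p ∣ Nat.card ↥Q) (hAQ : A ≤ Subgroup.normalizer (Q : Set X)) : Q ≤ Cfsg.pPrimeCore p X := by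
  have hpp : p.Prime := Fact.out
  set f := QuotientGroup.mk' (Cfsg.pPrimeCore p X) with hf
  have hk : (Nat.card f.ker).Coprime p := by
    rw [hf, QuotientGroup.ker_mk']; exact H3.pPrimeCore_coprime p X
  have hs : Function.Surjective f := QuotientGroup.mk'_surjective _
  have hQ' : ¬ p ∣ Nat.card (Q.map f) := fun h => hQ (h.trans (Q.card_map_dvd f))
  have hAQ' : A.map f ≤ Subgroup.normalizer (Q.map f : Set _) :=
    (Subgroup.map_mono hAQ).trans (Subgroup.le_normalizer_map f)
  have hP := H3.pCore_isPGroup p (X ⧸ Cfsg.pPrimeCore p X)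
  have hn : ∀ B : Subgroup (X ⧸ Cfsg.pPrimeCore p X),
      B ≤ Subgroup.normalizer (Cfsg.pCore p (X ⧸ Cfsg.pPrimeCore p X) : Set _) := fun B => by
    rw [Subgroup.normalizer_eq_top]; exact le_top
  have h1 := H55.bender_omega hp (hAp.map f) hQ' hAQ' _ hP (hn _) (hn _) (by
    intro y hy hyp
    have hyA : y ∈ A.map f := by
      have h2 := hy.2
      rw [H6.centralizer_map_of_coprime_ker hs hk hAp] at h2
      obtain ⟨x, hx, rfl⟩ := h2
      obtain ⟨b, hb, hfb, j, hj⟩ := H51.exists_pelt_lift (p := p) f x (k := 1) (by simpa using hyp)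
      have hb1 : b ^ p = 1 := by
        have h3 : b ^ p ∈ f.ker ⊓ Subgroup.zpowers b :=
          ⟨MonoidHom.mem_ker.mpr (by rw [map_pow, hfb, hyp]),
            Subgroup.npow_mem_zpowers b p⟩
        have h4 : IsPGroup p (Subgroup.zpowers b) := by
          rintro ⟨_, k, rfl⟩
          refine ⟨j, Subtype.ext ?_⟩
          show (b ^ k) ^ p ^ j = 1
          rw [← zpow_natCast, ← zpow_mul, mul_comm, zpow_mul, zpow_natCast, hj, one_zpow]
        rw [inf_comm, H3.inf_eq_bot_of_isPGroup_of_coprime h4 hk] at h3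
        exact h3
      by_cases hb0 : b = 1
      · rw [← hfb, hb0, map_one]; exact one_mem _
      · exact ⟨b, hΩ b (Subgroup.zpowers_le.mpr hx hb) (orderOf_eq_prime hb1 hb0), hfb⟩
    have h5 : ⁅Subgroup.zpowers y, Q.map f⁆ ≤ ⊥ := by
      rw [← H55.inf_eq_bot_of_not_dvd hP hQ']
      exact le_inf ((Subgroup.commutator_mono (Subgroup.zpowers_le.mpr hy.1) le_rfl).trans
        (H55.commutator_le_left' (hn _)))
        (H55.commutator_le_right' ((Subgroup.zpowers_le.mpr hyA).trans hAQ'))
    exact Subgroup.commutator_eq_bot_iff_le_centralizer.mp (le_bot_iff.mp h5)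
      (Subgroup.mem_zpowers y))
  have h2 := (Subgroup.le_centralizer_iff.mp h1).trans (H51.isPConstrained_iff.mp hX)
  have h3 := H55.eq_bot_of_isPGroup_of_not_dvd (hP.to_le h2) hQ'
  rwa [Subgroup.map_eq_bot_iff, hf, QuotientGroup.ker_mk'] at h3

end Cfsg.Agent.S1302
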