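import Cfsg.Statements.S1303
import Cfsg.Agent.H77.PSL2
import Cfsg.Agent.H51.Constraint

set_option autoImplicit false
open Cfsg

namespace Cfsg.Agent.S1303

open Cfsg.Agent.H77

lemma aux_mul : ∀ a b c d a' b' c' d' : ZMod 3, a * d - b * c = 1 → a' * d' - b' * c' = 1 →
    ((b = 0 ∧ c = 0 ∧ a = d) ∨ a + d = 0) → ((b' = 0 ∧ c' = 0 ∧ a' = d') ∨ a' + d' = 0) →
    ((a * b' + b * d' = 0 ∧ c * a' + d * c' = 0 ∧ a * a' + b * c' = c * b' + d * d') ∨
      a * a' + b * c' + (c * b' + d * d') = 0) := by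
  decide +kernel

instance factThree : Fact (Nat.Prime 3) := ⟨Nat.prime_three⟩

/-- the quaternion subgroup -/
def Q8 : Subgroup (SL2 (ZMod 3)) where
  carrier := {g | IsScal (g : M2 (ZMod 3)) ∨ (g : M2 (ZMod 3)).trace = 0}
  mul_mem' := by
    intro g h hg hh
    have d1 := g.det_coe
    have d2 := h.det_coe
    rw [Matrix.det_fin_two] at d1 d2
    simp only [Set.mem_ofPred_eq, IsScal, Matrix.trace_fin_two, sl_coe_mul, m2_mul_apply] at *
    exact aux_mul _ _ _ _ _ _ _ _ d1 d2 hg hh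
  one_mem' := Or.inl (sl_isScal_iff.mpr (Or.inl rfl))
  inv_mem' := by
    rintro g (hg | hg)
    · exact Or.inl (sl_mem_center_iff.mp (inv_mem (sl_mem_center_iff.mpr hg)))
    · exact Or.inr (by rw [sl_trace_inv, hg])

lemma Q8_normal : Q8.Normal := by
  refine ⟨fun g hg n => ?_⟩
  have hc : IsConj g (n * g * n⁻¹) := isConj_iff.mpr ⟨n, rfl⟩
  rcases hg with hg | hg
  · exact Or.inl ((sl_isScal_of_isConj hc).mp hg)
  · exact Or.inr (by rw [← sl_trace_of_isConj hc, hg])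

lemma Q8_pgroup : IsPGroup 2 Q8 := by
  rintro ⟨g, hg⟩
  refine ⟨2, Subtype.ext ?_⟩
  show g ^ 4 = 1
  rcases hg with hg | hg
  · rw [show 4 = 2 * 2 from rfl, pow_mul, sl_sq_eq_one_of_isScal hg, one_pow]
  · exact sl_pow_four_of_mul_self (mul_self_of_trace_eq_zero hg)

lemma cent_Q8 : Subgroup.centralizer (Q8 : Set (SL2 (ZMod 3))) ≤ Q8 := by
  intro g hg
  let i : SL2 (ZMod 3) := ⟨!![0, -1; 1, 0], by simp [Matrix.det_fin_two]⟩
  let j : SL2 (ZMod 3) := ⟨!![1, 1; 1, -1], by rw [Matrix.det_fin_two_of]; decide⟩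
  have h1 := sl_ext_iff.mp (hg i (Or.inr (by simp [i, Matrix.trace_fin_two])))
  have h2 := sl_ext_iff.mp (hg j (Or.inr (by simp [j, Matrix.trace_fin_two])))
  rw [sl_coe_mul, sl_coe_mul, m2_ext_iff] at h1 h2
  simp only [m2_mul_apply, i, j, Matrix.of_apply, Matrix.cons_val', Matrix.cons_val_zero,
    Matrix.cons_val_one, Matrix.cons_val_fin_one] at h1 h2
  have key : ∀ b c : ZMod 3, -c = b → c = b → b = 0 ∧ c = 0 := by decide
  obtain ⟨e1, e2⟩ := key ((g : M2 (ZMod 3)) 0 1) ((g : M2 (ZMod 3)) 1 0)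
    (by linear_combination h1.1) (by linear_combination h2.1)
  exact Or.inl ⟨e1, e2, by linear_combination h1.2.2.1⟩

/-- The group X = SL(2, 3): it is 2-constrained, O_{2'}(X) = 1, its centre A = Z(X) contains every involution of X = C_X(A), and X has a subgroup of order 3 (normalized by A) not contained in O_{2'}(X). -/
theorem result : Cfsg.IsPConstrained 2 (Matrix.SpecialLinearGroup (Fin 2) (ZMod 3)) ∧ Cfsg.pPrimeCore 2 (Matrix.SpecialLinearGroup (Fin 2) (ZMod 3)) = ⊥ ∧ (∀ t : Matrix.SpecialLinearGroup (Fin 2) (ZMod 3), orderOf t = 2 → t ∈ Subgroup.center (Matrix.SpecialLinearGroup (Fin 2) (ZMod 3))) ∧ ∃ Q : Subgroup (Matrix.SpecialLinearGroup (Fin 2) (ZMod 3)), Nat.card ↥Q = 3 ∧ ¬ (Q ≤ Cfsg.pPrimeCore 2 (Matrix.SpecialLinearGroup (Fin 2) (ZMod 3))) := by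
  have hle : Q8 ≤ Cfsg.pCore 2 (SL2 (ZMod 3)) := le_sSup ⟨Q8_normal, Q8_pgroup⟩
  have hc : Subgroup.centralizer (Cfsg.pCore 2 (SL2 (ZMod 3)) : Set (SL2 (ZMod 3))) ≤
      Cfsg.pCore 2 (SL2 (ZMod 3)) :=
    ((Subgroup.centralizer_le hle).trans cent_Q8).trans hle
  have hb := Cfsg.Agent.H51.pPrimeCore_eq_bot_of_centralizer_le hc
  refine ⟨Cfsg.Agent.H51.isPConstrained_of_centralizer_le hc, hb, fun t ht => ?_,
    Subgroup.zpowers (uts 1 1), ?_, ?_⟩
  · rw [sl_mem_center_iff]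
    by_contra h
    have h1 : (t : M2 (ZMod 3)) * t = 1 := by
      have := pow_orderOf_eq_one t
      rw [ht, pow_two] at this
      rw [← sl_coe_mul, this]; rfl
    rw [sl_cayley] at h1
    have h2 := lin_injective h (a₁ := (-1, (t : M2 (ZMod 3)).trace)) (a₂ := (1, 0)) (by
      simp only [lin, zero_smul, add_zero, one_smul, neg_smul]
      rw [neg_add_eq_sub, h1])
    exact absurd (Prod.mk.inj h2).1 (by decide)
  · rw [Nat.card_zpowers, orderOf_uts_unip 3 one_ne_zero]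
  · rw [hb, le_bot_iff, Subgroup.zpowers_eq_bot, ← uts_one, uts_inj]
    simp

end Cfsg.Agent.S1303
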