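import Cfsg.Statements.S1304


set_option autoImplicit false
open Cfsg

namespace Cfsg.Agent.S1304

/-- Let X be a perfect group and α an automorphism of X with α(x) x⁻¹ central for every x. Then α is the identity. -/
theorem result {X : Type*} [Group X] (hperf : commutator X = ⊤) (α : X ≃* X) (h : ∀ x : X, α x * x⁻¹ ∈ Subgroup.center X) : ∀ x : X, α x = x := by
  let f : X →* Subgroup.center X :=
    { toFun := fun x => ⟨α x * x⁻¹, h x⟩
      map_one' := by simp
      map_mul' := fun x y => by
        apply Subtype.ext
        have hy := Subgroup.mem_center_iff.mp (h y) x⁻¹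
        simp only [map_mul, mul_inv_rev, Subgroup.coe_mul]
        calc α x * α y * (y⁻¹ * x⁻¹) = α x * ((α y * y⁻¹) * x⁻¹) := by simp only [mul_assoc]
          _ = α x * (x⁻¹ * (α y * y⁻¹)) := by rw [hy]
          _ = α x * x⁻¹ * (α y * y⁻¹) := by simp only [mul_assoc] }
  have hk : commutator X ≤ f.ker := by
    rw [commutator_def, Subgroup.commutator_le]
    intro a _ b _
    rw [MonoidHom.mem_ker, map_commutatorElement, commutatorElement_eq_one_iff_mul_comm]
    exact Subtype.ext (Subgroup.mem_center_iff.mp (f b).2 (f a))
  intro x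
  have hx : f x = 1 := hk (hperf ▸ Subgroup.mem_top x)
  have := congrArg Subtype.val hx
  exact mul_inv_eq_one.mp this

end Cfsg.Agent.S1304
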