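import Cfsg.Statements.S1305
import Cfsg.Agent.H52.Comp2

set_option autoImplicit false
open Cfsg

namespace Cfsg.Agent.S1305

open Subgroup in
theorem exists_of_not_pRankLE {G : Type*} [Group G] {p k : ℕ} {K : Subgroup G}
    (h : ¬ PRankLE p k K) :
    ∃ V : Subgroup G, V ≤ K ∧ IsElementaryAbelian p V ∧ p ^ k < Nat.card V := by
  unfold PRankLE at h
  push Not at h
  obtain ⟨V, h1, h2, h3⟩ := h
  exact ⟨V.map K.subtype, map_subtype_le _, H6.isElementaryAbelian_map ⟨h1, h2⟩ _, by
    rwa [card_map_of_injective K.subtype_injective]⟩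

open Subgroup in
theorem card_le_of_pRankLE {G : Type*} [Group G] {p k : ℕ} {K V : Subgroup G}
    (h : PRankLE p k K) (hV : V ≤ K) (hE : IsElementaryAbelian p V) : Nat.card V ≤ p ^ k := by
  have h1 := H6.isElementaryAbelian_comap hE K.subtype_injective
  rw [← H4.card_subgroupOf_of_le hV]
  exact h _ h1.1 h1.2

/-- Let G be a finite group of component type with the B-property and no nontrivial normal subgroup of odd order. Let a be an involution and K a component of C_G(a) such that (a) |K| is maximal among the orders of components of centralizers of involutions of G, (b) subject to (a) the 2-rank of the centralizer of K in C_G(a) is as large as possible, and (c) K has 2-rank at least 2. If B is an elementary abelian 2-subgroup of that centralizer of the largest possible order, then K is a component of C_G(b) for every non-identity b ∈ B. -/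
theorem result {G : Type*} [Group G] [Finite G] (hO : Cfsg.oddCore G = ⊥) (hB : Cfsg.HasBProperty G) (hct : Cfsg.IsComponentType G) (a : G) (ha : orderOf a = 2) (K : Subgroup G) (hKa : K ≤ Subgroup.centralizer ({a} : Set G)) (hK : Cfsg.IsComponent (K.subgroupOf (Subgroup.centralizer ({a} : Set G)))) (hmax : ∀ y : G, orderOf y = 2 → ∀ K' : Subgroup G, K' ≤ Subgroup.centralizer ({y} : Set G) → Cfsg.IsComponent (K'.subgroupOf (Subgroup.centralizer ({y} : Set G))) → Nat.card ↥K' ≤ Nat.card ↥K ∧ (Nat.card ↥K' = Nat.card ↥K → ∀ k : ℕ, Cfsg.PRankLE 2 k ↥(Subgroup.centralizer ({a} : Set G) ⊓ Subgroup.centralizer (K : Set G)) → Cfsg.PRankLE 2 k ↥(Subgroup.centralizer ({y} : Set G) ⊓ Subgroup.centralizer (K' : Set G)))) (hrk : ¬ Cfsg.PRankLE 2 1 ↥K) (B : Subgroup G) (hBle : B ≤ Subgroup.centralizer ({a} : Set G) ⊓ Subgroup.centralizer (K : Set G)) (hBel : Cfsg.IsElementaryAbelian 2 B) (hBmax : ∀ B' : Subgroup G, B' ≤ Subgroup.centralizer ({a} : Set G) ⊓ Subgroup.centralizer (K : Set G) → Cfsg.IsElementaryAbelian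 2 B' → Nat.card ↥B' ≤ Nat.card ↥B) (b : G) (hb : b ∈ B) (hb1 : b ≠ 1) : K ≤ Subgroup.centralizer ({b} : Set G) ∧ Cfsg.IsComponent (K.subgroupOf (Subgroup.centralizer ({b} : Set G))) := by
  have hK' : IsComponentOf K (Subgroup.centralizer ({a} : Set G)) := ⟨hKa, hK⟩
  obtain ⟨V, hVK, hV, hV4⟩ := exists_of_not_pRankLE hrk
  have hd : 2 ∣ Nat.card K := by
    obtain ⟨n, hn⟩ := (H6.IsElementaryAbelian.isPGroup' hV).exists_card_eq
    refine dvd_trans ?_ (Subgroup.card_dvd_of_le hVK)
    rw [hn] at hV4 ⊢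
    exact dvd_pow_self 2 (by rintro rfl; simp at hV4)
  have haB : a ∈ B := by
    have h1 := H52.isElementaryAbelian_sup hBel
      (H52.isElementaryAbelian_zpowers (p := 2) (x := a) (ha ▸ pow_orderOf_eq_one a))
      (Subgroup.commutator_eq_bot_iff_le_centralizer.mpr (by
        rw [H52.centralizer_zpowers]; exact hBle.trans inf_le_left))
    have h2 := hBmax _ (sup_le hBle (Subgroup.zpowers_le.mpr (Subgroup.mem_inf.mpr
      ⟨H52.mem_centralizer_singleton_self a, H52.le_centralizer_singleton_iff.mp hKa⟩))) h1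
    rw [Subgroup.eq_of_le_of_card_ge le_sup_left h2]
    exact Subgroup.mem_sup_right (Subgroup.mem_zpowers a)
  have hb2 : orderOf b = 2 := H52.orderOf_eq_prime_of_mem_elementary hBel hb hb1
  have hKb : K ≤ Subgroup.centralizer ({b} : Set G) :=
    H52.le_centralizer_singleton_iff.mpr (hBle hb).2
  have hBb : B ≤ Subgroup.centralizer ({b} : Set G) := fun y hy =>
    H52.mem_centralizer_singleton_iff'.mpr ((H6.isElementaryAbelian_iff.mp hBel).1 b hb y hy)
  have hK2 := H52.IsComponentOf.of_le hK' (le_inf hKb hKa) inf_le_right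
  have hE := (H52.IsPComponentOf.le_Lp_two ha (hBb haB)
    (H52.IsComponentOf.isPComponentOf hK2 hd)).trans (H52.HasBProperty.Lp_le_Ly hB hO hb2)
  have haN := Subgroup.le_normalizer (hBb haB)
  obtain ⟨L, hL, h⟩ := H52.IsComponentOf.pump (ha ▸ Nat.prime_two) haN hK2 hE
  obtain ⟨hm1, hm2⟩ := hmax b hb2 L hL.1 hL.2
  rcases h with h | ⟨h1, -⟩ | ⟨h1, h2, h3⟩
  · exact h ▸ hL
  · exact (Subgroup.eq_of_le_of_card_ge h1 hm1) ▸ hL
  exfalso
  have hinj := h2.injective_diag_of_card_le (h3 ▸ hm1)
  obtain ⟨k, hk⟩ := (H6.IsElementaryAbelian.isPGroup' hBel).exists_card_eq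
  have hr := hm2 (le_antisymm hm1 (h3 ▸ h2.card_range_diag_le)) k (fun A h1 h2 => by
    rw [← hk, ← Subgroup.card_map_of_injective (Subgroup.subtype_injective _)]
    exact hBmax _ (Subgroup.map_subtype_le _) (H6.isElementaryAbelian_map ⟨h1, h2⟩ _))
  set M := H52.orbitSup (Subgroup.zpowers a) L with hM
  set V₀ := (V.comap h2.diag).map L.subtype with hV₀
  have hV₀e : IsElementaryAbelian 2 V₀ :=
    H6.isElementaryAbelian_map (H6.isElementaryAbelian_comap hV hinj) _
  have hV₀c : Nat.card V₀ = Nat.card V := by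
    rw [hV₀, Subgroup.card_map_of_injective L.subtype_injective,
      ← Subgroup.card_map_of_injective hinj, Subgroup.map_comap_eq_self (h3 ▸ hVK)]
  have hV'M : H52.cnj a V₀ ≤ M :=
    (H52.cnj_mono a (Subgroup.map_subtype_le _)).trans
      (H52.cnj_le_orbitSup (Subgroup.mem_zpowers a))
  have hcomm : ⁅B ⊓ Subgroup.centralizer (M : Set G), H52.cnj a V₀⁆ = ⊥ :=
    Subgroup.commutator_eq_bot_iff_le_centralizer.mpr
      (inf_le_right.trans (H52.centralizer_anti hV'M))
  have hW := card_le_of_pRankLE hr (V := (B ⊓ Subgroup.centralizer (M : Set G)) ⊔ H52.cnj a V₀)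
    (sup_le (inf_le_inf hBb (H52.centralizer_anti (H52.le_orbitSup _ _)))
      (le_inf (hV'M.trans ((H52.IsComponentOf.orbitSup_le_Ly hL
        (Subgroup.zpowers_le.mpr haN)).trans (H52.Ly_le _)))
        ((H52.cnj_mono a (Subgroup.map_subtype_le _)).trans
          (H52.commutator_eq_bot_iff_le_centralizer'.mp
            (h2 a (Subgroup.mem_zpowers a) (H10.ne_one_of_orderOf_two ha))))))
    (H52.isElementaryAbelian_sup (H6.IsElementaryAbelian.mono' hBel inf_le_left)
      (H6.isElementaryAbelian_map hV₀e _) hcomm)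
  have hdisj : Disjoint (B ⊓ Subgroup.centralizer (M : Set G)) (H52.cnj a V₀) := by
    rw [disjoint_iff, eq_bot_iff]
    rintro _ ⟨hz, _, ⟨v, hv, rfl⟩, rfl⟩
    have hc : a * (a * v * a⁻¹) = a * v * a⁻¹ * a :=
      H52.mem_centralizer_singleton_iff'.mp (hBle hz.1).1
    have hc' : a * v = v * a := by
      have : a * (a * v * a⁻¹) = a * (v * a * a⁻¹) := by rw [hc]; group
      exact mul_right_cancel (mul_left_cancel this)
    have h4 := h2.diag_eq_pow v (by
      rw [H52.centralizer_zpowers]; exact H52.mem_centralizer_singleton_iff'.mpr hc')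
    rw [Nat.card_zpowers, ha, (H6.isElementaryAbelian_iff.mp hV₀e).2 v ⟨v, hv, rfl⟩] at h4
    have h5 : v = 1 := hinj (h4.trans (map_one _).symm)
    simp [h5]
  rw [H4.card_sup_of_le_normalizer (H52.le_normalizer_of_commutator_eq_bot
    (H52.commutator_eq_bot_symm hcomm)) hdisj, H52.card_cnj, hV₀c, ← hk] at hW
  have hle : B ≤ Subgroup.zpowers a ⊔ (B ⊓ Subgroup.centralizer (M : Set G)) := by
    intro y hy
    obtain ⟨u, hu, h4⟩ := h2.mem_sup_centralizer_orbitSup hL (Subgroup.zpowers_le.mpr haN)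
      (by rw [H52.centralizer_zpowers]
          exact Subgroup.zpowers_le.mpr (H52.mem_centralizer_singleton_self a))
      (Subgroup.le_normalizer (hBb hy)) (by rw [H52.centralizer_zpowers]; exact (hBle hy).1)
      (h3 ▸ (hBle hy).2)
    have : y = u * (u⁻¹ * y) := by group
    rw [this]
    exact Subgroup.mul_mem_sup hu (Subgroup.mem_inf.mpr
      ⟨B.mul_mem (B.inv_mem (Subgroup.zpowers_le.mpr haB hu)) hy, h4⟩)
  have h5 := (Subgroup.card_le_of_le hle).trans (Nat.le_of_dvd (Nat.mul_pos Nat.card_pos Nat.card_pos)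
    (H52.card_sup_dvd_of_le_normalizer (Subgroup.zpowers_le.mpr (H52.centralizer_le_normalizer' _
      (H52.le_centralizer_singleton_iff.mp (inf_le_left.trans (hBle.trans inf_le_left)))))))
  rw [Nat.card_zpowers, ha] at h5
  have h6 : 0 < Nat.card (B ⊓ Subgroup.centralizer (M : Set G) : Subgroup G) := Nat.card_pos
  nlinarith

end Cfsg.Agent.S1305
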