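import Cfsg.Statements.S1314
import Cfsg.Agent.H52.Diagonal

set_option autoImplicit false
open Cfsg

namespace Cfsg.Agent.S1314

/-- Let x be an involution of a group G and L a perfect subgroup with ⁅L, x L x⁻¹⁆ = 1. Then l ↦ l (x l x⁻¹) is a group homomorphism π from L to G whose kernel is central in L and whose image lies in C_G(x); and the commutator subgroup of C_{L ⊔ xLx⁻¹}(x) equals the image of π. -/
theorem result {G : Type*} [Group G] [Finite G] (x : G) (hx : orderOf x = 2) (L : Subgroup G) (hperf : ⁅L, L⁆ = L) (hcomm : ⁅L, L.map (MulAut.conj x).toMonoidHom⁆ = ⊥) : ∃ π : ↥L →* G, (∀ l : ↥L, π l = (l : G) * (x * (l : G) * x⁻¹)) ∧ π.ker ≤ Subgroup.center ↥L ∧ π.range ≤ Subgroup.centralizer ({x} : Set G) ∧ ⁅(L ⊔ L.map (MulAut.conj x).toMonoidHom) ⊓ Subgroup.centralizer ({x} : Set G), (L ⊔ L.map (MulAut.conj x).toMonoidHom) ⊓ Subgroup.centralizer ({x} : Set G)⁆ = π.range := by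
  have h := H52.semiReg_zpowers_of_orderOf_eq_two hx hcomm
  refine ⟨h.diag, h.diag_apply_of_orderOf_eq_two hx, h.ker_diag_le, ?_, ?_⟩
  · rw [← H52.centralizer_zpowers]; exact h.range_diag_le.trans inf_le_right
  · have := h.commutator_inf_centralizer hperf
    rwa [H52.orbitSup_zpowers_of_orderOf_eq_two hx, H52.centralizer_zpowers] at this

end Cfsg.Agent.S1314
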