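import Cfsg.Statements.S1316
import Cfsg.Agent.H52.FStar

set_option autoImplicit false
open Cfsg

namespace Cfsg.Agent.S1316

/-- For a finite group X, E(X) equals the intersection of the derived series of F*(X) (its last term). -/
theorem result {X : Type*} [Group X] [Finite X] : (⨅ n : ℕ, (derivedSeries ↥(Cfsg.generalizedFittingSubgroup X) n).map (Cfsg.generalizedFittingSubgroup X).subtype) = Cfsg.layer X := by
  have hF := H52.fitting_isSolvable (G := X)
  have key : ∀ n : ℕ, (derivedSeries ↥(Cfsg.generalizedFittingSubgroup X) n).map
      (Cfsg.generalizedFittingSubgroup X).subtype = Cfsg.layer X ⊔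
        (derivedSeries ↥(Cfsg.fittingSubgroup X) n).map (Cfsg.fittingSubgroup X).subtype := by
    intro n
    induction n with
    | zero =>
      rw [derivedSeries_zero, derivedSeries_zero, ← MonoidHom.range_eq_map,
        ← MonoidHom.range_eq_map, Subgroup.range_subtype, Subgroup.range_subtype]
      rfl
    | succ n ih =>
      rw [derivedSeries_succ, derivedSeries_succ, Subgroup.map_commutator,
        Subgroup.map_commutator, ih, H52.commutator_sup_sup_of_commute
          (H52.commutator_eq_bot_mono H52.commutator_layer_fitting le_rfl
            (Subgroup.map_subtype_le _)), H52.commutator_layer_self]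
  apply le_antisymm
  · obtain ⟨n, hn⟩ := hF.solvable
    refine (iInf_le _ n).trans ?_
    rw [key, hn, Subgroup.map_bot, sup_bot_eq]
  · exact le_iInf fun n => by rw [key]; exact le_sup_left

end Cfsg.Agent.S1316
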