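import Cfsg.Statements.S1328
import Cfsg.Agent.H52.LBalance

set_option autoImplicit false
open Cfsg

namespace Cfsg.Agent.S1328

open Subgroup in
theorem core {X : Type*} [Group X] [Finite X] (hO : pPrimeCore 2 X = ⊥) (t : X) (ht : orderOf t = 2)
    (Y : Subgroup X) (hY1 : Y ≠ ⊥) (hY : Y ≤ H52.Opp 2 (centralizer ({t} : Set X))) :
    ∃ E : Subgroup X, IsComponent E ∧ t ∈ normalizer (E : Set X) ∧ Y ≤ normalizer (E : Set X) ∧
      t ∉ centralizer (E : Set X) ∧ ¬ Y ≤ centralizer (E : Set X) := by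
  have htp := H52.isPGroup_zpowers_of_orderOf_eq_prime ht
  have hY' : Y ≤ H52.Opp 2 (centralizer ((zpowers t : Subgroup X) : Set X)) := by
    rwa [H52.centralizer_zpowers]
  have h1 : ∃ E : Subgroup X, IsComponent E ∧ ⁅E, Y⁆ ≠ ⊥ := by
    by_contra hc
    push Not at hc
    exact hY1 (H52.eq_bot_of_commutator_components hO
      (H52.coprime_card_of_le hY (H52.coprime_card_map_pPrimeCore_subtype _))
      (H52.commutator_eq_bot_mono (H52.commutator_Opp_centralizer_pCore htp) hY' le_rfl) hc)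
  obtain ⟨E, hE, hEY⟩ := h1
  have h2 : ⁅E, zpowers t⁆ = E := by
    by_contra hne
    exact hEY (H52.commutator_eq_bot_mono
      (H52.IsComponent.commutator_Opp_centralizer_of_ne hO ht hE hne) le_rfl hY)
  exact ⟨E, hE, H52.mem_normalizer_of_commutator_zpowers_eq h2,
    hY'.trans (H52.Opp_centralizer_le_normalizer hO htp hE),
    H52.not_mem_centralizer_of_commutator_zpowers_eq (H52.IsComponent.ne_bot hE) h2,
    fun h => hEY (H52.commutator_eq_bot_iff_le_centralizer'.mpr h)⟩

/-- Let G be finite, H ≤ G with O(H) = 1, t an involution of G normalizing H, and Y a nontrivial subgroup of O(C_H(t)). Then some component E of H is normalized by t and by Y and centralized by neither t nor Y. -/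
theorem result {G : Type*} [Group G] [Finite G] (H : Subgroup G) (hO : Cfsg.oddCore ↥H = ⊥) (t : G) (ht : orderOf t = 2) (htH : t ∈ Subgroup.normalizer (H : Set G)) (Y : Subgroup G) (hY1 : Y ≠ ⊥) (hY : Y ≤ (Cfsg.oddCore ↥(H ⊓ Subgroup.centralizer ({t} : Set G))).map (H ⊓ Subgroup.centralizer ({t} : Set G)).subtype) : ∃ E : Subgroup ↥H, Cfsg.IsComponent E ∧ (E.map H.subtype).map (MulAut.conj t).toMonoidHom = E.map H.subtype ∧ Y ≤ Subgroup.normalizer ((E.map H.subtype : Subgroup G) : Set G) ∧ ¬ (t ∈ Subgroup.centralizer ((E.map H.subtype : Subgroup G) : Set G)) ∧ ¬ (Y ≤ Subgroup.centralizer ((E.map H.subtype : Subgroup G) : Set G)) := by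
  set X := H ⊔ Subgroup.zpowers t with hX
  have hHX : H ≤ X := le_sup_left
  have htX : t ∈ X := Subgroup.mem_sup_right (Subgroup.mem_zpowers t)
  have hXN : X ≤ Subgroup.normalizer (H : Set G) :=
    sup_le Subgroup.le_normalizer (Subgroup.zpowers_le.mpr htH)
  have hsn : H52.SN H X := H52.SN.of_le_normalizer hHX hXN
  have htt : t * t = 1 := by rw [← pow_two, ← ht]; exact pow_orderOf_eq_one t
  have hcases : ∀ x ∈ X, x ∈ H ∨ x * t ∈ H := fun x hx => H81.mem_sup_zpowers_inv htt htH hx
  have hsq : ∀ x ∈ X, x ^ 2 ∈ H := by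
    intro x hx
    rcases hcases x hx with h | h
    · exact H.pow_mem h 2
    · have h2 := H4.conj_mem_of_mem_normalizer htH h
      have : x ^ 2 = (x * t) * (t * (x * t) * t⁻¹) := by
        rw [pow_two]
        calc x * x = x * (t * t) * x := by rw [htt, mul_one]
          _ = _ := by group
      rw [this]; exact H.mul_mem h h2
  have hOX : pPrimeCore 2 X = ⊥ := by
    rw [← H52.map_subtype_eq_bot_iff, ← le_bot_iff]
    have h1 : H52.Opp 2 X ≤ H := fun x hx =>
      H52.mem_of_pow_mem_of_coprime (H52.orderOf_coprime_of_mem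
        (H52.coprime_card_map_pPrimeCore_subtype X) hx).symm (hsq x (H52.Opp_le X hx))
    have h2 := H52.Opp_le_Opp_of_le hHX h1
    rwa [show H52.Opp 2 H = ⊥ from H52.map_subtype_eq_bot_iff.mpr hO] at h2
  have hYX : Y ≤ X := hY.trans ((H52.Opp_le _).trans (inf_le_left.trans hHX))
  obtain ⟨E, hE, h1, h2, h3, h4⟩ := core hOX ⟨t, htX⟩ (by rw [← Subgroup.orderOf_coe]; exact ht)
    (Y.subgroupOf X) (fun h => hY1 (by
      rw [← Subgroup.map_subgroupOf_eq_of_le hYX, h, Subgroup.map_bot])) (by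
      rw [H52.centralizer_singleton_subgroupOf, ← H52.subgroupOf_inf_left' X (Subgroup.centralizer _),
        ← Subgroup.map_le_map_iff_of_injective X.subtype_injective,
        H52.map_Opp_subgroupOf inf_le_left, Subgroup.map_subgroupOf_eq_of_le hYX]
      exact hY.trans (hsn.inf_right _).Opp_le)
  have hE' := H52.IsComponent.isComponentOf_map_subtype hE
  set E' := E.map X.subtype with hE'def
  have hYH : Y ≤ H := hY.trans ((H52.Opp_le _).trans inf_le_left)
  have hc : ∀ x : X, (x : G) ∈ Subgroup.centralizer (E' : Set G) →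
      x ∈ Subgroup.centralizer (E : Set X) := fun x hx e he =>
    Subtype.ext (hx e ⟨e, he, rfl⟩)
  have hn : ∀ x : X, x ∈ Subgroup.normalizer (E : Set X) →
      (x : G) ∈ Subgroup.normalizer (E' : Set G) := fun x hx =>
    Subgroup.le_normalizer_map X.subtype ⟨x, hx, rfl⟩
  have h4' : ¬ Y ≤ Subgroup.centralizer (E' : Set G) := fun h => h4 fun x hx => hc x (h hx)
  have hEH : E' ≤ H := by
    rcases H52.IsComponentOf.le_or_commutator_eq_bot hE' hsn with h | h
    · exact h
    · exact absurd (hYH.trans (H52.commutator_eq_bot_iff_le_centralizer'.mp h)) h4'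
  refine ⟨E'.subgroupOf H, (H52.IsComponentOf.of_le hE' hEH hHX).2, ?_⟩
  rw [Subgroup.map_subgroupOf_eq_of_le hEH]
  exact ⟨H52.cnj_eq_iff_mem_normalizer.mpr (hn _ h1), fun y hy => hn ⟨y, hYX hy⟩ (h2 hy),
    fun h => h3 (hc _ h), h4'⟩

end Cfsg.Agent.S1328
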