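import Cfsg.Statements.S1329
import Cfsg.Agent.H55.CommFix
import Cfsg.Agent.S0205
-- import your own Cfsg.Agent.* helpers here

set_option autoImplicit false
open Cfsg

namespace Cfsg.Agent.S1329

/-- Let A be an abelian 2-subgroup of the finite group G, B ≤ A, and Y a subgroup of odd order normalized by A with ⁅Y, A⁆ = Y. Then Y ∩ C_G(B) is generated by the subgroups Y ∩ C_G(B) ∩ ⁅Y ∩ C_G(B₀), A⁆, B₀ ranging over the subgroups of B with B / B₀ cyclic. -/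
theorem result {G : Type*} [Group G] [Finite G] (A B Y : Subgroup G) (hA2 : IsPGroup 2 ↥A) (hAc : IsMulCommutative ↥A) (hB : B ≤ A) (hYodd : Odd (Nat.card ↥Y)) (hAY : A ≤ Subgroup.normalizer (Y : Set G)) (hYA : ⁅Y, A⁆ = Y) : Y ⊓ Subgroup.centralizer (B : Set G) = ⨆ B₀ : {B₀ : Subgroup G // B₀ ≤ B ∧ ∀ [(B₀.subgroupOf B).Normal], IsCyclic (↥B ⧸ B₀.subgroupOf B)}, Y ⊓ Subgroup.centralizer (B : Set G) ⊓ ⁅Y ⊓ Subgroup.centralizer ((B₀ : Subgroup G) : Set G), A⁆ := by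
  classical
  refine le_antisymm ?_ (iSup_le fun B₀ => inf_le_left)
  have hs : Group.IsSolvable ↥Y := Cfsg.Agent.S0205.result hYodd
  have hc : (Nat.card ↥A).Coprime (Nat.card ↥Y) := by
    obtain ⟨k, hk⟩ := IsPGroup.iff_card.mp hA2
    rw [hk]
    exact Nat.Coprime.pow_left _ (Nat.coprime_two_left.mpr hYodd)
  have key := H55.comm_fix_le (Φ := ⨆ B₀ : {B₀ : Subgroup G // B₀ ≤ B ∧ ∀ [(B₀.subgroupOf B).Normal], IsCyclic (↥B ⧸ B₀.subgroupOf B)}, Y ⊓ Subgroup.centralizer (B : Set G) ⊓ ⁅Y ⊓ Subgroup.centralizer ((B₀ : Subgroup G) : Set G), A⁆) hB hAY hc hs ?_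
  · rwa [hYA] at key
  rintro B₀ ⟨h1, b, hb, h2⟩
  have hcyc : ∀ [(B₀.subgroupOf B).Normal], IsCyclic (↥B ⧸ B₀.subgroupOf B) := by
    intro _
    refine ⟨⟨QuotientGroup.mk ⟨b, hb⟩, fun y => ?_⟩⟩
    obtain ⟨x, rfl⟩ := QuotientGroup.mk_surjective y
    have hx : x ∈ B₀.subgroupOf B ⊔ Subgroup.zpowers (⟨b, hb⟩ : B) := by
      have h3 : (B₀.subgroupOf B ⊔ Subgroup.zpowers (⟨b, hb⟩ : B)).map B.subtype = B := by
        rw [Subgroup.map_sup, Subgroup.map_subgroupOf_eq_of_le h1, MonoidHom.map_zpowers]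
        exact h2
      have : (x : G) ∈ (B₀.subgroupOf B ⊔ Subgroup.zpowers (⟨b, hb⟩ : B)).map B.subtype := by
        rw [h3]; exact x.2
      obtain ⟨z, hz, e⟩ := this
      rwa [← Subtype.ext e]
    have : QuotientGroup.mk' (B₀.subgroupOf B) x ∈ (B₀.subgroupOf B ⊔ Subgroup.zpowers (⟨b, hb⟩ : B)).map (QuotientGroup.mk' (B₀.subgroupOf B)) := Subgroup.mem_map_of_mem _ hx
    rw [Subgroup.map_sup, MonoidHom.map_zpowers, (Subgroup.map_eq_bot_iff _).mpr (QuotientGroup.ker_mk' _).ge, bot_sup_eq] at this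
    exact this
  refine le_trans ?_ (le_iSup _ ⟨B₀, h1, hcyc⟩)
  intro x hx
  refine ⟨⟨?_, hx.2⟩, hx.1⟩
  exact hYA.le (Subgroup.commutator_mono inf_le_left le_rfl hx.1)

end Cfsg.Agent.S1329
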