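import Cfsg.Statements.S1335
import Cfsg.Agent.H8.SylowIn
import Cfsg.Agent.H7.Rank

set_option autoImplicit false
open Cfsg

namespace Cfsg.Agent.S1335

/-- Let H be a subgroup of the finite group G, p a prime, k ≥ 1, P a Sylow p-subgroup of H of p-rank at least k, and suppose N_G(X) ≤ H for every subgroup X ≤ P of p-rank at least k. Then P is a Sylow p-subgroup of G. -/
theorem result {G : Type*} [Group G] [Finite G] {p : ℕ} [Fact p.Prime] (k : ℕ) (hk : 1 ≤ k) (H : Subgroup G) (P : Sylow p ↥H) (hP : ¬ Cfsg.PRankLE p (k - 1) ↥(P : Subgroup ↥H)) (hΓ : (∀ X : Subgroup G, X ≤ (P : Subgroup ↥H).map H.subtype → ¬ Cfsg.PRankLE p (k - 1) ↥X → Subgroup.normalizer (X : Set G) ≤ H)) : ∃ Q : Sylow p G, (Q : Subgroup G) = (P : Subgroup ↥H).map H.subtype := by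
  have hS := H8.isSylowIn_map_subtype P
  set S := (P : Subgroup ↥H).map H.subtype with hSdef
  have hN : Subgroup.normalizer (S : Set G) ≤ H := by
    refine hΓ S le_rfl fun h => hP fun A hA hAp => ?_
    let e := (P : Subgroup ↥H).equivMapOfInjective H.subtype H.subtype_injective
    have h1 := H7.isElementaryAbelian_map (p := p) ⟨hA, hAp⟩ e.toMonoidHom
    have h2 := h _ h1.1 h1.2
    rwa [Subgroup.card_map_of_injective e.injective] at h2
  obtain ⟨Q, hQ⟩ := hS.isPGroup.exists_le_sylow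
  refine ⟨Q, ?_⟩
  by_contra hne
  have hlt := H8.lt_inf_normalizer_of_lt Q.2 (lt_of_le_of_ne hQ (Ne.symm hne))
  exact hlt.ne (hS.eq_of_le Q.2.to_inf_left (inf_le_right.trans hN) hlt.le).symm

end Cfsg.Agent.S1335
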