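import Cfsg.Statements.S1336
import Cfsg.Agent.H55.Graph
-- import your own Cfsg.Agent.* helpers here

set_option autoImplicit false
open Cfsg
open scoped Pointwise

namespace Cfsg.Agent.S1336

/-- Let G be finite and p prime. Then G has a proper subgroup H with p ∣ |H| and p ∤ |H ∩ gHg⁻¹| for every g ∉ H (a strongly p-embedded subgroup) if and only if G is not 1-connected for p. -/
theorem result {G : Type*} [Group G] [Finite G] (p : ℕ) [Fact p.Prime] : (∃ H : Subgroup G, H ≠ ⊤ ∧ p ∣ Nat.card ↥H ∧ ∀ g : G, g ∉ H → ¬ p ∣ Nat.card ↥(H ⊓ H.map (MulAut.conj g).toMonoidHom)) ↔ ¬ Cfsg.IsKConnected p 1 G := by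
  have hp : p.Prime := Fact.out
  let r : Subgroup G → Subgroup G → Prop := fun A B => IsElementaryAbelian p A ∧
    p ^ 1 ≤ Nat.card ↥A ∧ IsElementaryAbelian p B ∧ p ^ 1 ≤ Nat.card ↥B ∧
    ∀ a ∈ A, ∀ b ∈ B, a * b = b * a
  have hdvd : ∀ A : Subgroup G, IsElementaryAbelian p A → p ^ 1 ≤ Nat.card ↥A → p ∣ Nat.card A := by
    intro A hA hc
    obtain ⟨a, ha, ha1⟩ := H55.exists_ne_one_of_ne_bot (H55.ne_bot_of_pow_le_card one_ne_zero hc)
    exact H55.ea_orderOf hA ha ha1 ▸ A.orderOf_dvd_natCard ha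
  have hz : ∀ x : G, orderOf x = p → IsElementaryAbelian p (Subgroup.zpowers x) ∧
      p ^ 1 ≤ Nat.card (Subgroup.zpowers x) := fun x hx =>
    ⟨H55.ea_zpowers (hx ▸ pow_orderOf_eq_one x), by rw [Nat.card_zpowers, hx, pow_one]⟩
  constructor
  · rintro ⟨H, hH, hpH, h⟩ hconn
    obtain ⟨g, hg⟩ : ∃ g, g ∉ H := by
      by_contra hc
      push Not at hc
      exact hH ((Subgroup.eq_top_iff' H).mpr hc)
    obtain ⟨x, hx, hxp⟩ := H3.exists_mem_orderOf_eq_prime hp hpH
    obtain ⟨h1, h2⟩ := hz x hxp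
    have h3 := H55.ea_conj h1 g
    have h4 : p ^ 1 ≤ Nat.card (MulAut.conj g • Subgroup.zpowers x : Subgroup G) := by
      rwa [H4.card_conj_smul]
    have key : ∀ E, Relation.ReflTransGen r (Subgroup.zpowers x) E → E ≤ H := by
      intro E hE
      induction hE with
      | refl => exact Subgroup.zpowers_le.mpr hx
      | @tail A B _ hr ih =>
        intro b hb
        by_contra hbH
        refine h b hbH ((hdvd A hr.1 hr.2.1).trans (Subgroup.card_dvd_of_le (le_inf ih ?_)))
        intro a ha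
        exact ⟨a, ih ha, by simp [← hr.2.2.2.2 a ha b hb]⟩
    refine h g hg ((hdvd _ h3 h4).trans (Subgroup.card_dvd_of_le (le_inf
      (key _ (hconn _ _ h1 h2 h3 h4)) (Subgroup.map_mono (Subgroup.zpowers_le.mpr hx)))))
  · intro hconn
    simp only [IsKConnected, not_forall] at hconn
    obtain ⟨E, E', hE, hEc, hE', hEc', hnot⟩ := hconn
    have hsymm : ∀ {A B}, Relation.ReflTransGen r A B → Relation.ReflTransGen r B A := by
      intro A B h
      induction h with
      | refl => exact Relation.ReflTransGen.refl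
      | tail _ hr ih =>
        exact Relation.ReflTransGen.head
          ⟨hr.2.2.1, hr.2.2.2.1, hr.1, hr.2.1, fun a ha b hb => (hr.2.2.2.2 b hb a ha).symm⟩ ih
    have hconj : ∀ (g : G) {A B}, Relation.ReflTransGen r A B →
        Relation.ReflTransGen r (MulAut.conj g • A) (MulAut.conj g • B) := by
      intro g A B h
      induction h with
      | refl => exact Relation.ReflTransGen.refl
      | tail _ hr ih =>
        refine ih.tail ⟨H55.ea_conj hr.1 g, by rw [H4.card_conj_smul]; exact hr.2.1,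
          H55.ea_conj hr.2.2.1 g, by rw [H4.card_conj_smul]; exact hr.2.2.2.1, ?_⟩
        rintro _ ⟨a, ha, rfl⟩ _ ⟨b, hb, rfl⟩
        show MulAut.conj g a * MulAut.conj g b = MulAut.conj g b * MulAut.conj g a
        rw [← map_mul, ← map_mul, hr.2.2.2.2 a ha b hb]
    let H : Subgroup G :=
      { carrier := {g | Relation.ReflTransGen r E (MulAut.conj g • E)}
        one_mem' := by
          show Relation.ReflTransGen r E (MulAut.conj (1 : G) • E)
          rw [map_one, one_smul]
        mul_mem' := fun {a b} ha hb => by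
          show Relation.ReflTransGen r E (MulAut.conj (a * b) • E)
          rw [← H8.conj_smul_conj_smul]
          exact Relation.ReflTransGen.trans ha (hconj a hb)
        inv_mem' := fun {a} ha => by
          show Relation.ReflTransGen r E (MulAut.conj a⁻¹ • E)
          have := hconj a⁻¹ ha
          rw [H8.conj_inv_smul_conj_smul] at this
          exact hsymm this }
    obtain ⟨P, hP, hEP⟩ := H8.exists_isSylowIn_ge (H55.ea_isPGroup hE) (le_top : E ≤ ⊤)
    have hinP : ∀ F : Subgroup G, IsElementaryAbelian p F → p ^ 1 ≤ Nat.card F → F ≤ P →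
        Relation.ReflTransGen r E F := by
      intro F hF hFc hFP
      have hne : P ≠ ⊥ := fun h => H55.ne_bot_of_pow_le_card one_ne_zero hEc
        (le_bot_iff.mp (h ▸ hEP))
      have h1 := H3.inf_centralizer_ne_bot_of_isNilpotent hP.isPGroup.isNilpotent le_rfl
        Subgroup.le_normalizer hne
      have h2 : p ∣ Nat.card ↥(P ⊓ Subgroup.centralizer (P : Set G)) := by
        by_contra h3
        exact h1 (H55.eq_bot_of_isPGroup_of_not_dvd (hP.isPGroup.to_le inf_le_left) h3)
      obtain ⟨z, hz1, hzp⟩ := H3.exists_mem_orderOf_eq_prime hp h2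
      have hc : ∀ a ∈ P, ∀ b ∈ Subgroup.zpowers z, a * b = b * a := by
        rintro a ha _ ⟨k, rfl⟩
        exact (Commute.zpow_right (Subgroup.mem_centralizer_iff.mp hz1.2 a ha) k).eq
      exact (Relation.ReflTransGen.single
        ⟨hE, hEc, (hz z hzp).1, (hz z hzp).2, fun a ha b hb => hc a (hEP ha) b hb⟩).tail
        ⟨(hz z hzp).1, (hz z hzp).2, hF, hFc, fun a ha b hb => (hc b (hFP hb) a ha).symm⟩
    have hPH : P ≤ H := fun y hy => hinP _ (H55.ea_conj hE y) (by rwa [H4.card_conj_smul]) (by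
      rw [← H55.conj_smul_eq_of_mem hy]
      exact Subgroup.pointwise_smul_le_pointwise_smul_iff.mpr hEP)
    have hinH : ∀ F : Subgroup G, IsElementaryAbelian p F → p ^ 1 ≤ Nat.card F → F ≤ H →
        Relation.ReflTransGen r E F := by
      intro F hF hFc hFH
      obtain ⟨h, hh, hle⟩ := (hP.mono hPH le_top).exists_conj_le (H55.ea_isPGroup hF) hFH
      have h1 := hconj h⁻¹ (hinP _ (H55.ea_conj hF h) (by rwa [H4.card_conj_smul]) hle)
      rw [H8.conj_inv_smul_conj_smul] at h1
      exact Relation.ReflTransGen.trans (H.inv_mem hh) h1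
    refine ⟨H, fun h => hnot (hinH E' hE' hEc' (h ▸ le_top)),
      (hdvd E hE hEc).trans (Subgroup.card_dvd_of_le (hEP.trans hPH)), fun g hg hd => hg ?_⟩
    obtain ⟨x, hx, hxp⟩ := H3.exists_mem_orderOf_eq_prime hp hd
    have h1 := hinH _ (hz x hxp).1 (hz x hxp).2 (Subgroup.zpowers_le.mpr hx.1)
    have h2 := hconj g (hinH _ (H55.ea_conj (hz x hxp).1 g⁻¹)
      (by rw [H4.card_conj_smul]; exact (hz x hxp).2) (by
        rw [← H8.conj_inv_smul_conj_smul H g]
        exact Subgroup.pointwise_smul_le_pointwise_smul_iff.mpr (Subgroup.zpowers_le.mpr hx.2)))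
    rw [H8.conj_smul_conj_inv_smul] at h2
    exact Relation.ReflTransGen.trans h1 (hsymm h2)

end Cfsg.Agent.S1336
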