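import Cfsg.Statements.S1338
import Cfsg.Agent.S1337
import Cfsg.Agent.H81.Four

set_option autoImplicit false
open Cfsg

namespace Cfsg.Agent.S1338

theorem card_le_cube {A : Type*} [CommGroup A] [Finite A] (n : A →* A) (h : ∀ a, n (n (n a)) = 1) :
    Nat.card A ≤ Nat.card n.ker ^ 3 := by
  have key : ∀ B : Subgroup A, Nat.card B ≤ Nat.card n.ker * Nat.card (B.map n) := by
    intro B
    have h1 := (n.comp B.subtype).ker.card_mul_index
    rw [Subgroup.index_ker, MonoidHom.range_comp, Subgroup.range_subtype] at h1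
    rw [← h1]
    refine Nat.mul_le_mul_right _ ?_
    rw [← H3.card_map_subtype]
    refine Subgroup.card_le_of_le ?_
    rintro _ ⟨x, hx, rfl⟩
    exact hx
  have h3 : (((⊤ : Subgroup A).map n).map n).map n = ⊥ := by
    rw [eq_bot_iff]
    rintro _ ⟨_, ⟨_, ⟨x, -, rfl⟩, rfl⟩, rfl⟩
    exact h x
  have e1 := key ⊤
  have e2 := key ((⊤ : Subgroup A).map n)
  have e3 := key (((⊤ : Subgroup A).map n).map n)
  rw [h3, Subgroup.card_bot, mul_one] at e3
  rw [Subgroup.card_top] at e1
  calc Nat.card A ≤ _ := e1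
    _ ≤ Nat.card n.ker * (Nat.card n.ker * Nat.card n.ker) :=
      Nat.mul_le_mul_left _ (e2.trans (Nat.mul_le_mul_left _ e3))
    _ = _ := by ring

theorem nine_le {P : Type*} [Group P] [Finite P] {E : Subgroup P} [E.Normal]
    (hE : Cfsg.IsElementaryAbelian 3 E) (hE4 : Nat.card E = 3 ^ 4) {x : P} (hx : x ^ 3 = 1) :
    3 < Nat.card (E ⊓ Subgroup.centralizer ({x} : Set P) : Subgroup P) := by
  have := hE.1
  let _ : CommGroup E := { (inferInstance : Group E) with mul_comm := hE.1.is_comm.comm }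
  let φ : E →* E := (MulAut.conjNormal x : MulAut E).toMonoidHom
  have h3 : ∀ a : E, a ^ 3 = 1 := fun a => Subtype.ext (hE.2 a a.2)
  have hφ : ∀ a : E, φ (φ (φ a)) = a := fun a => by
    change MulAut.conjNormal x (MulAut.conjNormal x (MulAut.conjNormal x a)) = a
    rw [← MulAut.mul_apply, ← MulAut.mul_apply, ← map_mul, ← map_mul, ← pow_three', hx, map_one,
      MulAut.one_apply]
  have h1 := card_le_cube (φ / MonoidHom.id E) (fun a => by
    simp only [MonoidHom.div_apply, MonoidHom.id_apply, map_div, hφ]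
    have e1 := h3 (φ a)
    have e2 := h3 (φ (φ a))
    rw [pow_three'] at e1 e2
    have : a / φ (φ a) / (φ (φ a) / φ a) / (φ (φ a) / φ a / (φ a / a)) =
        (φ a * φ a * φ a) / (φ (φ a) * φ (φ a) * φ (φ a)) := by
      apply Additive.ofMul.injective
      simp only [ofMul_div, ofMul_mul]
      abel
    rw [this, e1, e2, div_one])
  have h2 : Nat.card (φ / MonoidHom.id E).ker ≤
      Nat.card (E ⊓ Subgroup.centralizer ({x} : Set P) : Subgroup P) := by
    rw [← H3.card_map_subtype]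
    refine Subgroup.card_le_of_le ?_
    rintro _ ⟨a, ha, rfl⟩
    refine ⟨a.2, Subgroup.mem_centralizer_iff.mpr ?_⟩
    rintro _ rfl
    have h4 : φ a = a := div_eq_one.mp ha
    exact mul_inv_eq_iff_eq_mul.mp (congrArg Subtype.val h4)
  by_contra hle
  have := Nat.pow_le_pow_left (h2.trans (not_lt.mp hle)) 3
  omega

theorem rank_centralizer {P : Type*} [Group P] [Finite P] (hP : IsPGroup 3 P)
    (hrk : ¬ Cfsg.PRankLE 3 3 P) {X : Subgroup P} (hX : Cfsg.IsElementaryAbelian 3 X)
    (hX2 : 3 ^ 2 ≤ Nat.card X) : ¬ Cfsg.PRankLE 3 2 (Subgroup.centralizer (X : Set P)) := by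
  have : Fact (Nat.Prime 3) := ⟨Nat.prime_three⟩
  intro hr
  obtain ⟨E0, hE0, hE04⟩ := H55.not_pRankLE_top_iff.mp hrk
  obtain ⟨E1, -, hE1, hE14⟩ := H81.not_pRankLE_iff.mp
    (H55.not_pRankLE_iff.mpr ⟨E0, le_top, hE0, hE04⟩)
  obtain ⟨E, hEn, hE, hE4⟩ := H7.exists_normal_fourth hP (by norm_num) hE1 hE14
  -- every elementary abelian subgroup centralizing `X` lies in `X`, which has order `9`
  have hst : ∀ B : Subgroup P, Cfsg.IsElementaryAbelian 3 B →
      B ≤ Subgroup.centralizer (X : Set P) → B ≤ X ∧ Nat.card X ≤ 3 ^ 2 := by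
    intro B hB hc
    have h1 : Nat.card (X ⊔ B : Subgroup P) ≤ 3 ^ 2 := by
      by_contra hlt
      refine H55.not_pRankLE_iff.mpr ⟨X ⊔ B, sup_le (fun a ha => ?_) hc,
        H55.ea_sup hX hB fun a ha b hb => Subgroup.mem_centralizer_iff.mp (hc hb) a ha,
        H55.pow_succ_le_card_of_lt (hP.to_subgroup _) (not_le.mp hlt)⟩ hr
      exact Subgroup.mem_centralizer_iff.mpr fun b hb => S1337.comm_of_ea hX b hb a ha
    have := Subgroup.eq_of_le_of_card_ge (le_sup_left : X ≤ X ⊔ B) (h1.trans hX2)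
    exact ⟨this ▸ le_sup_right, (Subgroup.card_le_of_le le_sup_left).trans h1⟩
  obtain ⟨hC, hXc⟩ := hst (E ⊓ Subgroup.centralizer (X : Set P)) (H55.ea_mono hE inf_le_left)
    inf_le_right
  have hEne : E ≠ ⊥ := fun h => by rw [h, Subgroup.card_bot] at hE4; omega
  by_cases hXE : X ≤ E
  · have := (hst E hE fun a ha => Subgroup.mem_centralizer_iff.mpr
      fun b hb => S1337.comm_of_ea hE b (hXE hb) a ha).1
    have := Subgroup.card_le_of_le this
    omega
  obtain ⟨x, hx, hxE⟩ := SetLike.not_le_iff_exists.mp hXE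
  -- a nontrivial element of `E` centralizing `X`
  obtain ⟨e, heE, heX, he1⟩ : ∃ e ∈ E, e ∈ Subgroup.centralizer (X : Set P) ∧ e ≠ 1 := by
    have := hP.isNilpotent
    obtain ⟨⟨e, he, hec⟩, h1⟩ := Subgroup.ne_bot_iff_exists_ne_one.mp (H3.inf_center_ne_bot E hEne)
    exact ⟨e, he, Subgroup.center_le_centralizer _ hec, fun h => h1 (Subtype.ext h)⟩
  have heX' : e ∈ X := hC ⟨heE, heX⟩
  -- `X` is generated by `e` and `x`
  have hgen : X = Subgroup.zpowers e ⊔ Subgroup.zpowers x := by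
    have hle : Subgroup.zpowers e ⊔ Subgroup.zpowers x ≤ X :=
      sup_le (Subgroup.zpowers_le.mpr heX') (Subgroup.zpowers_le.mpr hx)
    refine (Subgroup.eq_of_le_of_card_ge hle (hXc.trans ?_)).symm
    refine H55.pow_succ_le_card_of_lt (k := 1) (hP.to_subgroup _) ?_
    have h1 : Nat.card (Subgroup.zpowers e) = 3 := by
      rw [Nat.card_zpowers]; exact orderOf_eq_prime (hE.2 e heE) he1
    rw [pow_one, ← h1]
    refine lt_of_le_of_ne (Subgroup.card_le_of_le le_sup_left) fun h => hxE ?_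
    have h2 := Subgroup.eq_of_le_of_card_ge
      (le_sup_left : Subgroup.zpowers e ≤ Subgroup.zpowers e ⊔ Subgroup.zpowers x) h.ge
    have : x ∈ Subgroup.zpowers e := h2 ▸ Subgroup.mem_sup_right (Subgroup.mem_zpowers x)
    exact Subgroup.zpowers_le.mpr heE this
  have h9 := nine_le hE hE4 (hX.2 x hx)
  have hle : E ⊓ Subgroup.centralizer ({x} : Set P) ≤ Subgroup.centralizer (X : Set P) := by
    rw [← Subgroup.le_centralizer_iff, hgen]
    refine sup_le (Subgroup.zpowers_le.mpr ?_) (Subgroup.zpowers_le.mpr ?_)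
    · exact Subgroup.mem_centralizer_iff.mpr fun b hb => S1337.comm_of_ea hE b hb.1 e heE
    · exact Subgroup.mem_centralizer_iff.mpr fun b hb =>
        (Subgroup.mem_centralizer_iff.mp hb.2 x rfl).symm
  have h1 := (hst _ (H55.ea_mono hE inf_le_left) hle).1
  have h2 := Subgroup.eq_of_le_of_card_ge h1
    (hXc.trans (H55.pow_succ_le_card_of_lt (k := 1) (hP.to_subgroup _) (by simpa using h9)))
  exact hxE (h2 ▸ hx).1

/-- A finite 3-group of 3-rank at least 4 is 2-connected for the prime 3: its commuting graph on elementary abelian subgroups of order ≥ 9 is connected. -/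
theorem result {P : Type*} [Group P] [Finite P] (hP : IsPGroup 3 P) (hrk : ¬ Cfsg.PRankLE 3 3 P) : Cfsg.IsKConnected 3 2 P := by
  have : Fact (Nat.Prime 3) := ⟨Nat.prime_three⟩
  have hrk2 : ¬ Cfsg.PRankLE 3 2 P := fun h => hrk fun A hA hA3 => (h A hA hA3).trans (by norm_num)
  obtain ⟨U, -, -, -, hU⟩ := S1337.result 3 hP hrk2
  intro E E' hE hE2 hE' hE2'
  refine ((hU E hE hE2).mpr (rank_centralizer hP hrk hE hE2)).trans ?_
  have h := (hU E' hE' hE2').mpr (rank_centralizer hP hrk hE' hE2')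
  clear hU
  induction h with
  | refl => exact Relation.ReflTransGen.refl
  | tail _ hab ih =>
    exact Relation.ReflTransGen.head
      ⟨hab.2.2.1, hab.2.2.2.1, hab.1, hab.2.1, fun a ha b hb => (hab.2.2.2.2 b hb a ha).symm⟩ ih

end Cfsg.Agent.S1338
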