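import Cfsg.Statements.S1343
import Cfsg.Agent.H52.Extended

set_option autoImplicit false
open Cfsg

namespace Cfsg.Agent.S1343

/-- Let X be finite. Then L*_{2'}(X) = L_{2'}(X) ⊔ F for some subgroup F of odd order normalized by a Sylow 2-subgroup of X. -/
theorem result {X : Type*} [Group X] [Finite X] : ∃ F : Subgroup X, Odd (Nat.card ↥F) ∧ (∃ S : Sylow 2 X, (S : Subgroup X) ≤ Subgroup.normalizer (F : Set X)) ∧ Cfsg.extendedTwoLayer X = Cfsg.pLayer 2 X ⊔ F := by
  have : Fact (Nat.Prime 2) := ⟨Nat.prime_two⟩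
  have := H52.pLayer_sup_pPrimePCore_normal (G := X) (p := 2)
  obtain ⟨S⟩ : Nonempty (Sylow 2 X) := inferInstance
  have hT := H8.isSylowIn_inf_normal S (pLayer 2 X ⊔ pPrimePCore 2 X)
  refine ⟨pPrimeCore 2 X ⊔ H52.Opp 2 (Subgroup.centralizer
    (((S : Subgroup X) ⊓ (pLayer 2 X ⊔ pPrimePCore 2 X) : Subgroup X) : Set X)), ?_, ⟨S, ?_⟩, ?_⟩
  · rw [← Nat.coprime_two_right, sup_comm]
    exact H52.coprime_card_sup_of_le_normalizer (H52.coprime_card_map_pPrimeCore_subtype _)
      H52.coprime_card_pPrimeCore Subgroup.le_normalizer_of_normal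
  · exact H52.le_normalizer_sup Subgroup.le_normalizer_of_normal
      ((H52.le_normalizer_inf Subgroup.le_normalizer Subgroup.le_normalizer_of_normal).trans
        (H52.le_normalizer_Opp_centralizer _))
  · rw [H52.extendedTwoLayer_eq hT, sup_assoc]

end Cfsg.Agent.S1343
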