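import Cfsg.Statements.S1348
import Cfsg.Agent.H32.InvCent
import Cfsg.Agent.H83.Base

set_option autoImplicit false
open Cfsg

namespace Cfsg.Agent.S1348

theorem standard_of {G : Type*} [Group G] [Finite G] {L : Subgroup G} {t : G} (hL : IsQuasisimple L)
    (ht : orderOf t = 2) (htK : t ∈ Subgroup.centralizer (L : Set G))
    (hu : ∀ k ∈ Subgroup.centralizer (L : Set G), orderOf k = 2 → k = t)
    (hN : Subgroup.centralizer {t} ≤ Subgroup.normalizer (L : Set G))
    (hK : ∀ a ∈ Subgroup.centralizer (L : Set G), ∀ b ∈ Subgroup.centralizer (L : Set G),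
      a * b = b * a) : IsStandardSubgroup L := by
  have : Fact (Nat.Prime 2) := ⟨Nat.prime_two⟩
  have h1 : Subgroup.normalizer (L : Set G) ≤
      Subgroup.normalizer (Subgroup.centralizer (L : Set G) : Set G) :=
    H83.normalizer_le_normalizer_centralizer _
  have h2 : ∀ g : G, ∀ k ∈ Subgroup.centralizer (L : Set G), orderOf k = 2 →
      g * k * g⁻¹ ∈ Subgroup.centralizer (L : Set G) → g ∈ Subgroup.centralizer {t} := by
    intro g k hk hk2 hgk
    have h3 := hu _ hgk (by rw [← hk2]; exact MulEquiv.orderOf_eq (MulAut.conj g) k)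
    rw [hu k hk hk2] at h3
    rw [Subgroup.mem_centralizer_singleton_iff, ← mul_inv_eq_iff_eq_mul, h3]
  refine ⟨hL, ⟨?_, fun g hg => ?_⟩, fun g _ h0 => ?_, le_antisymm h1 fun g hg => ?_⟩
  · exact even_iff_two_dvd.2 (ht ▸ Subgroup.orderOf_dvd_natCard _ htK)
  · rw [← Nat.not_even_iff_odd, even_iff_two_dvd]
    intro h3
    obtain ⟨⟨k, hk, k', hk', rfl⟩, h4⟩ := exists_prime_orderOf_dvd_card' 2 h3
    rw [← Subgroup.orderOf_coe] at h4
    exact hg (h1 (hN (h2 g k' hk' ((MulEquiv.orderOf_eq (MulAut.conj g) k').symm.trans h4) hk)))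
  · have h3 := H52.commutator_eq_bot_iff_le_centralizer'.1 h0
    apply H52.IsQuasisimple.commutator_self_ne_bot
      ((H52.isQuasisimple_map_iff_of_injective (f := (MulAut.conj g).toMonoidHom)
        (MulAut.conj g).injective).2 hL)
    rw [H52.commutator_eq_bot_iff_forall]
    exact fun a ha b hb => hK a (h3 ha) b (h3 hb)
  · exact hN (h2 g t htK ht ((Subgroup.mem_normalizer_iff.1 hg t).1 htK))


/-- Let F be a finite field of odd order, n ≥ 7 odd, and t ∈ SL(n, F) the diagonal matrix with entries −1, …, −1, 1. Then E(C(t)) is a standard subgroup of SL(n, F). -/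
theorem result {F : Type*} [Field F] [Fintype F] [DecidableEq F] (hF : Odd (Fintype.card F)) (n : ℕ) (hn : 7 ≤ n) (hodd : Odd n) (t : Matrix.SpecialLinearGroup (Fin n) F) (ht : (t : Matrix (Fin n) (Fin n) F) = Matrix.diagonal (fun i : Fin n => if (i : ℕ) + 1 = n then (1 : F) else -1)) : Cfsg.IsStandardSubgroup ((Cfsg.layer ↥(Subgroup.centralizer ({t} : Set (Matrix.SpecialLinearGroup (Fin n) F)))).map (Subgroup.centralizer ({t} : Set (Matrix.SpecialLinearGroup (Fin n) F))).subtype) := by
  obtain ⟨m, rfl⟩ : ∃ m, n = m + 1 := ⟨n - 1, by omega⟩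
  have hne := H32.neg_one_ne_one_of_odd hF
  have : Nontrivial (Fin m) := Fin.nontrivial_iff_two_le.2 (by omega)
  have h : 3 ≤ Fintype.card (Fin m) ∨ ∃ x : F, x ≠ 0 ∧ x ^ 2 ≠ 1 := by
    left; simp; omega
  have ht' : t.1 = H32.blk1 ((-1 : F) • 1) 1 := by
    rw [Matrix.smul_one_eq_diagonal, H32.blk1_diagonal]
    refine ht.trans ?_
    congr 1
    funext i
    induction i using Fin.lastCases with
    | last => simp
    | cast i => simp [i.2.ne]
  have hC := H32.centralizer_eq_range_blkSL hne ht'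
  let e : GL (Fin m) F ≃*
      Subgroup.centralizer ({t} : Set (Matrix.SpecialLinearGroup (Fin (m + 1)) F)) :=
    (MonoidHom.ofInjective H32.blkSL_injective).trans (MulEquiv.subgroupCongr hC.symm)
  have hL : (Cfsg.layer ↥(Subgroup.centralizer
      ({t} : Set (Matrix.SpecialLinearGroup (Fin (m + 1)) F)))).map (Subgroup.centralizer
      ({t} : Set (Matrix.SpecialLinearGroup (Fin (m + 1)) F))).subtype =
      (Matrix.SpecialLinearGroup.toGL : Matrix.SpecialLinearGroup (Fin m) F →* _).range.map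
        (H32.blkSL F m) := by
    rw [← H52.map_layer_equiv e, Subgroup.map_map, H32.layer_GL h]
    rfl
  rw [hL]
  have hK : ∀ k ∈ Subgroup.centralizer (((Matrix.SpecialLinearGroup.toGL :
      Matrix.SpecialLinearGroup (Fin m) F →* _).range.map (H32.blkSL F m) :
        Subgroup (Matrix.SpecialLinearGroup (Fin (m + 1)) F)) :
          Set (Matrix.SpecialLinearGroup (Fin (m + 1)) F)),
      ∃ a d : F, k.1 = H32.blk1 (a • 1) d := by
    intro k hk
    refine H32.eq_blk1_of_commute_sl (by omega) fun s => ?_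
    have h1 := congrArg Subtype.val (hk _ ⟨_, ⟨s, rfl⟩, rfl⟩)
    rw [H32.SL_coe_mul, H32.SL_coe_mul, H32.blkSL_coe] at h1
    have h2 : (Matrix.SpecialLinearGroup.toGL s).1.det = 1 := s.2
    rwa [h2, inv_one] at h1
  have hm : Even m := by
    obtain ⟨k, hk⟩ := hodd
    exact ⟨k, by omega⟩
  let i : Fin m := ⟨0, by omega⟩
  refine standard_of (t := t) ?_ ?_ ?_ ?_ ?_ ?_
  · exact (H52.isQuasisimple_map_iff_of_injective H32.blkSL_injective).2
      (H32.range_toGL_isComponent h).2
  · refine orderOf_eq_prime (Subtype.ext ?_) fun h1 => hne ?_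
    · rw [pow_two, H32.SL_coe_mul, ht', H32.blk1_mul]
      simpa using H32.blk1_one
    · rw [h1] at ht'
      have h2 := (H32.blk1_inj (H32.blk1_one.trans ht')).1
      simpa using (congrFun (congrFun h2 i) i).symm
  · rintro _ ⟨x, -, rfl⟩
    exact Subgroup.mem_centralizer_singleton_iff.1 (hC ▸ ⟨x, rfl⟩)
  · intro k hk hk2
    obtain ⟨a, d, h1⟩ := hK k hk
    have h2 := congrArg Subtype.val (hk2 ▸ pow_orderOf_eq_one k : k ^ 2 = 1)
    rw [pow_two, H32.SL_coe_mul, h1, H32.blk1_mul] at h2
    have h3 := (H32.blk1_inj (h2.trans H32.blk1_one.symm)).1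
    have h4 : a * a = 1 := by simpa using congrFun (congrFun h3 i) i
    have h5 := k.2
    rw [h1, H32.det_blk1, Matrix.det_smul, Matrix.det_one, Fintype.card_fin] at h5
    rcases mul_self_eq_one_iff.1 h4 with rfl | rfl
    · exfalso
      rw [one_pow, one_mul, one_mul] at h5
      rw [h5, one_smul, H32.blk1_one] at h1
      rw [show k = 1 from Subtype.ext h1, orderOf_one] at hk2
      omega
    · rw [hm.neg_one_pow, one_mul, one_mul] at h5
      exact Subtype.ext (by rw [h1, ht', h5])
  · rw [hC, MonoidHom.range_eq_map]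
    have := H32.range_toGL_normal (ι := Fin m) (F := F)
    refine le_trans ?_ (Subgroup.le_normalizer_map _)
    rw [Subgroup.normalizer_eq_top]
  · intro a ha b hb
    obtain ⟨a1, a2, h1⟩ := hK a ha
    obtain ⟨b1, b2, h2⟩ := hK b hb
    apply Subtype.ext
    rw [H32.SL_coe_mul, H32.SL_coe_mul, h1, h2, H32.blk1_mul, H32.blk1_mul, mul_comm a2]
    simp [smul_smul, mul_comm]

end Cfsg.Agent.S1348
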