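import Cfsg.Statements.S1358
import Cfsg.Agent.H67.BG16A

set_option autoImplicit false
open Cfsg

namespace Cfsg.Agent.S1358

/-- Let G be a minimal simple group of odd order and M a maximal subgroup with standard factorisation M = K U M_σ. Then for every prime p, every Sylow p-subgroup of U is abelian and has no elementary abelian subgroup of order p ^ 3. -/
theorem result {G : Type*} [Group G] [Finite G] (hG : Cfsg.IsMinSimpleOddOrder G)
    (M : Subgroup G) (hM : IsCoatom M) (K U : Subgroup G) (hKU : Cfsg.IsSigmaDecomposition M K U) :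
    ∀ (p : ℕ), p.Prime → ∀ P : Sylow p U, IsMulCommutative (P : Subgroup U) ∧ Cfsg.PRankLE p 2 (P : Subgroup U) := by
  intro p hp P
  have : Fact p.Prime := ⟨hp⟩
  obtain ⟨h1, h2⟩ := H67.BGsummaryB1 hG hM ((H63.isSigmaDecomposition_iff hG hM).1 hKU).hallU
    (H67.syl_map_sylow P)
  exact H67.sylow_comm_rank_of_map P h1 h2

end Cfsg.Agent.S1358
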