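import Cfsg.Statements.S1359
import Cfsg.Agent.H67.BG16A

set_option autoImplicit false
open Cfsg

namespace Cfsg.Agent.S1359

/-- Let G be a minimal simple group of odd order and M a maximal subgroup with standard factorisation M = K U M_σ. Then the subgroup generated by those elements of U which centralize some non-identity element of M_σ is abelian. -/
theorem result {G : Type*} [Group G] [Finite G] (hG : Cfsg.IsMinSimpleOddOrder G)
    (M : Subgroup G) (hM : IsCoatom M) (K U : Subgroup G) (hKU : Cfsg.IsSigmaDecomposition M K U) :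
    IsMulCommutative (Subgroup.closure ((U : Set G) ∩ Cfsg.sigmaHat M)) := by
  refine H67.isMulCommutative_of_le
    (H66.kappa_structure hG hM ((H63.isSigmaDecomposition_iff hG hM).1 hKU)).2.2.2.1
    ((Subgroup.closure_le _).2 ?_)
  rintro a ⟨haU, -, y, hy, h1, hc⟩
  exact le_iSup₂_of_le (f := fun (x : G) (_ : x ∈ Cfsg.sigmaCore M ∧ x ≠ 1) =>
    U ⊓ Subgroup.centralizer {x}) y ⟨hy, h1⟩ le_rfl
      ⟨haU, Subgroup.mem_centralizer_singleton_iff.2 hc⟩

end Cfsg.Agent.S1359
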