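import Cfsg.Statements.S1360
import Cfsg.Agent.H67.BG16A

set_option autoImplicit false
open Cfsg

namespace Cfsg.Agent.S1360

/-- Let G be a minimal simple group of odd order and M a maximal subgroup with standard factorisation M = K U M_σ. Then U contains a subgroup U₀ with the same exponent as U such that no non-identity element of U₀ centralizes a non-identity element of M_σ. -/
theorem result {G : Type*} [Group G] [Finite G] (hG : Cfsg.IsMinSimpleOddOrder G)
    (M : Subgroup G) (hM : IsCoatom M) (K U : Subgroup G) (hKU : Cfsg.IsSigmaDecomposition M K U) :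
    ∃ U₀ : Subgroup G, U₀ ≤ U ∧ Monoid.exponent U₀ = Monoid.exponent U ∧ ∀ u ∈ U₀, u ∈ Cfsg.sigmaHat M → u = 1 := by
  by_cases hU : U = ⊥
  · exact ⟨U, le_rfl, rfl, fun u hu _ => by simpa [hU] using hu⟩
  obtain ⟨U₀, h1, h2, h3⟩ :=
    (H66.kappa_structure hG hM ((H63.isSigmaDecomposition_iff hG hM).1 hKU)).2.2.2.2 hU
  refine ⟨U₀, h1, h2, fun u hu hs => ?_⟩
  by_contra hne
  exact (H67.mem_sigmaHat_iff.1 hs).2 (h3.reg u hu hne)

end Cfsg.Agent.S1360
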