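import Cfsg.Statements.S1366
import Cfsg.Agent.H3.BG14B3

set_option autoImplicit false
open Cfsg

namespace Cfsg.Agent.S1366

open Cfsg Subgroup Cfsg.Agent.H63 Cfsg.Agent.H67 Cfsg.Agent.H66 Cfsg.Agent.H64

/-- Let G be a minimal simple group of odd order, M a maximal subgroup with standard factorisation M = K U M_σ, K ≠ 1, and K* = M_σ ∩ C_G(K). Then there is exactly one maximal subgroup M* of G such that K = M*_σ ∩ C_G(K*) and K* is a Hall κ(M*)-subgroup of M* (in particular κ(M*) is nonempty). -/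
theorem result {G : Type*} [Group G] [Finite G] (hG : Cfsg.IsMinSimpleOddOrder G)
    (M : Subgroup G) (hM : IsCoatom M) (K U : Subgroup G) (hKU : Cfsg.IsSigmaDecomposition M K U) (hK1 : K ≠ ⊥) :
    ∃! Mstar : Subgroup G, IsCoatom Mstar ∧ K = Cfsg.sigmaCore Mstar ⊓ Subgroup.centralizer ((Cfsg.sigmaCore M ⊓ Subgroup.centralizer (K : Set G)) : Set G) ∧
        Cfsg.IsPiHallOf (Cfsg.kappa Mstar) (Cfsg.sigmaCore M ⊓ Subgroup.centralizer (K : Set G)) Mstar := by
  have PM : PType M := (ntrivg_kappa hM hKU.hall).1 hK1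
  obtain ⟨L, hL⟩ := Ptype_embedding hG PM hKU.hall
  refine ⟨L, ⟨hL.typeP.max, hL.defK.symm, hL.hallKappa⟩, fun N hN => ?_⟩
  have hN' := ptypeEmbedding_of hG PM hKU.hall hN.1 hN.2.1 hN.2.2
  obtain ⟨X, sX, prX⟩ := exists_prime_card_le_of_ne_bot hK1
  exact (hN'.uniqX X sX prX).unique (hL.uniqX X sX prX)

end Cfsg.Agent.S1366
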