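import Cfsg.Statements.S1368
import Cfsg.Agent.H3.BG14B3

set_option autoImplicit false
open Cfsg

namespace Cfsg.Agent.S1368

open Cfsg Subgroup Cfsg.Agent.H63 Cfsg.Agent.H67 Cfsg.Agent.H66 Cfsg.Agent.H64

/-- Let G be a minimal simple group of odd order, M a maximal subgroup with standard factorisation M = K U M_σ, K ≠ 1, K* = M_σ ∩ C_G(K), and M* a maximal subgroup with K = M*_σ ∩ C_G(K*) and K* a Hall κ(M*)-subgroup of M*. Then M ∩ M* is the subgroup generated by K and K*, and it is cyclic. -/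
theorem result {G : Type*} [Group G] [Finite G] (hG : Cfsg.IsMinSimpleOddOrder G)
    (M : Subgroup G) (hM : IsCoatom M) (K U : Subgroup G) (hKU : Cfsg.IsSigmaDecomposition M K U) (hK1 : K ≠ ⊥) (Mstar : Subgroup G) (hMstar : IsCoatom Mstar)
    (hKst : K = Cfsg.sigmaCore Mstar ⊓ Subgroup.centralizer ((Cfsg.sigmaCore M ⊓ Subgroup.centralizer (K : Set G)) : Set G))
    (hKstH : Cfsg.IsPiHallOf (Cfsg.kappa Mstar) (Cfsg.sigmaCore M ⊓ Subgroup.centralizer (K : Set G)) Mstar) :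
    M ⊓ Mstar = K ⊔ (Cfsg.sigmaCore M ⊓ Subgroup.centralizer (K : Set G)) ∧ IsCyclic ↥(K ⊔ (Cfsg.sigmaCore M ⊓ Subgroup.centralizer (K : Set G))) := by
  have PM : PType M := (ntrivg_kappa hM hKU.hall).1 hK1
  have hL := ptypeEmbedding_of hG PM hKU.hall hMstar hKst hKstH
  exact ⟨hL.inf, hL.cyclic⟩

end Cfsg.Agent.S1368
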