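import Cfsg.Statements.S1370
import Cfsg.Agent.H3.BG14B3

set_option autoImplicit false
open Cfsg

namespace Cfsg.Agent.S1370

open Cfsg Subgroup Cfsg.Agent.H63 Cfsg.Agent.H67 Cfsg.Agent.H66 Cfsg.Agent.H64

/-- Let G be a minimal simple group of odd order, M a maximal subgroup with standard factorisation M = K U M_σ, K ≠ 1, K* = M_σ ∩ C_G(K) and Z the subgroup generated by K and K*. Then the set of elements of Z lying in neither K nor K* is a TI-subset of G, and its set-normalizer in G is exactly Z. -/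
theorem result {G : Type*} [Group G] [Finite G] (hG : Cfsg.IsMinSimpleOddOrder G)
    (M : Subgroup G) (hM : IsCoatom M) (K U : Subgroup G) (hKU : Cfsg.IsSigmaDecomposition M K U) (hK1 : K ≠ ⊥) :
    Cfsg.IsTISubset ((↑(K ⊔ (Cfsg.sigmaCore M ⊓ Subgroup.centralizer (K : Set G))) : Set G) \ ((K : Set G) ∪ ↑(Cfsg.sigmaCore M ⊓ Subgroup.centralizer (K : Set G)))) ∧ Subgroup.normalizer ((↑(K ⊔ (Cfsg.sigmaCore M ⊓ Subgroup.centralizer (K : Set G))) : Set G) \ ((K : Set G) ∪ ↑(Cfsg.sigmaCore M ⊓ Subgroup.centralizer (K : Set G)))) = K ⊔ (Cfsg.sigmaCore M ⊓ Subgroup.centralizer (K : Set G)) := by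
  have PM : PType M := (ntrivg_kappa hM hKU.hall).1 hK1
  have h := (H3.goodP_self PM hKU.hall).normedTI hG
  exact ⟨h.isTISubset, h.eq_norm_top⟩

end Cfsg.Agent.S1370
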