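import Cfsg.Statements.S1371
import Cfsg.Agent.H3.BG14B3

set_option autoImplicit false
open Cfsg

namespace Cfsg.Agent.S1371

open Cfsg Subgroup Cfsg.Agent.H63 Cfsg.Agent.H67 Cfsg.Agent.H66 Cfsg.Agent.H64

/-- Let G be a minimal simple group of odd order, M a maximal subgroup with standard factorisation M = K U M_σ, K ≠ 1, K* = M_σ ∩ C_G(K), and Ẑ the set of elements of K K* outside K ∪ K*. Then the union of the M-conjugates of Ẑ equals A₀(M) with A(M) removed, and it is a TI-subset of G. -/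
theorem result {G : Type*} [Group G] [Finite G] (hG : Cfsg.IsMinSimpleOddOrder G)
    (M : Subgroup G) (hM : IsCoatom M) (K U : Subgroup G) (hKU : Cfsg.IsSigmaDecomposition M K U) (hK1 : K ≠ ⊥) :
    {a : G | ∃ m ∈ M, ∃ z ∈ ((↑(K ⊔ (Cfsg.sigmaCore M ⊓ Subgroup.centralizer (K : Set G))) : Set G) \ ((K : Set G) ∪ ↑(Cfsg.sigmaCore M ⊓ Subgroup.centralizer (K : Set G)))), a = m * z * m⁻¹} = Cfsg.sigmaA0 M K \ Cfsg.sigmaA M U ∧
      Cfsg.IsTISubset (Cfsg.sigmaA0 M K \ Cfsg.sigmaA M U) := by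
  have PM : PType M := (ntrivg_kappa hM hKU.hall).1 hK1
  have cU := (isSigmaDecomposition_iff hG hM).1 hKU
  have gM := H3.goodP_self PM hKU.hall
  have der : U ⊔ sigmaCore M = ⁅M, M⁆ := by rw [sup_comm]; exact gM.der1 hG cU
  have sdp := gM.sdp hG
  have nsD := derived_normalIn M
  have sKM := hall_le hKU.hall
  have nsS := Msigma_normal M
  have e : {a : G | ∃ m ∈ M, ∃ z ∈ H68.cycV K (sigmaCore M ⊓ C[K]), a = m * z * m⁻¹} =
      sigmaA0 M K \ sigmaA M U := by
    ext a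
    constructor
    · rintro ⟨m, hm, z, hz, rfl⟩
      obtain ⟨k, hk, k1, y, hy, y1, rfl, hc, ey, -⟩ := gM.decomp hG hz
      have hM' : m * (k * y) * m⁻¹ ∈ M :=
        M.mul_mem (M.mul_mem hm (M.mul_mem (sKM hk) (nsS.le hy.1))) (M.inv_mem hm)
      refine ⟨⟨⟨hM', m * y * m⁻¹, nsS.conj_mem hm hy.1, by simpa using y1, ?_⟩, ?_⟩, ?_⟩
      · have : k * y * y = y * (k * y) := by rw [← mul_assoc, ← hc.eq]
        calc _ = m * (k * y * y) * m⁻¹ := by group
          _ = _ := by rw [this]; group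
      · rintro ⟨k', hk', -, m', -, e⟩
        have h1 : PiElt (sigma M)ᶜ (k * y) := by
          rw [← piElt_conj_iff (g := m), e, piElt_conj_iff]
          exact piElt_of_mem (kappa_hall_sigma' hKU.hall) hk'
        exact y1 (ey ▸ constt_eq_one h1)
      · rintro ⟨-, h2⟩
        rw [der] at h2
        have h3 : k * y ∈ ⁅M, M⁆ := by
          simpa [mul_assoc] using nsD.conj_mem (M.inv_mem hm) h2
        have h4 : k ∈ ⁅M, M⁆ := by
          simpa using (⁅M, M⁆ : Subgroup G).mul_mem h3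
            ((⁅M, M⁆ : Subgroup G).inv_mem (Msigma_der1 hG hM hy.1))
        exact k1 (sdp.eq_one h4 hk)
    · rintro ⟨⟨⟨haM, y, hy, y1, hc⟩, hnK⟩, hnA⟩
      have hnD : a ∉ ⁅M, M⁆ := fun h => hnA ⟨⟨haM, y, hy, y1, hc⟩, der ▸ h⟩
      have hs : constt (sigma M) a ∈ sigmaCore M :=
        mem_Msigma hG hM (constt_mem _ haM) (piElt_constt _ _)
      have hb : constt (sigma M)ᶜ a ∉ ⁅M, M⁆ := fun h =>
        hnD (mem_of_constt_mem (Msigma_der1 hG hM hs) h)
      have b1 : constt (sigma M)ᶜ a ≠ 1 := fun h => hb (h ▸ one_mem _)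
      have hbM : constt (sigma M)ᶜ a ∈ M := constt_mem _ haM
      have kb : PiElt (kappa M) (constt (sigma M)ᶜ a) := by
        rcases pi_of_cent_sigma hG hM hy y1 (mem_inf.2 ⟨hbM, constt_mem _
          (mem_centralizer_singleton_iff.2 hc)⟩) b1 (piElt_constt _ _) with h | h
        · exact h.1
        · exact absurd (mem_of_normal_hall (sdp.hall_left_of_hall_right hKU.hall) nsD hbM
            (h.1.mono fun p hp e => kappa_tau2' e hp)) hb
      obtain ⟨m, hm, hle⟩ := exists_cj_le_hall (mmax_sol hG hM) hKU.hall (zpowers_le.2 hbM)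
        (isPi_zpowers_iff.2 kb)
      rw [cj_zpowers, zpowers_le] at hle
      have s1 : constt (sigma M) a ≠ 1 := fun h => hnK ⟨_, hle, by simpa using b1, m⁻¹,
        M.inv_mem hm, by
          have := consttC (sigma M) a
          rw [h, one_mul] at this
          rw [this]; group⟩
      obtain ⟨-, -, -, pr, -⟩ := kappa_compl_context hG hM cU
      have hc' := commute_constt_constt (sigma M) (sigma M)ᶜ (Commute.refl a)
      have hs' : m * constt (sigma M) a * m⁻¹ ∈ sigmaCore M ⊓ C[K] := by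
        rw [← pr _ hle (by simpa using b1)]
        refine mem_inf.2 ⟨nsS.conj_mem hm hs, mem_centralizer_singleton_iff.2 ?_⟩
        calc _ = m * (constt (sigma M) a * constt (sigma M)ᶜ a) * m⁻¹ := by group
          _ = _ := by rw [hc'.eq]; group
      refine ⟨m⁻¹, M.inv_mem hm, _, H68.mul_mem_cycV (gM.dp hG).inf hle (by simpa using b1) hs'
        (by simpa using s1), ?_⟩
      conv_lhs => rw [← consttC' (sigma M) a]
      group
  refine ⟨e, ?_⟩
  rw [← e]
  rintro g hg _ ⟨m, hm, z, hz, rfl⟩ ⟨m', hm', z', hz', e'⟩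
  refine absurd (le_normalizer_classSupport _ M ?_) (by
    have : {a : G | ∃ m ∈ M, ∃ z ∈ H68.cycV K (sigmaCore M ⊓ C[K]), a = m * z * m⁻¹} =
      classSupport (H68.cycV K (sigmaCore M ⊓ C[K])) M := by
      ext a
      exact ⟨fun ⟨m, hm, z, hz, e⟩ => ⟨z, hz, m, hm, e⟩, fun ⟨z, hz, m, hm, e⟩ => ⟨m, hm, z, hz, e⟩⟩
    rwa [this] at hg)
  have h1 : m'⁻¹ * g * m ∈ K ⊔ (sigmaCore M ⊓ C[K]) := by
    refine gM.cycV_ti hG hz ?_
    have : m'⁻¹ * g * m * z * (m'⁻¹ * g * m)⁻¹ = z' := by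
      calc _ = m'⁻¹ * (g * (m * z * m⁻¹) * g⁻¹) * m' := by group
        _ = _ := by rw [e']; group
    rw [this]; exact hz'.1
  have := M.mul_mem (M.mul_mem hm' (gM.le hG h1)) (M.inv_mem hm)
  simpa [mul_assoc] using this

end Cfsg.Agent.S1371
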