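import Cfsg.Statements.S1375
import Cfsg.Agent.H67.BG16A

set_option autoImplicit false
open Cfsg

namespace Cfsg.Agent.S1375

/-- Let G be a minimal simple group of odd order, M a maximal subgroup, x ≠ 1 in M_σ with C_G(x) not contained in M. Then exactly one maximal subgroup N contains C_G(x); for it N_σ = N_F, C_{N_σ}(x) is a normal subgroup of C_G(x) complementing C_M(x), M ∩ N is a complement to N_σ in N, and for every standard factorisation N = K' U' N_σ one has U' ≠ 1 and x ∈ A(N) with x ∉ N_σ. -/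
theorem result {G : Type*} [Group G] [Finite G] (hG : Cfsg.IsMinSimpleOddOrder G)
    (M : Subgroup G) (hM : IsCoatom M) (x : G) (hx : x ∈ Cfsg.sigmaCore M) (hx1 : x ≠ 1) (hxM : ¬ Subgroup.centralizer ({x} : Set G) ≤ M) :
    ∃ N : Subgroup G, (IsCoatom N ∧ Subgroup.centralizer ({x} : Set G) ≤ N) ∧ (∀ L : Subgroup G, IsCoatom L → Subgroup.centralizer ({x} : Set G) ≤ L → L = N) ∧
        Cfsg.sigmaCore N = Cfsg.fittingHallOf N ∧
        Subgroup.centralizer ({x} : Set G) ≤ Subgroup.normalizer ((Cfsg.sigmaCore N ⊓ Subgroup.centralizer ({x} : Set G) : Subgroup G) : Set G) ∧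
        Cfsg.IsComplIn (M ⊓ Subgroup.centralizer ({x} : Set G)) (Cfsg.sigmaCore N ⊓ Subgroup.centralizer ({x} : Set G)) (Subgroup.centralizer ({x} : Set G)) ∧
        Cfsg.IsComplIn (M ⊓ N) (Cfsg.sigmaCore N) N ∧
        ∀ K' U' : Subgroup G, Cfsg.IsSigmaDecomposition N K' U' → U' ≠ ⊥ ∧ x ∈ Cfsg.sigmaA N U' ∧ x ∉ Cfsg.sigmaCore N := by
  obtain ⟨N, hN, hxN⟩ := H67.mmax_exists_cent1 hG hx1
  obtain ⟨hb, tN, h1, h2, h3, h4, h5, -⟩ := H67.BGsummaryD4 hG hM hx hx1 hxM hN hxN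
  refine ⟨N, ⟨hN, hxN⟩, hb.1.2.2, h1.symm, h2.le_norm, h2.isComplIn', h3.isComplIn',
    fun K' U' h => ?_⟩
  have h' := (H63.isSigmaDecomposition_iff hG hN).1 h
  exact ⟨fun h0 => (H63.ftype_or_p2type_iff hN).1 tN ((H63.trivg_kappa_compl hG hN h').1 h0),
    (H67.mem_sigmaA_iff hG hN h').2 ⟨h4, h5⟩, hb.2⟩

end Cfsg.Agent.S1375
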