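import Cfsg.Statements.S1376
import Cfsg.Agent.H67.BG16A

set_option autoImplicit false
open Cfsg

namespace Cfsg.Agent.S1376

/-- Let G be a minimal simple group of odd order, M a maximal subgroup, x ≠ 1 in M_σ with C_G(x) not contained in M, and N a maximal subgroup containing C_G(x) with κ(N) nonempty. Then κ(M) is empty, M has a cyclic Frobenius complement (M is a Frobenius group), and M_F is not a TI-subset of G. -/
theorem result {G : Type*} [Group G] [Finite G] (hG : Cfsg.IsMinSimpleOddOrder G)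
    (M : Subgroup G) (hM : IsCoatom M) (x : G) (hx : x ∈ Cfsg.sigmaCore M) (hx1 : x ≠ 1) (hxM : ¬ Subgroup.centralizer ({x} : Set G) ≤ M)
    (N : Subgroup G) (hN : IsCoatom N) (hxN : Subgroup.centralizer ({x} : Set G) ≤ N) (hkN : (Cfsg.kappa N).Nonempty) :
    Cfsg.kappa M = ∅ ∧ (∃ E : Subgroup ↥M, Cfsg.IsFrobeniusComplement E ∧ IsCyclic E) ∧ ¬ Cfsg.IsTISubset (Cfsg.fittingHallOf M : Set G) := by
  obtain ⟨FM, -, E, -, hc, hF⟩ := H66.nonFtype_signalizer_base hG hM hx hx1 hxM hN hxN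
    fun h => h.not_ptype ⟨hN, hkN⟩
  refine ⟨FM.2, ⟨_, hF.isFrobeniusComplement, ?_⟩, fun hti => hxM fun g hg => ?_⟩
  · exact (MulEquiv.isCyclic (Subgroup.subgroupOfEquivOfLe hF.le_right)).2 hc
  · rw [H63.notP1type_Fcore hG (Or.inl FM)] at hti
    by_contra hgM
    refine hx1 (hti g (by rwa [H64.norm_Msigma hG hM]) x hx ?_)
    rwa [Subgroup.mem_centralizer_singleton_iff.1 hg, mul_inv_cancel_right]

end Cfsg.Agent.S1376
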