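import Cfsg.Statements.S1380
import Cfsg.Agent.H72.PF14

set_option autoImplicit false
open Cfsg

namespace Cfsg.Agent.S1380

/-- Let G be a minimal simple group of odd order and M a maximal subgroup with standard factorisation M = K U M_σ. Then M is of Type I if and only if K = 1 and U ≠ 1. -/
theorem result {G : Type*} [Group G] [Finite G] (hG : Cfsg.IsMinSimpleOddOrder G)
    (M : Subgroup G) (hM : IsCoatom M) (K U : Subgroup G) (hKU : Cfsg.IsSigmaDecomposition M K U) :
    Cfsg.IsOfTypeI M ↔ (K = ⊥ ∧ U ≠ ⊥) := by
  exact absurd hG (H72.no_minSimple_odd_group G)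

end Cfsg.Agent.S1380
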