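import Cfsg.Statements.S1390
import Cfsg.Agent.H67.BG16B

set_option autoImplicit false
open Cfsg

namespace Cfsg.Agent.S1390

/-- Let G be a minimal simple group of odd order, M a maximal subgroup and H = M_F; suppose M is of Type I and U is a complement to H in M, or M is of Type II and U is a complement to H in M'. Then every Sylow subgroup of U is abelian with no elementary abelian subgroup of order p ^ 3; for every nonempty set X of non-identity elements of U centralizing a non-identity element of H, C_G(X) ≤ M and M is the unique maximal subgroup containing C_G(X); and A(M) with A₁(M) removed is a TI-subset of G. -/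
theorem result {G : Type*} [Group G] [Finite G] (hG : Cfsg.IsMinSimpleOddOrder G)
    (M : Subgroup G) (hM : IsCoatom M) (U : Subgroup G)
    (hU : (Cfsg.IsOfTypeI M ∧ Cfsg.IsComplIn (Cfsg.fittingHallOf M) U M) ∨ (Cfsg.IsOfTypeII M ∧ Cfsg.IsComplIn (Cfsg.fittingHallOf M) U ⁅M, M⁆)) :
    (∀ (p : ℕ), p.Prime → ∀ P : Sylow p U, IsMulCommutative (P : Subgroup U) ∧ Cfsg.PRankLE p 2 (P : Subgroup U)) ∧
      (∀ X : Set G, X ⊆ (U : Set G) \ {1} → X.Nonempty → Cfsg.fittingHallOf M ⊓ Subgroup.centralizer X ≠ ⊥ →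
        Subgroup.centralizer X ≤ M ∧ ∀ L : Subgroup G, IsCoatom L → Subgroup.centralizer X ≤ L → L = M) ∧
      Cfsg.IsTISubset (Cfsg.typeA M \ Cfsg.typeA1 M) := by
  have key : ∀ h : Cfsg.IsOfTypeI M, Cfsg.Agent.IsOfTypeI M := fun h =>
    H71.typeI_of_FType hG ((H63.ptype_or_ftype hM).resolve_left fun PM => by
      obtain ⟨V, hV⟩ := (H68.isOfTypeF_iff (H67.mmax_sol hG hM) (H67.mFT_odd hG M)).1 h.1
      obtain ⟨_, K, hc⟩ := H63.kappa_witness hG hM
      obtain ⟨W, hW⟩ := H71.typeP_of_PType hG PM hc.hallK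
      exact H68.typePF_exclusion hW V hV)
  have e : Cfsg.typeA M = Cfsg.Agent.typeA M := by
    unfold Cfsg.typeA Cfsg.Agent.typeA
    rcases hU with ⟨h, -⟩ | ⟨h, -⟩
    · rw [if_pos h, if_pos (key h)]
    · have h' : ¬ Cfsg.Agent.IsOfTypeI M := fun h' => ((H71.typeI_iff_FType hG hM).1 h').not_ptype
        ((H71.typeII_iff_P2Type hG hM).1 h).ptype
      rw [if_neg h', if_neg (mt key h')]
  rw [e]
  exact H67.FTtypeI_II hG M hM U (hU.imp_left fun h => ⟨key h.1, h.2⟩)

end Cfsg.Agent.S1390
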