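import Cfsg.Statements.S1396
import Cfsg.Agent.H67.BG7

set_option autoImplicit false
open Cfsg

namespace Cfsg.Agent.S1396

/-- Let G be a minimal simple group of odd order, p a prime dividing the order of G and A an abelian p-subgroup. Suppose either (1) A consists exactly of the elements x of C_G(A) with x^p = 1, and every proper subgroup of G has p-length at most one, or (2) A is normal and self-centralizing in some Sylow p-subgroup of G and has rank at least 2. Then A satisfies the transitivity hypothesis. -/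
theorem result {G : Type*} [Group G] [Finite G] (hG : Cfsg.IsMinSimpleOddOrder G)
    (p : ℕ) [Fact p.Prime] (hp : p ∣ Nat.card G) (A : Subgroup G) (hAp : IsPGroup p A) (hAc : IsMulCommutative A)
    (h : (∀ x ∈ Subgroup.centralizer (A : Set G), x ^ p = 1 ↔ x ∈ A) ∧ (∀ H : Subgroup G, H ≠ ⊤ → Cfsg.PLengthLE p 1 H) ∨
      ∃ P : Sylow p G, Cfsg.IsSCN (P : Subgroup G) A ∧ ¬ Cfsg.PRankLE p 1 A) :
    Cfsg.TransitivityHypothesis A := by
  refine H67.normedConstrained_iff.1 ?_
  rcases h with ⟨h₁, h₂⟩ | ⟨P, h₁, h₂⟩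
  · have hc := Subgroup.le_centralizer_iff_isMulCommutative.2 hAc
    have hm : H63.MaxElemOf p A ⊤ :=
      H67.maxElemOf_of_forall ⟨hAc, fun a ha => (h₁ a (hc ha)).2 ha⟩ le_top
        fun x _ hx hxp => (h₁ x hx).1 hxp
    exact H67.plength_1_normed_constrained hG
      (hm.ne_bot Fact.out (by rwa [Subgroup.card_top])) hm h₂
  · exact H67.SCN_normed_constrained hG (H67.syl_top P)
      ⟨h₁, (H67.not_pRankLE_iff.1 h₂).trans (H67.rankP_le_rank A)⟩

end Cfsg.Agent.S1396
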