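import Cfsg.Statements.S1398
import Cfsg.Agent.H67.BG9

set_option autoImplicit false
open Cfsg

namespace Cfsg.Agent.S1398

/-- Let G be a minimal simple group of odd order, M a maximal subgroup, p a prime, and B a noncyclic elementary abelian p-subgroup of M. If C_G(b) ≤ M for every non-identity b ∈ B, or if every subgroup of G of order coprime to p normalized by B is contained in M, then M is the only maximal subgroup of G containing B. -/
theorem result {G : Type*} [Group G] [Finite G] (hG : Cfsg.IsMinSimpleOddOrder G)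
    (M : Subgroup G) (hM : IsCoatom M) (p : ℕ) [Fact p.Prime] (B : Subgroup G) (hBM : B ≤ M)
    (hBe : Cfsg.IsElementaryAbelian p B) (hBnc : ¬ IsCyclic B)
    (h : (∀ b ∈ B, b ≠ 1 → Subgroup.centralizer ({b} : Set G) ≤ M) ∨
      ∀ Y ∈ Cfsg.invSubgroups ⊤ B (Cfsg.primesNotDvd p), Y ≤ M) :
    Cfsg.InUniqueMaximal B := by
  rcases h with h | h
  · exact H67.noncyclic_cent1_sub_Uniqueness hG hM hBM hBe hBnc h
  · exact H67.noncyclic_normed_sub_Uniqueness hG hM hBM hBe hBnc fun K hK hn => h K
      ⟨le_top, (H67.isPi_congr fun q hq => H67.mem_primesNotDvd_prime_iff Fact.out hq).2 hK, hn⟩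

end Cfsg.Agent.S1398
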