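import Cfsg.Statements.S1403
import Cfsg.Agent.H67.BG9

set_option autoImplicit false
open Cfsg

namespace Cfsg.Agent.S1403

/-- Let G be a minimal simple group of odd order and K a proper subgroup having an elementary abelian subgroup of order p ^ 2 for some prime p. If K, or its centralizer C_G(K), has an elementary abelian subgroup of order q ^ 3 for some prime q, then K lies in exactly one maximal subgroup of G. -/
theorem result {G : Type*} [Group G] [Finite G] (hG : Cfsg.IsMinSimpleOddOrder G)
    (K : Subgroup G) (hK : K ≠ ⊤) (hK2 : ¬ Cfsg.RankLE 1 K)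
    (hK3 : ¬ Cfsg.RankLE 2 K ∨ ¬ Cfsg.RankLE 2 (Subgroup.centralizer (K : Set G))) :
    Cfsg.InUniqueMaximal K := by
  exact H67.Uniqueness hG hK (H67.not_rankLE_iff.1 hK2)
    (hK3.imp H67.not_rankLE_iff.1 H67.not_rankLE_iff.1)

end Cfsg.Agent.S1403
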