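import Cfsg.Statements.S1405
import Cfsg.Agent.H66.BG10
-- import your own Cfsg.Agent.* helpers here

set_option autoImplicit false
open Cfsg

namespace Cfsg.Agent.S1405

open Cfsg.Agent.H63 Cfsg.Agent.H67

/-- Let G be a minimal simple group of odd order and M a maximal subgroup, α(M) the set of primes p with M of p-rank at least 3, and M_α = O_{α(M)}(M). Then M_α is a Hall α(M)-subgroup of M and of G, M_α ≤ M_σ, the quotient M/M_α has no elementary abelian subgroup of order p ^ 3 for any prime p, and the image of M' in M/M_α is nilpotent. -/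
theorem result {G : Type*} [Group G] [Finite G] (hG : Cfsg.IsMinSimpleOddOrder G)
    (M : Subgroup G) (hM : IsCoatom M) :
    Cfsg.IsPiHallOf (Cfsg.alpha M) (Cfsg.alphaCore M) M ∧ Cfsg.IsPiHall (Cfsg.alpha M) (Cfsg.alphaCore M) ∧
      Cfsg.alphaCore M ≤ Cfsg.sigmaCore M ∧ Cfsg.RankLE 2 (↥M ⧸ Cfsg.piCore (Cfsg.alpha M) ↥M) ∧
      Group.IsNilpotent ↥((commutator ↥M).map (QuotientGroup.mk' (Cfsg.piCore (Cfsg.alpha M) ↥M))) :=
  by
  have nMa := H66.Malpha_normal M
  have e := quoEquiv nMa.norm (piCore (alpha M) M) (piCoreOf_subgroupOf _ M).symm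
  refine ⟨H66.Malpha_Hall hG hM, hall_top_iff.1 (H66.Malpha_Hall_G hG hM),
    H66.Malpha_sub_Msigma hG hM, ?_, ?_⟩
  · rw [rankLE_top_iff, rank_congr (Subgroup.topEquiv.trans e)]
    exact H66.Malpha_quo_rank2 hG hM
  · have h := H66.Malpha_quo_nil hG hM
    rw [quo_commutator nMa.norm nMa.norm] at h
    have h1 : Group.IsNilpotent ↥(commutator ↥(M /ᵍ alphaCore M)) := by
      rw [← commutator_subgroupOf_self]
      exact H3.isNilpotent_subgroupOf h _
    have h2 := H3.isNilpotent_map h1 e.symm.toMonoidHom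
    rw [commutator_def, Subgroup.map_commutator,
      Subgroup.map_top_of_surjective _ e.symm.surjective] at h2
    rwa [commutator_def, Subgroup.map_commutator,
      Subgroup.map_top_of_surjective _ (QuotientGroup.mk'_surjective _)]

end Cfsg.Agent.S1405
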