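import Cfsg.Statements.S1407
import Cfsg.Agent.H66.BG10
-- import your own Cfsg.Agent.* helpers here

set_option autoImplicit false
open Cfsg

namespace Cfsg.Agent.S1407

open Cfsg.Agent.H63 Cfsg.Agent.H67

/-- Let G be a minimal simple group of odd order, M a maximal subgroup with M_α ≠ 1, p a prime dividing the order of M but not in σ(M), and P a Sylow p-subgroup of M. Then there is an element x of order p in the centre of P such that M_α ∩ C_G(x) has all Sylow subgroups cyclic and M is not the unique maximal subgroup of G containing C_G(x). -/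
theorem result {G : Type*} [Group G] [Finite G] (hG : Cfsg.IsMinSimpleOddOrder G)
    (M : Subgroup G) (hM : IsCoatom M) (hMα : Cfsg.alphaCore M ≠ ⊥) (p : ℕ) [Fact p.Prime] (hpM : p ∣ Nat.card M) (hp : p ∉ Cfsg.sigma M) (P : Sylow p M) :
    ∃ x : G, x ∈ ((Subgroup.center ↥(P : Subgroup M)).map (P : Subgroup M).subtype).map M.subtype ∧ orderOf x = p ∧
        IsZGroup ↥(Cfsg.alphaCore M ⊓ Subgroup.centralizer ({x} : Set G)) ∧
        ¬ (Subgroup.centralizer ({x} : Set G) ≤ M ∧ ∀ L : Subgroup G, IsCoatom L → Subgroup.centralizer ({x} : Set G) ≤ L → L = M) :=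
  by
  have sylP := syl_map_sylow P
  obtain ⟨x, hx, ntx, nu, zg⟩ := H66.cent1_sigma'_Zgroup hG hM sylP hp (syl_ne_bot sylP hpM)
  refine ⟨x, ?_, orderOf_eq_prime ((elemAb_omegaOne_center p _).2 x hx) ntx, zg,
    fun h => nu ⟨hM, h⟩⟩
  obtain ⟨⟨y, hy, rfl⟩, hc⟩ := omegaOne_le _ _ hx
  refine ⟨y, ?_, rfl⟩
  rw [map_center_subtype]
  refine ⟨hy, fun z hz => Subtype.ext (hc z ⟨z, hz, rfl⟩)⟩

end Cfsg.Agent.S1407
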