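import Cfsg.Statements.S1409
import Cfsg.Agent.H66.BG10
-- import your own Cfsg.Agent.* helpers here

set_option autoImplicit false
open Cfsg

namespace Cfsg.Agent.S1409

open Cfsg.Agent.H63 Cfsg.Agent.H67

/-- Let G be a minimal simple group of odd order, M a maximal subgroup, p a prime not in σ(M), and X a subgroup of order p with N_G(X) ≤ M. Then M has p-rank exactly 2, p is not an ideal prime for G, and X is contained in some elementary abelian subgroup of G of order p ^ 2. -/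
theorem result {G : Type*} [Group G] [Finite G] (hG : Cfsg.IsMinSimpleOddOrder G)
    (M : Subgroup G) (hM : IsCoatom M) (p : ℕ) [Fact p.Prime] (hp : p ∉ Cfsg.sigma M) (X : Subgroup G) (hX : Nat.card X = p)
    (hNX : Subgroup.normalizer (X : Set G) ≤ M) :
    (Cfsg.PRankLE p 2 M ∧ ¬ Cfsg.PRankLE p 1 M) ∧ ¬ Cfsg.IsIdealPrime p G ∧
      ∃ A : Subgroup G, Cfsg.IsElementaryAbelian p A ∧ Nat.card A = p ^ 2 ∧ X ≤ A :=
  by
  have EX : ElemOf p 1 X ⊤ := (elemOf_one_iff Fact.out).2 ⟨le_top, hX⟩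
  have rM := H66.sigma'_norm_mmax_rank2 hG hM hp EX.isPGroup hNX
  obtain ⟨A, hA, sXA⟩ := H66.sigma'1Elem_sub_p2Elem hG hM hp EX hNX
  exact ⟨⟨pRankLE_iff.2 rM.le, not_pRankLE_iff.2 rM.ge⟩, H66.sigma'_rank2_beta' hG hM hp rM,
    A, hA.elemAb, hA.card, sXA⟩

end Cfsg.Agent.S1409
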