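import Cfsg.Statements.S1414
import Cfsg.Agent.H66.BG10
-- import your own Cfsg.Agent.* helpers here

set_option autoImplicit false
open Cfsg

namespace Cfsg.Agent.S1414

open Cfsg.Agent.H63 Cfsg.Agent.H67

/-- Let G be a minimal simple group of odd order, M a maximal subgroup, β(M) the set of ideal primes in α(M), and M_β = O_{β(M)}(M). Then M_β is a Hall β(M)-subgroup of M and of G; M' and M_σ each have a nilpotent Hall β(M)'-subgroup; and for each prime p dividing the order of M with p ∉ β(M), both M' and M_σ have normal p-complements and every prime dividing the index of O_{p'}(M) in M is at most p. -/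
theorem result {G : Type*} [Group G] [Finite G] (hG : Cfsg.IsMinSimpleOddOrder G)
    (M : Subgroup G) (hM : IsCoatom M) :
    Cfsg.IsPiHallOf (Cfsg.beta M) (Cfsg.piCoreOf (Cfsg.beta M) M) M ∧ Cfsg.IsPiHall (Cfsg.beta M) (Cfsg.piCoreOf (Cfsg.beta M) M) ∧
      (∃ H : Subgroup G, Cfsg.IsPiHallOf {q | q.Prime ∧ q ∉ Cfsg.beta M} H ⁅M, M⁆ ∧ Group.IsNilpotent H) ∧
      (∃ H : Subgroup G, Cfsg.IsPiHallOf {q | q.Prime ∧ q ∉ Cfsg.beta M} H (Cfsg.sigmaCore M) ∧ Group.IsNilpotent H) ∧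
      ∀ p : ℕ, p.Prime → p ∣ Nat.card M → p ∉ Cfsg.beta M →
        Cfsg.HasNormalPComplement p ↥⁅M, M⁆ ∧ Cfsg.HasNormalPComplement p ↥(Cfsg.sigmaCore M) ∧
        ∀ q : ℕ, q.Prime → q ∣ (Cfsg.pPrimeCore p ↥M).index → q ≤ p :=
  by
  have key : ∀ X : Subgroup G, X ≤ ⁅M, M⁆ → ∃ H : Subgroup G,
      IsPiHallOf {q | q.Prime ∧ q ∉ beta M} H X ∧ Group.IsNilpotent H := by
    intro X hX
    obtain ⟨H, hH⟩ := exists_hall (beta M)ᶜ
      (mmax_sub_sol hG hM (hX.trans (commutator_le_of_le le_rfl le_rfl)))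
    exact ⟨H, hall_congr hH fun q hq _ => ⟨fun h => ⟨hq, h⟩, fun h => h.2⟩,
      H66.beta'_der1_nil hG hM (hall_isPi hH) (hH.1.trans hX)⟩
  refine ⟨H66.Mbeta_Hall hG hM, hall_top_iff.1 (H66.Mbeta_Hall_G hG hM), key _ le_rfl,
    key _ (H66.Msigma_der1 hG hM), fun p hp _ b'p => ?_⟩
  have : Fact p.Prime := ⟨hp⟩
  obtain ⟨h1, h2, h3⟩ := H66.beta_max_pdiv hG hM b'p
  refine ⟨normalPCompl_iff_has.1 h1, normalPCompl_iff_has.1 h2, fun q hq hd => h3 q hq ?_⟩
  rwa [← pPrimeCoreOf_subgroupOf hp M] at hd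

end Cfsg.Agent.S1414
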