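import Cfsg.Statements.S1418
import Cfsg.Agent.H64.BG12a2

set_option autoImplicit false
open Cfsg

namespace Cfsg.Agent.S1418

/-- Let G be a minimal simple group of odd order, M a maximal subgroup, E a complement to M_σ in M, p ∈ τ₂(M), and A ≤ E elementary abelian of order p ^ 2. Then A is normal in E and contains every subgroup of E of order p; C_G(A) ≤ M ∩ N_G(A) = E and N_G(A) is not contained in M; and for every subgroup X ≤ A of order p centralizing a non-identity element of M_σ, C_G(X) ≤ M and M is the unique maximal subgroup containing C_G(X). -/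
theorem result {G : Type*} [Group G] [Finite G] (hG : Cfsg.IsMinSimpleOddOrder G)
    (M : Subgroup G) (hM : IsCoatom M) (E : Subgroup G) (hE : Cfsg.IsComplIn E (Cfsg.sigmaCore M) M) (p : ℕ) [Fact p.Prime] (hp : p ∈ Cfsg.tau2 M) (A : Subgroup G) (hA : (A ≤ E ∧ Cfsg.IsElementaryAbelian p A ∧ Nat.card A = p ^ 2)) :
    (E ≤ Subgroup.normalizer (A : Set G) ∧ ∀ X : Subgroup G, X ≤ E → Nat.card X = p → X ≤ A) ∧
      (Subgroup.centralizer (A : Set G) ≤ M ⊓ Subgroup.normalizer (A : Set G) ∧ M ⊓ Subgroup.normalizer (A : Set G) = E ∧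
        ¬ Subgroup.normalizer (A : Set G) ≤ M) ∧
      ∀ X : Subgroup G, X ≤ A → Nat.card X = p → Cfsg.sigmaCore M ⊓ Subgroup.centralizer (X : Set G) ≠ ⊥ → (Subgroup.centralizer (X : Set G) ≤ M ∧ ∀ L : Subgroup G, IsCoatom L → Subgroup.centralizer (X : Set G) ≤ L → L = M) := by
  have hallE := H64.sigma_compl_of_isComplIn hG hM hE
  have hp' : p.Prime := Fact.out
  obtain ⟨⟨a, b⟩, ⟨c, d, e⟩, f, -⟩ := H64.tau2_compl_context hG hM hallE hp (A := A) hA
  refine ⟨⟨a.2, fun X sX cX => ((b X).1 (H64.el1_mk hp' sX cX)).1⟩, ⟨by rw [d]; exact c, d, e⟩,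
    fun X sX cX nt => ?_⟩
  have u := f X (H64.el1_mk hp' (sX.trans hA.1) cX) nt
  exact ⟨u.le, fun L hL sL => u.eq hL sL⟩

end Cfsg.Agent.S1418
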