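import Cfsg.Statements.S1420
import Cfsg.Agent.H64.BG12b2

set_option autoImplicit false
open Cfsg

namespace Cfsg.Agent.S1420

/-- Let G be a minimal simple group of odd order, M a maximal subgroup and E a complement to M_σ in M. Then every nilpotent subgroup of M whose order involves no prime of σ(M) is abelian; E' is abelian; for p ∈ σ(M) and every noncyclic p-subgroup P of M, N_G(P) ≤ M; and if x ≠ 1 in M has every prime divisor of its order in τ₂(M) and centralizes a non-identity element of M_σ, then C_G(x) ≤ M and M is the unique maximal subgroup containing C_G(x). -/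
theorem result {G : Type*} [Group G] [Finite G] (hG : Cfsg.IsMinSimpleOddOrder G)
    (M : Subgroup G) (hM : IsCoatom M) (E : Subgroup G) (hE : Cfsg.IsComplIn E (Cfsg.sigmaCore M) M) :
    (∀ N : Subgroup G, N ≤ M → Group.IsNilpotent N → (∀ p : ℕ, p.Prime → p ∣ Nat.card N → p ∉ Cfsg.sigma M) → IsMulCommutative N) ∧
      IsMulCommutative ↥⁅E, E⁆ ∧
      (∀ (p : ℕ) (P : Subgroup G), p ∈ Cfsg.sigma M → IsPGroup p P → P ≤ M → ¬ IsCyclic P → Subgroup.normalizer (P : Set G) ≤ M) ∧
      ∀ x ∈ M, x ≠ 1 → (∀ p : ℕ, p.Prime → p ∣ orderOf x → p ∈ Cfsg.tau2 M) → x ∈ Cfsg.sigmaHat M →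
        Subgroup.centralizer ({x} : Set G) ≤ M ∧ ∀ L : Subgroup G, IsCoatom L → Subgroup.centralizer ({x} : Set G) ≤ L → L = M := by
  have hallE := H64.sigma_compl_of_isComplIn hG hM hE
  refine ⟨fun N sN nil h => H64.sigma'_nil_abelian hG hM sN h nil,
    H64.der_mmax_compl_abelian hG hM hallE,
    fun p P sp pP sP nc => H64.norm_noncyclic_sigma hG hM sp pP sP nc, fun x xM ntx t2x hx => ?_⟩
  obtain ⟨-, y, hy, nty, c⟩ := hx
  have u := H64.cent1_nreg_sigma_uniq hG hM xM ntx t2x
    (H67.ne_bot_of_mem (Subgroup.mem_inf.2 ⟨hy, Subgroup.mem_centralizer_singleton_iff.2 c.symm⟩) nty)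
  exact ⟨u.le, fun L hL sL => u.eq hL sL⟩

end Cfsg.Agent.S1420
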