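import Cfsg.Statements.S1426
import Cfsg.Agent.H2.BG12D

set_option autoImplicit false
open Cfsg

namespace Cfsg.Agent.S1426

/-- Let G be a minimal simple group of odd order, M a maximal subgroup and E a complement to M_σ in M. Then M_σ ∩ C_G(E) ≤ (M_σ)', the commutator subgroup [M_σ, E] equals M_σ, and for every g outside M the intersection M_σ ∩ gMg⁻¹ is cyclic, has no prime divisor in β(M), and meets (M_σ)' trivially. -/
theorem result {G : Type*} [Group G] [Finite G] (hG : Cfsg.IsMinSimpleOddOrder G)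
    (M : Subgroup G) (hM : IsCoatom M) (E : Subgroup G) (hE : Cfsg.IsComplIn E (Cfsg.sigmaCore M) M) :
    Cfsg.sigmaCore M ⊓ Subgroup.centralizer (E : Set G) ≤ ⁅Cfsg.sigmaCore M, Cfsg.sigmaCore M⁆ ∧
      ⁅Cfsg.sigmaCore M, E⁆ = Cfsg.sigmaCore M ∧
      ∀ g : G, g ∉ M → IsCyclic ↥(Cfsg.sigmaCore M ⊓ M.map (MulAut.conj g).toMonoidHom) ∧
        (∀ p : ℕ, p.Prime → p ∣ Nat.card ↥(Cfsg.sigmaCore M ⊓ M.map (MulAut.conj g).toMonoidHom) → p ∉ Cfsg.beta M) ∧
        Cfsg.sigmaCore M ⊓ M.map (MulAut.conj g).toMonoidHom ⊓ ⁅Cfsg.sigmaCore M, Cfsg.sigmaCore M⁆ = ⊥ := by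
  exact H2.sigma_compl_embedding hG hM (H64.sigma_compl_of_isComplIn hG hM hE)

end Cfsg.Agent.S1426
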