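import Cfsg.Statements.S1429
import Cfsg.Agent.S0205
import Cfsg.Agent.H67.MinSimple

set_option autoImplicit false
open Cfsg

namespace Cfsg.Agent.S1429

/-- Let G be a minimal simple group of odd order and M a maximal subgroup such that κ(M) is not the whole of the primes of M outside σ(M) (M is not of type P₁). Let p divide the order of M with p ∉ σ(M) ∪ κ(M), S a Sylow p-subgroup of M, and A the subgroup generated by the elements of S of order dividing p. Then A has order at most p ^ 2, M_σ ∩ C_G(A) = 1, and M_σ is nilpotent. -/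
theorem result {G : Type*} [Group G] [Finite G] (hG : Cfsg.IsMinSimpleOddOrder G)
    (M : Subgroup G) (hM : IsCoatom M) (hP1 : ¬ (∀ q : ℕ, q.Prime → q ∣ Nat.card M → q ∉ Cfsg.sigma M → q ∈ Cfsg.kappa M))
    (p : ℕ) [Fact p.Prime] (hpM : p ∣ Nat.card M) (hp : p ∉ Cfsg.sigma M ∪ Cfsg.kappa M) (S : Sylow p M) :
    Nat.card ↥(Subgroup.closure {x : G | x ∈ (S : Subgroup M).map M.subtype ∧ x ^ p = 1}) ≤ p ^ 2 ∧
      Cfsg.sigmaCore M ⊓ Subgroup.centralizer ((Subgroup.closure {x : G | x ∈ (S : Subgroup M).map M.subtype ∧ x ^ p = 1} : Subgroup G) : Set G) = ⊥ ∧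
      Group.IsNilpotent (Cfsg.sigmaCore M) := by
  exact absurd (S0205.result hG.1) (H67.mFT_nonSolvable hG)

end Cfsg.Agent.S1429
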