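import Cfsg.Statements.S1434
import Cfsg.Agent.H3.BG14B3

set_option autoImplicit false
open Cfsg

namespace Cfsg.Agent.S1434

open Cfsg Subgroup Cfsg.Agent.H63 Cfsg.Agent.H67 Cfsg.Agent.H66 Cfsg.Agent.H64

/-- Let G be a minimal simple group of odd order, M a maximal subgroup with standard factorisation M = K U M_σ, K ≠ 1, K* = M_σ ∩ C_G(K), and M* a maximal subgroup with K = M*_σ ∩ C_G(K*) and K* a Hall κ(M*)-subgroup of M*. Then κ(M) = τ₁(M); K* is a Hall σ(M)-subgroup of M*; for non-identity x ∈ K and y ∈ K*, C_M(x), C_{M*}(y) and C_G(xy) all equal K K*; the set Ẑ of elements of K K* outside K ∪ K* meets no gMg⁻¹ with g ∉ M; and with k = #K, k* = #K*, the union of the conjugates of Ẑ has k·k*·(number of elements) = (k k* − k − k* + 1)·#G and more than #G / 2 elements. -/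
theorem result {G : Type*} [Group G] [Finite G] (hG : Cfsg.IsMinSimpleOddOrder G)
    (M : Subgroup G) (hM : IsCoatom M) (K U : Subgroup G) (hKU : Cfsg.IsSigmaDecomposition M K U) (hK1 : K ≠ ⊥) (Mstar : Subgroup G) (hMstar : IsCoatom Mstar)
    (hKst : K = Cfsg.sigmaCore Mstar ⊓ Subgroup.centralizer ((Cfsg.sigmaCore M ⊓ Subgroup.centralizer (K : Set G)) : Set G))
    (hKstH : Cfsg.IsPiHallOf (Cfsg.kappa Mstar) (Cfsg.sigmaCore M ⊓ Subgroup.centralizer (K : Set G)) Mstar) :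
    Cfsg.kappa M = Cfsg.tau1 M ∧ Cfsg.IsPiHallOf (Cfsg.sigma M) (Cfsg.sigmaCore M ⊓ Subgroup.centralizer (K : Set G)) Mstar ∧
      (∀ x ∈ K, x ≠ 1 → ∀ y ∈ (Cfsg.sigmaCore M ⊓ Subgroup.centralizer (K : Set G)), y ≠ 1 →
        M ⊓ Subgroup.centralizer ({x} : Set G) = K ⊔ (Cfsg.sigmaCore M ⊓ Subgroup.centralizer (K : Set G)) ∧ Mstar ⊓ Subgroup.centralizer ({y} : Set G) = K ⊔ (Cfsg.sigmaCore M ⊓ Subgroup.centralizer (K : Set G)) ∧
        Subgroup.centralizer ({x * y} : Set G) = K ⊔ (Cfsg.sigmaCore M ⊓ Subgroup.centralizer (K : Set G))) ∧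
      (∀ g : G, g ∉ M → ∀ z ∈ ((↑(K ⊔ (Cfsg.sigmaCore M ⊓ Subgroup.centralizer (K : Set G))) : Set G) \ ((K : Set G) ∪ ↑(Cfsg.sigmaCore M ⊓ Subgroup.centralizer (K : Set G)))), z ∉ M.map (MulAut.conj g).toMonoidHom) ∧
      Nat.card K * Nat.card ↥(Cfsg.sigmaCore M ⊓ Subgroup.centralizer (K : Set G)) * Set.ncard {a : G | ∃ g : G, ∃ z ∈ ((↑(K ⊔ (Cfsg.sigmaCore M ⊓ Subgroup.centralizer (K : Set G))) : Set G) \ ((K : Set G) ∪ ↑(Cfsg.sigmaCore M ⊓ Subgroup.centralizer (K : Set G)))), a = g * z * g⁻¹} =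
        (Nat.card K * Nat.card ↥(Cfsg.sigmaCore M ⊓ Subgroup.centralizer (K : Set G)) - Nat.card K - Nat.card ↥(Cfsg.sigmaCore M ⊓ Subgroup.centralizer (K : Set G)) + 1) * Nat.card G ∧
      Nat.card G < 2 * Set.ncard {a : G | ∃ g : G, ∃ z ∈ ((↑(K ⊔ (Cfsg.sigmaCore M ⊓ Subgroup.centralizer (K : Set G))) : Set G) \ ((K : Set G) ∪ ↑(Cfsg.sigmaCore M ⊓ Subgroup.centralizer (K : Set G)))), a = g * z * g⁻¹} := by
  have PM : PType M := (ntrivg_kappa hM hKU.hall).1 hK1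
  have hL := ptypeEmbedding_of hG PM hKU.hall hMstar hKst hKstH
  have gM := H3.goodP_self PM hKU.hall
  have e : {a : G | ∃ g : G, ∃ z ∈ H68.cycV K (sigmaCore M ⊓ C[K]), a = g * z * g⁻¹} =
      classSupport (H68.cycV K (sigmaCore M ⊓ C[K])) ⊤ := by
    ext a
    exact ⟨fun ⟨m, z, hz, e⟩ => ⟨z, hz, m, mem_top m, e⟩, fun ⟨z, hz, m, _, e⟩ => ⟨m, z, hz, e⟩⟩
  refine ⟨hL.kappa_eq, hL.hallSigma, fun x hx x1 y hy y1 =>
    ⟨hL.centK x hx x1, hL.centKs y hy y1, hL.centZ x hx x1 y hy y1⟩, hL.disj, ?_, ?_⟩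
  · refine (congrArg (fun s : Set G => Nat.card K * Nat.card ↥(sigmaCore M ⊓ C[K]) * s.ncard) e).trans ?_
    show Nat.card K * Nat.card ↥(sigmaCore M ⊓ C[K]) * _ = _
    rw [gM.card_class hG, ← (K ⊔ (sigmaCore M ⊓ C[K])).card_mul_index, (gM.dp hG).card]
    have h1 : 1 < Nat.card K := (one_lt_card_iff_ne_bot _).2 hK1
    have h2 : 1 < Nat.card ↥(sigmaCore M ⊓ C[K]) := (one_lt_card_iff_ne_bot _).2 (gM.ntKs hG)
    obtain ⟨a, ha⟩ := Nat.exists_eq_add_of_lt h1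
    obtain ⟨b, hb⟩ := Nat.exists_eq_add_of_lt h2
    rw [ha, hb]
    have : (1 + a + 1) * (1 + b + 1) - (1 + a + 1) - (1 + b + 1) + 1 =
        (1 + a + 1 - 1) * (1 + b + 1 - 1) := by
      have : (1 + a + 1) * (1 + b + 1) = a * b + a + b + (1 + a + 1) + (1 + b + 1) := by ring
      rw [this, Nat.add_sub_cancel, Nat.add_sub_cancel]
      have : (1 + a) * (1 + b) = a * b + a + b + 1 := by ring
      omega
    rw [this]; ring
  · exact hL.card.trans_eq (congrArg (fun s : Set G => 2 * s.ncard) e.symm)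

end Cfsg.Agent.S1434
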