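import Cfsg.Statements.S1435
import Cfsg.Agent.H3.BG14B3

set_option autoImplicit false
open Cfsg

namespace Cfsg.Agent.S1435

open Cfsg Subgroup Cfsg.Agent.H63 Cfsg.Agent.H67 Cfsg.Agent.H66 Cfsg.Agent.H64

/-- Let G be a minimal simple group of odd order, M a maximal subgroup with standard factorisation M = K U M_σ, K ≠ 1, U ≠ 1, K* = M_σ ∩ C_G(K), M* a maximal subgroup with K = M*_σ ∩ C_G(K*) and K* a Hall κ(M*)-subgroup of M*, r a prime dividing the order of U, R a Sylow r-subgroup of U, and H a maximal subgroup containing N_G(R). Then κ(H) is empty, U ≤ H_σ, M ∩ H = U ⊔ K, H ∩ N_G(U) ⊄ M, K ≤ F(H ∩ M*), and H ∩ M* is a complement to H_σ in H. -/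
theorem result {G : Type*} [Group G] [Finite G] (hG : Cfsg.IsMinSimpleOddOrder G)
    (M : Subgroup G) (hM : IsCoatom M) (K U : Subgroup G) (hKU : Cfsg.IsSigmaDecomposition M K U) (hK1 : K ≠ ⊥) (hU1 : U ≠ ⊥) (Mstar : Subgroup G) (hMstar : IsCoatom Mstar)
    (hKst : K = Cfsg.sigmaCore Mstar ⊓ Subgroup.centralizer ((Cfsg.sigmaCore M ⊓ Subgroup.centralizer (K : Set G)) : Set G))
    (hKstH : Cfsg.IsPiHallOf (Cfsg.kappa Mstar) (Cfsg.sigmaCore M ⊓ Subgroup.centralizer (K : Set G)) Mstar)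
    (r : ℕ) [Fact r.Prime] (hr : r ∣ Nat.card U) (R : Sylow r U) (H : Subgroup G) (hH : IsCoatom H)
    (hNR : Subgroup.normalizer (((R : Subgroup U).map U.subtype : Subgroup G) : Set G) ≤ H) :
    Cfsg.kappa H = ∅ ∧ U ≤ Cfsg.sigmaCore H ∧ M ⊓ H = U ⊔ K ∧ ¬ H ⊓ Subgroup.normalizer (U : Set G) ≤ M ∧
      K ≤ Cfsg.fittingOf (H ⊓ Mstar) ∧ Cfsg.IsComplIn (H ⊓ Mstar) (Cfsg.sigmaCore H) H := by
  have PM : PType M := (ntrivg_kappa hM hKU.hall).1 hK1
  have hL := ptypeEmbedding_of hG PM hKU.hall hMstar hKst hKstH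
  have cU := (isSigmaDecomposition_iff hG hM).1 hKU
  have P2 : P2Type M := PM.p1_or_p2.resolve_left fun h => hU1 ((trivg_kappa_compl hG hM cU).2 h)
  obtain ⟨h1, h2, h3, h4, h5, h6⟩ := P2type_signalizer hG P2 cU hMstar
    (hL.uniqX K le_rfl (Ptype_structure_g hG P2 hKU.hall).2.1).le hr (syl_map_sylow R) hH hNR
  exact ⟨h1.2, h2, h3.symm, h4, h5, (sdprod_sigma hG hH h6).isComplIn'⟩

end Cfsg.Agent.S1435
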