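import Cfsg.Statements.S1437
import Cfsg.Agent.H66.BG15d

set_option autoImplicit false
open Cfsg

namespace Cfsg.Agent.S1437

open Cfsg.Agent.H63 Cfsg.Agent.H67 Subgroup

/-- Let G be a minimal simple group of odd order and M a maximal subgroup with standard factorisation M = K U M_σ such that M_F ≠ M_σ; put K* = M_σ ∩ C_G(K), p = #K, q = #K*. Then U = 1 and M_σ = M'; p and q are prime, q divides #M_F and q ∈ β(M); M_σ has a Sylow q-subgroup Q normal in M and contained in M_F; every complement D of Q in M_σ is nilpotent, and Q₀ = Q ∩ C_G(D) is normal in M; Q₀ < Q with #Q = #Q₀ · q ^ p, every element of Q has its q-th power and all its commutators with Q in Q₀, and every subgroup strictly between Q₀ and Q fails to be normal in M. -/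
theorem result {G : Type*} [Group G] [Finite G] (hG : Cfsg.IsMinSimpleOddOrder G)
    (M : Subgroup G) (hM : IsCoatom M) (K U : Subgroup G) (hKU : Cfsg.IsSigmaDecomposition M K U) (hne : Cfsg.fittingHallOf M ≠ Cfsg.sigmaCore M) :
    U = ⊥ ∧ Cfsg.sigmaCore M = ⁅M, M⁆ ∧ (Nat.card K).Prime ∧ (Nat.card ↥(Cfsg.sigmaCore M ⊓ Subgroup.centralizer (K : Set G))).Prime ∧
      Nat.card ↥(Cfsg.sigmaCore M ⊓ Subgroup.centralizer (K : Set G)) ∣ Nat.card (Cfsg.fittingHallOf M) ∧ Nat.card ↥(Cfsg.sigmaCore M ⊓ Subgroup.centralizer (K : Set G)) ∈ Cfsg.beta M ∧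
      ∃ Q : Subgroup G, Q ≤ Cfsg.fittingHallOf M ∧ M ≤ Subgroup.normalizer (Q : Set G) ∧ IsPGroup (Nat.card ↥(Cfsg.sigmaCore M ⊓ Subgroup.centralizer (K : Set G))) Q ∧
        ¬ Nat.card ↥(Cfsg.sigmaCore M ⊓ Subgroup.centralizer (K : Set G)) ∣ Q.relIndex (Cfsg.sigmaCore M) ∧
        ∀ D : Subgroup G, Cfsg.IsComplIn Q D (Cfsg.sigmaCore M) →
          Group.IsNilpotent D ∧ M ≤ Subgroup.normalizer ((Q ⊓ Subgroup.centralizer (D : Set G) : Subgroup G) : Set G) ∧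
          Q ⊓ Subgroup.centralizer (D : Set G) < Q ∧
          Nat.card Q = Nat.card ↥(Q ⊓ Subgroup.centralizer (D : Set G)) * Nat.card ↥(Cfsg.sigmaCore M ⊓ Subgroup.centralizer (K : Set G)) ^ Nat.card K ∧
          (∀ a ∈ Q, ∀ b ∈ Q, a ^ Nat.card ↥(Cfsg.sigmaCore M ⊓ Subgroup.centralizer (K : Set G)) ∈ Q ⊓ Subgroup.centralizer (D : Set G) ∧
            a * b * a⁻¹ * b⁻¹ ∈ Q ⊓ Subgroup.centralizer (D : Set G)) ∧
          ∀ N : Subgroup G, Q ⊓ Subgroup.centralizer (D : Set G) < N → N < Q → ¬ M ≤ Subgroup.normalizer (N : Set G) := by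
  have complU := (isSigmaDecomposition_iff hG hM).1 hKU
  obtain ⟨q, Q, D₀, hq, qpr, bq, hQ, sylQ, -, sQF, -, -, defMs, -⟩ :=
    H66.Fcore_structure_ex hG hM complU.hallK hne
  have := Fact.mk qpr
  have sMs := (H66.Msigma_normal M).le
  have sQMs := sQF.trans (Fcore_sub_Msigma hG hM)
  have sylQ' : IsSyl q Q (sigmaCore M) := hall_of_le sylQ sQMs sMs
  have nQM : M ≤ N[Q] := hQ ▸ le_normalizer_piCoreOf_self _ M
  obtain ⟨D₁, hallD₁⟩ := exists_hall (π := {q}ᶜ) (mmax_sub_sol hG hM sMs)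
  obtain ⟨⟨P1M, -⟩, ⟨ppr, -, qF, -⟩, -⟩ :=
    H66.Fcore_structure hG hM complU.hallK hne rfl rfl hq hQ rfl hallD₁
  rw [← hq]
  refine ⟨(trivg_kappa_compl hG hM complU).2 P1M, defMs, ppr, qpr, qF, bq, Q, sQF, nQM,
    syl_isPGroup sylQ, syl_not_dvd sylQ', fun D hD => ?_⟩
  have sdp := isSdp_of_isComplIn hD ((hD.2.1.trans sMs).trans nQM)
  obtain ⟨-, -, ⟨-, nilD, nQ₀⟩, ⟨chief, abel, card⟩, -⟩ :=
    H66.Fcore_structure hG hM complU.hallK hne rfl rfl hq hQ rfl (sdp.hall_right_of_hall_left sylQ')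
  have pQ := syl_isPGroup sylQ
  obtain ⟨h₁, h₂⟩ := (frattiniOf_le_iff pQ).1 ((quo_elemAb_iff pQ chief.normal_sub.2).1 abel)
  refine ⟨nilD, nQ₀.2, chief.lt, ?_, fun a ha b hb => ⟨h₂ a ha, h₁ (commutator_mem_commutator ha hb)⟩,
    fun N h₃ h₄ h₅ => ?_⟩
  · rw [← card_quo_mul chief.normal_sub, card, mul_comm]
  · rcases chief.eq_or_eq h₃.le h₄.le h₅ with e | e
    · exact h₃.ne' e
    · exact h₄.ne e

end Cfsg.Agent.S1437
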