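import Cfsg.Statements.S1438
import Cfsg.Agent.H66.BG15d

set_option autoImplicit false
open Cfsg

namespace Cfsg.Agent.S1438

open Cfsg.Agent.H63 Cfsg.Agent.H67 Subgroup

/-- Let G be a minimal simple group of odd order, M a maximal subgroup and H a nontrivial subgroup of M_σ whose order is coprime to its index in M_σ. Then M ∩ C_G(H) is generated by M_σ ∩ C_G(H) together with a cyclic subgroup X all of whose prime divisors lie in τ₂(M); and if x ∈ H and gxg⁻¹ ∈ H then nxn⁻¹ = gxg⁻¹ for some n ∈ M ∩ N_G(H). -/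
theorem result {G : Type*} [Group G] [Finite G] (hG : Cfsg.IsMinSimpleOddOrder G)
    (M : Subgroup G) (hM : IsCoatom M) (H : Subgroup G) (hH : H ≤ Cfsg.sigmaCore M) (hH1 : H ≠ ⊥)
    (hHall : (Nat.card H).Coprime (H.relIndex (Cfsg.sigmaCore M))) :
    (∃ X : Subgroup G, IsCyclic X ∧ (∀ p : ℕ, p.Prime → p ∣ Nat.card X → p ∈ Cfsg.tau2 M) ∧
        M ⊓ Subgroup.centralizer (H : Set G) = (Cfsg.sigmaCore M ⊓ Subgroup.centralizer (H : Set G)) ⊔ X) ∧
      ∀ x ∈ H, ∀ g : G, g * x * g⁻¹ ∈ H → ∃ n ∈ M ⊓ Subgroup.normalizer (H : Set G), n * x * n⁻¹ = g * x * g⁻¹ := by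
  have hallH := IsHallOf.hall (H := H) ⟨hH, hHall⟩
  obtain ⟨X, sdp, cycX, t2X⟩ := H66.cent_Hall_sigma_sdprod hG hM hallH hH1
  refine ⟨⟨X, cycX, t2X, sdp.sup.symm⟩, fun x hx g hg => ?_⟩
  obtain ⟨b, hb, e⟩ := H66.sigma_Hall_tame hG hM hallH hx hg
  exact ⟨b, hb, e.symm⟩

end Cfsg.Agent.S1438
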