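import Cfsg.Statements.S1441
import Cfsg.Agent.H63.BG6

set_option autoImplicit false
open Cfsg

namespace Cfsg.Agent.S1441

open Subgroup Cfsg.Agent.H63 Cfsg.Agent.H67
open scoped commutatorElement

/-- Let G be a finite group, H a solvable subgroup and A a subgroup normalizing H. Suppose there is a chain H = H₀ ≥ H₁ ≥ ⋯ ≥ H_n = 1 of subgroups normal in H and normalized by A such that A acts trivially on each factor H_{i-1}/H_i (that is, [H_{i-1}, A] ≤ H_i). Then every prime dividing the index of C_A(H) in A divides the order of H. -/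
theorem result {G : Type*} [Group G] [Finite G] (H A : Subgroup G) (hH : Group.IsSolvable H) (hA : (A ≤ Subgroup.normalizer (H : Set G)))
    (n : ℕ) (c : Fin (n + 1) → Subgroup G) (hc0 : c 0 = H) (hcn : c (Fin.last n) = ⊥) (hanti : Antitone c)
    (hcN : ∀ i, H ≤ Subgroup.normalizer ((c i : Subgroup G) : Set G)) (hcA : ∀ i, A ≤ Subgroup.normalizer ((c i : Subgroup G) : Set G))
    (htriv : ∀ i : Fin n, ⁅c i.castSucc, A⁆ ≤ c i.succ) :
    ∀ p : ℕ, p.Prime → p ∣ (A ⊓ Subgroup.centralizer (H : Set G)).relIndex A → p ∣ Nat.card H := by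
  intro p hp hd
  by_contra hnd
  have := Fact.mk hp
  obtain ⟨P, hP⟩ := exists_syl p A
  have hle : ∀ i, c i ≤ H := fun i => hc0 ▸ hanti (Fin.zero_le i)
  have hc : (Nat.card P).Coprime (Nat.card H) :=
    isPi_coprime (hall_isPi hP) ((isPi_compl_singleton_iff hp).2 hnd)
  have h1 := stable_series_cent (A := P) (fun i => if h : i < n + 1 then c ⟨i, h⟩ else ⊥) n
    (by simp only [Nat.lt_succ_self, dif_pos]; exact hcn)
    (fun i hi => by
      simp only [show i < n + 1 by omega, show i + 1 < n + 1 by omega, dif_pos]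
      exact (commutator_mono le_rfl (hall_le hP)).trans (htriv ⟨i, hi⟩))
    (fun i hi => by
      simp only [show i < n + 1 by omega, dif_pos]
      exact Nat.Coprime.coprime_dvd_right (card_dvd_of_le' (hle _)) hc)
  simp only [Nat.succ_pos, dif_pos] at h1
  have h2 : P ≤ A ⊓ C[H] := le_inf (hall_le hP) (hc0 ▸ h1)
  exact syl_not_dvd hP (hd.trans (relIndex_dvd_of_le_left _ h2))

end Cfsg.Agent.S1441
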