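import Cfsg.Statements.S1451
import Cfsg.Agent.H71.Abs

set_option autoImplicit false
open Cfsg

namespace Cfsg.Agent.S1451

/-- Let G be a solvable group of odd order such that G, or its Fitting subgroup, has no elementary abelian subgroup of order q ^ 3 for any prime q. Then G' is nilpotent; for every Sylow subgroup S of G, every characteristic subgroup T of S with T ≤ [S, S] is normal in G; and for every prime p, G has a characteristic subgroup that is a Hall subgroup for the set of primes greater than p. -/
theorem result {G : Type*} [Group G] [Finite G] [Group.IsSolvable G] (hodd : Odd (Nat.card G)) (hr : Cfsg.RankLE 2 G ∨ Cfsg.RankLE 2 (Cfsg.fittingSubgroup G)) :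
    Group.IsNilpotent ↥(commutator G) ∧
      (∀ (q : ℕ) [Fact q.Prime] (S : Sylow q G) (T : Subgroup ↥(S : Subgroup G)), T.Characteristic → T.map (S : Subgroup G).subtype ≤ ⁅(S : Subgroup G), (S : Subgroup G)⁆ →
        (T.map (S : Subgroup G).subtype).Normal) ∧
      ∀ p : ℕ, ∃ N : Subgroup G, N.Characteristic ∧ Cfsg.IsPiHall {q | q.Prime ∧ p < q} N := by
  have hodd' : Odd (Nat.card (⊤ : Subgroup G)) := by rwa [Subgroup.card_top]
  have hr' : H63.rank (fittingOf (⊤ : Subgroup G)) ≤ 2 := by
    rcases hr with h | h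
    · exact (H67.rank_mono le_top).trans (H67.rankLE_top_iff.1 h)
    · rw [H67.fittingOf_top]; exact H67.rankLE_iff.1 h
  have hF := H71.rank2_der1_le_fitting hodd' inferInstance hr'
  refine ⟨H67.isNilpotent_of_le (H67.fittingOf_nil ⊤) hF, fun q _ S T hT hTS => ?_, fun p => ?_⟩
  · refine H67.normalIn_top_iff.1 (H71.char_syl_normal hF (H67.syl_top S)
      ⟨Subgroup.map_subtype_le T, ?_⟩ hTS)
    rwa [Subgroup.subgroupOf, Subgroup.comap_map_eq_self_of_injective (Subgroup.subtype_injective _)]
  · refine ⟨_, H3.piCore_characteristic {q | q.Prime ∧ p < q} G, H67.hall_top_iff.1 ?_⟩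
    rw [← H67.piCoreOf_top]
    exact H71.rank2_hall_of_congr hodd' inferInstance hr' (p + 1)
      fun q hq _ => ⟨fun h => ⟨hq, h⟩, fun h => h.2⟩

end Cfsg.Agent.S1451
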