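import Cfsg.Statements.S1454
import Cfsg.Agent.H71.Abs

set_option autoImplicit false
open Cfsg

namespace Cfsg.Agent.S1454

/-- Let G be a finite group, p an odd prime, R a narrow p-subgroup and A a solvable subgroup of odd order normalizing R with A ∩ C_G(R) = 1. Then [A, A] ≤ O_p(A) and the index of O_p(A) in A is coprime to p; if R has an elementary abelian subgroup of order p ^ 3 then the order of every element of A of order coprime to p divides p − 1; and if the order of A is a prime not dividing p(p − 1), then 2·#A divides p + 1, and if in addition [R, A] = R and R is non-abelian then #R = p ^ 3. -/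
theorem result {G : Type*} [Group G] [Finite G] (p : ℕ) [Fact p.Prime] (hp : p ≠ 2) (R A : Subgroup G) (hR : IsPGroup p R) (hRn : Cfsg.IsNarrow p R)
    (hA : (A ≤ Subgroup.normalizer (R : Set G))) (hAs : Group.IsSolvable A) (hAodd : Odd (Nat.card A)) (hfaith : A ⊓ Subgroup.centralizer (R : Set G) = ⊥) :
    (commutator ↥A ≤ Cfsg.pCore p ↥A ∧ ((Cfsg.pCore p ↥A).index).Coprime p) ∧
      (¬ Cfsg.PRankLE p 2 R → ∀ a ∈ A, (orderOf a).Coprime p → orderOf a ∣ p - 1) ∧
      ((Nat.card A).Prime → ¬ Nat.card A ∣ p * (p - 1) →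
        2 * Nat.card A ∣ p + 1 ∧ (⁅R, A⁆ = R → ¬ IsMulCommutative R → Nat.card R = p ^ 3)) := by
  have hp' : p.Prime := Fact.out
  have hodd := H71.odd_card_of_ne_two hp hR
  have hn : H63.NarrowOf p R := H71.narrowOf_top.1 ((H71.narrowOf_top_iff hR hodd).2 hRn)
  have hf : ∀ a ∈ A, a ∈ Subgroup.centralizer (R : Set G) → a = 1 := fun a h1 h2 =>
    Subgroup.mem_bot.1 (hfaith ▸ Subgroup.mem_inf.2 ⟨h1, h2⟩)
  have hAA : ⁅A, A⁆ ≤ A := H63.commutator_le_of_le le_rfl le_rfl
  have h1 : IsPGroup p ↥⁅A, A⁆ := fun x => by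
    obtain ⟨k, hk⟩ := H71.narrow_der1_pow hR hodd hn hA hAodd x.2
    exact ⟨k, Subtype.ext (hf _ (pow_mem (hAA x.2) _) hk)⟩
  have h2 := H67.le_piCoreOf (H67.derived_normalIn A) (H67.isPi_of_isPGroup hp' h1)
  refine ⟨?_, fun hr a ha hap => ?_, fun hq hnd => ?_⟩
  · obtain ⟨P, hP, hAP⟩ := H67.exists_syl_ge hAA h1
    have h3 := H67.piCoreOf_eq_of_normal_hall hP ⟨H67.hall_le hP, H63.le_norm_of_commutator_le_left
      ((Subgroup.commutator_mono (H67.hall_le hP) le_rfl).trans hAP)⟩
    rw [H67.pCore_eq_piCore hp', ← H67.piCoreOf_subgroupOf, h3]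
    refine ⟨Subgroup.map_le_iff_le_comap.1 ?_,
      (H67.piNat_compl_singleton_iff_coprime hp').1 (H67.hall_relIndex hP)⟩
    rwa [Subgroup.map_subtype_commutator]
  · rw [H67.pRankLE_iff, ← H67.rank_pgroup hR, not_le] at hr
    exact orderOf_dvd_of_pow_eq_one
      (hf _ (pow_mem ha _) (H71.narrow_pred_pow hR hodd hn hr (hA ha) hap))
  · refine H71.narrow_prime_act hR hodd hn hA hq hAodd hnd fun h => ?_
    exact H67.ne_bot_of_card_prime hq (by rw [← hfaith, inf_eq_left.2 h])

end Cfsg.Agent.S1454
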