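import Cfsg.Statements.S1463
import Cfsg.Agent.H64.OddGL2

set_option autoImplicit false
open scoped MatrixGroups
open Cfsg

namespace Cfsg.Agent.S1463

/-- Let F be a field of odd characteristic p and H a finite subgroup of odd order of GL(2, F) that leaves no 1-dimensional subspace of F² invariant. Then p does not divide the order of H. -/
theorem result {F : Type*} [Field F] (p : ℕ) [Fact p.Prime] [CharP F p] (hp : p ≠ 2)
    (H : Subgroup (GL (Fin 2) F)) [Finite H] (hodd : Odd (Nat.card H))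
    (hirr : ∀ v : Fin 2 → F, v ≠ 0 → ∃ g ∈ H, (g : Matrix (Fin 2) (Fin 2) F).mulVec v ∉ Submodule.span F {v}) :
    ¬ p ∣ Nat.card H := by
  intro hdvd
  let ρ : H →* Matrix (Fin 2) (Fin 2) F := (Units.coeHom _).comp H.subtype
  have hρ : Function.Injective ρ := Units.val_injective.comp H.subtype_injective
  have key : ∃ v : Fin 2 → F, v ≠ 0 ∧ ∀ g : H, ∃ c : F, (ρ g).mulVec v = c • v := by
    rcases H64.odd_GL2_comm_or_line hodd ρ hρ with h | h
    · obtain ⟨u, hu⟩ := exists_prime_orderOf_dvd_card' p hdvd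
      have hu1 : u ≠ 1 := by
        intro h1
        rw [h1, orderOf_one] at hu
        exact (Fact.out : p.Prime).one_lt.ne hu
      have hn0 : ρ u - 1 ≠ 0 := fun h0 => hu1 (hρ (by rw [sub_eq_zero.1 h0, map_one]))
      have hnil : (ρ u - 1) ^ p = 0 := by
        rw [sub_pow_char_of_commute p (Commute.one_right _), ← map_pow, ← hu, pow_orderOf_eq_one,
          map_one, one_pow, sub_self]
      have hdet : (ρ u - 1).det = 0 := by
        have := congrArg Matrix.det hnil
        rw [Matrix.det_pow, Matrix.det_zero] at this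
        exact pow_eq_zero_iff (Fact.out : p.Prime).ne_zero |>.1 this
      obtain ⟨v, hv0, hv⟩ := Matrix.exists_mulVec_eq_zero_iff.2 hdet
      refine ⟨v, hv0, fun g => H64.mat2_ker_line hn0 hv0 hv ?_⟩
      have hc : (ρ u - 1) * ρ g = ρ g * (ρ u - 1) := by
        rw [sub_mul, mul_sub, ← map_mul, h u g, map_mul, one_mul, mul_one]
      rw [Matrix.mulVec_mulVec, hc, ← Matrix.mulVec_mulVec, hv, Matrix.mulVec_zero]
    · exact h
  obtain ⟨v, hv0, hv⟩ := key
  obtain ⟨g, hg, hgv⟩ := hirr v hv0
  obtain ⟨c, hc⟩ := hv ⟨g, hg⟩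
  exact hgv (Submodule.mem_span_singleton.2 ⟨c, hc.symm⟩)

end Cfsg.Agent.S1463
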