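import Cfsg.Statements.S1466
import Cfsg.Agent.H64.Puig

set_option autoImplicit false
open Cfsg

namespace Cfsg.Agent.S1466

/-- Let p be a prime and R a nontrivial finite p-group. Then for every i > 0, Z(R) ≤ C_R(L_i(R)) ≤ L_i(R); likewise Z(R) ≤ C_R(L_*(R)) ≤ L_*(R) and Z(R) ≤ C_R(L(R)) ≤ L(R); and L(R) ≠ 1, L_*(R) ≠ 1. -/
theorem result {R : Type*} [Group R] [Finite R] (p : ℕ) [Fact p.Prime] (hR : IsPGroup p R) [Nontrivial R] :
    (∀ i : ℕ, 0 < i → Subgroup.center R ≤ Subgroup.centralizer ((Cfsg.puigSeq R i : Subgroup R) : Set R) ∧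
        Subgroup.centralizer ((Cfsg.puigSeq R i : Subgroup R) : Set R) ≤ Cfsg.puigSeq R i) ∧
      (Subgroup.center R ≤ Subgroup.centralizer ((Cfsg.puigLower R : Subgroup R) : Set R) ∧ Subgroup.centralizer ((Cfsg.puigLower R : Subgroup R) : Set R) ≤ Cfsg.puigLower R) ∧
      (Subgroup.center R ≤ Subgroup.centralizer ((Cfsg.puigSubgroup R : Subgroup R) : Set R) ∧ Subgroup.centralizer ((Cfsg.puigSubgroup R : Subgroup R) : Set R) ≤ Cfsg.puigSubgroup R) ∧
      Cfsg.puigSubgroup R ≠ ⊥ ∧ Cfsg.puigLower R ≠ ⊥ := by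
  have hnil : Group.IsNilpotent R := hR.isNilpotent
  have hnil' : Group.IsNilpotent (⊤ : Subgroup R) := inferInstance
  have htop : (⊤ : Subgroup R) ≠ ⊥ := top_ne_bot
  simp only [← H64.pseq_top, ← H64.pL_top, ← H64.pLs_top]
  have h1 := H64.inf_centralizer_pLs_le (⊤ : Subgroup R)
  have h2 := H64.inf_centralizer_pL_le (⊤ : Subgroup R)
  rw [top_inf_eq] at h1 h2
  have hz : Subgroup.center R ≠ ⊥ := Group.IsNilpotent.center_ne_bot R
  refine ⟨fun i hi => ⟨Subgroup.center_le_centralizer _, ?_⟩,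
    ⟨Subgroup.center_le_centralizer _, h1⟩, ⟨Subgroup.center_le_centralizer _, h2⟩, ?_, ?_⟩
  · obtain ⟨n, rfl⟩ : ∃ n, i = n + 1 := ⟨i - 1, by omega⟩
    have := H64.inf_centralizer_pseq_le (⊤ : Subgroup R) n
    rwa [top_inf_eq] at this
  · intro h
    exact hz (le_bot_iff.1 (h ▸ (Subgroup.center_le_centralizer _).trans h2))
  · intro h
    exact hz (le_bot_iff.1 (h ▸ (Subgroup.center_le_centralizer _).trans h1))

end Cfsg.Agent.S1466
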