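import Cfsg.Statements.S1471
import Cfsg.Agent.H72.AppC12

set_option autoImplicit false
open Cfsg

namespace Cfsg.Agent.S1471

/-- Let p and q be odd primes with (p^q − 1)/(p − 1) coprime to p − 1. Then there are at least two elements a of the field with p ^ q elements such that both a and 2 − a have norm 1 to the prime field. -/
theorem result (p q : ℕ) [Fact p.Prime] [Fact q.Prime] (hp : p ≠ 2) (hq : q ≠ 2) (hA : Nat.Coprime ((p ^ q - 1) / (p - 1)) (p - 1)) :
    2 ≤ Set.ncard {a : GaloisField p q | Algebra.norm (ZMod p) a = 1 ∧ Algebra.norm (ZMod p) (2 - a) = 1} := by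
  classical
  have hq0 : q ≠ 0 := (Fact.out : q.Prime).ne_zero
  have hN : ∀ a : GaloisField p q, Algebra.norm (ZMod p) a = 1 ↔
      a ^ (∑ i ∈ Finset.range q, p ^ i) = 1 := H72.norm_eq_one_iff_galoisField p q hq0
  let _ : Fintype (GaloisField p q) := Fintype.ofFinite _
  obtain ⟨a, ha1, h1, h2⟩ := H72.appC2 (F := GaloisField p q) p q Fact.out hp hq
    (by rw [← Nat.card_eq_fintype_card, GaloisField.card p q hq0])
  refine (Set.one_lt_ncard (Set.toFinite _)).mpr ⟨a, ⟨(hN _).mpr h1, (hN _).mpr h2⟩, 1, ⟨by simp, ?_⟩, ha1⟩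
  norm_num

end Cfsg.Agent.S1471
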