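import Cfsg.Statements.S1474
import Cfsg.Agent.H15.CN2

set_option autoImplicit false
open Cfsg

namespace Cfsg.Agent.S1474


/-- Let G be a finite group in which every non-identity element has nilpotent centralizer, not itself nilpotent, and having a nontrivial normal Sylow p-subgroup for some prime p. Let H be the largest normal nilpotent Hall subgroup of G. Then H is a nontrivial proper normal subgroup with a complement E that is a Frobenius complement in G (no non-identity element of E centralizes a non-identity element of H), and G/H is nilpotent. -/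
theorem result {G : Type*} [Group G] [Finite G] (hCN : Cfsg.IsCNGroup G) (hnn : ¬ Group.IsNilpotent G) (p : ℕ) [Fact p.Prime] (P : Sylow p G)
    (hP1 : (P : Subgroup G) ≠ ⊥) (hPn : (P : Subgroup G).Normal) :
    Cfsg.fittingHall G ≠ ⊥ ∧ Cfsg.fittingHall G ≠ ⊤ ∧
      (∃ E : Subgroup G, Subgroup.IsComplement' (Cfsg.fittingHall G) E ∧ Cfsg.IsFrobeniusComplement E ∧
        ∀ e ∈ E, e ≠ 1 → Cfsg.fittingHall G ⊓ Subgroup.centralizer ({e} : Set G) = ⊥) ∧
      Group.IsNilpotent (G ⧸ Cfsg.fittingHall G) := by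
  obtain ⟨hnil, hcop⟩ := H15.fittingHall_spec G
  have h1 : fittingHall G ≠ ⊥ := fun h =>
    hP1 (le_bot_iff.1 (h ▸ H15.le_fittingHall P.2.isNilpotent (H15.sylow_coprime P)))
  have h2 : fittingHall G ≠ ⊤ := fun h => hnn (by
    rw [h] at hnil
    exact Group.nilpotent_of_mulEquiv Subgroup.topEquiv)
  obtain ⟨E, hE⟩ := Subgroup.exists_right_complement'_of_coprime hcop
  have hf := H15.cn_fpf_fittingHall hCN h1 (E := E)
    (by rw [← hE.symm.index_eq_card]; exact hcop.symm)
  have hE1 : E ≠ ⊥ := fun h => h2 (by rw [h] at hE; exact Subgroup.isComplement'_bot_right.1 hE)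
  refine ⟨h1, h2, ⟨E, hE, (H5.frob_iff_fpf _ E hE h1 hE1).2 hf.fpf, hf.fpf⟩, ?_⟩
  have := hf.nilpotent hCN
  exact Group.nilpotent_of_mulEquiv hE.symm.QuotientMulEquiv.symm

end Cfsg.Agent.S1474
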