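import Cfsg.Statements.S1479
import Cfsg.Agent.H15.CN3

set_option autoImplicit false
open Cfsg

namespace Cfsg.Agent.S1479


/-- Let G be a minimal simple group of odd order in which every non-identity element has nilpotent centralizer, and H a nilpotent subgroup contained in no larger nilpotent subgroup. Then the order of H is coprime to its index, H ∩ gHg⁻¹ = 1 whenever gHg⁻¹ ≠ H, N_G(H) is a maximal subgroup, and N_G(H) has a complement E to H acting on H without non-identity fixed points. Conversely, every maximal subgroup M of G has a normal nilpotent subgroup H, maximal among nilpotent subgroups of G, with a complement in M acting on H without non-identity fixed points. -/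
theorem result {G : Type*} [Group G] [Finite G] (hG : Cfsg.IsMinSimpleOddOrder G) (hCN : Cfsg.IsCNGroup G)  :
    (∀ H : Subgroup G, Group.IsNilpotent H → (∀ L : Subgroup G, Group.IsNilpotent L → H ≤ L → L = H) →
        (Nat.card H).Coprime H.index ∧ (∀ g : G, H.map (MulAut.conj g).toMonoidHom ≠ H → H ⊓ H.map (MulAut.conj g).toMonoidHom = ⊥) ∧
        IsCoatom (Subgroup.normalizer (H : Set G)) ∧
        ∃ E : Subgroup G, Cfsg.IsComplIn H E (Subgroup.normalizer (H : Set G)) ∧ E ≠ ⊥ ∧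
          ∀ e ∈ E, e ≠ 1 → H ⊓ Subgroup.centralizer ({e} : Set G) = ⊥) ∧
      ∀ M : Subgroup G, IsCoatom M → ∃ H E : Subgroup G, Group.IsNilpotent H ∧ (∀ L : Subgroup G, Group.IsNilpotent L → H ≤ L → L = H) ∧
        M ≤ Subgroup.normalizer (H : Set G) ∧ Cfsg.IsComplIn H E M ∧ H ≠ ⊥ ∧ E ≠ ⊥ ∧
        ∀ e ∈ E, e ≠ 1 → H ⊓ Subgroup.centralizer ({e} : Set G) = ⊥ := by
  refine ⟨fun H h1 h2 => ?_, fun M hM => ?_⟩
  · have h : H15.MaxNil H := ⟨h1, h2⟩
    have hc := h.isCoatom_normalizer hG hCN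
    obtain ⟨hn, he⟩ := h.eq_fittingOf hG hCN hc.1 le_rfl
    obtain ⟨-, -, E, h3, h4, h5⟩ := H15.cn_proper_frobenius hG hCN hc.1 hn
    rw [← he] at h3 h5
    exact ⟨h.coprime hCN, h.ti hG hCN, hc, E, h3, h4, h5.fpf⟩
  · obtain ⟨h1, h2, hn⟩ := H15.cn_coatom hG hCN hM
    obtain ⟨-, -, E, h3, h4, h5⟩ := H15.cn_proper_frobenius hG hCN hM.1 hn
    exact ⟨_, E, h1.nil, h1.max, h2.ge, h3, h5.ne_bot, h4, h5.fpf⟩

end Cfsg.Agent.S1479
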