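import Cfsg.Statements.S1480
import Cfsg.Agent.S1302
import Cfsg.Agent.H81.SCN2
import Cfsg.Agent.H67.Sol

set_option autoImplicit false
open Cfsg

namespace Cfsg.Agent.S1480

open Cfsg.Agent.H63 Cfsg.Agent.H67 Subgroup
open scoped IsMulCommutative commutatorElement

variable {G : Type*} [Group G] [Finite G]

theorem sig {p : ℕ} [hp : Fact p.Prime]
    (h2 : p = 2 → ∀ S : Sylow p G, Group.IsNilpotent (S : Subgroup G) ∧
      Group.nilpotencyClass (S : Subgroup G) ≤ 2)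
    {E : Subgroup G} (hEp : IsPGroup p E) (hEc : IsMulCommutative E)
    (hEfull : ∀ x ∈ C[E], IsPGroup p (zpowers x) → x ∈ E) {X Y : Subgroup G}
    (hX : IsPConstrained p X) (hEX : E ≤ X) (hYX : Y ≤ X) (hY : IsPiSubgroup {p}ᶜ Y)
    (hEY : E ≤ N[Y]) : Y ≤ O[{p}ᶜ](X) := by
  rw [← map_pPrimeCore_subtype hp.out]
  have hY' := (isPi_compl_singleton_iff hp.out).1 hY
  by_cases hp2 : p = 2
  · obtain ⟨P, hP, hEP⟩ := exists_syl_ge hEX hEp
    have hPp := syl_isPGroup hP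
    obtain ⟨S, hS⟩ := hPp.exists_le_sylow
    obtain ⟨h3, h4⟩ := h2 hp2 S
    have h5 : ⁅⁅(S : Subgroup G), (S : Subgroup G)⁆, (S : Subgroup G)⁆ = ⊥ := by
      have h6 := Subgroup.lowerCentralSeries_eq_bot_iff_nilpotencyClass_le.2 h4
      have h7 := congrArg (Subgroup.map (S : Subgroup G).subtype) h6
      rw [map_lowerCentralSeries, ← MonoidHom.range_eq_map, range_subtype, Subgroup.map_bot] at h7
      exact h7
    have hc : ∀ T, T ≤ (S : Subgroup G) → T ≤ C[E] → T ≤ E := fun T h6 h7 x hx =>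
      hEfull x (h7 hx) (S.isPGroup'.to_le (zpowers_le.2 (h6 hx)))
    subst hp2
    refine H81.le_Opp_of_scn hX ⟨hall_le hP, hPp, fun Q a b c => syl_eq_of_le hP a b c⟩
      ⟨hEP, ?_, le_antisymm (hc _ (inf_le_left.trans hS) inf_le_right)
        (le_inf hEP (le_centralizer_iff_isMulCommutative.2 hEc))⟩
      (Nat.odd_iff.2 (Nat.two_dvd_ne_zero.1 hY')) hYX hEY
    refine le_norm_of_commutator_le_right ((commutator_mono hS (hEP.trans hS)).trans
      (hc _ (commutator_le_of_le le_rfl le_rfl) ?_))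
    exact (le_cent_of_commutator_eq_bot h5).trans (centralizer_anti (hEP.trans hS))
  · rw [← map_subtype_subgroupOf hYX]
    refine map_mono (S1302.result p hp2 hX (E.subgroupOf X) (isMulCommutative_subgroupOf hEc X)
      hEp.comap_subtype (fun x hx ho => ?_) _ (by rwa [card_subgroupOf hYX])
      (subgroupOf_le_normalizer hEY))
    rw [centralizer_subgroupOf hEX] at hx
    refine hEfull x hx (isPGroup_of_card_eq_prime ?_)
    rw [Nat.card_zpowers, orderOf_coe, ho]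

theorem mem_core {p : ℕ} [hp : Fact p.Prime]
    {E : Subgroup G} (hEp : IsPGroup p E) (hEc : IsMulCommutative E)
    (hEfull : ∀ x ∈ C[E], IsPGroup p (zpowers x) → x ∈ E) {W : Subgroup G}
    (hW : IsPiSubgroup {p}ᶜ W) {c : G} (hc : c ∈ W ⊓ C[E]) : c ∈ O[primesNotDvd p](C[E]) := by
  rw [piCoreOf_primesNotDvd_prime hp.out]
  have h1 : IsSyl p E C[E] := syl_of_maximal (le_centralizer_iff_isMulCommutative.2 hEc) hEp
    fun Q h2 h3 h4 => le_antisymm (fun x hx => hEfull x (h2 hx) (h3.to_le (zpowers_le.2 hx))) h4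
  exact mem_piCoreOf_of_hall (Burnside_normal_complement h1 inf_le_left).hall hc.2
    (piElt_of_mem hW hc.1)

theorem cj_max {E Q : Subgroup G} {π : Set ℕ} (hQ : Q ∈ maxInvSubgroups ⊤ E π) {k : G}
    (hk : k ∈ C[E]) : cj k Q ∈ maxInvSubgroups ⊤ E π := by
  have key : ∀ {Q : Subgroup G} {k : G}, k ∈ C[E] → Q ∈ invSubgroups ⊤ E π →
      cj k Q ∈ invSubgroups ⊤ E π := by
    intro Q k hk hQ
    refine ⟨le_top, isPi_cj hQ.2.1 k, ?_⟩
    rw [← cj_normalizer, ← cj_eq_self_of_mem_centralizer hk]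
    exact cj_mono hQ.2.2
  refine ⟨key hk hQ.1, fun R hR h => ?_⟩
  rw [← hQ.2 _ (key (inv_mem hk) hR) (cj_le_iff_le_cj_inv.1 h), cj_cj_inv]

/-- Let G be a finite group and p a prime such that the normalizer of every nontrivial p-subgroup of G is p-constrained; if p = 2 assume also that the Sylow 2-subgroups of G have nilpotency class at most 2. Let E be an abelian p-subgroup containing an elementary abelian subgroup of order p ^ 3 and containing every element of p-power order of C_G(E). Then for every prime q ≠ p, any two maximal E-invariant q-subgroups of G are conjugate by an element of O_{p'}(C_G(E)). -/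
theorem result {G : Type*} [Group G] [Finite G] (p : ℕ) [Fact p.Prime]
    (hloc : ∀ T : Subgroup G, IsPGroup p T → T ≠ ⊥ → Cfsg.IsPConstrained p ↥(Subgroup.normalizer (T : Set G)))
    (h2 : p = 2 → ∀ S : Sylow p G, Group.IsNilpotent (S : Subgroup G) ∧ Group.nilpotencyClass (S : Subgroup G) ≤ 2)
    (E : Subgroup G) (hEp : IsPGroup p E) (hEc : IsMulCommutative E) (hE3 : ¬ Cfsg.PRankLE p 2 E)
    (hEfull : ∀ x ∈ Subgroup.centralizer (E : Set G), IsPGroup p (Subgroup.zpowers x) → x ∈ E)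
    (q : ℕ) [Fact q.Prime] (hqp : q ≠ p) :
    ∀ Q₁ ∈ Cfsg.maxInvSubgroups ⊤ E {q}, ∀ Q₂ ∈ Cfsg.maxInvSubgroups ⊤ E {q},
        ∃ k ∈ Cfsg.piCoreOf (Cfsg.primesNotDvd p) (Subgroup.centralizer (E : Set G)), Q₂ = Q₁.map (MulAut.conj k).toMonoidHom := by
  have hp : p.Prime := Fact.out
  have hq : q.Prime := Fact.out
  obtain ⟨B, hB⟩ : ∃ B, ElemOf p 3 B E := by
    simp only [PRankLE, not_forall, not_le] at hE3
    obtain ⟨A, h1, h3, h4⟩ := hE3
    obtain ⟨k, hk⟩ := (IsPGroup.iff_card (p := p) (G := A)).1 (hEp.to_subgroup A)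
    have h5 : 3 ≤ k := by
      rw [hk] at h4
      exact (Nat.pow_lt_pow_iff_right hp.one_lt).1 h4
    have h6 : IsElementaryAbelian p (A.map E.subtype) := elemAb_map ⟨h1, h3⟩ _
    obtain ⟨B, h7, h8⟩ := exists_le_card_pow (p := p) (m := 3) (X := A.map E.subtype)
      (by rw [card_map_subtype, hk]; exact pow_dvd_pow p h5)
    exact ⟨B, h7.trans (map_subtype_le A), elemAb_of_le h6 h7, h8⟩
  have hqq : ∀ {Q : Subgroup G}, IsPGroup q Q → IsPiSubgroup {p}ᶜ Q := fun h =>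
    isPi_compl_of_isPGroup hq h hqp
  have hEpi : IsPiSubgroup {p} E := isPi_of_isPGroup hp hEp
  have hsE : Group.IsSolvable E := isSolvable_of_isMulCommutative hEc
  have hKE : O[primesNotDvd p](C[E]) ≤ C[E] := piCoreOf_le _ _
  suffices H : ∀ D : Subgroup G, ∀ Q₁ ∈ maxInvSubgroups ⊤ E {q}, ∀ Q₂ ∈ maxInvSubgroups ⊤ E {q},
      D ≤ Q₁ → D ≤ Q₂ → ∃ k ∈ O[primesNotDvd p](C[E]), Q₂ = cj k Q₁ from
    fun Q₁ h₁ Q₂ h₂ => H ⊥ Q₁ h₁ Q₂ h₂ bot_le bot_le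
  intro D
  induction D using subgroup_induction_gt with | _ D IH => ?_
  intro Q₁ h₁ Q₂ h₂ hD₁ hD₂
  rcases (le_inf hD₁ hD₂).lt_or_eq with hlt | hD
  · exact IH _ hlt Q₁ h₁ Q₂ h₂ inf_le_left inf_le_right
  by_cases h12 : Q₁ = Q₂
  · exact ⟨1, one_mem _, by rw [cj_one, h12]⟩
  have hq₁ : IsPGroup q Q₁ := isPGroup_of_isPi hq h₁.1.2.1
  have hq₂ : IsPGroup q Q₂ := isPGroup_of_isPi hq h₂.1.2.1
  have hED : E ≤ N[D] := hD ▸ le_normalizer_inf h₁.1.2.2 h₂.1.2.2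
  have hl₁ : D < Q₁ ⊓ N[D] := lt_inf_normalizer_of_isNilpotent (isNilpotent_of_isPGroup hq hq₁)
    (lt_of_le_of_ne hD₁ fun e => h12 (h₁.2 Q₂ h₂.1 (e ▸ hD₂)).symm)
  have hl₂ : D < Q₂ ⊓ N[D] := lt_inf_normalizer_of_isNilpotent (isNilpotent_of_isPGroup hq hq₂)
    (lt_of_le_of_ne hD₂ fun e => h12 (h₂.2 Q₁ h₁.1 (e ▸ hD₁)))
  have hn₁ : E ≤ N[Q₁ ⊓ N[D]] := le_normalizer_inf h₁.1.2.2 (le_normalizer_normalizer hED)
  have hn₂ : E ≤ N[Q₂ ⊓ N[D]] := le_normalizer_inf h₂.1.2.2 (le_normalizer_normalizer hED)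
  obtain ⟨a, haE, ha1, ha₁, ha₂⟩ : ∃ a ∈ E, a ≠ 1 ∧ ¬ Q₁ ⊓ N[D] ⊓ C1[a] ≤ D ∧
      ¬ Q₂ ⊓ N[D] ⊓ C1[a] ≤ D := by
    by_contra hcon
    push Not at hcon
    refine hl₁.not_ge (Aux.le_of_forall_noncyclic hB le_rfl (hB.1.trans hn₁)
      (isPi_coprime (isPi_of_le hEpi hB.1) (hqq (hq₁.to_le inf_le_left))) fun B' hB' hnc => ?_)
    by_contra hh
    have hB'E := hB'.trans hB.1
    refine hl₂.not_ge (coprime_abelian_gen_cent1 (isMulCommutative_of_le hEc hB'E) hnc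
      (hB'E.trans hn₂) (isPi_coprime (isPi_of_le hEpi hB'E) (hqq (hq₂.to_le inf_le_left)))
      fun a ha ha1 => hcon a (hB'E ha) ha1 fun h => hh ?_)
    exact (inf_le_inf_left _ (centralizer_le_centralizer_singleton ha)).trans h
  have hzE : zpowers a ≤ E := zpowers_le.2 haE
  have hEz : E ≤ N[zpowers a] := (normalIn_of_isMulCommutative hEc hzE).norm
  have hX := hloc (zpowers a) (hEp.to_le hzE) (zpowers_ne_bot' ha1)
  have hE1 : E ≤ N[C1[a]] := centralizer_zpowers a ▸ le_normalizer_centralizer hEz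
  set Y := O[{p}ᶜ](N[zpowers a]) ⊓ N[D] with hY
  have hEY : E ≤ N[Y] := le_normalizer_inf
    (le_normalizer_piCoreOf (le_normalizer_of_le hEz)) (le_normalizer_normalizer hED)
  have hDq : IsPGroup q D := hq₁.to_le hD₁
  have hW : IsPiSubgroup {p}ᶜ (D ⊔ Y) :=
    isPi_sup (hqq hDq) (isPi_of_le (isPi_piCoreOf _ _) inf_le_left) (Or.inr inf_le_right)
  have hEW : E ≤ N[D ⊔ Y] := le_normalizer_sup hED hEY
  have key : ∀ Q : Subgroup G, IsPGroup q Q → D ≤ Q → E ≤ N[Q ⊓ N[D]] →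
      ∃ S, IsSyl q S (D ⊔ Y) ∧ E ≤ N[S] ∧ D ⊔ Q ⊓ N[D] ⊓ C1[a] ≤ S := by
    intro Q hQ hDQ hn
    have h3 : E ≤ N[Q ⊓ N[D] ⊓ C1[a]] := le_normalizer_inf hn hE1
    refine coprime_syl_subset hEW (isPi_coprime hEpi hW) (Or.inl hsE)
      (sup_le_sup_left (le_inf (sig h2 hEp hEc hEfull hX hEz ?_
        (hqq (hQ.to_le (inf_le_left.trans inf_le_left))) h3)
        (inf_le_left.trans inf_le_right)) _)
      (hQ.to_le (sup_le hDQ (inf_le_left.trans inf_le_left))) (le_normalizer_sup hED h3)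
    exact le_normalizer_of_le_centralizer (inf_le_right.trans (centralizer_zpowers a).ge)
  obtain ⟨S₁, hS₁, hES₁, hU₁⟩ := key Q₁ hq₁ hD₁ hn₁
  obtain ⟨S₂, hS₂, hES₂, hU₂⟩ := key Q₂ hq₂ hD₂ hn₂
  obtain ⟨c, hc, e⟩ := coprime_syl_trans hEW (isPi_coprime hEpi hW) (Or.inl hsE) hS₁ hES₁ hS₂ hES₂
  have hcK := mem_core hEp hEc hEfull hW hc
  obtain ⟨Q₃, hSQ, h₃⟩ := exists_maximal_ge (fun R => R ∈ invSubgroups ⊤ E {q})
    (H := S₁) ⟨le_top, hall_isPi hS₁, hES₁⟩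
  obtain ⟨k₁, hk₁, e₁⟩ := IH _ (left_lt_sup.2 ha₁) Q₁ h₁ Q₃ h₃
    (sup_le hD₁ (inf_le_left.trans inf_le_left)) (hU₁.trans hSQ)
  obtain ⟨k₂, hk₂, e₂⟩ := IH _ (left_lt_sup.2 ha₂) _ (cj_max h₃ hc.2) Q₂ h₂
    (hU₂.trans (e ▸ cj_mono hSQ)) (sup_le hD₂ (inf_le_left.trans inf_le_left))
  exact ⟨k₂ * (c * k₁), mul_mem hk₂ (mul_mem hcK hk₁), by rw [e₂, e₁, cj_cj, cj_cj, mul_assoc]⟩

end Cfsg.Agent.S1480
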