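import Cfsg.Statements.S1481
import Cfsg.Agent.H63.BG1
import Cfsg.Agent.H55.Basic

set_option autoImplicit false
open Cfsg

namespace Cfsg.Agent.S1481

open Cfsg.Agent.H63 Cfsg.Agent.H67
open scoped commutatorElement


/-- Let G be a finite group and H a local subgroup (the normalizer of a nontrivial subgroup of prime-power order) not properly contained in any local subgroup; let F = F(H), suppose at least two primes divide #F, put X = H ∩ C_G(F), let M ≤ F with F ∩ C_G(M) ≤ M, and let R be a solvable subgroup normalized by M and by X. Then for every prime q not dividing #F there is exactly one maximal M-invariant q-subgroup of R, and it is a Sylow q-subgroup of the largest normal subgroup of R of order coprime to #F. -/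
theorem result {G : Type*} [Group G] [Finite G] (H : Subgroup G) (hH : Cfsg.IsLocalSubgroup H) (hHmax : ∀ L : Subgroup G, Cfsg.IsLocalSubgroup L → H ≤ L → L = H)
    (hF2 : 2 ≤ (Nat.card (Cfsg.fittingOf H)).primeFactors.card)
    (M : Subgroup G) (hM : M ≤ Cfsg.fittingOf H) (hCM : Cfsg.fittingOf H ⊓ Subgroup.centralizer (M : Set G) ≤ M)
    (R : Subgroup G) (hR : Group.IsSolvable R) (hMR : M ≤ Subgroup.normalizer (R : Set G))
    (hXR : H ⊓ Subgroup.centralizer (Cfsg.fittingOf H : Set G) ≤ Subgroup.normalizer (R : Set G))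
    (q : ℕ) [Fact q.Prime] (hq : ¬ q ∣ Nat.card (Cfsg.fittingOf H)) :
    ∃! Q : Subgroup G, Q ∈ Cfsg.maxInvSubgroups R M {q} ∧
      (∀ Q' : Subgroup G, Q' ∈ Cfsg.maxInvSubgroups R M {q} →
        Q' ≤ Cfsg.piCoreOf (Cfsg.primesNotDvd (Nat.card (Cfsg.fittingOf H))) R ∧
        ¬ q ∣ Q'.relIndex (Cfsg.piCoreOf (Cfsg.primesNotDvd (Nat.card (Cfsg.fittingOf H))) R)) := by
  have hqp : q.Prime := Fact.out
  set F := fittingOf H with hFdef
  set π := primesNotDvd (Nat.card F) with hπ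
  have hFH : F ⊴ H := fittingOf_normalIn H
  have hFn : Group.IsNilpotent F := fittingOf_nil H
  have hMH := hM.trans hFH.le
  have hMs : Group.IsSolvable M := isSolvable_of_isNilpotent (isNilpotent_of_le hFn hM)
  have hZ : ∀ r : ℕ, r.Prime → r ∣ Nat.card F → ∃ Z : Subgroup G, IsPGroup r Z ∧ Z ≤ M ∧
      Z ≤ C[F] ∧ N[Z] = H := fun r hr hd => by
    obtain ⟨Z, hZ, hle⟩ := exists_minNormal ((pCoreOf_ne_bot_iff hr).mpr hd)
      (le_normalizer_piCoreOf_self {r} H)
    have h1 := (isPGroup_pCoreOf hr H).to_le hle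
    have h2 := hle.trans (piCoreOf_le _ H)
    have h3 := hZ.le_cent_of_nil h2 hFH hFn
    have := Fact.mk hr
    exact ⟨Z, h1, (le_inf (le_fittingOf ⟨h2, hZ.norm⟩ (isNilpotent_of_isPGroup hr h1))
      (h3.trans (centralizer_anti hM))).trans hCM, h3,
      hHmax _ ⟨r, Z, hr, h1, hZ.ne_bot, rfl⟩ hZ.norm⟩
  have hXF : R ⊓ (H ⊓ C[F]) ≤ F := by
    have h1 : fittingOf (R ⊓ (H ⊓ C[F])) ≤ F :=
      (fittingOf_le_of_normalIn (⟨inf_le_right, le_normalizer_inf hXR Subgroup.le_normalizer⟩ :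
        R ⊓ (H ⊓ C[F]) ⊴ H ⊓ C[F])).trans
        (fittingOf_le_of_normalIn (inf_centralizer_normalIn hFH.norm))
    exact (le_inf le_rfl ((inf_le_right.trans inf_le_right).trans (centralizer_anti h1))).trans
      ((cent_sub_Fitting (isSolvable_of_le hR inf_le_left)).trans h1)
  have hK : ∀ W : Subgroup G, W ≤ R → W ≤ H → IsPiSubgroup π W → M ≤ N[W] → W = ⊥ := by
    intro W h1 h2 h3 h4
    have hc : (Nat.card W).Coprime (Nat.card F) := piNat_primesNotDvd_iff.mp h3
    have h5 : M ≤ C[W] := Subgroup.commutator_eq_bot_iff_le_centralizer.mp (le_bot_iff.mp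
      ((le_inf (commutator_le_of_norm_right h4) ((Subgroup.commutator_mono hM h2).trans
        hFH.commutator_le)).trans (inf_eq_bot_of_coprime' hc).le))
    have h6 := coprime_nil_faithful_cent_stab (h2.trans hFH.norm) hc hFn
      ((inf_le_inf_left _ (centralizer_anti (le_inf hM h5))).trans (hCM.trans (le_inf hM h5)))
    exact le_bot_iff.mp ((le_inf le_rfl ((le_inf h1 (le_inf h2 h6)).trans hXF)).trans
      (inf_eq_bot_of_coprime' hc).le)
  have hK' : ∀ W : Subgroup G, W ≤ R → IsPiSubgroup π W → M ≤ N[W] → ∀ Z : Subgroup G,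
      Z ≤ C[F] → N[Z] = H → W ⊓ C[Z] = ⊥ := fun W h1 h2 h3 Z h4 h5 =>
    hK _ (inf_le_left.trans h1) (inf_le_right.trans (h5 ▸ Subgroup.centralizer_le_normalizer _))
      (isPi_of_le h2 inf_le_left) (le_normalizer_inf h3 (le_normalizer_centralizer (h5 ▸ hMH)))
  have hcore : ∀ Y : Subgroup G, Y ≤ R → IsPiSubgroup π Y → M ≤ N[Y] → Y ≤ O[π](R) := by
    intro Y h1 h2 h3
    have hc : (Nat.card Y).Coprime (Nat.card F) := piNat_primesNotDvd_iff.mp h2
    have h4 : ∀ p : ℕ, p.Prime → p ∣ Nat.card F → Y ≤ O[{p}ᶜ](R) := by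
      intro p hp hd
      have := Fact.mk hp
      obtain ⟨r, hr, hrp⟩ := Finset.exists_mem_ne (s := (Nat.card F).primeFactors) (by omega) p
      have hrr := Nat.prime_of_mem_primeFactors hr
      obtain ⟨Z, z1, z2, z3, z4⟩ := hZ r hrr (Nat.dvd_of_mem_primeFactors hr)
      obtain ⟨Z', y1, y2, y3, y4⟩ := hZ p hp hd
      have hP : O[{p}](M) ≤ M := piCoreOf_le _ _
      have h5 : Z' ≤ O[{p}](M) := le_pCoreOf hp ⟨y2, y4 ▸ hMH⟩ y1
      have h6 : Z ≤ O[{p}ᶜ](M ⊔ R) := by
        refine le_trans (le_piCoreOf ⟨le_inf (z2.trans le_sup_left)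
          (z3.trans (centralizer_anti (hP.trans hM))), ?_⟩ (isPi_compl_of_isPGroup hrr z1 hrp))
          (p'core_cent_pgroup (isSolvable_sup hMs hR hMR) (hP.trans le_sup_left)
            (isPGroup_pCoreOf hp M))
        rw [z4, ← y4]
        exact inf_le_right.trans ((centralizer_anti h5).trans (Subgroup.centralizer_le_normalizer _))
      rw [← coprime_commutator_eq_of_cent_eq_bot (z2.trans h3)
        (hc.symm.coprime_dvd_left (card_dvd_of_le' (z2.trans hM)))
        (Or.inl (isSolvable_of_le hMs z2)) (hK' Y h1 h2 h3 Z z3 z4),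
        piCoreOf_eq_inf_of_normalIn (normalIn_sup_right hMR)]
      refine le_inf ((commutator_le_of_norm_left (z2.trans h3)).trans h1) ?_
      rw [Subgroup.commutator_comm]
      exact (Subgroup.commutator_mono h6 (h1.trans le_sup_right)).trans
        (piCoreOf_normalIn _ _).commutator_le
    refine le_trans (b := R ⊓ ⨅ p : {p : ℕ // p.Prime ∧ p ∣ Nat.card F}, O[{p.1}ᶜ](R))
      (le_inf h1 (le_iInf fun p => h4 p p.2.1 p.2.2)) (le_piCoreOf ⟨inf_le_left, ?_⟩ ?_)
    · refine le_normalizer_inf Subgroup.le_normalizer (H55.le_normalizer_of_forall fun a ha u hu => ?_)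
      rw [Subgroup.mem_iInf] at hu ⊢
      exact fun p => (piCoreOf_normalIn _ _).conj_mem ha (hu p)
    · refine fun p hp hd => ⟨hp, fun h => isPi_piCoreOf {p}ᶜ R p hp (hd.trans (card_dvd_of_le' ?_)) rfl⟩
      exact fun x hx => Subgroup.mem_iInf.mp hx.2 ⟨p, hp, h⟩
  have hO : O[π](R) ≤ R := piCoreOf_le _ _
  have hMO : M ≤ N[O[π](R)] := le_normalizer_piCoreOf hMR
  have hc : (Nat.card M).Coprime (Nat.card O[π](R)) :=
    (piNat_primesNotDvd_iff.mp (isPi_piCoreOf π R)).symm.coprime_dvd_left (card_dvd_of_le' hM)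
  obtain ⟨Q, hQ, hMQ⟩ := coprime_syl_exists (p := q) hMO hc (Or.inl hMs)
  have hall : ∀ Y ∈ invSubgroups R M {q}, Y ≤ Q := by
    intro Y hY
    obtain ⟨P, hP, hMP, hYP⟩ := coprime_syl_subset hMO hc (Or.inl hMs)
      (hcore Y hY.1 (fun p hp hd => ⟨hp, by rw [show p = q from hY.2.1 p hp hd]; exact hq⟩) hY.2.2)
      (isPGroup_of_isPi (H := Y) hqp hY.2.1) hY.2.2
    obtain ⟨c, hc', rfl⟩ := coprime_syl_trans hMO hc (Or.inl hMs) hQ hMQ hP hMP
    obtain ⟨r, hr⟩ := Finset.card_pos.mp (show 0 < (Nat.card F).primeFactors.card by omega)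
    obtain ⟨Z, -, z2, z3, z4⟩ := hZ r (Nat.prime_of_mem_primeFactors hr)
      (Nat.dvd_of_mem_primeFactors hr)
    have h1 := inf_le_inf_left O[π](R) (centralizer_anti z2) hc'
    rw [hK' _ hO (isPi_piCoreOf π R) hMO Z z3 z4, Subgroup.mem_bot] at h1
    rwa [h1, cj_one] at hYP
  have hQi : Q ∈ invSubgroups R M {q} :=
    ⟨(hall_le hQ).trans hO, isPi_of_isPGroup hqp (syl_isPGroup hQ), hMQ⟩
  have huniq : ∀ Q' ∈ maxInvSubgroups R M {q}, Q' = Q := fun Q' h =>
    (h.2 Q hQi (hall Q' h.1)).symm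
  refine ⟨Q, ⟨⟨hQi, fun Y hY h => le_antisymm (hall Y hY) h⟩, fun Q' h => ?_⟩,
    fun Q' h => huniq Q' h.1⟩
  rw [huniq Q' h]
  exact ⟨hall_le hQ, syl_not_dvd hQ⟩

end Cfsg.Agent.S1481
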