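import Cfsg.Statements.S1483
import Cfsg.Agent.H15.CN1

set_option autoImplicit false
open Cfsg

namespace Cfsg.Agent.S1483


/-- Let G be a minimal simple group of odd order in which every non-identity element has nilpotent centralizer. Then any two nilpotent subgroups each contained in no larger nilpotent subgroup are either conjugate or of coprime orders; and for primes p, q, r: if some elements x, y ≠ 1 of p-power and q-power order commute, and some elements y', z ≠ 1 of q-power and r-power order commute, then some elements of p-power and r-power order, both ≠ 1, commute. -/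
theorem result {G : Type*} [Group G] [Finite G] (hG : Cfsg.IsMinSimpleOddOrder G) (hCN : Cfsg.IsCNGroup G) :
    (∀ H₁ H₂ : Subgroup G, (Group.IsNilpotent ↥H₁ ∧ ∀ L : Subgroup G, Group.IsNilpotent L → H₁ ≤ L → L = H₁) → (Group.IsNilpotent ↥H₂ ∧ ∀ L : Subgroup G, Group.IsNilpotent L → H₂ ≤ L → L = H₂) → (∃ g : G, H₂ = H₁.map (MulAut.conj g).toMonoidHom) ∨ (Nat.card H₁).Coprime (Nat.card H₂)) ∧
      ∀ (p q r : ℕ), p.Prime → q.Prime → r.Prime → ∀ (x y y' z : G), x ≠ 1 → y ≠ 1 → y' ≠ 1 → z ≠ 1 →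
        IsPGroup p (Subgroup.zpowers x) → IsPGroup q (Subgroup.zpowers y) → IsPGroup q (Subgroup.zpowers y') → IsPGroup r (Subgroup.zpowers z) →
        x * y = y * x → y' * z = z * y' →
        ∃ x' z' : G, x' ≠ 1 ∧ z' ≠ 1 ∧ IsPGroup p (Subgroup.zpowers x') ∧ IsPGroup r (Subgroup.zpowers z') ∧ x' * z' = z' * x' := by
  have key : ∀ H₁ H₂ : Subgroup G, H15.MaxNil H₁ → H15.MaxNil H₂ → ∀ p : ℕ, p.Prime →
      p ∣ Nat.card H₁ → p ∣ Nat.card H₂ → ∃ g : G, H₂ = H₁.map (MulAut.conj g).toMonoidHom :=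
    fun H₁ H₂ h1 h2 p hp hd hd' => by
      obtain ⟨g, hg⟩ := h1.exists_conj_of_dvd hCN h2 hp hd hd'
      exact ⟨g, hg.symm⟩
  refine ⟨fun H₁ H₂ h1 h2 => ?_, ?_⟩
  · by_contra hcon
    push Not at hcon
    exact hcon.2 (Nat.coprime_of_dvd fun p hp hd hd' => by
      obtain ⟨g, hg⟩ := key H₁ H₂ ⟨h1.1, h1.2⟩ ⟨h2.1, h2.2⟩ p hp hd hd'
      exact hcon.1 g hg)
  · intro p q r hp hq hr x y y' z hx hy hy' hz px py py' pz hxy hyz
    by_cases hpr : p = r
    · subst hpr
      exact ⟨x, x, hx, hx, px, px, rfl⟩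
    have hab : ∀ a b : G, a * b = b * a →
        ∃ H : Subgroup G, H15.MaxNil H ∧ a ∈ H ∧ b ∈ H := fun a b hab => by
      have : IsMulCommutative ↥(Subgroup.zpowers a ⊔ Subgroup.zpowers b) :=
        H3.isMulCommutative_sup_zpowers (by
          rw [Subgroup.mem_centralizer_iff]
          rintro _ ⟨k, rfl⟩
          exact (Commute.zpow_left hab k : Commute _ _))
      obtain ⟨H, h1, h2⟩ := H15.exists_maxNil_ge (K := Subgroup.zpowers a ⊔ Subgroup.zpowers b)
        H3.isNilpotent_of_isMulCommutative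
      exact ⟨H, h1, h2 (Subgroup.mem_sup_left (Subgroup.mem_zpowers a)),
        h2 (Subgroup.mem_sup_right (Subgroup.mem_zpowers b))⟩
    have hd : ∀ (H : Subgroup G) (y : G), y ∈ H → y ≠ 1 → IsPGroup q (Subgroup.zpowers y) →
        q ∣ Nat.card H := fun H y hyH hy py =>
      (H1.dvd_card_of_isPGroup_of_ne_bot hq py (by simpa using hy)).trans
        (Subgroup.card_dvd_of_le (Subgroup.zpowers_le.2 hyH))
    obtain ⟨H₁, h1, hx1, hy1⟩ := hab x y hxy
    obtain ⟨H₂, h2, hy2, hz2⟩ := hab y' z hyz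
    obtain ⟨g, rfl⟩ := key H₁ H₂ h1 h2 q hq (hd _ _ hy1 hy py) (hd _ _ hy2 hy' py')
    have px' : IsPGroup p (Subgroup.zpowers (g * x * g⁻¹)) := by
      have := px.map (MulAut.conj g).toMonoidHom
      rwa [MonoidHom.map_zpowers] at this
    refine ⟨g * x * g⁻¹, z, by simpa using hx, hz, px', pz, ?_⟩
    refine H4.commute_of_isNilpotent_of_coprime h2.nil ⟨x, hx1, rfl⟩ hz2 ?_
    exact H15.coprime_orderOf_of_isPGroup pz (H15.coprime_orderOf_of_isPGroup px'
      ((Nat.coprime_primes hr hp).2 (Ne.symm hpr)) (Subgroup.mem_zpowers _)).symm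
      (Subgroup.mem_zpowers _)

end Cfsg.Agent.S1483
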