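import Cfsg.Statements.S1484
import Cfsg.Agent.H15.CN3

set_option autoImplicit false
open Cfsg

namespace Cfsg.Agent.S1484

open Subgroup
open scoped Pointwise


/-- Let G be a minimal simple group of odd order in which every non-identity element has nilpotent centralizer, and M₁, …, M_k maximal subgroups, pairwise non-conjugate, such that every maximal subgroup is conjugate to some M_i. Let H_i be the largest normal nilpotent Hall subgroup of M_i. Then the orders of the H_i are pairwise coprime, their product is the order of G, and every element of G is conjugate to an element of some H_i. -/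
theorem result {G : Type*} [Group G] [Finite G] (hG : Cfsg.IsMinSimpleOddOrder G) (hCN : Cfsg.IsCNGroup G) (k : ℕ) (Mrep : Fin k → Subgroup G) (hmax : ∀ i, IsCoatom (Mrep i))
    (hnc : ∀ i j, i ≠ j → ∀ g : G, Mrep j ≠ (Mrep i).map (MulAut.conj g).toMonoidHom) (hall : ∀ M : Subgroup G, IsCoatom M → ∃ i, ∃ g : G, M = (Mrep i).map (MulAut.conj g).toMonoidHom) :
    (∀ i j, i ≠ j → (Nat.card (Cfsg.fittingHallOf (Mrep i))).Coprime (Nat.card (Cfsg.fittingHallOf (Mrep j)))) ∧
      ∏ i, Nat.card (Cfsg.fittingHallOf (Mrep i)) = Nat.card G ∧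
      ∀ x : G, ∃ i, ∃ g : G, g * x * g⁻¹ ∈ Cfsg.fittingHallOf (Mrep i) := by
  have hc := fun i => H15.cn_coatom hG hCN (hmax i)
  have hF : ∀ i, Cfsg.fittingHallOf (Mrep i) = Cfsg.fittingOf (Mrep i) := fun i =>
    (H15.cn_proper_frobenius hG hCN (hmax i).1 (hc i).2.2).1
  simp only [hF]
  have hrep : ∀ K : Subgroup G, H15.MaxNil K →
      ∃ i, ∃ g : G, MulAut.conj g • K = Cfsg.fittingOf (Mrep i) := fun K hK => by
    obtain ⟨i, g, hg⟩ := hall _ (hK.isCoatom_normalizer hG hCN)
    refine ⟨i, g⁻¹, ((hK.conj g⁻¹).eq_fittingOf hG hCN (hmax i).1 (le_of_eq ?_)).2⟩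
    rw [H8.normalizer_conj_smul, hg]
    change MulAut.conj g⁻¹ • MulAut.conj g • Mrep i = _
    rw [smul_smul, ← map_mul, inv_mul_cancel, map_one, one_smul]
  have hcop : ∀ i j, i ≠ j → (Nat.card (Cfsg.fittingOf (Mrep i))).Coprime
      (Nat.card (Cfsg.fittingOf (Mrep j))) := fun i j hij => by
    refine Nat.coprime_of_dvd' fun p hp h1 h2 => ?_
    obtain ⟨g, hg⟩ := (hc i).1.exists_conj_of_dvd hCN (hc j).1 hp h1 h2
    refine (hnc i j hij g ?_).elim
    change _ = MulAut.conj g • Mrep i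
    rw [← (hc j).2.1, ← hg, H8.normalizer_conj_smul, (hc i).2.1]
  refine ⟨hcop, Nat.dvd_antisymm ?_ ?_, fun x => ?_⟩
  · refine Finset.prod_dvd_of_isRelPrime (fun i _ j _ hij => ?_) fun i _ => card_subgroup_dvd_card _
    exact Nat.coprime_iff_isRelPrime.1 (hcop i j hij)
  · refine (Nat.dvd_iff_prime_pow_dvd_dvd _ _).2 fun p n hp hd => ?_
    have := Fact.mk hp
    obtain ⟨P, hP⟩ := Sylow.exists_subgroup_card_pow_prime p hd
    obtain ⟨K, hK, hle⟩ := H15.exists_maxNil_ge (IsPGroup.of_card hP).isNilpotent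
    obtain ⟨i, g, hg⟩ := hrep K hK
    refine Dvd.dvd.trans ?_ (Finset.dvd_prod_of_mem _ (Finset.mem_univ i))
    rw [← hg, H8.card_conj_smul, ← hP]
    exact card_dvd_of_le hle
  · obtain ⟨K, hK, hle⟩ := H15.exists_maxNil_ge (K := zpowers x)
      (H1.isNilpotent_of_isMulCommutative _)
    obtain ⟨i, g, hg⟩ := hrep K hK
    exact ⟨i, g, hg ▸ H8.conj_mem_conj_smul.2 (hle (mem_zpowers x))⟩

end Cfsg.Agent.S1484
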