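import Cfsg.Statements.S1504
import Cfsg.Agent.H70.PF3Rows

set_option autoImplicit false
open Cfsg Cfsg.Agent.H63 Cfsg.Agent.H67 Cfsg.Agent.H68 Cfsg.Agent.H70

namespace Cfsg.Agent.S1504

/-- Let W₁, W₂ be subgroups of a finite group with W₁ ⊓ W₂ = ⊥ whose elements commute, and W = W₁ ⊔ W₂. For linear characters φ, ψ of W with φ trivial on W₂ and ψ trivial on W₁, the function (1 − φ)(1 − ψ) vanishes on W₁ ∪ W₂; and the family of these functions, indexed by pairs (φ, ψ) with φ ≠ 1 ≠ ψ, is linearly independent over ℂ. -/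
theorem result {G : Type*} [Group G] [Finite G] (W₁ W₂ : Subgroup G) (hdisj : W₁ ⊓ W₂ = ⊥) (hcomm : ∀ a ∈ W₁, ∀ b ∈ W₂, a * b = b * a) : (∀ φ ψ : ↥(W₁ ⊔ W₂) →* ℂˣ, (∀ w : ↥(W₁ ⊔ W₂), (w : G) ∈ W₂ → φ w = 1) → (∀ w : ↥(W₁ ⊔ W₂), (w : G) ∈ W₁ → ψ w = 1) → ∀ w : ↥(W₁ ⊔ W₂), ((w : G) ∈ W₁ ∨ (w : G) ∈ W₂) → (1 - (φ w : ℂ) - (ψ w : ℂ) + (φ w : ℂ) * (ψ w : ℂ)) = 0) ∧ LinearIndependent ℂ (fun p : {p : (↥(W₁ ⊔ W₂) →* ℂˣ) × (↥(W₁ ⊔ W₂) →* ℂˣ) // p.1 ≠ 1 ∧ p.2 ≠ 1 ∧ (∀ w : ↥(W₁ ⊔ W₂), (w : G) ∈ W₂ → p.1 w = 1) ∧ (∀ w : ↥(W₁ ⊔ W₂), (w : G) ∈ W₁ → p.2 w = 1)} => fun w : ↥(W₁ ⊔ W₂) => 1 - (p.1.1 w : ℂ) - (p.1.2 w : ℂ) + (p.1.1 w : ℂ) * (p.1.2 w : ℂ)) := by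
  have hd : IsDp W₁ W₂ (W₁ ⊔ W₂) :=
    isDp_sup (fun b hb => Subgroup.mem_centralizer_iff.2 fun a ha => hcomm a ha b hb) hdisj
  refine ⟨fun φ ψ h1 h2 w hw => ?_, ?_⟩
  · rcases hw with hw | hw
    · rw [h2 w hw]; simp
    · rw [h1 w hw]; simp
  classical
  rw [linearIndependent_iff']
  rintro s g hs p hp
  have key : ∀ q : {p : (↥(W₁ ⊔ W₂) →* ℂˣ) × (↥(W₁ ⊔ W₂) →* ℂˣ) // p.1 ≠ 1 ∧ p.2 ≠ 1 ∧ (∀ w : ↥(W₁ ⊔ W₂), (w : G) ∈ W₂ → p.1 w = 1) ∧ (∀ w : ↥(W₁ ⊔ W₂), (w : G) ∈ W₁ → p.2 w = 1)},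
      ∃ i j, i ≠ 1 ∧ j ≠ 1 ∧ q.1 = ((homPairEquiv hd).symm (i, 1), (homPairEquiv hd).symm (1, j)) := by
    rintro ⟨⟨φ, ψ⟩, h1, h2, h3, h4⟩
    obtain ⟨i, rfl⟩ := exists_left_of_trivial hd h3
    obtain ⟨j, rfl⟩ := exists_right_of_trivial hd h4
    exact ⟨i, j, fun e => h1 ((homPair_symm_eq_one hd).2 ⟨e, rfl⟩),
      fun e => h2 ((homPair_symm_eq_one hd).2 ⟨rfl, e⟩), rfl⟩
  choose i j hi hj e using key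
  have h1 : cfdot (W₁ ⊔ W₂) (∑ q ∈ s, g q • cfCycTI W₁ W₂ (i q) (j q)) (omega W₁ W₂ (i p) (j p)) = 0 := by
    refine cfdot_eq_zero_of_forall fun x hx => Or.inl ?_
    have := congrFun hs ⟨x, hx⟩
    rw [Finset.sum_apply] at this ⊢
    refine Eq.trans (Finset.sum_congr rfl fun q _ => ?_) this
    rw [Pi.smul_apply, Pi.smul_apply, e q]
    exact congrArg _ (congrFun (res_cfCycTI hd (i q) (j q)) ⟨x, hx⟩)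
  have h2 : ∀ q, cfdot (W₁ ⊔ W₂) (cfCycTI W₁ W₂ (i q) (j q)) (omega W₁ W₂ (i p) (j p)) =
      if i q = i p ∧ j q = j p then 1 else 0 := fun q => by
    simp only [cfCycTI, cfdot_add_left, cfdot_sub_left, cfdot_omega hd, (hi p).symm, (hj p).symm,
      false_and, and_false, if_false, sub_zero, zero_add]
  rw [cfdot_sum_left, Finset.sum_eq_single p, cfdot_smul_left, h2, if_pos ⟨rfl, rfl⟩, mul_one] at h1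
  · exact h1
  · exact fun q _ hq => by
      rw [cfdot_smul_left, h2, if_neg fun h => hq (Subtype.ext (by rw [e, e, h.1, h.2])), mul_zero]
  · exact fun h => (h hp).elim

end Cfsg.Agent.S1504
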