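import Cfsg.Statements.S1505
import Cfsg.Agent.H70.PF3Rows

set_option autoImplicit false
open Cfsg Cfsg.Agent.H63 Cfsg.Agent.H67 Cfsg.Agent.H68 Cfsg.Agent.H70

namespace Cfsg.Agent.S1505

open Classical in
/-- Let W₁, W₂ ≤ G form a self-normalising cyclic subgroup W = W₁ ⊔ W₂. For nontrivial linear characters φ, φ' of W trivial on W₂ and ψ, ψ' trivial on W₁, put α = (1 − φ)(1 − ψ) and α' = (1 − φ')(1 − ψ'). Then the function induced from α to G has inner product 1 with the principal character, and the inner product of the functions induced from α and α' is 1 + a + b + ab where a = 1 if φ = φ' (else 0) and b = 1 if ψ = ψ' (else 0). -/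
theorem result {G : Type*} [Group G] [Fintype G] (W₁ W₂ : Subgroup G) (hW : Cfsg.IsSelfNormalizingCyclic W₁ W₂) (φ φ' ψ ψ' : ↥(W₁ ⊔ W₂) →* ℂˣ) (hφ : φ ≠ 1) (hφ' : φ' ≠ 1) (hψ : ψ ≠ 1) (hψ' : ψ' ≠ 1) (hφ₂ : ∀ w : ↥(W₁ ⊔ W₂), (w : G) ∈ W₂ → φ w = 1 ∧ φ' w = 1) (hψ₁ : ∀ w : ↥(W₁ ⊔ W₂), (w : G) ∈ W₁ → ψ w = 1 ∧ ψ' w = 1) : Cfsg.classInner (Cfsg.indFun (W₁ ⊔ W₂) (fun w => 1 - (φ w : ℂ) - (ψ w : ℂ) + (φ w : ℂ) * (ψ w : ℂ))) (fun _ => 1) = 1 ∧ Cfsg.classInner (Cfsg.indFun (W₁ ⊔ W₂) (fun w => 1 - (φ w : ℂ) - (ψ w : ℂ) + (φ w : ℂ) * (ψ w : ℂ))) (Cfsg.indFun (W₁ ⊔ W₂) (fun w => 1 - (φ' w : ℂ) - (ψ' w : ℂ) + (φ' w : ℂ) * (ψ' w : ℂ))) = 1 + (if φ = φ' then 1 else 0) + (if ψ = ψ' then 1 else 0) + (if φ = φ' then 1 else 0) * (if ψ = ψ' then 1 else 0) := by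
  have hd := sncyc_dp hW
  obtain ⟨i, rfl⟩ := exists_left_of_trivial hd fun w hw => (hφ₂ w hw).1
  obtain ⟨i', rfl⟩ := exists_left_of_trivial hd fun w hw => (hφ₂ w hw).2
  obtain ⟨j, rfl⟩ := exists_right_of_trivial hd fun w hw => (hψ₁ w hw).1
  obtain ⟨j', rfl⟩ := exists_right_of_trivial hd fun w hw => (hψ₁ w hw).2
  simp only [ne_eq, homPair_symm_eq_one, and_true, true_and] at hφ hφ' hψ hψ'
  rw [← res_cfCycTI hd, ← res_cfCycTI hd, ← cfInd_top, ← cfInd_top, ← cfdot_top, ← cfdot_top,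
    cfdot_cfInd_cfCycTI hW hφ hφ' hψ hψ']
  refine ⟨cfdot_cfInd_cfCycTI_one hd hφ hψ, ?_⟩
  simp only [Equiv.apply_eq_iff_eq, Prod.mk.injEq, and_true, true_and]
  split_ifs <;> ring

end Cfsg.Agent.S1505
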