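import Cfsg.Statements.S1507
import Cfsg.Agent.H70.PF3Rows

set_option autoImplicit false
open Cfsg Cfsg.Agent.H63 Cfsg.Agent.H67 Cfsg.Agent.H68 Cfsg.Agent.H70

namespace Cfsg.Agent.S1507

open Classical in
/-- Let W₁, W₂ ≤ G form a self-normalising cyclic subgroup W = W₁ ⊔ W₂ of odd order with Nat.card W₁ < Nat.card W₂, and χ an orthonormal family of irreducible characters of G up to sign, indexed by the linear characters ω of W, with χ_1 = 1, χ_ω = ω on W outside W₁ ∪ W₂, and the induction identity for (1 − φ)(1 − ψ). Let θ be a class function of G vanishing on W outside W₁ ∪ W₂, and suppose fewer than 2 · Nat.card W₁ linear characters ω of W have ⟨θ, χ ω⟩ ≠ 0. Then one of: all ⟨θ, χ ω⟩ vanish; or there are ψ₀ and a with ⟨θ, χ ω⟩ = a when ω ψ₀⁻¹ is trivial on W₂ and 0 otherwise; or there are φ₀ and a with ⟨θ, χ ω⟩ = a when ω φ₀⁻¹ is trivial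 on W₁ and 0 otherwise. -/
theorem result {G : Type*} [Group G] [Fintype G] (W₁ W₂ : Subgroup G) (hW : Cfsg.IsSelfNormalizingCyclic W₁ W₂) (hodd : Odd (Nat.card ↥(W₁ ⊔ W₂))) (χ : (↥(W₁ ⊔ W₂) →* ℂˣ) → (G → ℂ)) (hχ : Cfsg.IsCyclicTIFamily W₁ W₂ χ) (hlt : Nat.card W₁ < Nat.card W₂) (θ : G → ℂ) (hθ : Cfsg.IsClassFunction G θ) (hθV : ∀ w : ↥(W₁ ⊔ W₂), (w : G) ∉ W₁ → (w : G) ∉ W₂ → θ w = 0) (hfew : Nat.card {ω : ↥(W₁ ⊔ W₂) →* ℂˣ // Cfsg.classInner θ (χ ω) ≠ 0} < 2 * Nat.card W₁) : (∀ ω, Cfsg.classInner θ (χ ω) = 0) ∨ (∃ (ψ₀ : ↥(W₁ ⊔ W₂) →* ℂˣ) (a : ℂ), ∀ ω, Cfsg.classInner θ (χ ω) = if (∀ w : ↥(W₁ ⊔ W₂), (w : G) ∈ W₂ → (ω * ψ₀⁻¹) w = 1) then a else 0) ∨ (∃ (φ₀ : ↥(W₁ ⊔ W₂) →* ℂˣ) (a : ℂ), ∀ ω, Cfsg.classInner θ (χ ω) = if (∀ w : ↥(W₁ ⊔ W₂), (w : G) ∈ W₁ → (ω * φ₀⁻¹) w = 1) then a else 0) := by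
  have h : CycTI W₁ W₂ := ⟨hW, hodd⟩
  have hd := h.dp
  refine or_iff_not_imp_left.2 fun h0 => ?_
  obtain ⟨ω₀, h0⟩ := not_forall.1 h0
  obtain ⟨i₀, j₀, rfl⟩ := exists_pair hd ω₀
  rw [← cfdot_top] at h0
  refine ((etaFam_of_family hd hχ).small h (mem_CFun_top.2 hθ)
    (fun x hx => hθV ⟨x, hx.1⟩ (mem_cycV.1 hx).2.1 (mem_cycV.1 hx).2.2) ?_ h0).imp
    (fun hc => ⟨(homPairEquiv hd).symm (i₀, j₀), cfdot ⊤ θ (χ ((homPairEquiv hd).symm (i₀, j₀))),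
      fun ω => ?_⟩)
    (fun hc => ⟨(homPairEquiv hd).symm (i₀, j₀), cfdot ⊤ θ (χ ((homPairEquiv hd).symm (i₀, j₀))),
      fun ω => ?_⟩)
  · rw [min_eq_left hlt.le]
    refine lt_of_eq_of_lt ?_ hfew
    rw [← Fintype.card_subtype, ← Nat.card_eq_fintype_card]
    exact Nat.card_congr ((homPairEquiv hd).symm.subtypeEquiv fun p => by rw [cfdot_top])
  · obtain ⟨i, j, rfl⟩ := exists_pair hd ω
    rw [← cfdot_top, hc]
    simp only [homPair_snd_eq_one hd, homPairEquiv_mul, homPairEquiv_inv, Equiv.apply_symm_apply,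
      Prod.snd_mul, Prod.snd_inv, mul_inv_eq_one]
    congr
  · obtain ⟨i, j, rfl⟩ := exists_pair hd ω
    rw [← cfdot_top, hc]
    simp only [homPair_fst_eq_one hd, homPairEquiv_mul, homPairEquiv_inv, Equiv.apply_symm_apply,
      Prod.fst_mul, Prod.fst_inv, mul_inv_eq_one]
    congr

end Cfsg.Agent.S1507
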