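import Cfsg.Statements.S1511
import Cfsg.Agent.H70.PF3Rows

set_option autoImplicit false
open Cfsg Cfsg.Agent.H63 Cfsg.Agent.H67 Cfsg.Agent.H68 Cfsg.Agent.H70

namespace Cfsg.Agent.S1511

/-- Let L be a finite group with K normal with complement W₁ ≠ 1 a cyclic Hall subgroup, and W₂ ≠ 1 a cyclic subgroup of K equal to C_K(x) for every non-identity x ∈ W₁, with W₁W₂ of odd order. Then there are a map μ from the linear characters of W = W₁ ⊔ W₂ to irreducible characters of L, injective, and a sign δ(ω) ∈ {1, −1} depending only on the values of ω on W₂, such that: for ω, ω' agreeing on W₂, the function induced to L from ω − ω' equals δ(ω) • (μ ω − μ ω'); μ ω x = δ(ω) ω x for x ∈ W outside W₂; every irreducible character of L not of the form μ ω vanishes on W outside W₂; and μ ω 1 − δ(ω) is an integer multiple of Nat.card W₁. -/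
theorem result {L : Type*} [Group L] [Fintype L] (K W₁ W₂ : Subgroup L) [hK : K.Normal] (hKW₁ : K ⊓ W₁ = ⊥) (hKW₁' : K ⊔ W₁ = ⊤) (hW₁ : W₁ ≠ ⊥) (hW₁c : IsCyclic W₁) (hHall : Nat.Coprime (Nat.card W₁) W₁.index) (hW₂ : W₂ ≠ ⊥) (hW₂c : IsCyclic W₂) (hW₂K : W₂ ≤ K) (hC : ∀ x ∈ W₁, x ≠ 1 → K ⊓ Subgroup.centralizer ({x} : Set L) = W₂) (hodd : Odd (Nat.card ↥(W₁ ⊔ W₂))) : ∃ (μ : (↥(W₁ ⊔ W₂) →* ℂˣ) → (L → ℂ)) (δ : (↥(W₁ ⊔ W₂) →* ℂˣ) → ℂ), Function.Injective μ ∧ (∀ ω, Cfsg.IsIrrCharacter L (μ ω)) ∧ (∀ ω, δ ω = 1 ∨ δ ω = -1) ∧ (∀ ω ω' : ↥(W₁ ⊔ W₂) →* ℂˣ, (∀ w : ↥(W₁ ⊔ W₂), (w : L) ∈ W₂ → ω w = ω' w) → δ ω = δ ω' ∧ Cfsg.indFun (W₁ ⊔ W₂) (fun w => (ω w : ℂ) - (ω' w : ℂ)) = δ ω • (μ ω - μ ω')) ∧ (∀ ω, ∀ w : ↥(W₁ ⊔ W₂), (w : L) ∉ W₂ → μ ω w = δ ω * (ω w : ℂ)) ∧ (∀ θ : L → ℂ, Cfsg.IsIrrCharacter L θ → (∀ ω, θ ≠ μ ω) → ∀ w : ↥(W₁ ⊔ W₂), (w : L) ∉ W₂ → θ w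 = 0) ∧ (∀ ω, ∃ n : ℤ, μ ω 1 - δ ω = n * (Nat.card W₁ : ℂ)) := by
  have h := primeTI_top hKW₁ hKW₁' hW₁ hW₁c hHall hW₂ hW₂c hW₂K hC hodd
  have hd := h.dp
  refine ⟨fun ω => prTIirr ⊤ W₁ W₂ (homPairEquiv hd ω).1 (homPairEquiv hd ω).2,
    fun ω => prTIsign ⊤ W₁ W₂ (homPairEquiv hd ω).2, fun ω ω' e => ?_,
    fun ω => isIrr_top.1 (prTIirr_irr h _ _), fun ω => prTIsign_cases' _ _, fun ω ω' e => ?_,
    fun ω w hw => ?_, fun θ hθ hn w hw => ?_, fun ω => ?_⟩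
  · exact (homPairEquiv hd).injective (Prod.ext_iff.2 ((prTIirr_inj h).1 e))
  · rw [homPair_snd_eq hd] at e
    refine ⟨by simp only [e], ?_⟩
    simp only [← e]
    rw [← cfInd_sub_prTIirr h, cfInd_top]
    congr 1
    funext w
    rw [res, Pi.sub_apply, omega_homPairEquiv, e, omega_homPairEquiv, linChar_coe, linChar_coe]
  · beta_reduce
    rw [prTIirr_id h _ _ w.2 hw, omega_homPairEquiv, linChar_coe]
  · refine not_prTIirr_vanish h (isIrr_top.2 hθ) (fun i j => ?_) w.2 hw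
    simpa only [Equiv.apply_symm_apply] using hn ((homPairEquiv hd).symm (i, j))
  · obtain ⟨n, hn⟩ := primeTIirr1_mod h (homPairEquiv hd ω).1 (homPairEquiv hd ω).2
    exact ⟨n, by simp only [hn, add_sub_cancel_left]⟩

end Cfsg.Agent.S1511
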