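import Cfsg.Statements.S1512
import Cfsg.Agent.H63.Frob
import Cfsg.Agent.H92.ClassSize

set_option autoImplicit false
open Cfsg Cfsg.Agent.H63

namespace Cfsg.Agent.S1512

/-- Let K be a normal subgroup of the finite group L and x a non-identity element whose order is coprime to the order of K, such that K ⊓ C_L(y) = W₂ for every non-identity element y of the cyclic group generated by x. Then the number of conjugacy classes of K mapped to themselves by conjugation by x is at most Nat.card W₂. -/
theorem result {L : Type*} [Group L] [Finite L] (K W₂ : Subgroup L) [hK : K.Normal] (x : L) (hx1 : x ≠ 1) (hx : Nat.Coprime (orderOf x) (Nat.card K)) (hC : ∀ y ∈ Subgroup.zpowers x, y ≠ 1 → K ⊓ Subgroup.centralizer ({y} : Set L) = W₂) : Nat.card {C : ConjClasses K // ConjClasses.map (MulEquiv.toMonoidHom ((MulAut.conjNormal x : MulAut K))) C = C} ≤ Nat.card W₂ := by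
  classical
  obtain ⟨y, hy, hp⟩ := exists_prime_order_mem_of_ne_bot (zpowers_ne_bot' hx1)
  have : Fact (orderOf y).Prime := ⟨hp⟩
  have hW := hC y hy (ne_one_of_prime_orderOf hp)
  obtain ⟨n, rfl⟩ := mem_powers_iff_mem_zpowers.2 hy
  have key : ∀ C : {C : ConjClasses K // ConjClasses.map (MulEquiv.toMonoidHom
      ((MulAut.conjNormal x : MulAut K))) C = C}, ∃ w : W₂, ∃ hw : (w : L) ∈ K,
      ConjClasses.mk ⟨w, hw⟩ = C.1 := by
    rintro ⟨C, hC'⟩
    have h1 : ∀ m : ℕ, ∀ h : K, h ∈ C.carrier → MulAut.conjNormal (x ^ m) h ∈ C.carrier := by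
      intro m h hh
      induction m with
      | zero => simpa using hh
      | succ m ih =>
        rw [pow_succ', map_mul, MulAut.mul_apply, ConjClasses.mem_carrier_iff_mk_eq, ← hC',
          ← ConjClasses.mem_carrier_iff_mk_eq.1 ih]
        rfl
    have := Fintype.ofFinite C.carrier
    let f : C.carrier → C.carrier := fun h => ⟨_, h1 n h h.2⟩
    have hf : Function.Injective f := fun a b e =>
      Subtype.ext ((MulAut.conjNormal (x ^ n)).injective (congrArg Subtype.val e))
    let σ : Equiv.Perm C.carrier := Equiv.ofBijective f (Finite.injective_iff_bijective.1 hf)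
    have h2 : ∀ m : ℕ, ∀ h, ((σ ^ m) h : K) = MulAut.conjNormal ((x ^ n) ^ m) (h : K) := by
      intro m h
      induction m with
      | zero => simp
      | succ m ih => rw [pow_succ', pow_succ', map_mul, MulAut.mul_apply, ← ih]; rfl
    obtain ⟨a, ha⟩ := Equiv.Perm.exists_fixed_point_of_prime (p := orderOf (x ^ n)) (n := 1) (σ := σ)
      (fun hd => by
        obtain ⟨g, rfl⟩ := ConjClasses.exists_rep C
        rw [← Nat.card_eq_fintype_card, H92.card_carrier] at hd
        exact hp.one_lt.ne' ((hx.coprime_dvd_left (orderOf_pow_dvd n)).eq_one_of_dvd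
          (hd.trans (Subgroup.index_dvd_card _))))
      (Equiv.ext fun h => Subtype.ext (by rw [pow_one, h2, pow_orderOf_eq_one, map_one]; rfl))
    have h3 : x ^ n * a * (x ^ n)⁻¹ = a := congrArg (fun t : C.carrier => ((t : K) : L)) ha
    exact ⟨⟨a, hW.le ⟨a.1.2, Subgroup.mem_centralizer_singleton_iff.2
      (mul_inv_eq_iff_eq_mul.1 h3).symm⟩⟩, a.1.2, ConjClasses.mem_carrier_iff_mk_eq.1 a.2⟩
  choose w hw e using key
  exact Nat.card_le_card_of_injective w fun C D h => Subtype.ext (by
    rw [← e, ← e]; simp only [h])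

end Cfsg.Agent.S1512
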