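import Cfsg.Statements.S1513
import Cfsg.Agent.H70.PF3Rows

set_option autoImplicit false
open Cfsg Cfsg.Agent.H63 Cfsg.Agent.H67 Cfsg.Agent.H68 Cfsg.Agent.H70

namespace Cfsg.Agent.S1513

/-- Let L be a finite group with K normal with complement W₁ ≠ 1 a cyclic Hall subgroup, and W₂ ≠ 1 a cyclic subgroup of K equal to C_K(x) for every non-identity x ∈ W₁, with W₁W₂ of odd order. For an irreducible character θ of K: if θ is not fixed under conjugation by some element of W₁, then the function induced from θ to L is an irreducible character of L; and the irreducible characters of K fixed by all of W₁ are exactly Nat.card W₂ in number, each inducing to the sum of Nat.card W₁ pairwise distinct irreducible characters of L. -/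
theorem result {L : Type*} [Group L] [Fintype L] (K W₁ W₂ : Subgroup L) [hK : K.Normal] (hKW₁ : K ⊓ W₁ = ⊥) (hKW₁' : K ⊔ W₁ = ⊤) (hW₁ : W₁ ≠ ⊥) (hW₁c : IsCyclic W₁) (hHall : Nat.Coprime (Nat.card W₁) W₁.index) (hW₂ : W₂ ≠ ⊥) (hW₂c : IsCyclic W₂) (hW₂K : W₂ ≤ K) (hC : ∀ x ∈ W₁, x ≠ 1 → K ⊓ Subgroup.centralizer ({x} : Set L) = W₂) (hodd : Odd (Nat.card ↥(W₁ ⊔ W₂))) : (∀ θ : K → ℂ, Cfsg.IsIrrCharacter K θ → (∃ x ∈ W₁, (fun k : K => θ ⟨x * k * x⁻¹, hK.conj_mem (k : L) k.2 x⟩) ≠ θ) → Cfsg.IsIrrCharacter L (Cfsg.indFun K θ)) ∧ Nat.card {θ : Cfsg.IrrCharacter K // ∀ x ∈ W₁, (fun k : K => (θ : K → ℂ) ⟨x * k * x⁻¹, hK.conj_mem (k : L) k.2 x⟩) = θ} = Nat.card W₂ ∧ (∀ θ : K → ℂ, Cfsg.IsIrrCharacter K θ → (∀ x ∈ W₁, (fun k : K => θ ⟨x * k * x⁻¹, hK.conj_mem (k : L) k.2 x⟩) = θ) → ∃ C : Finset (L → ℂ), C.card = Nat.card W₁ ∧ (∀ μ ∈ C, Cfsg.IsIrrCharacter L μ) ∧ Cfsg.indFun K θ = ∑ μ ∈ C, μ)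 := by
  have h := primeTI_top hKW₁ hKW₁' hW₁ hW₁c hHall hW₂ hW₂c hW₂K hC hodd
  have hres : ∀ j, ∀ x ∈ W₁, (fun k : K => res K (prTIres ⊤ K W₁ W₂ j)
      ⟨x * k * x⁻¹, hK.conj_mem (k : L) k.2 x⟩) = res K (prTIres ⊤ K W₁ W₂ j) := fun j x _ =>
    funext fun k => (cfConj_inv_apply x _ (k : L)).symm.trans
      (congrFun (le_inertia_prTIres h j (Subgroup.mem_top x⁻¹)).2 k)
  have key : ∀ θ : K → ℂ, IsIrrCharacter K θ → (∀ x ∈ W₁, (fun k : K => θ ⟨x * k * x⁻¹,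
      hK.conj_mem (k : L) k.2 x⟩) = θ) → ∃ j, extendByZero K θ = prTIres ⊤ K W₁ W₂ j := by
    intro θ hθ hinv
    have hθ' := isIrr_ext.2 hθ
    refine (prTIres_irr_cases h hθ').resolve_right fun hi => h.W1_ne (eq_bot_iff.2 ?_)
    rw [← hKW₁]
    refine le_inf (fun x hx => (isIrr_cfInd_iff h.K_normal hθ').1 hi.1 ⟨trivial, h.sdp.norm hx, ?_⟩) le_rfl
    refine cfun_eq (cfConj_mem_CFun_norm hθ'.cfun (h.sdp.norm hx)) hθ'.cfun fun k hk => ?_
    have := congrFun (hinv x⁻¹ (W₁.inv_mem hx)) ⟨k, hk⟩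
    simp only [inv_inv] at this
    exact (congrFun (res_ext θ) ⟨_, _⟩).trans (this.trans (congrFun (res_ext θ) ⟨k, hk⟩).symm)
  refine ⟨fun θ hθ ⟨x, hx, hne⟩ => ?_, ?_, fun θ hθ hinv => ?_⟩
  · rw [← cfInd_top_ext]
    refine isIrr_top.1 ((prTIres_irr_cases h (isIrr_ext.2 hθ)).resolve_left fun ⟨j, e⟩ => hne ?_).1
    rw [← res_ext θ, e]
    exact hres j x hx
  · rw [← h.card_hom2, ← Nat.card_eq_fintype_card]
    refine (Nat.card_congr (Equiv.ofBijective (fun j => ⟨⟨res K (prTIres ⊤ K W₁ W₂ j),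
      (prTIres_irr h j).1⟩, hres j⟩) ⟨fun j k e => prTIres_inj h (eq_of_res_eq (prTIres_irr h j).off
        (prTIres_irr h k).off (congrArg (fun t => t.1.1) e)), fun θ => ?_⟩)).symm
    obtain ⟨j, e⟩ := key θ.1.1 θ.1.2 θ.2
    exact ⟨j, Subtype.ext (Subtype.ext (by rw [← res_ext θ.1.1, e]))⟩
  · classical
    obtain ⟨j, e⟩ := key θ hθ hinv
    have hinj : Function.Injective fun i => prTIirr ⊤ W₁ W₂ i j := fun i k e => ((prTIirr_inj h).1 e).1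
    refine ⟨Finset.univ.image fun i => prTIirr ⊤ W₁ W₂ i j, ?_, fun μ hμ => ?_, ?_⟩
    · rw [Finset.card_image_of_injective _ hinj, Finset.card_univ, h.card_hom1]
    · obtain ⟨i, -, rfl⟩ := Finset.mem_image.1 hμ
      exact isIrr_top.1 (prTIirr_irr h i j)
    · rw [Finset.sum_image fun i _ k _ e => hinj e, ← cfInd_top_ext, e, cfInd_prTIres h, prTIred]

end Cfsg.Agent.S1513
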