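import Cfsg.Statements.S1515
import Cfsg.Agent.H65.CohBridge

set_option autoImplicit false
open Cfsg

namespace Cfsg.Agent.S1515

/-- Let (S, τ, R) be a coherence system from L to G, χ ∈ S, and ψ an integer combination of S with ⟨χ, ψ⟩ = ⟨conj χ, ψ⟩ = 0. Let τ₁ be a linear isometry on the integer combinations of χ − ψ and χ − conj χ, with virtual-character values, agreeing with τ on integer multiples of χ − conj χ. Then the sum over α ∈ R χ of the squared absolute values of ⟨τ₁(χ − ψ), α⟩ is at least ⟨χ, χ⟩; and if ⟨τ₁(χ − ψ), τ₁(χ − ψ)⟩ minus that sum is at least ⟨ψ, ψ⟩, then the sum equals ⟨χ, χ⟩ and every ⟨τ₁(χ − ψ), α⟩ with α ∈ R χ is 0 or 1. -/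
theorem result {L : Type*} [Group L] [Fintype L] {G : Type*} [Group G] [Fintype G] (S : Set (L → ℂ)) (τ : (L → ℂ) → (G → ℂ)) (R : (L → ℂ) → Finset (G → ℂ)) (hS : Cfsg.IsCoherenceSystem S τ R) (χ : L → ℂ) (hχ : χ ∈ S) (ψ : L → ℂ) (hψ : ψ ∈ Cfsg.zspan S) (h1 : Cfsg.classInner χ ψ = 0) (h2 : Cfsg.classInner (Cfsg.conjFun χ) ψ = 0) (τ₁ : (L → ℂ) → (G → ℂ)) (hτ₁ : Cfsg.IsLinearIsometryOn (Cfsg.zspan {χ - ψ, χ - Cfsg.conjFun χ}) τ₁) (hagree : ∀ n : ℤ, τ₁ (n • (χ - Cfsg.conjFun χ)) = τ (n • (χ - Cfsg.conjFun χ))) : (Cfsg.classInner χ χ).re ≤ ∑ α ∈ R χ, ‖Cfsg.classInner (τ₁ (χ - ψ)) α‖ ^ 2 ∧ ((Cfsg.classInner ψ ψ).re ≤ (Cfsg.classInner (τ₁ (χ - ψ)) (τ₁ (χ - ψ))).re - ∑ α ∈ R χ, ‖Cfsg.classInner (τ₁ (χ - ψ)) α‖ ^ 2 → (∑ α ∈ R χ, ‖Cfsg.classInner (τ₁ (χ - ψ)) α‖ ^ 2 = (Cfsg.classInner χ χ).re ∧ ∀ α ∈ R χ, Cfsg.classInner (τ₁ (χ - ψ)) α =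 0 ∨ Cfsg.classInner (τ₁ (χ - ψ)) α = 1)) := by
  obtain ⟨τ', he, h⟩ := H65.exists_subCoh_of_system hS
  have m1 : χ - ψ ∈ Cfsg.zspan {χ - ψ, χ - Cfsg.conjFun χ} := H65.mem_zspan_self (by simp)
  have m2 : χ - Cfsg.conjFun χ ∈ Cfsg.zspan {χ - ψ, χ - Cfsg.conjFun χ} :=
    H65.mem_zspan_self (by simp)
  set β := τ₁ (χ - ψ) with hβ
  have hvc : IsGeneralizedCharacter G β := hτ₁.2.2.2 _ m1
  have e1 : τ₁ (χ - Cfsg.conjFun χ) = ∑ α ∈ R χ, α := by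
    have := hagree 1
    rw [one_smul] at this
    rw [this, hS.sum_eq χ hχ]
  have e2 : ∀ α ∈ R χ, ‖Cfsg.classInner β α‖ ^ 2 = H65.ip β α ^ 2 := fun α ha => by
    rw [H65.vc_ci_eq_ip hvc (h.sirr χ hχ α ha).vc, Complex.norm_real, Real.norm_eq_abs, sq_abs]
  have e3 : ∑ α ∈ R χ, H65.ip β α = H65.ip χ χ := by
    rw [← H65.ip_sum_right, ← e1, H65.ip_def, hτ₁.2.2.1 _ m1 _ m2, ← H65.ip_def, H65.ip_sub_left,
      H65.ip_sub_right, H65.ip_sub_right, H65.ip_eq_zero_of_ci (h.ci_conj_eq_zero hχ),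
      H65.ip_eq_zero_of_ci (H65.ci_symm_zero h1), H65.ip_eq_zero_of_ci (H65.ci_symm_zero h2)]
    ring
  have e4 : H65.ip β β = H65.ip χ χ + H65.ip ψ ψ := by
    rw [H65.ip_def, hτ₁.2.2.1 _ m1 _ m1, ← H65.ip_def, H65.ip_sub_self, H65.ip_eq_zero_of_ci h1]
    ring
  have hint : ∀ α ∈ R χ, H65.ip β α ≤ H65.ip β α ^ 2 := fun α ha =>
    H65.int_le_sq (H65.vc_ip_int hvc (h.sirr χ hχ α ha).vc)
  rw [Finset.sum_congr rfl e2, ← H65.ip_def, ← H65.ip_def, ← H65.ip_def]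
  have hle := Finset.sum_le_sum hint
  refine ⟨by linarith, fun h3 => ⟨by linarith, fun α ha => ?_⟩⟩
  have heq : ∑ α ∈ R χ, H65.ip β α = ∑ α ∈ R χ, H65.ip β α ^ 2 := by linarith
  rw [H65.vc_ci_eq_ip hvc (h.sirr χ hχ α ha).vc]
  rcases H65.int_eq_zero_or_one ((Finset.sum_eq_sum_iff_of_le hint).1 heq α ha) with e | e
  · left; rw [e]; simp
  · right; rw [e]; simp

end Cfsg.Agent.S1515
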