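import Cfsg.Statements.S1520
import Cfsg.Agent.H65.PF6a

set_option autoImplicit false
open Cfsg

namespace Cfsg.Agent.S1520

/-- Let K be a solvable normal subgroup of the finite group L and (S, τ, R) a coherence system from L to G with S the functions induced from non-principal irreducible characters of K; S(A) the members of S induced from characters whose kernel contains A. Let M ≤ H₁ ≤ H ≤ K be normal subgroups of L such that every term of the lower central series of H eventually lies in M (H/M nilpotent), S(H₁) is coherent and [H:H₁] > 4 * [L:K]^2 + 1. Then S(M) is coherent. -/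
theorem result {L : Type*} [Group L] [Fintype L] {G : Type*} [Group G] [Fintype G] (K : Subgroup L) [hK : K.Normal] (hsolv : Group.IsSolvable K) (τ : (L → ℂ) → (G → ℂ)) (R : (L → ℂ) → Finset (G → ℂ)) (hS : Cfsg.IsCoherenceSystem (Cfsg.inducedIrrAbove K ⊥) τ R) (M H₁ H : Subgroup L) [M.Normal] [H₁.Normal] [H.Normal] (hMH₁ : M ≤ H₁) (hH₁H : H₁ ≤ H) (hHK : H ≤ K) [(M.subgroupOf H).Normal] (hnil : Group.IsNilpotent (↥H ⧸ M.subgroupOf H)) (hcoh : Cfsg.IsCoherent (Cfsg.inducedIrrAbove K H₁) {1}ᶜ τ) (hbig : 4 * K.index ^ 2 + 1 < H₁.relIndex H) : Cfsg.IsCoherent (Cfsg.inducedIrrAbove K M) {1}ᶜ τ := by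
  obtain ⟨τ', h, h1, h2⟩ := H65.PF.exists_subcoherent_of_system hS
  have hn : ∀ (X : Subgroup L) [X.Normal], H63.NormalIn X ⊤ := fun X _ => H67.normalIn_top_iff.2 ‹_›
  have hMK : M ≤ K := hMH₁.trans (hH₁H.trans hHK)
  rw [H65.PF.inducedIrrAbove_eq' (hH₁H.trans hHK)] at hcoh
  rw [H65.PF.inducedIrrAbove_eq' hMK]
  refine h2 _ (H65.PF.seqInd_conjC_subset1 le_rfl)
    (H65.PF.seqIndD_nonempty ((hn M).of_le hMK le_top) le_rfl fun h => ?_) ?_
  · rw [Subgroup.relIndex_eq_one.2 (hHK.trans (h.trans hMH₁))] at hbig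
    omega
  · exact H65.PF.bounded_seqIndD_coherence (hn K) hsolv h (hn M) (hn H) (hn H₁) hMH₁ hH₁H hHK
      (H65.PF.quo_isNilpotent_of_quotient hnil) (h1 _ (H65.PF.seqInd_sub1 le_rfl) hcoh)
      (by rwa [Subgroup.relIndex_top_right])

end Cfsg.Agent.S1520
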