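import Cfsg.Statements.S1521
import Cfsg.Agent.H65.PF6a

set_option autoImplicit false
open Cfsg

namespace Cfsg.Agent.S1521

/-- Let K be a solvable normal subgroup of the finite group L of odd order and (S, τ, R) a coherence system from L to G with S the functions induced from non-principal irreducible characters of K; S(A) as before. Let M ≤ K be normal in L with K/M nilpotent, H₁ = [K, K] ⊔ M, H₁ < K < L, and suppose every element of K outside H₁ is centralised modulo H₁ only from inside K (L/H₁ is a Frobenius group with kernel K/H₁). Suppose one of the following: some normal subgroup of L lies strictly between H₁ and K; or [K:H₁] > 4[L:K]^2 + 1; or [K:M] is not a prime power; or [K,K] ≤ M; or [K:M] is a power of a prime p with [L:K] dividing p − 1. Then S(M) is coherent. -/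
theorem result {L : Type*} [Group L] [Fintype L] {G : Type*} [Group G] [Fintype G] (K : Subgroup L) [hK : K.Normal] (hsolv : Group.IsSolvable K) (τ : (L → ℂ) → (G → ℂ)) (R : (L → ℂ) → Finset (G → ℂ)) (hS : Cfsg.IsCoherenceSystem (Cfsg.inducedIrrAbove K ⊥) τ R) (hodd : Odd (Nat.card L)) (M : Subgroup L) [M.Normal] (hMK : M ≤ K) [(M.subgroupOf K).Normal] (hnil : Group.IsNilpotent (↥K ⧸ M.subgroupOf K)) (H₁ : Subgroup L) (hH₁ : H₁ = ⁅K, K⁆ ⊔ M) (hH₁K : H₁ < K) (hKL : K < ⊤) (hfrob : ∀ k ∈ K, k ∉ H₁ → ∀ x : L, x * k * x⁻¹ * k⁻¹ ∈ H₁ → x ∈ K) (hgood : (∃ N : Subgroup L, N.Normal ∧ H₁ < N ∧ N < K) ∨ 4 * K.index ^ 2 + 1 < H₁.relIndex K ∨ (¬ ∃ p m : ℕ, p.Prime ∧ M.relIndex K = p ^ m) ∨ ⁅K, K⁆ ≤ M ∨ (∃ p m : ℕ, p.Prime ∧ M.relIndex K = p ^ m ∧ K.index ∣ p - 1)) : Cfsg.IsCoherent (Cfsg.inducedIrrAbove K M) {1}ᶜ τ := by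
  obtain ⟨τ', h, -, h2⟩ := H65.PF.exists_subcoherent_of_system hS
  have hn : ∀ (X : Subgroup L) [X.Normal], H63.NormalIn X ⊤ := fun X _ => H67.normalIn_top_iff.2 ‹_›
  subst hH₁
  have hlt : M < K := lt_of_le_of_lt le_sup_right hH₁K
  rw [H65.PF.inducedIrrAbove_eq' hMK]
  refine h2 _ (H65.PF.seqInd_conjC_subset1 le_rfl)
    (H65.PF.seqIndD_nonempty ((hn M).of_le hMK le_top) le_rfl hlt.not_ge) ?_
  by_contra hc
  obtain ⟨c1, c2, p, hp, c3, c4, c5⟩ := H65.PF.non_coherent_chief (hn K) hsolv h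
    (H65.PF.oddFrobQuo_top hodd hMK (H65.PF.quo_isNilpotent_of_quotient hnil) hH₁K hKL hfrob) hc
  rw [Subgroup.relIndex_top_right] at c2 c5
  have := Fact.mk hp
  obtain ⟨k, hk⟩ := H67.exists_card_eq_pow c3
  rw [H63.card_quo (le_top.trans (hn M).norm)] at hk
  rcases hgood with ⟨N, hN, a, b⟩ | a | a | a | ⟨q, m, hq, a, b⟩
  · rcases c1.eq_or_eq a.le b.le (hn N).norm with e | e
    exacts [a.ne' e, b.ne e]
  · omega
  · exact a ⟨p, k, hp, hk⟩
  · exact c4 a
  · have hm : m ≠ 0 := by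
      rintro rfl
      exact hlt.not_ge (Subgroup.relIndex_eq_one.1 (by rw [a, pow_zero]))
    have hd : q ∣ p ^ k := by rw [← hk, a]; exact dvd_pow_self q hm
    rw [(Nat.prime_dvd_prime_iff_eq hq hp).1 (hq.dvd_of_dvd_pow hd)] at b
    exact c5 b

end Cfsg.Agent.S1521
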