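import Cfsg.Statements.S1522
import Cfsg.Agent.H65.PF6a

set_option autoImplicit false
open Cfsg

namespace Cfsg.Agent.S1522

/-- Let K be a nilpotent normal subgroup of the finite group L of odd order with [K,K] < K < L and L/[K,K] a Frobenius group with kernel K/[K,K] (elements of K outside [K,K] are centralised modulo [K,K] only from inside K); let (S, τ, R) be a coherence system from L to G with S the functions induced from non-principal irreducible characters of K. Let Z be a nontrivial normal subgroup of L contained in the centre of K, and suppose every member of S outside S(Z) is an irreducible character of L. Then S minus S(Z) is the set of irreducible characters χ of L with χ z ≠ χ 1 for some z ∈ Z, and it is coherent. -/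
theorem result {L : Type*} [Group L] [Fintype L] {G : Type*} [Group G] [Fintype G] (K : Subgroup L) [hK : K.Normal] (hsolv : Group.IsSolvable K) (τ : (L → ℂ) → (G → ℂ)) (R : (L → ℂ) → Finset (G → ℂ)) (hS : Cfsg.IsCoherenceSystem (Cfsg.inducedIrrAbove K ⊥) τ R) (hodd : Odd (Nat.card L)) (hnil : Group.IsNilpotent K) (hH₁K : ⁅K, K⁆ < K) (hKL : K < ⊤) (hfrob : ∀ k ∈ K, k ∉ ⁅K, K⁆ → ∀ x : L, x * k * x⁻¹ * k⁻¹ ∈ ⁅K, K⁆ → x ∈ K) (Z : Subgroup L) [Z.Normal] (hZ1 : Z ≠ ⊥) (hZK : Z ≤ K) (hZc : ∀ z ∈ Z, ∀ k ∈ K, z * k = k * z) (hirr : ∀ χ ∈ Cfsg.inducedIrrAbove K ⊥ \ Cfsg.inducedIrrAbove K Z, Cfsg.IsIrrCharacter L χ) : Cfsg.inducedIrrAbove K ⊥ \ Cfsg.inducedIrrAbove K Z = {χ | Cfsg.IsIrrCharacter L χ ∧ ∃ z ∈ Z, χ z ≠ χ 1} ∧ Cfsg.IsCoherent (Cfsg.inducedIrrAbove K ⊥ \ Cfsg.inducedIrrAbove K Z) {1}ᶜ τ := by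
  obtain ⟨τ', h, -, h2⟩ := H65.PF.exists_subcoherent_of_system hS
  have hn : ∀ (X : Subgroup L) [X.Normal], H63.NormalIn X ⊤ := fun X _ => H67.normalIn_top_iff.2 ‹_›
  have e : Cfsg.inducedIrrAbove K ⊥ \ Cfsg.inducedIrrAbove K Z = H70.seqIndD K ⊤ Z ⊥ := by
    rw [H65.PF.inducedIrrAbove_eq' bot_le, H65.PF.inducedIrrAbove_eq' hZK,
      ← H65.PF.seqIndD_union bot_le hZK, Set.union_diff_cancel_left]
    exact fun χ hχ => H65.PF.seqIndD_disjoint le_top (hn Z).norm hχ.1 le_rfl hZK hχ.2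
  rw [e] at hirr ⊢
  obtain ⟨a, b⟩ := H65.PF.seqIndD_irr_coherence (hn K) hsolv h
    (H65.PF.oddFrobQuo_top hodd bot_le (H63.quo_isNilpotent _ hnil) (by rwa [sup_bot_eq]) hKL
      (by rwa [sup_bot_eq])) (hn Z) hZ1 (fun z hz => ⟨hZK hz, fun k hk => (hZc z hz k hk).symm⟩)
    (fun χ hχ => H70.isIrr_top.2 (hirr χ hχ))
  refine ⟨a.trans (Set.ext fun χ => ?_), h2 _ (H65.PF.seqInd_conjC_subset1 hZK)
    (H65.PF.seqIndD_nonempty (H67.bot_normalIn K) hZK (mt le_bot_iff.1 hZ1)) b⟩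
  simp only [Set.mem_setOf_eq, ← H70.isIrr_top]
  refine and_congr_right fun hχ => ?_
  rw [hχ.le_cfker_iff]
  push Not
  rfl

end Cfsg.Agent.S1522
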