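import Cfsg.Statements.S1525
import Cfsg.Agent.H68.Dade

set_option autoImplicit false
open Cfsg

namespace Cfsg.Agent.S1525

/-- Under the Dade hypothesis for (A, L, H), let χ be a class function of G and let ψ be a function on L whose value at each a ∈ A is the average of χ over the coset a·H(a). Then (1/|G|) Σ |χ g|² over the elements g of G conjugate into some coset a·H(a) with a ∈ A is at least (1/|L|) Σ_{a ∈ A ∩ L} |ψ a|². -/
theorem result {G : Type*} [Group G] [Fintype G] (A : Set G) (L : Subgroup G) [Fintype L] (H : G → Subgroup G) (hD : Cfsg.DadeHypothesis A L H) (χ : G → ℂ) (hχ : Cfsg.IsClassFunction G χ) (ψ : L → ℂ) (hψ : ∀ a : L, (a : G) ∈ A → ψ a = (Nat.card (H a) : ℂ)⁻¹ * ∑ᶠ u ∈ (H a : Set G), χ (a * u)) : (Nat.card L : ℝ)⁻¹ * ∑ᶠ a ∈ {a : L | (a : G) ∈ A}, ‖ψ a‖ ^ 2 ≤ (Nat.card G : ℝ)⁻¹ * ∑ᶠ g ∈ {g : G | ∃ a ∈ A, ∃ u ∈ H a, ∃ x : G, x * g * x⁻¹ = a * u}, ‖χ g‖ ^ 2 := by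
  classical
  have h := H68.norm_invDade_le hD hχ
  rw [Finset.sum_filter] at h
  rw [H68.finsum_mem_eq_sum_ite, H68.finsum_mem_eq_sum_ite]
  refine le_of_eq_of_le ?_ (h.trans_eq ?_)
  · congr 1
    refine Finset.sum_congr rfl fun a _ => ?_
    by_cases ha : (a : G) ∈ A
    · rw [if_pos (by exact ha), hψ a ha, H68.invDade_apply_of_mem L χ ha]
    · rw [if_neg (by exact ha), H68.invDade_apply_of_notMem L χ ha]; simp
  · congr 1
    refine Finset.sum_congr rfl fun g _ => ?_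
    by_cases hg : g ∈ H68.dadeSupport A H
    · rw [if_pos hg, if_pos (by exact hg)]
    · rw [if_neg hg, if_neg (by exact hg)]

end Cfsg.Agent.S1525
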