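import Cfsg.Statements.S1529
import Cfsg.Agent.H11.CohUnion

set_option autoImplicit false
open Cfsg

namespace Cfsg.Agent.S1529

open Cfsg.Agent.H11

/-- Let N be a subgroup of the finite group G, S a set of irreducible characters of N with at least two members, and τ₁ a linear isometry on the integer combinations of S with virtual-character values such that τ₁ α vanishes at 1 whenever α ∈ ℤ[S] does. Then there is ε ∈ {1, −1} such that ε • τ₁ χ is an irreducible character of G for every χ ∈ S, and distinct members of S give distinct characters. -/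
theorem result {G : Type*} [Group G] [Fintype G] (N : Subgroup G) [Fintype N] (S : Set (N → ℂ)) (hirr : ∀ χ ∈ S, Cfsg.IsIrrCharacter N χ) (htwo : ∃ χ ∈ S, ∃ ψ ∈ S, χ ≠ ψ) (τ₁ : (N → ℂ) → (G → ℂ)) (hτ₁ : Cfsg.IsLinearIsometryOn (Cfsg.zspan S) τ₁) (h0 : ∀ α ∈ Cfsg.zspan S, α 1 = 0 → τ₁ α 1 = 0) : ∃ ε : ℂ, (ε = 1 ∨ ε = -1) ∧ (∀ χ ∈ S, Cfsg.IsIrrCharacter G (ε • τ₁ χ)) ∧ (∀ χ ∈ S, ∀ ψ ∈ S, τ₁ χ = τ₁ ψ → χ = ψ) := by
  have _ := htwo
  have hci : ∀ χ ∈ S, ∀ ψ ∈ S, classInner (τ₁ χ) (τ₁ ψ) = classInner χ ψ := fun χ hχ ψ hψ =>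
    hτ₁.2.2.1 _ (H65.mem_zspan_self hχ) _ (H65.mem_zspan_self hψ)
  obtain ⟨ν, hν⟩ := H65.exists_linear_of_isom_zspan (fun ξ hξ => irr_ne_zero (hirr ξ hξ))
    (fun ξ hξ φ hφ hne => H65.irr_ci_ne (hirr ξ hξ) (hirr φ hφ) hne) hτ₁
  obtain ⟨ε, hε, h⟩ := exists_common_sign hirr τ₁
    (fun χ hχ => H65.sirr_of_ci_eq_one (hτ₁.2.2.2 _ (H65.mem_zspan_self hχ))
      (by rw [hci χ hχ χ hχ, H65.irr_ci_self (hirr χ hχ)]))
    (fun χ hχ φ hφ => by
      have h1 := h0 _ (cross_mem_zspan hirr hχ hφ) (cross_apply_one χ φ)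
      rw [← hν _ (cross_mem_zspan hirr hχ hφ), map_sub, map_smul, map_smul,
        hν _ (H65.mem_zspan_self hχ), hν _ (H65.mem_zspan_self hφ)] at h1
      simpa [sub_eq_zero] using h1)
  refine ⟨ε, hε, h, fun χ hχ ψ hψ e => ?_⟩
  by_contra hne
  have h1 := hci χ hχ ψ hψ
  rw [← e, hci χ hχ χ hχ, H65.irr_ci_self (hirr χ hχ),
    H65.irr_ci_ne (hirr χ hχ) (hirr ψ hψ) hne] at h1
  exact one_ne_zero h1

end Cfsg.Agent.S1529
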