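import Cfsg.Statements.S1530
import Cfsg.Agent.H11.FeitCrit

set_option autoImplicit false
open Cfsg

namespace Cfsg.Agent.S1530

open Cfsg.Agent.H11

/-- Let N be a subgroup of the finite group G and S₀ a finite set of irreducible characters of N, χ an irreducible character of N not in S₀, with degrees ξ 1 = d ξ. Let τ be a linear isometry on the integer combinations of S₀ ∪ {χ} vanishing at 1, with values virtual characters of G vanishing at 1, such that (S₀, N minus 1, τ) is coherent. If some ψ ∈ S₀ has d ψ dividing d χ and 2 · d ψ · d χ < Σ_{ξ ∈ S₀} (d ξ)², then (S₀ ∪ {χ}, N minus 1, τ) is coherent. -/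
theorem result {G : Type*} [Group G] [Fintype G] (N : Subgroup G) [Fintype N] (S₀ : Finset (N → ℂ)) (χ : N → ℂ) (hirr : ∀ ξ ∈ S₀, Cfsg.IsIrrCharacter N ξ) (hχ : Cfsg.IsIrrCharacter N χ) (hχS : χ ∉ S₀) (d : (N → ℂ) → ℕ) (hd : ∀ ξ ∈ insert χ S₀, ξ 1 = (d ξ : ℂ)) (τ : (N → ℂ) → (G → ℂ)) (hτ : Cfsg.IsLinearIsometryOn (Cfsg.zspanOn (↑(insert χ S₀) : Set (N → ℂ)) {1}ᶜ) τ) (hτ1 : ∀ α ∈ Cfsg.zspanOn (↑(insert χ S₀) : Set (N → ℂ)) {1}ᶜ, τ α 1 = 0) (hcoh : Cfsg.IsCoherent (↑S₀ : Set (N → ℂ)) {1}ᶜ τ) (ψ : N → ℂ) (hψ : ψ ∈ S₀) (hdvd : d ψ ∣ d χ) (hlt : 2 * d ψ * d χ < ∑ ξ ∈ S₀, d ξ ^ 2) : Cfsg.IsCoherent (↑(insert χ S₀) : Set (N → ℂ)) {1}ᶜ τ := by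
  rw [Finset.coe_insert] at hτ hτ1 ⊢
  have hirr' : ∀ ξ ∈ insert χ (S₀ : Set (N → ℂ)), IsIrrCharacter N ξ := by
    rintro ξ (rfl | hξ)
    exacts [hχ, hirr ξ hξ]
  obtain ⟨τ', he, h⟩ := exists_irrIsom hirr' hτ hτ1
  have hs : (S₀ : Set (N → ℂ)) ⊆ insert χ (S₀ : Set (N → ℂ)) := Set.subset_insert _ _
  have hc : H65.Coh (S₀ : Set (N → ℂ)) τ' := H65.coh_of_isCoherent
    (fun ξ hξ => irr_ne_zero (hirr ξ hξ))
    (fun ξ hξ φ hφ hne => H65.irr_ci_ne (hirr ξ hξ) (hirr φ hφ) hne)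
    (fun α ha => he α (H65.zspan_mono hs ha)) hcoh
  obtain ⟨a, ha⟩ := hdvd
  have e1 := hd χ (Finset.mem_insert_self _ _)
  have e2 := hd ψ (Finset.mem_insert_of_mem hψ)
  refine H65.isCoherent_of_coh he (h.coh_insert hs (Set.mem_insert _ _) hχS hψ hc (a := a)
    (by rw [e1, e2, ha]; push_cast; ring) ?_)
    (exists_zspan_ne_zero_of_two hirr' (Set.mem_insert _ _) (hs hψ) (fun e => hχS (e ▸ hψ)))
  rw [Finset.sum_congr rfl fun ξ hξ => by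
    rw [hd ξ (Finset.mem_insert_of_mem hξ), Complex.natCast_re], e1, e2, Complex.natCast_re,
    Complex.natCast_re, mul_right_comm]
  exact_mod_cast hlt

end Cfsg.Agent.S1530
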