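import Cfsg.Statements.S1531
import Cfsg.Agent.H11.CohUnion

set_option autoImplicit false
open Cfsg

namespace Cfsg.Agent.S1531

open Cfsg.Agent.H11

/-- Let N be a subgroup of the finite group G, S a set of irreducible characters of N, and α a linear isometry on the integer combinations of S vanishing at 1 with values virtual characters of G vanishing at 1. Let X, Y ⊆ S be disjoint, each with at least two members, and σ, τ linear isometries on ℤ[X], ℤ[Y] into virtual characters agreeing with α on the members vanishing at 1. Then ⟨σ χ, τ η⟩ = 0 for χ ∈ X, η ∈ Y; and if for some χ₀ ∈ X, η₀ ∈ Y with degrees c = χ₀ 1, e = η₀ 1 one has α (c • η₀ − e • χ₀) = c • τ η₀ − e • σ χ₀, then (X ∪ Y, N minus 1, α) is coherent. -/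
theorem result {G : Type*} [Group G] [Fintype G] (N : Subgroup G) [Fintype N] (S X Y : Set (N → ℂ)) (hirr : ∀ ξ ∈ S, Cfsg.IsIrrCharacter N ξ) (hXS : X ⊆ S) (hYS : Y ⊆ S) (hXY : Disjoint X Y) (hX2 : ∃ a ∈ X, ∃ b ∈ X, a ≠ b) (hY2 : ∃ a ∈ Y, ∃ b ∈ Y, a ≠ b) (α : (N → ℂ) → (G → ℂ)) (hα : Cfsg.IsLinearIsometryOn (Cfsg.zspanOn S {1}ᶜ) α) (hα1 : ∀ θ ∈ Cfsg.zspanOn S {1}ᶜ, α θ 1 = 0) (σ τ : (N → ℂ) → (G → ℂ)) (hσ : Cfsg.IsLinearIsometryOn (Cfsg.zspan X) σ) (hσα : ∀ θ ∈ Cfsg.zspanOn X {1}ᶜ, σ θ = α θ) (hτ : Cfsg.IsLinearIsometryOn (Cfsg.zspan Y) τ) (hτα : ∀ θ ∈ Cfsg.zspanOn Y {1}ᶜ, τ θ = α θ) : (∀ χ ∈ X, ∀ η ∈ Y, Cfsg.classInner (σ χ) (τ η) = 0) ∧ ((∃ χ₀ ∈ X, ∃ η₀ ∈ Y, α (χ₀ 1 • η₀ - η₀ 1 • χ₀) = χ₀ 1 • τ η₀ - η₀ 1 • σ χ₀) → Cfsg.IsCoherent (X ∪ Y) {1}ᶜ α) := by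
  obtain ⟨α', he, h⟩ := exists_irrIsom hirr hα hα1
  obtain ⟨ν, hν, eν⟩ := H65.exists_cohWith_of_isom (fun ξ hξ => irr_ne_zero (hirr ξ (hXS hξ)))
    (fun ξ hξ φ hφ hne => H65.irr_ci_ne (hirr ξ (hXS hξ)) (hirr φ (hXS hφ)) hne)
    (fun θ ha => he θ (H65.zspan_mono hXS ha)) hσ hσα
  obtain ⟨μ, hμ, eμ⟩ := H65.exists_cohWith_of_isom (fun ξ hξ => irr_ne_zero (hirr ξ (hYS hξ)))
    (fun ξ hξ φ hφ hne => H65.irr_ci_ne (hirr ξ (hYS hξ)) (hirr φ (hYS hφ)) hne)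
    (fun θ ha => he θ (H65.zspan_mono hYS ha)) hτ hτα
  have ho : ∀ χ ∈ X, ∀ η ∈ Y, classInner (ν χ) (μ η) = 0 := fun χ hχ η hη =>
    h.cohWith_orth hXS hYS hXY hX2 hY2 hν hμ hχ hη
  refine ⟨fun χ hχ η hη => ?_, ?_⟩
  · rw [← eν _ (H65.mem_zspan_self hχ), ← eμ _ (H65.mem_zspan_self hη)]
    exact ho χ hχ η hη
  · rintro ⟨χ₀, hχ₀, η₀, hη₀, hb⟩
    rw [← eν _ (H65.mem_zspan_self hχ₀), ← eμ _ (H65.mem_zspan_self hη₀),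
      ← he _ (cross_mem_zspan hirr (hYS hη₀) (hXS hχ₀)) (cross_apply_one _ _)] at hb
    obtain ⟨ρ, hρ, -⟩ := h.cohWith_union hXS hYS hXY hν hμ ho hχ₀ hη₀ hb
    have hs : X ∪ Y ⊆ S := Set.union_subset hXS hYS
    exact H65.isCoherent_of_coh (fun θ ha => he θ (H65.zspan_mono hs ha)) ⟨ρ, hρ⟩
      (exists_zspan_ne_zero_of_two (fun ξ hξ => hirr ξ (hs hξ)) (Or.inl hχ₀) (Or.inr hη₀)
        (fun e => Set.disjoint_left.1 hXY hχ₀ (e ▸ hη₀)))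

end Cfsg.Agent.S1531
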