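import Cfsg.Statements.S1532
import Cfsg.Agent.S1533

set_option autoImplicit false
open Cfsg

namespace Cfsg.Agent.S1532

open Cfsg.Agent.H11

/-- Let G be a finite group, p an odd prime and P a Sylow p-subgroup that is non-abelian, whose underlying set is a TI-subset of G, with P properly contained in its set normaliser N and C_G(x) ≤ P for every non-identity x ∈ P. Let Z be a nontrivial subgroup of the centre of P normalised by N. Then the set of irreducible characters χ of N with χ z ≠ χ 1 for some z ∈ Z is coherent for the map induced by induction from N to G. -/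
theorem result {G : Type*} [Group G] [Fintype G] (p : ℕ) [Fact p.Prime] (hp : p ≠ 2) (P : Sylow p G) (hna : ¬ IsMulCommutative (P : Subgroup G)) (hTI : Cfsg.IsTISubset ((P : Subgroup G) : Set G)) (hlt : (P : Subgroup G) < Subgroup.normalizer ((P : Subgroup G) : Set G)) (hC : ∀ k ∈ (P : Subgroup G), k ≠ 1 → Subgroup.centralizer ({k} : Set G) ≤ (P : Subgroup G)) [Fintype ↥(Subgroup.normalizer ((P : Subgroup G) : Set G))] (Z : Subgroup G) (hZ1 : Z ≠ ⊥) (hZP : ∀ z ∈ Z, z ∈ (P : Subgroup G) ∧ ∀ y ∈ (P : Subgroup G), z * y = y * z) (hZn : ∀ x ∈ Subgroup.normalizer ((P : Subgroup G) : Set G), ∀ z ∈ Z, x * z * x⁻¹ ∈ Z) : Cfsg.IsCoherent {χ : ↥(Subgroup.normalizer ((P : Subgroup G) : Set G)) → ℂ | Cfsg.IsIrrCharacter ↥(Subgroup.normalizer ((P : Subgroup G) : Set G)) χ ∧ ∃ z : ↥(Subgroup.normalizer ((P : Subgroup G) : Set G)), (z : G) ∈ Z ∧ χ z ≠ χ 1} {1}ᶜ (fun α => Cfsg.indFun (Subgroup.normalizer ((P : Subgroup G) :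 Set G)) α) := by
  let N := Subgroup.normalizer ((P : Subgroup G) : Set G)
  have hP1 : (P : Subgroup G) ≠ ⊥ := fun h => hna (h ▸ inferInstance)
  have h := S1533.sibley_of_nonabelian p hp P hP1 hna hTI hlt hC
  have hsub : {χ : N → ℂ | IsIrrCharacter N χ ∧ ∃ z : N, (z : G) ∈ Z ∧ χ z ≠ χ 1} ⊆
      {χ : N → ℂ | IsIrrCharacter N χ ∧ ∃ z : N, (z : G) ∈ (P : Subgroup G) ∧ χ z ≠ χ 1} :=
    fun χ ⟨h1, z, hz, h2⟩ => ⟨h1, z, (hZP z hz).1, h2⟩
  have hc : H65.Coh _ (H14.indLin N) := H65.coh_of_isCoherent (fun χ hχ => irr_ne_zero hχ.1)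
    (fun χ hχ φ hφ hne => H65.irr_ci_ne hχ.1 hφ.1 hne) (fun _ _ _ => rfl) h
  refine H65.isCoherent_of_coh (τ' := H14.indLin N) (fun _ _ _ => rfl) (hc.mono hsub) ?_
  obtain ⟨z, hz, hz1⟩ := (Subgroup.bot_or_exists_ne_one Z).resolve_left hZ1
  have hzN : z ∈ N := hlt.le (hZP z hz).1
  obtain ⟨χ, hχ, h1⟩ := exists_irr_apply_ne (G := N) (g := ⟨z, hzN⟩)
    (fun h => hz1 (congrArg Subtype.val h))
  have _ := hZn
  refine exists_zspan_ne_zero_of_two (fun χ hχ => hχ.1) (χ := χ) (φ := conjFun χ)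
    ⟨hχ, ⟨z, hzN⟩, hz, h1⟩ ⟨H65.irr_conjFun hχ, ⟨z, hzN⟩, hz, fun h => h1 ?_⟩ fun h => h1 ?_
  · exact (starRingEnd ℂ).injective h
  · rw [H14.irr_eq_one_of_real_of_odd (S1533.odd_normalizer p hp P hna hC) hχ h.symm]

end Cfsg.Agent.S1532
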