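import Cfsg.Statements.S1534
import Cfsg.Agent.S1533

set_option autoImplicit false
open Cfsg

namespace Cfsg.Agent.S1534

open Cfsg.Agent.H11

/-- Let G be a finite group and K a nontrivial nilpotent subgroup whose underlying set is a TI-subset of G, properly contained in its set normaliser N, with C_G(k) ≤ K for every non-identity k ∈ K; let e be the index of K in N and S the set of irreducible characters χ of N with χ k ≠ χ 1 for some k ∈ K. Then one of: S has exactly one member, Nat.card K = e + 1 and K is an elementary abelian p-group for some prime p; or K is a Sylow 2-subgroup of G (Nat.card K is the largest power of 2 dividing Nat.card G) and [K : [K,K]] < 4e²; or (S, N minus 1, induction to G) is coherent. -/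
theorem result {G : Type*} [Group G] [Fintype G] (K : Subgroup G) (hK1 : K ≠ ⊥) (hnil : Group.IsNilpotent K) (hTI : Cfsg.IsTISubset (K : Set G)) (hlt : K < Subgroup.normalizer (K : Set G)) (hC : ∀ k ∈ K, k ≠ 1 → Subgroup.centralizer ({k} : Set G) ≤ K) [Fintype ↥(Subgroup.normalizer (K : Set G))] : (Nat.card {χ : ↥(Subgroup.normalizer (K : Set G)) → ℂ // Cfsg.IsIrrCharacter ↥(Subgroup.normalizer (K : Set G)) χ ∧ ∃ k : ↥(Subgroup.normalizer (K : Set G)), (k : G) ∈ K ∧ χ k ≠ χ 1} = 1 ∧ Nat.card K = (K.subgroupOf (Subgroup.normalizer (K : Set G))).index + 1 ∧ ∃ p : ℕ, p.Prime ∧ Cfsg.IsElementaryAbelian p K) ∨ (Nat.card K = 2 ^ (Nat.card G).factorization 2 ∧ (⁅K, K⁆.subgroupOf K).index < 4 * (K.subgroupOf (Subgroup.normalizer (K : Set G))).index ^ 2) ∨ Cfsg.IsCoherent {χ : ↥(Subgroup.normalizer (K : Set G)) → ℂ | Cfsg.IsIrrCharacter ↥(Subgroup.normalizer (K : Set G)) χ ∧ ∃ k : ↥(Subgroup.normalizer (K : Set G)), (k : G) ∈ K ∧ χ k ≠ χ 1} {1}ᶜ (fun α => Cfsg.indFun (Subgroup.normalizer (K : Set G))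 α) := by
  have hle := hlt.le
  have hC' := centralizer_le_subgroupOf (Subgroup.normalizer (K : Set G)) hC
  rcases tifn_trichotomy K _ hle hK1 hnil hTI hC' with h | h | ⟨p, hp, h1, h2, h3⟩
  · exact Or.inl h
  · exact Or.inr (Or.inr h)
  right
  have : Fact p.Prime := ⟨hp⟩
  obtain ⟨P, rfl⟩ := exists_sylow_eq_of_centralizer_le h1 hK1 hC
  by_cases hp2 : p = 2
  · subst hp2
    refine Or.inl ⟨P.card_eq_multiplicity, ?_⟩
    rw [subgroupOf_commutator_self]
    obtain ⟨a, ha⟩ := (IsPGroup.iff_card.1 (h1.to_quotient (commutator (P : Subgroup G))))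
    have ha' : (commutator (P : Subgroup G)).index = 2 ^ a := ha
    have ha0 : a ≠ 0 := by
      rintro rfl
      rw [pow_zero, Subgroup.index_eq_one, ← subgroupOf_commutator_self,
        Subgroup.subgroupOf_eq_top] at ha'
      exact not_le_commutator_of_isNilpotent hnil hK1 ha'
    have hcop := coprime_index_card' hC'
    rw [card_subgroupOf_of_le hle] at hcop
    have he1 : ((P : Subgroup G).subgroupOf
        (Subgroup.normalizer ((P : Subgroup G) : Set G))).index ≠ 1 := by
      rw [Ne, Subgroup.index_eq_one, Subgroup.subgroupOf_eq_top]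
      exact hlt.not_ge
    generalize ((P : Subgroup G).subgroupOf
        (Subgroup.normalizer ((P : Subgroup G) : Set G))).index = e at *
    have h2d : 2 ∣ Nat.card (P : Subgroup G) :=
      (ha' ▸ dvd_pow_self 2 ha0).trans (Subgroup.index_dvd_card _)
    have hcop2 : Nat.Coprime e 2 := hcop.coprime_dvd_right h2d
    rw [ha'] at h3 ⊢
    have h4 : 2 ^ a ≠ 4 * e ^ 2 + 1 := fun h => by
      have := dvd_pow_self 2 ha0
      omega
    have h5 : 2 ^ a ≠ 4 * e ^ 2 := fun h => he1 (Nat.eq_one_of_dvd_coprimes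
      (hcop2.pow_right a) dvd_rfl (h ▸ Dvd.intro_left (4 * e) (by ring)))
    omega
  · exact Or.inr (S1533.sibley_of_nonabelian p hp2 P hK1 h2 hTI hlt hC)

end Cfsg.Agent.S1534
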