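import Cfsg.Statements.S1548
import Cfsg.Agent.H67.PF13c

set_option autoImplicit false
open Cfsg

namespace Cfsg.Agent.S1548

/-- Let G be a minimal simple group of odd order with maximal subgroups S, T carrying type-P data (S, W₁, U, W₂) and (T, W₂, V, W₁), with S ⊓ T = W₁ ⊔ W₂, S or T of Type II, and each of S, T of Type II, III, IV or V. Then the set normaliser of W₁ equals its centraliser, which equals T_F ⊔ W₂. -/
theorem result {G : Type*} [Group G] [Finite G] (hG : Cfsg.IsMinSimpleOddOrder G) (S T W₁ W₂ U V : Subgroup G) (hS : IsCoatom S) (hT : IsCoatom T) (hSP : Cfsg.IsTypePWith S W₁ U W₂) (hTP : Cfsg.IsTypePWith T W₂ V W₁) (hST : S ⊓ T = W₁ ⊔ W₂) (hII : Cfsg.IsOfTypeII S ∨ Cfsg.IsOfTypeII T) (hS25 : Cfsg.IsOfTypeII S ∨ Cfsg.IsOfTypeIII S ∨ Cfsg.IsOfTypeIV S ∨ Cfsg.IsOfTypeV S) (hT25 : Cfsg.IsOfTypeII T ∨ Cfsg.IsOfTypeIII T ∨ Cfsg.IsOfTypeIV T ∨ Cfsg.IsOfTypeV T)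 : Subgroup.normalizer (W₁ : Set G) = Subgroup.centralizer (W₁ : Set G) ∧ Subgroup.centralizer (W₁ : Set G) = Cfsg.fittingHallOf T ⊔ W₂ := by
  have h' : H72.TP T W₂ V W₁ := ⟨hG, hT, hTP⟩
  exact ⟨(H67.TP_norm_W2 h').trans (H67.TP_cent_W2 h').symm, H67.TP_cent_W2 h'⟩

end Cfsg.Agent.S1548
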