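import Cfsg.Statements.S1551
import Cfsg.Agent.H42.More

set_option autoImplicit false
set_option maxRecDepth 1000000
open scoped Pointwise
open Cfsg

namespace Cfsg.Agent.S1551

open Cfsg.Agent.H42

theorem conj_mem_fixing {X : Type*} [DecidableEq X] [MulAction M24 X] (a x : M24) (s : Finset X) :
    x ∈ fixingSubgroup M24 (s : Set X) ↔
      a * x * a⁻¹ ∈ fixingSubgroup M24 ((a • s : Finset X) : Set X) := by
  simp only [mem_fixingSubgroup_iff, Finset.mem_coe]
  constructor
  · intro h y hy
    obtain ⟨y, hy', rfl⟩ := Finset.mem_smul_finset.mp hy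
    rw [conj_smul_smul, h y hy']
  · intro h y hy
    have := h _ (Finset.smul_mem_smul_finset hy)
    rwa [conj_smul_smul, smul_left_cancel_iff] at this

theorem card_ker_res {X : Type*} [DecidableEq X] [MulAction M24 X] (s : Finset X) :
    Nat.card (resHom s (MulAction.stabilizer M24 s) le_rfl).ker =
      Nat.card (fixingSubgroup M24 (s : Set X)) :=
  card_ker_resHom s _ _ _ fun g => ⟨fun h => ⟨by
    apply Finset.eq_of_subset_of_card_le _ (by rw [Finset.card_smul_finset])
    intro q hq
    obtain ⟨r, hr, rfl⟩ := Finset.mem_smul_finset.mp hq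
    rw [show g • r = r from h ⟨r, hr⟩]; exact hr, fun p hp => h ⟨p, hp⟩⟩, fun h p => h.2 p p.2⟩

/-- Generators. -/
def gensN : List ℕ := [62563919208128639077930020080091874, 63171595616884047768281205928198882, 21064801546226450623669850930086999, 28854523491105362182008475499005015, 17665557174438149324336018692932695, 984235865005994746954145143334668320]

theorem inM_gensN : ∀ g ∈ gensN, inM g = true := inM_of_allL (by decide +kernel)

theorem card_fix0 : Nat.card (fixingSubgroup M24
    ((famDec 6 sext0 : Finset (Finset GolayPt)) : Set (Finset GolayPt))) ≤ 192 := by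
  have h := (encPi encSet 24 6 (fun _ h => h)).card_inf_stabilizer_le (gens := gensS) inM_gensS GS
    gensS_mem (x0 := sext0) ⟨by decide +kernel, fun i _ => fld24_lt _ _⟩ 800 (n := 720) (m := 192)
    (by norm_num) (by decide +kernel) (by rw [card_stab_sextet sext0_mem])
  refine le_trans (Subgroup.card_le_of_le
    (K := GS ⊓ MulAction.stabilizer M24 ((encPi encSet 24 6 (fun _ h => h)).dec sext0))
    fun g hg => ⟨?_, funext fun i => hg ⟨_, mem_famDec.mpr ⟨i, i.2, rfl⟩⟩⟩) h
  apply Finset.eq_of_subset_of_card_le _ (by rw [Finset.card_smul_finset])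
  intro q hq
  obtain ⟨r, hr, rfl⟩ := Finset.mem_smul_finset.mp hq
  rw [show g • r = r from hg ⟨r, hr⟩]; exact hr

/-- Structure of a sextet stabiliser: it induces every permutation of the six tetrads, the subgroup fixing each tetrad setwise has order 192, and there is a normal subgroup of order 64 consisting of elements squaring to the identity. -/
theorem result (S : Finset (Finset Cfsg.GolayPt)) (hS : S ∈ Cfsg.sextets) : (∀ e : Equiv.Perm ↥S, ∃ g ∈ MulAction.stabilizer Cfsg.M24 S, ∀ t : ↥S, (g : Equiv.Perm Cfsg.GolayPt) • (t : Finset Cfsg.GolayPt) = ((e t : ↥S) : Finset Cfsg.GolayPt)) ∧ Nat.card {g : ↥(MulAction.stabilizer Cfsg.M24 S) // ∀ t ∈ S, ((g : Cfsg.M24) : Equiv.Perm Cfsg.GolayPt) • t = t} = 192 ∧ ∃ N : Subgroup ↥(MulAction.stabilizer Cfsg.M24 S), N.Normal ∧ Nat.card N = 64 ∧ ∀ x ∈ N, x * x = 1 := by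
  have h1 := surjective_of_card_ker (resHom S (MulAction.stabilizer M24 S) le_rfl) (k := 192) (by
      obtain ⟨a, rfl⟩ := exists_smul_sext0 hS
      rw [card_ker_res, card_eq_of_conj a _ _ (fun x => conj_mem_fixing a x _)]
      exact card_fix0)
    (by rw [card_perm_finset, hS.1, card_stab_sextet hS]; decide)
  refine ⟨fun e => ?_, ?_, ?_⟩
  · obtain ⟨g, rfl⟩ := h1.1 e
    exact ⟨g, g.2, fun _ => rfl⟩
  · rw [← h1.2]
    exact Nat.card_congr (Equiv.subtypeEquivRight fun g => (resHom_eq_one_iff S _ le_rfl g).symm)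
  · obtain ⟨a, rfl⟩ := exists_smul_sext0 hS
    obtain ⟨h2, h3, h4⟩ := subChk_spec (gensL := gensS) (fuel := 70) (n := 64)
      (p := fun y => Nat.beq (pmul y y) pid) inM_gensN inM_gensS (by decide +kernel)
    rw [← GS_eq] at h3
    have := normal_subgroupOf_of_le h3
    obtain ⟨N, hN, h5, h6, -⟩ := exists_normal_congr (Γ := GS ⧸ (gen gensN).subgroupOf GS)
      (conjEquiv a GS _ (conj_mem_stab1 a _)) (fun x => x * x = 1) (fun x => x * x = 1)
      (fun x hx => by rw [← map_mul, hx, map_one]) (n := 64)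
      ⟨(gen gensN).subgroupOf GS, this, by
        rw [card_subgroupOf_of_le (gen_le _ (allL_fix_fam inM_gensN (by decide +kernel))), h2],
        fun x hx => by
          obtain ⟨y, hy, e, h⟩ := h4 x hx
          apply Subtype.ext
          show (x : M24) * x = 1
          rw [← e, ← toM_pmul hy hy, beq_iff.mp h, toM_pid], ⟨MulEquiv.refl _⟩⟩
    exact ⟨N, hN, h5, h6⟩

end Cfsg.Agent.S1551
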