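import Cfsg.Statements.S1553
import Cfsg.Agent.H42.Linked

set_option autoImplicit false
set_option maxRecDepth 1000000
open scoped Pointwise
open Cfsg

namespace Cfsg.Agent.S1553

open Cfsg.Agent.H42

/-- The stabiliser of an octad in the group of the length-24 code induces on the octad exactly its alternating group. -/
theorem result (o : Finset Cfsg.GolayPt) (ho : o ∈ Cfsg.octads) : {e : Equiv.Perm ↥o | ∃ g : Equiv.Perm Cfsg.GolayPt, g ∈ Cfsg.M24 ∧ ∃ h : (∀ x, g x ∈ o ↔ x ∈ o), g.subtypePerm h = e} = (alternatingGroup ↥o : Set (Equiv.Perm ↥o)) := by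
  have h1 := range_eq_alternating (resHom o (MulAction.stabilizer M24 o) le_rfl) (k := 16)
    (by rw [card_ker_resHom o _ _ (fixingSubgroup M24 (o : Set GolayPt)) (fun g =>
      ⟨fun h => ⟨msmul_eq_of_forall (fun p hp => h ⟨p, hp⟩), fun p hp => h ⟨p, hp⟩⟩,
        fun h p => h.2 p p.2⟩), card_fixing_octad ho]) (by norm_num)
    (by rw [card_stab_octad ho, Fintype.card_coe, ho.2]; rfl)
  rw [← h1]
  ext e
  constructor
  · rintro ⟨g, hg, h, rfl⟩
    refine ⟨⟨⟨g, hg⟩, ?_⟩, rfl⟩
    rw [MulAction.mem_stabilizer_iff]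
    apply Finset.eq_of_subset_of_card_le _ (by rw [Finset.card_smul_finset])
    intro q hq
    obtain ⟨r, hr, rfl⟩ := Finset.mem_smul_finset.mp hq
    exact (h r).mpr hr
  · rintro ⟨g, rfl⟩
    exact ⟨g, g.1.2, fun x => smul_mem_iff_of_mem_stabilizer g.2, rfl⟩

end Cfsg.Agent.S1553
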