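import Cfsg.Statements.S1554
import Cfsg.Agent.H42.Linked

set_option autoImplicit false
set_option maxRecDepth 1000000
open scoped Pointwise
open Cfsg

namespace Cfsg.Agent.S1554

open Cfsg.Agent.H42

theorem eq_one {o : Finset GolayPt} (ho : o ∈ octads) {p : GolayPt} (hp : p ∉ o) {g : M24}
    (h1 : ∀ q ∈ o, g • q = q) (h2 : g • p = p) : g = 1 := by
  have hc := card_eq_ncard_orbit_mul (fixingSubgroup M24 (o : Set GolayPt)) p
  have ho' : MulAction.orbit (fixingSubgroup M24 (o : Set GolayPt)) p = ((oᶜ : Finset GolayPt) : Set GolayPt) := by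
    ext q
    constructor
    · rintro ⟨k, rfl⟩
      have hk : (k : M24) ∈ MulAction.stabilizer M24 o := msmul_eq_of_forall (fun p hp => k.2 ⟨p, hp⟩)
      simp only [Finset.coe_compl, Set.mem_compl_iff, Finset.mem_coe]
      exact fun h => hp ((smul_mem_iff_of_mem_stabilizer hk).mp h)
    · intro hq
      obtain ⟨k, hk, e⟩ := fixing_octad_transitive ho hp (by simpa using hq)
      exact ⟨⟨k, fun q => hk q q.2⟩, e⟩
  rw [ho', ncard_compl_finset, card_fixing_octad ho, ho.2] at hc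
  have h3 : fixingSubgroup M24 (o : Set GolayPt) ⊓ MulAction.stabilizer M24 p = ⊥ :=
    Subgroup.eq_bot_of_card_le _ (by omega)
  have h4 : g ∈ fixingSubgroup M24 (o : Set GolayPt) ⊓ MulAction.stabilizer M24 p :=
    ⟨fun q => h1 q q.2, h2⟩
  rwa [h3, Subgroup.mem_bot] at h4

/-- An octad stabiliser is a split extension: the joint stabiliser of the octad and a point outside it is a complement to the pointwise stabiliser of the octad, and is isomorphic to the alternating group of degree 8. -/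
theorem result (o : Finset Cfsg.GolayPt) (ho : o ∈ Cfsg.octads) (p : Cfsg.GolayPt) (hp : p ∉ o) : (Cfsg.M24 ⊓ fixingSubgroup (Equiv.Perm Cfsg.GolayPt) (o : Set Cfsg.GolayPt)) ⊓ (Cfsg.M24 ⊓ MulAction.stabilizer (Equiv.Perm Cfsg.GolayPt) o ⊓ MulAction.stabilizer (Equiv.Perm Cfsg.GolayPt) p) = ⊥ ∧ (Cfsg.M24 ⊓ fixingSubgroup (Equiv.Perm Cfsg.GolayPt) (o : Set Cfsg.GolayPt)) ⊔ (Cfsg.M24 ⊓ MulAction.stabilizer (Equiv.Perm Cfsg.GolayPt) o ⊓ MulAction.stabilizer (Equiv.Perm Cfsg.GolayPt) p) = (Cfsg.M24 ⊓ MulAction.stabilizer (Equiv.Perm Cfsg.GolayPt) o) ∧ Nonempty (↥(Cfsg.M24 ⊓ MulAction.stabilizer (Equiv.Perm Cfsg.GolayPt) o ⊓ MulAction.stabilizer (Equiv.Perm Cfsg.GolayPt) p) ≃* alternatingGroup (Fin 8)) := by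
  refine ⟨?_, le_antisymm (sup_le (fun g hg => ⟨hg.1, msmul_eq_of_forall (g := ⟨g, hg.1⟩)
    (fun q hq => hg.2 ⟨q, hq⟩)⟩) inf_le_left) fun g hg => ?_, ?_⟩
  · rw [eq_bot_iff]
    intro g hg
    exact congrArg Subtype.val (eq_one ho hp (g := ⟨g, hg.1.1⟩) (fun q hq => hg.1.2 ⟨q, hq⟩) hg.2.2)
  · have hq : (⟨g, hg.1⟩ : M24) • p ∉ o :=
      fun h => hp ((smul_mem_iff_of_mem_stabilizer (g := ⟨g, hg.1⟩) hg.2).mp h)
    obtain ⟨k, hk, e⟩ := fixing_octad_transitive ho hp hq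
    have h1 : g = (k : Equiv.Perm GolayPt) * ((k⁻¹ * ⟨g, hg.1⟩ : M24) : Equiv.Perm GolayPt) := by
      simp
    rw [h1]
    refine Subgroup.mul_mem_sup ⟨k.2, fun q => hk q q.2⟩ ⟨⟨(k⁻¹ * ⟨g, hg.1⟩ : M24).2, ?_⟩, ?_⟩
    · exact (MulAction.stabilizer M24 o).mul_mem
        ((MulAction.stabilizer M24 o).inv_mem (msmul_eq_of_forall hk)) hg.2
    · show (k⁻¹ * ⟨g, hg.1⟩ : M24) • p = p
      rw [mul_smul, ← e, inv_smul_smul]
  · have hc : Nat.card ↥(MulAction.stabilizer M24 o ⊓ MulAction.stabilizer M24 p) = 20160 := by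
      refine card_inf_stabilizer_eq _ _ (n := 16) (by norm_num) ?_ (by rw [card_stab_octad ho])
      rw [show 16 = 24 - o.card by rw [ho.2], ← ncard_compl_finset]
      congr 1
      ext q
      constructor
      · rintro ⟨k, rfl⟩
        simp only [Finset.coe_compl, Set.mem_compl_iff, Finset.mem_coe]
        exact fun h => hp ((smul_mem_iff_of_mem_stabilizer k.2).mp h)
      · intro hq
        obtain ⟨k, hk, e⟩ := fixing_octad_transitive ho hp (by simpa using hq)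
        exact ⟨⟨k, msmul_eq_of_forall hk⟩, e⟩
    obtain ⟨e⟩ := equiv_alt_of_faithful o ho.2
      (MulAction.stabilizer M24 o ⊓ MulAction.stabilizer M24 p) inf_le_left
      (fun g hg h => eq_one ho hp h hg.2) (by rw [hc]; rfl)
    exact ⟨(permEquiv (MulAction.stabilizer M24 o ⊓ MulAction.stabilizer M24 p)
      (M24 ⊓ MulAction.stabilizer (Equiv.Perm GolayPt) o ⊓ MulAction.stabilizer (Equiv.Perm GolayPt) p)
      (fun x => ⟨fun h => ⟨h.1.1, h.1.2, h.2⟩,
      fun ⟨h1, h2⟩ => ⟨⟨h1, h2.1⟩, h2.2⟩⟩)).symm.trans e⟩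

end Cfsg.Agent.S1554
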