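import Cfsg.Statements.S5613
import Cfsg.Agent.H42.Flags

set_option autoImplicit false
set_option maxRecDepth 1000000
open scoped Pointwise
open Cfsg

namespace Cfsg.Agent.S5613

open Cfsg.Agent.H42

/-- In the group of the length-24 code, the joint stabiliser of two octads has order 10752, 1152 or 720 according as the octads meet in 0, 4 or 2 points. -/
theorem result (o o' : Finset Cfsg.GolayPt) (ho : o ∈ Cfsg.octads) (ho' : o' ∈ Cfsg.octads) : ((o ∩ o').card = 0 → Nat.card ↥(MulAction.stabilizer Cfsg.M24 o ⊓ MulAction.stabilizer Cfsg.M24 o') = 10752) ∧ ((o ∩ o').card = 4 → Nat.card ↥(MulAction.stabilizer Cfsg.M24 o ⊓ MulAction.stabilizer Cfsg.M24 o') = 1152) ∧ ((o ∩ o').card = 2 → Nat.card ↥(MulAction.stabilizer Cfsg.M24 o ⊓ MulAction.stabilizer Cfsg.M24 o') = 720) := by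
  obtain ⟨a, rfl⟩ := exists_smul_oct0 ho
  have c := octad_classes.transport a _ octads (fun x => (a • toSet oct0 ∩ x).card)
    (conj_mem_stab1 a _) (fun _ => msmul_mem_octads_iff a) (fun x => card_msmul_inter a _ x)
  refine ⟨fun h => ?_, fun h => ?_, fun h => ?_⟩
  · exact card_inf_stabilizer_eq _ _ (by norm_num) (c.ncard_orbit_of' (n := 30) (by simp [decReps]) ho' h)
      (by rw [card_stab_octad ho])
  · exact card_inf_stabilizer_eq _ _ (by norm_num) (c.ncard_orbit_of' (n := 280) (by simp [decReps]) ho' h)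
      (by rw [card_stab_octad ho])
  · exact card_inf_stabilizer_eq _ _ (by norm_num) (c.ncard_orbit_of' (n := 448) (by simp [decReps]) ho' h)
      (by rw [card_stab_octad ho])

end Cfsg.Agent.S5613
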