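import Cfsg.Statements.S1558
import Cfsg.Agent.H42.More
import Cfsg.Agent.S1551
import Cfsg.Agent.S5613

set_option autoImplicit false
set_option maxRecDepth 1000000
open scoped Pointwise
open Cfsg

namespace Cfsg.Agent.S1558

open Cfsg.Agent.H42

/-- Generators. -/
def gensN : List ℕ := [602604582411489822054818003821806755, 70961312958146288193683039871075042, 598671103429205148632752703890539683, 66387758326159654507206829172884194, 232537439876584729897881448739835345, 130589144753000552782245960671270446]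

theorem inM_gensN : ∀ g ∈ gensN, inM g = true := inM_of_allL (by decide +kernel)

/-- The seven sextets refining the trio. -/
def cc : Fin 7 → ℕ := ![11150382242010895008167239022564679587348520, 11150431584411738437917106298213979773768960, 11172162966123704828275713586763834704535040, 11172196368163049769725642342139882016735245, 11324610842451541131549497434009581371015205, 11324641575652839040024170371860777698082830, 11346380934028317605395933008428446685069355]

/-- Their coordinates. -/
def vv : Fin 7 → Fin 3 → ZMod 2 := ![![1, 1, 0], ![0, 1, 0], ![0, 0, 1], ![1, 0, 1], ![0, 1, 1], ![1, 1, 1], ![1, 0, 0]]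

/-- Three sextets and two octads. -/
noncomputable def E : Enc M24 ((Fin 3 → Finset (Finset GolayPt)) × (Fin 2 → Finset GolayPt)) :=
  encProd (encPi (encFam 6) 144 3 (fun _ h => (famOk_iff.mp h).1)) (encPi encSet 24 2 (fun _ h => h))
    432 (fun _ h => h) (fun _ => rfl) (fun _ h => h.1)

/-- The base point. -/
def x0 : ℕ := 1281967687821483992716401918064839981559141226469804368580558409698405856708693804957308700469779713066476900538096330391109570306227979363024939

theorem main : ∃ (N : Subgroup GT) (_ : N.Normal), Nat.card N = 64 ∧ (∀ x ∈ N, x * x = 1) ∧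
    Nonempty (GT ⧸ N ≃* GL (Fin 3) (ZMod 2) × Equiv.Perm (Fin 3)) := by
  have hc : ∀ i, famOk 6 (cc i) = true := by decide +kernel
  obtain ⟨f, -, hf⟩ := exists_hom_gen (Γ := GL (Fin 3) (ZMod 2)) (a := fun i => famDec 6 (cc i))
    (b := vv) ((encFam 6).dec_injective cc hc (by decide +kernel)) (by decide +kernel)
    (GL_faithful vv (by decide +kernel)) GT_eq (fun g hg => by
    have hg' := inM_gensT g hg
    simp only [gensT, List.mem_cons, List.not_mem_nil, or_false] at hg
    rcases hg with rfl | rfl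
    · exact ⟨⟨!![0, 0, 1; 0, 1, 1; 1, 1, 1], !![0, 1, 1; 1, 1, 0; 1, 0, 0], by decide +kernel, by decide +kernel⟩,
        (encFam 6).linked cc hc vv hg' _ ![1, 4, 5, 0, 6, 3, 2] (by decide +kernel) (by decide +kernel)⟩
    · exact ⟨⟨!![0, 0, 1; 0, 1, 0; 1, 1, 0], !![0, 1, 1; 0, 1, 0; 1, 0, 0], by decide +kernel, by decide +kernel⟩,
        (encFam 6).linked cc hc vv hg' _ ![1, 4, 6, 3, 5, 0, 2] (by decide +kernel) (by decide +kernel)⟩)
  let φ := f.prod ((permFinsetEquiv _ trio0_mem.1).toMonoidHom.comp (resHom (famDec 3 trio0) GT le_rfl))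
  have hv : E.valid x0 := ⟨⟨by decide +kernel, show ∀ i < 3, famOk 6 _ = true by decide +kernel⟩,
    ⟨by decide +kernel, fun i _ => fld24_lt _ _⟩⟩
  have h1 := E.card_inf_stabilizer_le (gens := gensT) inM_gensT GT gensT_mem (x0 := x0) hv 1100
    (n := 1008) (m := 64) (by norm_num) (by decide +kernel) (by rw [card_stab_trio trio0_mem])
  have h2 : ∀ x : GT, x ∈ φ.ker → (x : M24) ∈ GT ⊓ MulAction.stabilizer M24 (E.dec x0) := by
    intro x hx
    have h3 := (hf x).mp (congrArg Prod.fst hx)
    have h4 := (resHom_eq_one_iff _ _ _ x).mp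
      ((map_eq_one_iff _ (permFinsetEquiv _ trio0_mem.1).injective).mp (congrArg Prod.snd hx))
    refine ⟨x.2, Prod.ext (funext fun i => ?_) (funext fun i => ?_)⟩
    · have e : ∀ i : Fin 3, fld 144 (x0 % 2 ^ 432) i = cc (![6, 1, 2] i) := by decide +kernel
      show (x : M24) • famDec 6 (fld 144 (x0 % 2 ^ 432) i) = famDec 6 (fld 144 (x0 % 2 ^ 432) i)
      rw [e]
      exact h3 _
    · have e : ∀ i : Fin 2, fld 24 (x0 / 2 ^ 432) i = fld 24 trio0 i := by decide +kernel
      show (x : M24) • toSet (fld 24 (x0 / 2 ^ 432) i) = toSet (fld 24 (x0 / 2 ^ 432) i)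
      rw [e]
      exact h4 _ (mem_famDec.mpr ⟨i, by omega, rfl⟩)
  have h5 : Nat.card φ.ker ≤ 64 := le_trans (Nat.card_le_card_of_injective
    (fun x : φ.ker => (⟨x, h2 x x.2⟩ : ↥(GT ⊓ MulAction.stabilizer M24 (E.dec x0))))
    fun x y h => Subtype.ext (Subtype.ext (congrArg
      (fun z : ↥(GT ⊓ MulAction.stabilizer M24 (E.dec x0)) => (z : M24)) h))) h1
  obtain ⟨h6, h7⟩ := surjective_of_card_ker φ h5 (by
    rw [Nat.card_prod, Matrix.card_GL_field, Nat.card_perm, card_stab_trio trio0_mem, ZMod.card,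
      Nat.card_eq_fintype_card, Fintype.card_fin]
    decide +kernel)
  obtain ⟨h8, -, h9⟩ := subChk_spec (gensL := []) (fuel := 70) (n := 64)
    (p := fun y => Nat.beq (pmul y y) pid) inM_gensN (by simp) (by decide +kernel)
  have h10 : gen gensN = GT ⊓ MulAction.stabilizer M24 (E.dec x0) :=
    Subgroup.eq_of_le_of_card_ge (gen_le _ fun g hg =>
      ⟨allL_fix_fam inM_gensN (by decide +kernel) g hg, by
        have h := E.dec_act g x0 (inM_gensN g hg) hv
        rw [beq_iff.mp (allL_iff.mp (show allL (fun g => Nat.beq (E.act g x0) x0) gensN = true by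
          decide +kernel) g hg)] at h
        exact h.symm⟩) (by rw [h8]; exact h1)
  refine ⟨φ.ker, inferInstance, h7, fun x hx => ?_, quot_equiv_of_surjective φ h6 _ rfl⟩
  obtain ⟨y, hy, e, h⟩ := h9 x (h10 ▸ h2 x hx)
  apply Subtype.ext
  show (x : M24) * x = 1
  rw [← e, ← toM_pmul hy hy, beq_iff.mp h, toM_pid]

/-- Structure of a trio stabiliser: every permutation of the three octads is induced, and there is a normal subgroup of order 64 of elements squaring to the identity whose quotient is isomorphic to the product of GL(3, 2) with the symmetric group of degree 3. -/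
theorem result (T : Finset (Finset Cfsg.GolayPt)) (hT : T ∈ Cfsg.trios) : (∀ e : Equiv.Perm ↥T, ∃ g ∈ MulAction.stabilizer Cfsg.M24 T, ∀ o : ↥T, (g : Equiv.Perm Cfsg.GolayPt) • (o : Finset Cfsg.GolayPt) = ((e o : ↥T) : Finset Cfsg.GolayPt)) ∧ ∃ (N : Subgroup ↥(MulAction.stabilizer Cfsg.M24 T)) (_ : N.Normal), Nat.card N = 64 ∧ (∀ x ∈ N, x * x = 1) ∧ Nonempty (↥(MulAction.stabilizer Cfsg.M24 T) ⧸ N ≃* GL (Fin 3) (ZMod 2) × Equiv.Perm (Fin 3)) := by
  constructor
  · have h1 := surjective_of_card_ker (resHom T (MulAction.stabilizer M24 T) le_rfl) (k := 10752) (by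
        obtain ⟨o, ho, o', ho', hne⟩ := Finset.one_lt_card.mp (show 1 < T.card by rw [hT.1]; norm_num)
        rw [S1551.card_ker_res, ← (S5613.result o o' (hT.2.1 o ho) (hT.2.1 o' ho')).1
          (by rw [Finset.disjoint_iff_inter_eq_empty.mp (hT.2.2 o ho o' ho' hne)]; rfl)]
        exact Subgroup.card_le_of_le fun g hg => ⟨hg ⟨o, ho⟩, hg ⟨o', ho'⟩⟩)
      (by rw [card_perm_finset, hT.1, card_stab_trio hT]; decide)
    intro e
    obtain ⟨g, rfl⟩ := h1.1 e
    exact ⟨g, g.2, fun _ => rfl⟩
  · obtain ⟨a, rfl⟩ := exists_smul_trio0 hT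
    exact exists_normal_congr (conjEquiv a GT _ (conj_mem_stab1 a _)) (fun x => x * x = 1)
      (fun x => x * x = 1) (fun x hx => by rw [← map_mul, hx, map_one]) main

end Cfsg.Agent.S1558
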