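import Cfsg.Statements.S1560
import Cfsg.Agent.H42.Flags

set_option autoImplicit false
set_option maxRecDepth 1000000
open scoped Pointwise
open Cfsg

namespace Cfsg.Agent.S1560

open Cfsg.Agent.H42

theorem cls : Classes G12 dodecads (fun x => (toSet dod0 ∩ x).card) (decReps toSet [(340831, 1, 12), (16436384, 1, 0), (28637, 495, 8), (1035448, 495, 4), (57274, 1584, 6)]) :=
  classes_code inM_gens12 G12 gens12_mem dodecads (fun g _ _ hx => (msmul_mem_dodecads_iff g).mpr hx)
    (fun _ h => h.1) (fun n => Nat.beq (pc n) 12)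
    (fun n hn => by rw [toSet_mem_dodecads_iff' hn, beq_iff]) dod0 dod0_lt le_rfl _
    (by decide +kernel) 1600 (by decide +kernel) (by decide) (by decide +kernel)

theorem cls' {d : Finset Cfsg.GolayPt} (hd : d ∈ Cfsg.dodecads) : ∃ reps,
    Classes (MulAction.stabilizer Cfsg.M24 d) dodecads (fun x => (d ∩ x).card) reps ∧
      reps.map (·.2) = [(1, 12), (1, 0), (495, 8), (495, 4), (1584, 6)] := by
  obtain ⟨g, rfl⟩ := exists_smul_dod0 hd
  exact ⟨_, cls.transport g _ _ _ (conj_mem_stab1 g _) (fun _ => msmul_mem_dodecads_iff g)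
    (fun x => card_msmul_inter g _ x), rfl⟩

/-- Intersection numbers of dodecads: a dodecad meets every other dodecad in 0, 4, 6 or 8 points, meeting 495 of them in 4 points, 1584 in 6 points and 495 in 8 points. -/
theorem result (d : Finset Cfsg.GolayPt) (hd : d ∈ Cfsg.dodecads) : (∀ d' ∈ Cfsg.dodecads, d' ≠ d → (d ∩ d').card = 0 ∨ (d ∩ d').card = 4 ∨ (d ∩ d').card = 6 ∨ (d ∩ d').card = 8) ∧ {d' : Finset Cfsg.GolayPt | d' ∈ Cfsg.dodecads ∧ (d ∩ d').card = 4}.ncard = 495 ∧ {d' : Finset Cfsg.GolayPt | d' ∈ Cfsg.dodecads ∧ (d ∩ d').card = 6}.ncard = 1584 ∧ {d' : Finset Cfsg.GolayPt | d' ∈ Cfsg.dodecads ∧ (d ∩ d').card = 8}.ncard = 495 := by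
  obtain ⟨reps, h, e⟩ := cls' hd
  refine ⟨fun d' hd' hne => ?_, h.ncard_of (v := 4) (by rw [e]; decide) (fun _ => Iff.rfl),
    h.ncard_of (v := 6) (by rw [e]; decide) (fun _ => Iff.rfl),
    h.ncard_of (v := 8) (by rw [e]; decide) (fun _ => Iff.rfl)⟩
  have h1 := h.val_mem hd'
  rw [show reps.map (·.2.2) = (reps.map (·.2)).map (·.2) by simp, e] at h1
  have h2 : (d ∩ d').card ≠ 12 := by
    intro h3
    apply hne
    have h4 := Finset.eq_of_subset_of_card_le (Finset.inter_subset_left (s₁ := d) (s₂ := d'))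
      (by rw [h3, hd.2])
    have h5 := Finset.eq_of_subset_of_card_le (Finset.inter_subset_right (s₁ := d) (s₂ := d'))
      (by rw [h3, hd'.2])
    rw [← h5, h4]
  simp only [List.map_cons, List.map_nil, List.mem_cons, List.not_mem_nil, or_false] at h1
  omega

end Cfsg.Agent.S1560
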