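import Cfsg.Statements.S1562
import Cfsg.Agent.H42.More

set_option autoImplicit false
set_option maxRecDepth 1000000
open scoped Pointwise
open Cfsg

namespace Cfsg.Agent.S1562

open Cfsg.Agent.H42

/-- Indicator of a proposition. -/
noncomputable def ind (P : Prop) : ℕ := @ite _ P (Classical.propDecidable P) 1 0

theorem ind_pos {P : Prop} (h : P) : ind P = 1 := if_pos h
theorem ind_neg {P : Prop} (h : ¬ P) : ind P = 0 := if_neg h
theorem ind_bool (b : Bool) : ind (b = true) = iteB b 1 0 := by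
  cases b
  · exact ind_neg (by decide)
  · exact ind_pos rfl

/-- The invariant. -/
noncomputable def inv (T U : Finset GolayPt) : ℕ := ind (∃ o ∈ octads, T ∪ U ⊆ o)

theorem inv_smul (g : M24) (T U : Finset GolayPt) : inv (g • T) (g • U) = inv T U := by
  unfold inv
  rw [← msmul_union, inOct_smul_iff]

theorem cls : Classes GD3 {U | U.card = 3 ∧ Disjoint (toSet triad0) U} (inv (toSet triad0))
    (decReps toSet [(44, 210, 1), (28, 1120, 0)]) :=
  classes_set inM_gensD3 GD3 gensD3_mem {U | U.card = 3 ∧ Disjoint (toSet triad0) U}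
    (fun g hg x hx => ⟨by rw [Finset.card_smul_finset]; exact hx.1,
      (disjoint_smul_iff_of_fix hg).mpr hx.2⟩) _
    (fun g hg x _ => by rw [← inv_smul g _ x, show g • toSet triad0 = _ from hg])
    (fun n => Nat.ble n 16777215 && (Nat.beq (pc n) 3 && Nat.beq (Nat.land triad0 n) 0))
    (fun n => iteB (inOct (Nat.lor triad0 n)) 1 0)
    (fun n hn => by
      simp only [Bool.and_eq_true, ble_iff, beq_iff] at hn
      have h : n < 2 ^ 24 := by omega
      refine ⟨h, ⟨by rw [card_toSet h, hn.2.1], (toSet_disjoint_iff n triad0_lt).mpr hn.2.2⟩, ?_⟩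
      rw [inv, ← toSet_lor, ← inOct_iff (lor_lt triad0_lt h), ind_bool]) _ (by decide +kernel) 1200 (by decide +kernel) (by decide)
    (by rw [ncard_card_disjoint, card_triad0]; decide)

/-- Orbits of a triad stabiliser on the triads disjoint from it: the 210 triads inside a common octad with it form one orbit and the remaining 1120 another. -/
theorem result (T : Finset Cfsg.GolayPt) (hT : T.card = 3) : {U : Finset Cfsg.GolayPt | U.card = 3 ∧ Disjoint T U ∧ (∃ o ∈ Cfsg.octads, T ∪ U ⊆ o)}.ncard = 210 ∧ {U : Finset Cfsg.GolayPt | U.card = 3 ∧ Disjoint T U ∧ ¬ (∃ o ∈ Cfsg.octads, T ∪ U ⊆ o)}.ncard = 1120 ∧ ∀ U U' : Finset Cfsg.GolayPt, U.card = 3 → U'.card = 3 → Disjoint T U → Disjoint T U' → ((∃ o ∈ Cfsg.octads, T ∪ U ⊆ o) ↔ (∃ o ∈ Cfsg.octads, T ∪ U' ⊆ o)) → ∃ g : Equiv.Perm Cfsg.GolayPt, g ∈ Cfsg.M24 ∧ g • T = T ∧ g • U = U' := by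
  obtain ⟨a, rfl⟩ := exists_smul_triad0 hT
  have c := cls.transport a _ {U | U.card = 3 ∧ Disjoint (a • toSet triad0) U}
    (inv (a • toSet triad0)) (conj_mem_stab1 a _)
    (fun x => by simp only [Set.mem_ofPred_eq, Finset.card_smul_finset, disjoint_msmul])
    (fun x => inv_smul a _ x)
  refine ⟨c.ncard_of (v := 1) (by simp [decReps]) (fun x => by simp [inv, ind, and_assoc]),
    c.ncard_of (v := 0) (by simp [decReps]) (fun x => by simp [inv, ind, and_assoc]),
    fun U U' h1 h2 h3 h4 h => ?_⟩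
  obtain ⟨g, hg, e⟩ := c.exists_smul ⟨h1, h3⟩ ⟨h2, h4⟩ (by rw [inv, inv, h])
  exact ⟨g, g.2, hg, e⟩

end Cfsg.Agent.S1562
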