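import Cfsg.Statements.S1566
import Cfsg.Agent.H42.Flags

set_option autoImplicit false
set_option maxRecDepth 1000000
open scoped Pointwise
open Cfsg

namespace Cfsg.Agent.S1566

open Cfsg.Agent.H42

theorem cls : Classes GDD dpairs (fun x => (MulAction.orbit GDD x).ncard)
    (decReps (famDec 2) [(275756764967775, 1, 1), (141249520568520, 495, 495), (141761544393105, 792, 792)]) :=
  (encFam 2).classes_size (gens := gensDD) inM_gensDD GDD GDD_eq _ (Set.toFinite _)
    (fun g _ x hx => by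
      obtain ⟨d, hd, rfl⟩ := hx
      exact ⟨g • d, (msmul_mem_dodecads_iff g).mpr hd, msmul_pair g d⟩) _
    (fun r hr => by
      have h := repsChk_spec (p := fun c => famOk 2 c && (isDod (fld 24 c 0) &&
        Nat.beq (fld 24 c 1) (Nat.xor (fld 24 c 0) 16777215))) (by decide +kernel) hr
      simp only [Bool.and_eq_true, beq_iff] at h
      refine ⟨h.1.1, ⟨_, toSet_mem_dodecads h.1.2.1, ?_⟩, h.2⟩
      rw [← toSet_compl, ← h.1.2.2]
      ext t
      show t ∈ famDec 2 r.1 ↔ _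
      simp only [mem_famDec, Finset.mem_insert, Finset.mem_singleton]
      constructor
      · rintro ⟨i, hi, rfl⟩
        interval_cases i
        · left; rfl
        · right; rfl
      · rintro (rfl | rfl)
        · exact ⟨0, by norm_num, rfl⟩
        · exact ⟨1, by norm_num, rfl⟩) 1200 (sizesChk_fam (by decide +kernel))
    (by decide) (by rw [dpairs_ncard]; decide)

theorem coatom : IsCoatom GDD :=
  isCoatom_of_classes (encFam 2) (fun _ h => h) (fun _ => rfl) (x0 := dpair0) famOk_dpair0 cls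
    (fun k => orbit_dpair0 ▸ ⟨k, rfl⟩) gensDD_mem (L := [(253904681718002896657497449379698062, [[4, 4, 3, 4],
    [3, 6, 2, 1, 4],
    [3, 0, 2, 2, 2],
    [5, 5, 3, 0, 0, 5],
    [3, 3, 0, 2, 2, 2, 2],
    [5, 3, 7, 3, 6, 8, 8],
    [2, 0, 0, 7, 7, 7, 4, 6, 6, 6],
    [4, 3, 3, 0, 2, 2],
    [4, 2, 11, 11, 11, 4, 9, 11],
    [5, 2, 8, 8, 12, 7, 15, 11, 8, 12, 16],
    [0, 3, 6, 11, 14, 9, 18, 3, 25, 4, 10, 24],
    [20, 26, 15, 17, 12, 8, 6, 2, 5],
    [21, 13, 18, 14, 12, 7, 9, 10, 5, 2, 6, 3]]),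
    (811954457840497849084239481144776738, [[0, 3, 0, 3, 0],
    [3, 4, 6, 1, 5],
    [3, 3, 5, 2, 6, 4],
    [5, 1, 4, 3, 3, 4],
    [3, 1, 3, 4, 6, 8, 10, 12, 10],
    [5, 3, 1, 8, 6, 6, 3, 9],
    [0, 3, 1, 6, 2, 0, 5, 7, 7],
    [3, 3, 8, 8, 0, 3, 9],
    [3, 1, 4, 7, 2, 6, 5],
    [5, 3, 0, 2, 0, 4],
    [2, 1, 3, 7, 3, 4, 6, 5, 2, 6],
    [23, 18, 20, 4, 16, 9, 12, 9, 2],
    [21, 23, 18, 2, 10, 2, 4, 2]])])
    (by decide +kernel) (exists_ne_of_card _ card_GDD (by norm_num))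
    (by decide +kernel)

/-- The setwise stabiliser of a dodecad together with its complement is a maximal proper subgroup of the group of the length-24 code. -/
theorem result (d : Finset Cfsg.GolayPt) (hd : d ∈ Cfsg.dodecads) : IsCoatom (MulAction.stabilizer Cfsg.M24 ({d, dᶜ} : Finset (Finset Cfsg.GolayPt))) := by
  obtain ⟨g, rfl⟩ := exists_smul_dod0 hd
  rw [← msmul_pair, ← famDec_dpair0]
  exact isCoatom_stabilizer_smul g _ coatom

end Cfsg.Agent.S1566
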