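import Cfsg.Statements.S1568
import Cfsg.Agent.H48.Count

set_option autoImplicit false
open Cfsg

namespace Cfsg.Agent.S1568

open Cfsg.Agent.H48 Cfsg.Agent.H42

set_option maxRecDepth 1000000

theorem nab_zero {x : Cfsg.GolayPt → ℤ} {k : ℤ} (h : nab x k = 0) (i : Cfsg.GolayPt) : |x i| ≠ k :=
  fun e => by have := nab_pos e; omega

theorem nab_zero' {x : Cfsg.GolayPt → ℤ} {k : ℤ} (h : ∀ i, |x i| ≠ k) : nab x k = 0 := by
  by_contra h1
  obtain ⟨i, hi⟩ := exists_abs0 x k (by omega)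
  exact h i hi

theorem abs_cs (a : ℤ) : (0 ≤ a ∧ |a| = a) ∨ (a < 0 ∧ |a| = -a) := by
  rcases le_or_gt 0 a with h | h
  · exact Or.inl ⟨h, abs_of_nonneg h⟩
  · exact Or.inr ⟨h, abs_of_neg h⟩

theorem cntA : {x : Cfsg.GolayPt → ℤ | x ∈ Cfsg.leechLattice ∧ Cfsg.sqNorm x = 48 ∧
    ∀ i, x i = 0 ∨ x i = 2 ∨ x i = -2}.ncard = 5275648 := by
  have h := count_all (fun b => Nat.beq b 8 || Nat.beq b 10 || Nat.beq b 6) 48 (by norm_num)
  refine Eq.trans ?_ (h.trans (by decide +kernel))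
  congr 1
  ext x
  simp only [Set.mem_ofPred_eq, Bool.or_eq_true, beq_iff, Nat.cast_ofNat]
  refine and_congr_right fun _ => and_congr_right fun _ => forall_congr' fun i => by omega

theorem cntB : {x : Cfsg.GolayPt → ℤ | x ∈ Cfsg.leechLattice ∧ Cfsg.sqNorm x = 48 ∧
    ∀ i, |x i| = 1 ∨ |x i| = 3}.ncard = 8290304 := by
  have h := count_all (fun b => Nat.beq b 7 || Nat.beq b 9 || Nat.beq b 5 || Nat.beq b 11) 48
    (by norm_num)
  refine Eq.trans ?_ (h.trans (by decide +kernel))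
  congr 1
  ext x
  simp only [Set.mem_ofPred_eq, Bool.or_eq_true, beq_iff, Nat.cast_ofNat]
  refine and_congr_right fun _ => and_congr_right fun _ => forall_congr' fun i => by
    have := abs_cs (x i); omega

theorem cntC : {x : Cfsg.GolayPt → ℤ | x ∈ Cfsg.leechLattice ∧ Cfsg.sqNorm x = 48 ∧
    ∀ i, |x i| = 0 ∨ |x i| = 2 ∨ |x i| = 4}.ncard = 8384512 := by
  have h := count_all (fun b => Nat.beq b 8 || Nat.beq b 10 || Nat.beq b 6 || Nat.beq b 4 ||
    Nat.beq b 12) 48 (by norm_num)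
  refine Eq.trans ?_ (h.trans (by decide +kernel))
  congr 1
  ext x
  simp only [Set.mem_ofPred_eq, Bool.or_eq_true, beq_iff, Nat.cast_ofNat]
  refine and_congr_right fun _ => and_congr_right fun _ => forall_congr' fun i => by
    have := abs_cs (x i); omega

theorem cntD : {x : Cfsg.GolayPt → ℤ | x ∈ Cfsg.leechLattice ∧ Cfsg.sqNorm x = 48 ∧
    ∀ i, |x i| = 1 ∨ |x i| = 5}.ncard = 98304 := by
  have h := count_all (fun b => Nat.beq b 7 || Nat.beq b 9 || Nat.beq b 3 || Nat.beq b 13) 48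
    (by norm_num)
  refine Eq.trans ?_ (h.trans (by decide +kernel))
  congr 1
  ext x
  simp only [Set.mem_ofPred_eq, Bool.or_eq_true, beq_iff, Nat.cast_ofNat]
  refine and_congr_right fun _ => and_congr_right fun _ => forall_congr' fun i => by
    have := abs_cs (x i); omega

theorem shape_abs {x : Cfsg.GolayPt → ℤ} (h : Cfsg.sqNorm x = 48) {n0 n1 n2 n3 n4 n5 : ℕ}
    (hs : Sh x n0 n1 n2 n3 n4 n5 0 0 0) (i : Cfsg.GolayPt) :
    (|x i| = 0 ∧ n0 ≠ 0) ∨ (|x i| = 1 ∧ n1 ≠ 0) ∨ (|x i| = 2 ∧ n2 ≠ 0) ∨ (|x i| = 3 ∧ n3 ≠ 0) ∨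
      (|x i| = 4 ∧ n4 ≠ 0) ∨ (|x i| = 5 ∧ n5 ≠ 0) := by
  unfold Sh at hs
  rcases abs_cases_of_le (x := x) (by omega) i with h | h | h | h | h | h | h | h | h <;> omega

/-- Shape census of the lattice vectors of sum of squares 48 (customary norm 6): the four families (2^12, 0^12), (±3^3, ±1^21), (±4, ±2^8, 0^15) and (±5, ±1^23) have 5275648, 8290304, 3108864 and 98304 members. -/
theorem result : {x : Cfsg.GolayPt → ℤ | x ∈ Cfsg.leechLattice ∧ Cfsg.sqNorm x = 48 ∧ ∀ i, x i = 0 ∨ x i = 2 ∨ x i = -2}.ncard = 5275648 ∧ {x : Cfsg.GolayPt → ℤ | x ∈ Cfsg.leechLattice ∧ Cfsg.sqNorm x = 48 ∧ ∃ i j k, i ≠ j ∧ j ≠ k ∧ i ≠ k ∧ |x i| = 3 ∧ |x j| = 3 ∧ |x k| = 3}.ncard = 8290304 ∧ {x : Cfsg.GolayPt → ℤ | x ∈ Cfsg.leechLattice ∧ Cfsg.sqNorm x = 48 ∧ ∃ i, |x i| = 4}.ncard = 3108864 ∧ {x : Cfsg.GolayPt → ℤ | x ∈ Cfsg.leechLattice ∧ Cfsg.sqNorm x = 48 ∧ ∃ i, |x i| = 5}.ncard = 98304 := by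
  refine ⟨cntA, ?_, ?_, ?_⟩
  · rw [← cntB]
    congr 1
    ext x
    simp only [Set.mem_ofPred_eq]
    refine and_congr_right fun hx => and_congr_right fun hn => ⟨?_, fun h => ?_⟩
    · rintro ⟨i, j, k, -, -, -, hi, -, -⟩ l
      have := nab_pos hi
      rcases shape48 hx hn with h | h | h | h <;> have := shape_abs hn h l <;> unfold Sh at h <;> omega
    · have h0 : nab x 0 = 0 := nab_zero' fun i => by have := h i; omega
      have h5 : nab x 5 = 0 := nab_zero' fun i => by have := h i; omega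
      have h3 : nab x 3 = 3 := by
        rcases shape48 hx hn with h | h | h | h <;> unfold Sh at h <;> omega
      obtain ⟨i, hi⟩ := exists_abs0 x 3 (by omega)
      obtain ⟨j, hj, hj'⟩ := exists_abs1 x 3 i (by omega)
      obtain ⟨k, hk, hk', hk''⟩ := exists_abs2 x 3 i j (by omega)
      exact ⟨i, j, k, hj.symm, hk'.symm, hk.symm, hi, hj', hk''⟩
  · have h1 := cntC
    have h2 : {x : Cfsg.GolayPt → ℤ | x ∈ Cfsg.leechLattice ∧ Cfsg.sqNorm x = 48 ∧
        ∀ i, |x i| = 0 ∨ |x i| = 2 ∨ |x i| = 4} =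
        {x : Cfsg.GolayPt → ℤ | x ∈ Cfsg.leechLattice ∧ Cfsg.sqNorm x = 48 ∧
          ∀ i, x i = 0 ∨ x i = 2 ∨ x i = -2} ∪
        {x : Cfsg.GolayPt → ℤ | x ∈ Cfsg.leechLattice ∧ Cfsg.sqNorm x = 48 ∧ ∃ i, |x i| = 4} := by
      ext x
      simp only [Set.mem_ofPred_eq, Set.mem_union]
      constructor
      · rintro ⟨hx, hn, h⟩
        by_cases h4 : ∃ i, |x i| = 4
        · exact Or.inr ⟨hx, hn, h4⟩
        · refine Or.inl ⟨hx, hn, fun i => ?_⟩
          have := h i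
          have : |x i| ≠ 4 := fun e => h4 ⟨i, e⟩
          have := abs_cs (x i)
          omega
      · rintro (⟨hx, hn, h⟩ | ⟨hx, hn, i, hi⟩)
        · exact ⟨hx, hn, fun i => by have := h i; have := abs_cs (x i); omega⟩
        · refine ⟨hx, hn, fun l => ?_⟩
          have := nab_pos hi
          rcases shape48 hx hn with h | h | h | h <;> have := shape_abs hn h l <;> unfold Sh at h <;>
            omega
    rw [h2, Set.ncard_union_eq _ ((finite_sqNorm_le 48).subset fun x hx => hx.2.1.le)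
      ((finite_sqNorm_le 48).subset fun x hx => hx.2.1.le), cntA] at h1
    · omega
    · rw [Set.disjoint_left]
      rintro x ⟨-, -, h⟩ ⟨-, -, i, hi⟩
      have := h i
      have := abs_cs (x i)
      omega
  · rw [← cntD]
    congr 1
    ext x
    simp only [Set.mem_ofPred_eq]
    refine and_congr_right fun hx => and_congr_right fun hn => ⟨?_, fun h => ?_⟩
    · rintro ⟨i, hi⟩ l
      have := nab_pos hi
      rcases shape48 hx hn with h | h | h | h <;> have := shape_abs hn h l <;> unfold Sh at h <;> omega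
    · have h0 : nab x 0 = 0 := nab_zero' fun i => by have := h i; omega
      have h3 : nab x 3 = 0 := nab_zero' fun i => by have := h i; omega
      have h5 : nab x 5 = 1 := by
        rcases shape48 hx hn with h | h | h | h <;> unfold Sh at h <;> omega
      exact exists_abs0 x 5 (by omega)

end Cfsg.Agent.S1568
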