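import Cfsg.Statements.S1570
import Cfsg.Agent.H48.Order

set_option autoImplicit false
open Cfsg

namespace Cfsg.Agent.S1570

open Cfsg.Agent.H48

/-- Every congruence class of the lattice modulo twice the lattice contains a vector of customary norm at most 8. -/
theorem result (x : Cfsg.GolayPt → ℤ) (hx : x ∈ Cfsg.leechLattice) : ∃ y ∈ Cfsg.leechLattice, Cfsg.sqNorm y ≤ 64 ∧ ∃ z ∈ Cfsg.leechLattice, x - y = 2 • z := by
  obtain ⟨y, hy, h⟩ := exists_short ⟨x, hx⟩
  obtain ⟨z, hz⟩ := mem_twoLam.1 h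
  exact ⟨y.1, y.2, hy, z.1, z.2, congrArg Subtype.val hz⟩

end Cfsg.Agent.S1570
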