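import Cfsg.Statements.S1577
import Cfsg.Agent.H48.U62

set_option autoImplicit false
open Cfsg

namespace Cfsg.Agent.S1577

open Cfsg.Agent.H48 Cfsg.Agent.H42 MulAction
open scoped Pointwise

/-- The joint stabiliser of two minimal vectors of customary inner product −2 is isomorphic to PSU(6, 2). -/
theorem result (v w : ↥Cfsg.leechLattice) (hv : Cfsg.sqNorm (v : Cfsg.GolayPt → ℤ) = 32) (hw : Cfsg.sqNorm (w : Cfsg.GolayPt → ℤ) = 32) (hd : Cfsg.dotInt (v : Cfsg.GolayPt → ℤ) (w : Cfsg.GolayPt → ℤ) = -16) (F : Type) [Field F] [Fintype F] (hF : Fintype.card F = 4) : Nonempty (↥(MulAction.stabilizer ↥Cfsg.Co0 v ⊓ MulAction.stabilizer ↥Cfsg.Co0 w) ≃* Cfsg.PSU 6 F 2) := by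
  obtain ⟨g, rfl, rfl⟩ := pair_min (v := vU) (w := -vX) sqNorm_leechU (by decide +kernel) hv hw
    (by rw [hd]; decide +kernel)
  obtain ⟨e⟩ := U62.equiv F hF
  exact ⟨(conjEquiv g _ _ (mem_conj2 g vU (-vX))).symm.trans
    ((MulEquiv.subgroupCongr (by rw [St_neg])).trans e)⟩

end Cfsg.Agent.S1577
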