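import Cfsg.Statements.S1582
import Cfsg.Agent.H48.U43

set_option autoImplicit false
open Cfsg

namespace Cfsg.Agent.S1582

open Cfsg.Agent.H48 Cfsg.Agent.H42 MulAction
open scoped Pointwise

/-- The point stabiliser in the rank-3 action of the McLaughlin group on 275 points is isomorphic to PSU(4, 3). -/
theorem result (u v x : ↥Cfsg.leechLattice) (hu : Cfsg.sqNorm (u : Cfsg.GolayPt → ℤ) = 48) (hv : Cfsg.sqNorm (v : Cfsg.GolayPt → ℤ) = 32 ∧ Cfsg.sqNorm ((u - v) : Cfsg.GolayPt → ℤ) = 32) (hx : x ∈ {x : ↥Cfsg.leechLattice | Cfsg.sqNorm (x : Cfsg.GolayPt → ℤ) = 32 ∧ Cfsg.sqNorm ((u - x) : Cfsg.GolayPt → ℤ) = 32 ∧ Cfsg.dotInt (v : Cfsg.GolayPt → ℤ) (x : Cfsg.GolayPt → ℤ) = 16}) (F : Type) [Field F] [Fintype F] (hF : Fintype.card F = 9) : Nonempty (↥(MulAction.stabilizer ↥Cfsg.Co0 u ⊓ MulAction.stabilizer ↥Cfsg.Co0 v ⊓ MulAction.stabilizer ↥Cfsg.Co0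 x) ≃* Cfsg.PSU 4 F 3) := by
  obtain ⟨g, rfl, rfl, rfl⟩ := mcl_form3 hu hv hx
  obtain ⟨e⟩ := U43.equiv F hF
  exact ⟨(conjEquiv g _ _ (mem_conj3 g (-vV) vU vX)).symm.trans
    ((MulEquiv.subgroupCongr (by rw [St_neg])).trans e)⟩

end Cfsg.Agent.S1582
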