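import Cfsg.Statements.S1584
import Cfsg.Agent.H48.Config

set_option autoImplicit false
open Cfsg

namespace Cfsg.Agent.S1584

open Cfsg.Agent.H48 Cfsg.Agent.H42 MulAction
open scoped Pointwise

/-- The Higman–Sims group acts with rank 3 and subdegrees 1, 22, 77 on its 100 points, the orbits of a point stabiliser being distinguished by customary inner product 1 with the fixed point. -/
theorem result (v w x : ↥Cfsg.leechLattice) (hv : Cfsg.sqNorm (v : Cfsg.GolayPt → ℤ) = 48) (hw : Cfsg.sqNorm (w : Cfsg.GolayPt → ℤ) = 48) (hvw : Cfsg.dotInt (v : Cfsg.GolayPt → ℤ) (w : Cfsg.GolayPt → ℤ) = -32) (hx : x ∈ {x : ↥Cfsg.leechLattice | Cfsg.sqNorm (x : Cfsg.GolayPt → ℤ) = 32 ∧ Cfsg.dotInt (v : Cfsg.GolayPt → ℤ) (x : Cfsg.GolayPt → ℤ) = 24 ∧ Cfsg.dotInt (w : Cfsg.GolayPt → ℤ) (x : Cfsg.GolayPt → ℤ) = -24}) : {y : ↥Cfsg.leechLattice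 | y ∈ {x : ↥Cfsg.leechLattice | Cfsg.sqNorm (x : Cfsg.GolayPt → ℤ) = 32 ∧ Cfsg.dotInt (v : Cfsg.GolayPt → ℤ) (x : Cfsg.GolayPt → ℤ) = 24 ∧ Cfsg.dotInt (w : Cfsg.GolayPt → ℤ) (x : Cfsg.GolayPt → ℤ) = -24} ∧ Cfsg.dotInt (x : Cfsg.GolayPt → ℤ) (y : Cfsg.GolayPt → ℤ) = 8}.ncard = 22 ∧ {y : ↥Cfsg.leechLattice | y ∈ {x : ↥Cfsg.leechLattice | Cfsg.sqNorm (x : Cfsg.GolayPt → ℤ) = 32 ∧ Cfsg.dotInt (v : Cfsg.GolayPt → ℤ) (x : Cfsg.GolayPt → ℤ) = 24 ∧ Cfsg.dotInt (w : Cfsg.GolayPt → ℤ) (x : Cfsg.GolayPt → ℤ) = -24} ∧ y ≠ x ∧ Cfsg.dotInt (x : Cfsg.GolayPt → ℤ) (y : Cfsg.GolayPt → ℤ) ≠ 8}.ncard = 77 ∧ ∀ y ∈ {x : ↥Cfsg.leechLattice | Cfsg.sqNorm (x : Cfsg.GolayPt → ℤ) = 32 ∧ Cfsg.dotInt (v : Cfsg.GolayPt → ℤ) (x : Cfsg.GolayPt → ℤ) = 24 ∧ Cfsg.dotInt (w : Cfsg.GolayPt → ℤ) (x : Cfsg.GolayPt → ℤ) = -24}, ∀ y' ∈ {x : ↥Cfsg.leechLattice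 | Cfsg.sqNorm (x : Cfsg.GolayPt → ℤ) = 32 ∧ Cfsg.dotInt (v : Cfsg.GolayPt → ℤ) (x : Cfsg.GolayPt → ℤ) = 24 ∧ Cfsg.dotInt (w : Cfsg.GolayPt → ℤ) (x : Cfsg.GolayPt → ℤ) = -24}, y ≠ x → y' ≠ x → (Cfsg.dotInt (x : Cfsg.GolayPt → ℤ) (y : Cfsg.GolayPt → ℤ) = 8 ↔ Cfsg.dotInt (x : Cfsg.GolayPt → ℤ) (y' : Cfsg.GolayPt → ℤ) = 8) → ∃ g : ↥Cfsg.Co0, g • v = v ∧ g • w = w ∧ g • x = x ∧ g • y = y' := by
  obtain ⟨g, rfl, rfl, rfl⟩ := hs_form3 hv hw hvw hx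
  rw [hs_set100]
  have key : ∀ y ∈ T100, y ≠ vU → Cfsg.dotInt vU.1 y.1 ≠ 8 → Cfsg.dotInt vU.1 y.1 = 16 := by
    intro y hy h1 h2
    have h3 := cls_dot cls_M22_100 hy
    have h4 : Cfsg.dotInt vU.1 y.1 ≠ 32 := fun e => h1 (eq_of_dot sqNorm_leechU hy.1.1 e)
    simp only [List.map_cons, List.map_nil, List.mem_cons, List.not_mem_nil, or_false] at h3
    omega
  refine ⟨?_, ?_, ?_⟩
  · rw [sep_smul, Set.ncard_smul_set, (orbit_cut cls_M22_100 rp4 22 72 8).2]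
  · rw [← (orbit_cut cls_M22_100 rp5 77 80 16).2, ← Set.ncard_smul_set g (Cut T100 vU 16),
      ← sep_smul g T100]
    congr 1
    ext y
    refine and_congr_right ?_
    rintro ⟨y, hy, rfl⟩
    dsimp only
    rw [co_dot, ne_eq, smul_left_cancel_iff]
    refine ⟨fun h => key y hy h.1 h.2, fun h => ⟨?_, by omega⟩⟩
    rintro rfl
    rw [← sqNorm_eq_dot, sqNorm_leechU] at h
    exact absurd h (by norm_num)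
  · rintro _ ⟨y, hy, rfl⟩ _ ⟨y', hy', rfl⟩ h1 h2 h
    dsimp only at h h1 h2 ⊢
    rw [co_dot, co_dot] at h
    rw [ne_eq, smul_left_cancel_iff] at h1 h2
    obtain ⟨k, hk, e⟩ := trans_cut cls_M22_100 hy hy' (by
      by_cases h3 : Cfsg.dotInt vU.1 y.1 = 8
      · rw [h3, h.1 h3]
      · rw [key y hy h1 h3, key y' hy' h2 fun e => h3 (h.2 e)])
    exact ⟨g * k * g⁻¹, conj_map g (fix_Y hk.1), conj_map g hk.1.1, conj_map g hk.2, conj_map g e⟩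

end Cfsg.Agent.S1584
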