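import Cfsg.Statements.S1589
import Cfsg.Agent.H42.Idx6

set_option autoImplicit false
set_option maxRecDepth 1000000
set_option Elab.async false
open scoped Pointwise
open Cfsg

namespace Cfsg.Agent.S1589

open Cfsg.Agent.H42

open MulAction

theorem M24_index_253 {H : Subgroup M24} (hc : Nat.card H = 967680) : False := by
  obtain ⟨s, h1, -⟩ | h := orb_cases (le_top (a := H)) inM_gens24 gen_gens24.symm card_G24 hc
    (n := 253) (by norm_num) (p := 7) inM_x7 trivial (by decide +kernel) (by norm_num) (by norm_num)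
    (i := 23) (by norm_num) (F := 0) (by norm_num) top_le_stab (by decide +kernel)
    (r := fun _ => false) (tr := true) (bs := [0, 1, 2, 4, 5]) (by decide +kernel)
    (fun _ => False) (fun w _ h => absurd h (by decide)) (fun _ _ _ h => h)
  · exact h1.elim
  have h1 := card_inf_G23 h.2
  rcases M23_index_253 (H := H ⊓ G23) inf_le_right (by omega) with ⟨s, h3, h4, h5⟩ | ⟨o, ho, h3, h4⟩
  · obtain ⟨a, e, rfl⟩ := exists_smul_pt_duad h4 h3
    have h6 : GK2 ≤ cj a⁻¹ H := le_cj_inv_of_conj (conj_mem_stab2 a _ _) (by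
      rw [e, ← h5]; exact inf_le_left)
    have h8 := Subgroup.card_dvd_of_le (le_set_of_index inM_gensK2 gensK2_mem h6
      (by rw [card_cj, hc, card_GK2]) (by rw [card_GK2]; norm_num) triad0_lt
      (GK2_eq ▸ gen_le _ (allL_fix_set inM_gensK2 triad0_lt (by decide +kernel)))
      (fuel := 2100) (by decide +kernel))
    rw [card_cj, hc, card_stab_triad card_triad0] at h8
    exact absurd h8 (by norm_num)
  · obtain ⟨a, rfl, e⟩ := exists_smul_oct0_pt ho h3
    have h6 : Q23_1 ≤ cj a⁻¹ H := le_cj_inv_of_conj (conj_mem_stab2 a _ _) (by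
      rw [e, ← h4]; exact inf_le_left)
    have h8 := Subgroup.card_dvd_of_le (le_set_of_index inM_gensQ23_1 gensQ23_1_mem h6
      (by rw [card_cj, hc, card_Q23_1]) (by rw [card_Q23_1]; norm_num) oct0_lt inf_le_right
      (fuel := 800) (by decide +kernel))
    rw [card_cj, hc, card_stab_octad oct0_mem] at h8
    exact absurd h8 (by norm_num)

theorem card_of_index {H : Subgroup M24} {n m : ℕ} (h : H.index = n) (hn : n ≠ 0)
    (e : n * m = 244823040) : Nat.card H = m := by
  have := H.index_mul_card
  rw [h, card_M24, ← e] at this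
  exact Nat.eq_of_mul_eq_mul_left (Nat.pos_of_ne_zero hn) this

/-- Subgroups of the group of the length-24 code of index 759, 276 and 1771 are exactly the octad, duad and sextet stabilisers, and no subgroup has index 253. -/
theorem result : (∀ H : Subgroup ↥Cfsg.M24, H.index = 759 → ∃ o ∈ Cfsg.octads, H = MulAction.stabilizer Cfsg.M24 o) ∧ (∀ H : Subgroup ↥Cfsg.M24, H.index = 276 → ∃ s : Finset Cfsg.GolayPt, s.card = 2 ∧ H = MulAction.stabilizer Cfsg.M24 s) ∧ (∀ H : Subgroup ↥Cfsg.M24, H.index = 1771 → ∃ S ∈ Cfsg.sextets, H = MulAction.stabilizer Cfsg.M24 S) ∧ ∀ H : Subgroup ↥Cfsg.M24, H.index ≠ 253 := by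
  exact ⟨fun H h => M24_index_759 (card_of_index h (by norm_num) (by norm_num)),
    fun H h => M24_index_276 (card_of_index h (by norm_num) (by norm_num)),
    fun H h => M24_index_1771 (card_of_index h (by norm_num) (by norm_num)),
    fun H h => M24_index_253 (card_of_index h (by norm_num) (by norm_num))⟩

end Cfsg.Agent.S1589
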