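import Cfsg.Statements.S1597
import Cfsg.Agent.H42.Quartet

set_option autoImplicit false
set_option maxRecDepth 1000000
open scoped Pointwise
open Cfsg

namespace Cfsg.Agent.S1597

open Cfsg.Agent.H42

/-- A dodecad has 220 quartets and its stabiliser is transitive on them. -/
theorem result (d : Finset Cfsg.GolayPt) (hd : d ∈ Cfsg.dodecads) : (Cfsg.quartets d).ncard = 220 ∧ ∀ Q ∈ Cfsg.quartets d, ∀ Q' ∈ Cfsg.quartets d, ∃ g : Equiv.Perm Cfsg.GolayPt, g ∈ Cfsg.M24 ∧ g • d = d ∧ g • Q = Q' := by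
  constructor
  · obtain ⟨a, rfl⟩ := exists_smul_dod0 hd
    rw [ncard_eq_of_smul a (quartets (toSet dod0)) _ (fun _ => msmul_mem_quartets_iff a),
      quartets0_ncard]
  · intro Q hQ Q' hQ'
    obtain ⟨a, h1, h2⟩ := exists_smul_quart0 hd hQ
    obtain ⟨b, h3, h4⟩ := exists_smul_quart0 hd hQ'
    refine ⟨(b * a⁻¹ : M24), (b * a⁻¹).2, ?_, ?_⟩
    · show (b * a⁻¹) • d = d
      rw [mul_smul, ← h1, inv_smul_smul, h3, h1]
    · show (b * a⁻¹) • Q = Q'
      rw [mul_smul, ← h2, inv_smul_smul, h4]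

end Cfsg.Agent.S1597
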