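import Cfsg.Statements.S1598
import Cfsg.Agent.H42.Quartet

set_option autoImplicit false
set_option maxRecDepth 1000000
open scoped Pointwise
open Cfsg

namespace Cfsg.Agent.S1598

open Cfsg.Agent.H42

/-- Eight elements of order three. -/
def cc : Fin 8 → ℕ := ![487607080158395075740321133224921120, 891256915141300104684601826038906945, 232830186133421440756815622813352962, 858249338590762411966147903161237569, 630488151153570250854033705891136514, 928718206277989008510816407558424608, 608132182080247986231149538876424257, 809648025571350634416323764134740994]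

/-- Their coordinates. -/
def vv : Fin 8 → Fin 2 → ZMod 3 := ![![1, 0], ![0, 1], ![1, 2], ![1, 1], ![2, 2], ![2, 0], ![2, 1], ![0, 2]]

/-- Pairs of elements. -/
noncomputable def E : Enc M24 (Fin 2 → Cj M24) :=
  encPi encCj 120 2 (fun _ h => (isPerm_iff.mp (inM_isPerm h)).1)

/-- The base point. -/
def x0 : ℕ := 1184683643042717179372891259909627572414691267419342359964055960224401440

theorem main : ∃ (N : Subgroup GQ) (_ : N.Normal), Nat.card N = 9 ∧ (∀ x ∈ N, True) ∧
    Nonempty (GQ ⧸ N ≃* GL (Fin 2) (ZMod 3)) := by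
  have hc : ∀ i, inM (cc i) = true := by decide +kernel
  obtain ⟨f, -, hf⟩ := exists_hom_gen (Γ := GL (Fin 2) (ZMod 3)) (a := fun i => encCj.dec (cc i))
    (b := vv) (encCj.dec_injective cc hc (by decide +kernel)) (by decide +kernel)
    (GL_faithful vv (by decide +kernel)) GQ_eq (fun g hg => by
    have hg' := inM_gensGQ g hg
    simp only [gensGQ, List.mem_cons, List.not_mem_nil, or_false] at hg
    rcases hg with rfl | rfl
    · exact ⟨⟨!![0, 1; 1, 2], !![1, 1; 1, 0], by decide +kernel, by decide +kernel⟩,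
        encCj.linked cc hc vv hg' _ ![1, 2, 4, 0, 5, 7, 3, 6] (by decide +kernel) (by decide +kernel)⟩
    · exact ⟨⟨!![0, 1; 1, 1], !![2, 1; 1, 0], by decide +kernel, by decide +kernel⟩,
        encCj.linked cc hc vv hg' _ ![1, 3, 5, 2, 6, 7, 0, 4] (by decide +kernel) (by decide +kernel)⟩)
  have hv : E.valid x0 := ⟨by decide +kernel, show ∀ i < 2, inM _ = true by decide +kernel⟩
  have h1 := E.card_inf_stabilizer_le (gens := gensGQ) inM_gensGQ GQ gensGQ_mem (x0 := x0) hv 60
    (n := 48) (m := 9) (by norm_num) (by decide +kernel) (by rw [card_GQ])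
  have h2 : ∀ x : GQ, x ∈ f.ker → (x : M24) ∈ GQ ⊓ MulAction.stabilizer M24 (E.dec x0) := by
    intro x hx
    refine ⟨x.2, funext fun i => ?_⟩
    have e : ∀ i : Fin 2, fld 120 x0 i = cc (![0, 1] i) := by decide +kernel
    show (x : M24) • encCj.dec (fld 120 x0 i) = encCj.dec (fld 120 x0 i)
    rw [e]
    exact (hf x).mp hx _
  have h5 : Nat.card f.ker ≤ 9 := le_trans (Nat.card_le_card_of_injective
    (fun x : f.ker => (⟨x, h2 x x.2⟩ : ↥(GQ ⊓ MulAction.stabilizer M24 (E.dec x0))))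
    fun x y h => Subtype.ext (Subtype.ext (congrArg
      (fun z : ↥(GQ ⊓ MulAction.stabilizer M24 (E.dec x0)) => (z : M24)) h))) h1
  obtain ⟨h6, h7⟩ := surjective_of_card_ker f h5 (by
    rw [Matrix.card_GL_field, card_GQ, ZMod.card]
    decide +kernel)
  exact ⟨f.ker, inferInstance, h7, fun _ _ => trivial, quot_equiv_of_surjective f h6 _ rfl⟩

/-- A quartet stabiliser inside the dodecad stabiliser has order 432, a normal subgroup of order 9 with quotient GL(2, 3), and is transitive on the dodecad. -/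
theorem result (d : Finset Cfsg.GolayPt) (hd : d ∈ Cfsg.dodecads) (Q : Finset (Finset Cfsg.GolayPt)) (hQ : Q ∈ Cfsg.quartets d) : Nat.card ↥(MulAction.stabilizer Cfsg.M24 d ⊓ MulAction.stabilizer Cfsg.M24 Q) = 432 ∧ (∃ (N : Subgroup ↥(MulAction.stabilizer Cfsg.M24 d ⊓ MulAction.stabilizer Cfsg.M24 Q)) (_ : N.Normal), Nat.card N = 9 ∧ Nonempty (↥(MulAction.stabilizer Cfsg.M24 d ⊓ MulAction.stabilizer Cfsg.M24 Q) ⧸ N ≃* GL (Fin 2) (ZMod 3))) ∧ ∀ p ∈ d, ∀ q ∈ d, ∃ g ∈ (MulAction.stabilizer Cfsg.M24 d ⊓ MulAction.stabilizer Cfsg.M24 Q), ((g : ↥Cfsg.M24) : Equiv.Perm Cfsg.GolayPt) p = q := by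
  obtain ⟨a, rfl, rfl⟩ := exists_smul_quart0 hd hQ
  refine ⟨(card_eq_of_conj a GQ _ (conj_mem_stab2 a _ _)).trans card_GQ, ?_, fun x hx y hy => ?_⟩
  · obtain ⟨N, h1, h2, -, h3⟩ := exists_normal_congr (conjEquiv a GQ _ (conj_mem_stab2 a _ _))
      (fun _ => True) (fun _ => True) (fun _ _ => trivial) main
    exact ⟨N, h1, h2, h3⟩
  obtain ⟨x, rfl⟩ := MulAction.surjective a x
  obtain ⟨y, rfl⟩ := MulAction.surjective a y
  have h := encPt.orbit_eq_of_orbSize (gens := gensGQ) inM_gensGQ GQ gensGQ_mem (x0 := 0)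
    (by show 0 < 24; norm_num) 25 ((toSet dod0 : Finset GolayPt) : Set GolayPt) (Set.toFinite _)
    (fun g hg => smul_mem_of_mem_stabilizer hg.1 (pt_mem_dod0 (i := 0) (by norm_num) (by decide)))
    (by rw [Set.ncard_coe_finset, dod0_mem.2]; decide +kernel)
  obtain ⟨g, hg, e⟩ := exists_smul_eq_of_mem_orbit (H := GQ) (x := encPt.dec 0) (y := x) (z := y)
    (by rw [h]; exact (msmul_mem_msmul a).mp hx) (by rw [h]; exact (msmul_mem_msmul a).mp hy)
  exact ⟨a * g * a⁻¹, (conj_mem_stab2 a _ _ g).mp hg, by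
    show (a * g * a⁻¹) • a • x = a • y
    rw [conj_smul_smul, e]⟩

end Cfsg.Agent.S1598
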