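import Cfsg.Statements.S1599
import Cfsg.Agent.H42.Quartet

set_option autoImplicit false
set_option maxRecDepth 1000000
open scoped Pointwise
open Cfsg

namespace Cfsg.Agent.S1599

open Cfsg.Agent.H42

theorem cls : Classes GQ (quartets (toSet dod0)) (fun x => (MulAction.orbit GQ x).ncard)
    (decReps (famDec 4) [(1547727283083644861367189511, 1, 1), (1237982559036099825273671746, 12, 12), (1237954224850713470709006616, 27, 27), (1237954225988998199418815296, 72, 72), (1237954224977940084214993156, 108, 108)]) :=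
  (encFam 4).classes_size (gens := gensGQ) inM_gensGQ GQ GQ_eq _ (Set.toFinite _)
    (fun g hg _ hx => smul_mem_quartets_of_mem hg.1 hx) _
    (fun r hr => by
      have h := repsChk_spec (p := isQuart)
        (show repsChk _ [(1547727283083644861367189511, 1, 1), (1237982559036099825273671746, 12, 12), (1237954224850713470709006616, 27, 27), (1237954225988998199418815296, 72, 72), (1237954224977940084214993156, 108, 108)] = true by decide +kernel) hr
      exact ⟨isQuart_famOk h.1, famDec_mem_quartets h.1, h.2⟩)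
    230 (sizesChk_fam (by decide +kernel)) (by decide) (by rw [quartets0_ncard]; decide)

/-- A quartet stabiliser has five orbits on the quartets of its dodecad, of sizes 1, 12, 27, 72, 108. -/
theorem result (d : Finset Cfsg.GolayPt) (hd : d ∈ Cfsg.dodecads) (Q : Finset (Finset Cfsg.GolayPt)) (hQ : Q ∈ Cfsg.quartets d) : ∃ X₁ ∈ Cfsg.quartets d, ∃ X₂ ∈ Cfsg.quartets d, ∃ X₃ ∈ Cfsg.quartets d, ∃ X₄ ∈ Cfsg.quartets d, (MulAction.orbit ↥(MulAction.stabilizer Cfsg.M24 d ⊓ MulAction.stabilizer Cfsg.M24 Q) X₁).ncard = 12 ∧ (MulAction.orbit ↥(MulAction.stabilizer Cfsg.M24 d ⊓ MulAction.stabilizer Cfsg.M24 Q) X₂).ncard = 27 ∧ (MulAction.orbit ↥(MulAction.stabilizer Cfsg.M24 d ⊓ MulAction.stabilizer Cfsg.M24 Q) X₃).ncard = 72 ∧ (MulAction.orbit ↥(MulAction.stabilizer Cfsg.M24 d ⊓ MulAction.stabilizer Cfsg.M24 Q) X₄).ncard = 108 ∧ Cfsg.quartets d = {Q} ∪ MulAction.orbit ↥(MulAction.stabilizer Cfsg.M24 d ⊓ MulAction.stabilizer Cfsg.M24 Q) X₁ ∪ MulAction.orbit ↥(MulAction.stabilizer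 Cfsg.M24 d ⊓ MulAction.stabilizer Cfsg.M24 Q) X₂ ∪ MulAction.orbit ↥(MulAction.stabilizer Cfsg.M24 d ⊓ MulAction.stabilizer Cfsg.M24 Q) X₃ ∪ MulAction.orbit ↥(MulAction.stabilizer Cfsg.M24 d ⊓ MulAction.stabilizer Cfsg.M24 Q) X₄ := by
  obtain ⟨a, rfl, rfl⟩ := exists_smul_quart0 hd hQ
  exact (cls.transport a _ (quartets (a • toSet dod0)) (fun x => (MulAction.orbit GQ (a⁻¹ • x)).ncard)
    (conj_mem_stab2 a _ _) (fun _ => msmul_mem_quartets_iff a)
    (fun x => by rw [inv_smul_smul])).exists14 (fun g hg => hg.2)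

end Cfsg.Agent.S1599
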