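import Cfsg.Statements.S1600
import Cfsg.Agent.H42.More

set_option autoImplicit false
set_option maxRecDepth 1000000
open scoped Pointwise
open Cfsg

namespace Cfsg.Agent.S1600

open Cfsg.Agent.H42

/-- The pointwise stabiliser of three points of a dodecad inside the dodecad stabiliser (order 72) is transitive on the complementary dodecad. -/
theorem result (d : Finset Cfsg.GolayPt) (hd : d ∈ Cfsg.dodecads) (p q r : Cfsg.GolayPt) (hp : p ∈ d) (hq : q ∈ d) (hr : r ∈ d) (hpq : p ≠ q) (hpr : p ≠ r) (hqr : q ≠ r) : Nat.card ↥(MulAction.stabilizer Cfsg.M24 d ⊓ MulAction.stabilizer Cfsg.M24 p ⊓ MulAction.stabilizer Cfsg.M24 q ⊓ MulAction.stabilizer Cfsg.M24 r) = 72 ∧ ∀ x ∉ d, ∀ y ∉ d, ∃ g ∈ (MulAction.stabilizer Cfsg.M24 d ⊓ MulAction.stabilizer Cfsg.M24 p ⊓ MulAction.stabilizer Cfsg.M24 q ⊓ MulAction.stabilizer Cfsg.M24 r), ((g : ↥Cfsg.M24) : Equiv.Perm Cfsg.GolayPt) x = y := by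
  obtain ⟨a, rfl, rfl, rfl, rfl⟩ := exists_smul_dod0_three hd hp hq hr hpq hpr hqr
  refine ⟨(card_eq_of_conj a GM9 _ (conj_mem_stab4 a _ _ _ _)).trans card_GM9, fun x hx y hy => ?_⟩
  obtain ⟨x, rfl⟩ := MulAction.surjective a x
  obtain ⟨y, rfl⟩ := MulAction.surjective a y
  have h := encPt.orbit_eq_of_orbSize (gens := gensM9) inM_gensM9 GM9 gensM9_mem (x0 := 23)
    (by show 23 < 24; norm_num) 25 (((toSet dod0)ᶜ : Finset GolayPt) : Set GolayPt) (Set.toFinite _)
    (fun g hg => by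
      rw [Finset.mem_coe, Finset.mem_compl, smul_mem_iff_of_mem_stabilizer hg.1.1.1]
      exact pt_notMem_dod0 (i := 23) (by norm_num) (by decide))
    (by rw [ncard_compl_finset, dod0_mem.2]; decide +kernel)
  obtain ⟨g, hg, e⟩ := exists_smul_eq_of_mem_orbit (H := GM9) (x := encPt.dec 23) (y := x) (z := y)
    (by rw [h]; simpa using fun h => hx ((msmul_mem_msmul a).mpr h))
    (by rw [h]; simpa using fun h => hy ((msmul_mem_msmul a).mpr h))
  exact ⟨a * g * a⁻¹, (conj_mem_stab4 a _ _ _ _ g).mp hg, by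
    show (a * g * a⁻¹) • a • x = a • y
    rw [conj_smul_smul, e]⟩

end Cfsg.Agent.S1600
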