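import Cfsg.Statements.S1601
import Cfsg.Agent.H42.More
import Cfsg.Agent.H28.PSL2Small

set_option autoImplicit false
set_option maxRecDepth 1000000
open scoped Pointwise
open Cfsg

namespace Cfsg.Agent.S1601

open Cfsg.Agent.H42

/-- Twelve families of five-point sets. -/
def cc : Fin 12 → ℕ := ![593455694453066032681710670200582100397940153146563202735893363647126066692190, 593455694501720314546026474881335565324139098094294309533339815434063664124430, 593551104189719699981091946720706496049995750556009014193669780136099028402270, 593551104241954599887680711001412948438583657711316121055516855906438052053830, 593893872525131073602385463530978213011928209459009696135552135272477881271110, 593893872573785375151690878159541453547164581777110019109180665746957810012500, 593900939908545821722950187084964115982690112910802896708524574335916836917530, 593900939960780741188986504905372157073494145066627265572437191627016130007880, 600675031149664450496348243289625036596081218883023027345816292388436644466970, 600675031177466892257862937906164161833307432744034506377398725301980404650510, 600784575667680710236902963983747859904958112076432834111844654207567076004680,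 600784575695483152123959691811442566979116819482591348704665306663565534433620]

/-- Their coordinates. -/
def vv : Fin 12 → Fin 2 → ZMod 11 := ![![1, 6], ![1, 3], ![1, 8], ![1, 10], ![1, 0], ![0, 1], ![1, 2], ![1, 1], ![1, 7], ![1, 4], ![1, 9], ![1, 5]]

theorem iso : Nonempty (GL11 ≃* Matrix.ProjectiveSpecialLinearGroup (Fin 2) (ZMod 11)) := by
  have hc : ∀ i, famOk 11 (cc i) = true := by decide +kernel
  obtain ⟨f, hf⟩ := exists_hom_psl (a := fun i => famDec 11 (cc i))
    ((encFam 11).dec_injective cc hc (by decide +kernel)) vv (by decide +kernel) (by decide +kernel)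
    (by decide +kernel) GL11_eq (fun g hg => by
    have hg' := inM_gensL g hg
    simp only [gensL, List.mem_cons, List.not_mem_nil, or_false] at hg
    rcases hg with rfl | rfl
    · refine ⟨⟨!![0, 1; 10, 3], by rw [Matrix.det_fin_two]; decide +kernel⟩, fun i => ?_⟩
      have h : ∀ i, ∃ j, famAct 11 965338963119640587914710321726563360 (cc i) = cc j ∧ ∃ c : ZMod 11, c • vv j =
          Matrix.mulVec !![0, 1; 10, 3] (vv i) := by decide +kernel
      obtain ⟨j, h1, h2⟩ := h i
      exact ⟨j, by rw [toM_smul_famDec hg', h1], h2⟩
    · refine ⟨⟨!![2, 4; 5, 5], by rw [Matrix.det_fin_two]; decide +kernel⟩, fun i => ?_⟩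
      have h : ∀ i, ∃ j, famAct 11 974192857846616903476708535734645952 (cc i) = cc j ∧ ∃ c : ZMod 11, c • vv j =
          Matrix.mulVec !![2, 4; 5, 5] (vv i) := by decide +kernel
      obtain ⟨j, h1, h2⟩ := h i
      exact ⟨j, by rw [toM_smul_famDec hg', h1], h2⟩)
  refine equiv_of_hom f (fun x hx => Subtype.ext ?_) ?_
  · refine (encFam 11).eq_one_of_fix (fun _ h => h) (fun _ => rfl) inM_gensL
      (cs := [cc 0, cc 1, cc 2]) (by simp only [List.mem_cons, List.not_mem_nil, or_false]; rintro _ (rfl | rfl | rfl) <;> exact hc _)
      (fuel := 700) (by decide +kernel) (GL11_eq ▸ x.2) ?_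
    simp only [List.mem_cons, List.not_mem_nil, or_false]
    rintro _ (rfl | rfl | rfl) <;> exact (hf x).mp hx _
  · have h := H28.card_PSL2 (F := ZMod 11) (ZMod.card 11)
    rw [card_GL11]
    rw [show Nat.gcd 2 (11 - 1) = 2 from rfl] at h
    omega

/-- In the 3-transitive action of the smallest Mathieu group on the complementary dodecad, a point stabiliser is isomorphic to PSL(2, 11). -/
theorem result (d : Finset Cfsg.GolayPt) (hd : d ∈ Cfsg.dodecads) (p q : Cfsg.GolayPt) (hp : p ∈ d) (hq : q ∉ d) : Nonempty (↥(MulAction.stabilizer Cfsg.M24 d ⊓ MulAction.stabilizer Cfsg.M24 p ⊓ MulAction.stabilizer Cfsg.M24 q) ≃* Matrix.ProjectiveSpecialLinearGroup (Fin 2) (ZMod 11)) := by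
  obtain ⟨a, rfl, rfl, rfl⟩ := exists_smul_dod0_in_out hd hp hq
  obtain ⟨e⟩ := iso
  exact ⟨(conjEquiv a GL11 _ (conj_mem_stab3 a _ _ _)).symm.trans e⟩

end Cfsg.Agent.S1601
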