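import Cfsg.Statements.S1603
import Cfsg.Agent.H42.Cent

set_option autoImplicit false
set_option maxRecDepth 1000000
open scoped Pointwise
open Cfsg

namespace Cfsg.Agent.S1603

open Cfsg.Agent.H42

/-- Involution centralisers in the smallest Mathieu group are isomorphic to GL(2, 3). -/
theorem result (d : Finset Cfsg.GolayPt) (hd : d ∈ Cfsg.dodecads) (p : Cfsg.GolayPt) (hp : p ∈ d) (x : ↥(MulAction.stabilizer Cfsg.M24 d ⊓ MulAction.stabilizer Cfsg.M24 p)) (hx : orderOf x = 2) : Nonempty (↥(Subgroup.centralizer ({x} : Set ↥(MulAction.stabilizer Cfsg.M24 d ⊓ MulAction.stabilizer Cfsg.M24 p))) ≃* GL (Fin 2) (ZMod 3)) := by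
  obtain ⟨a, rfl, rfl⟩ := exists_smul_dod0_pt hd hp
  have e := (conjEquiv a G11 _ (conj_mem_stab2 a _ _)).symm
  obtain ⟨e'⟩ := cent_G11_equiv (e x) (by rw [MulEquiv.orderOf_eq, hx])
  exact ⟨(centEquiv e x).trans e'⟩

end Cfsg.Agent.S1603
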