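import Cfsg.Statements.S1604
import Cfsg.Agent.H42.Flags

set_option autoImplicit false
set_option maxRecDepth 1000000
open scoped Pointwise
open Cfsg

namespace Cfsg.Agent.S1604

open Cfsg.Agent.H42

/-- Generators. -/
def gens : List ℕ := [971617053737551473520820296588758176, 972714785472141663953713210349143136]

theorem inM_gens : ∀ g ∈ gens, inM g = true := inM_of_allL (by decide +kernel)

theorem cls : Classes (MulAction.stabilizer Cfsg.M24 (toSet oct0) ⊓ MulAction.stabilizer Cfsg.M24 (pt 23) ⊓ MulAction.stabilizer Cfsg.M24 (pt 0)) {x | x ∈ octads ∧ pt 23 ∈ x ∧ pt 0 ∈ x} (fun x => (toSet oct0 ∩ x).card)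
    (decReps toSet [(8536111, 1, 8), (8499969, 16, 2), (8391797, 60, 4)]) :=
  classes_code inM_gens (MulAction.stabilizer Cfsg.M24 (toSet oct0) ⊓ MulAction.stabilizer Cfsg.M24 (pt 23) ⊓ MulAction.stabilizer Cfsg.M24 (pt 0)) (fun g hg => ⟨⟨allL_fix_set inM_gens oct0_lt (by decide +kernel) g hg, allL_fix_pt inM_gens (i := 23) (by norm_num) (by decide +kernel) g hg⟩, allL_fix_pt inM_gens (i := 0) (by norm_num) (by decide +kernel) g hg⟩) {x | x ∈ octads ∧ pt 23 ∈ x ∧ pt 0 ∈ x}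
    (fun g hg x hx => ⟨(msmul_mem_octads_iff g).mpr hx.1, (smul_mem_iff_of_fix hg.1.2).mpr hx.2.1, (smul_mem_iff_of_fix hg.2).mpr hx.2.2⟩)
    (fun _ h => h.1.1) (fun n => Nat.beq (pc n) 8 && (tb n 23 && tb n 0))
    (fun n hn => by simp only [Set.mem_ofPred_eq, toSet_mem_octads_iff' hn, pt_mem_toSet (show 23 < 24 by norm_num), pt_mem_toSet (show 0 < 24 by norm_num), Bool.and_eq_true, beq_iff]) oct0 oct0_lt (fun _ h => h.1.1) _
    (by decide +kernel) 800 (by decide +kernel) (by decide) (by decide +kernel)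

/-- A hexad stabiliser in the two-point stabiliser has orbits of sizes 1, 16, 60 on the 77 hexads: the 16 hexads disjoint from it and the 60 meeting it in two points. -/
theorem result (p q : Cfsg.GolayPt) (hpq : p ≠ q) (o o' o'' : Finset Cfsg.GolayPt) (ho : o ∈ Cfsg.octads) (ho' : o' ∈ Cfsg.octads) (ho'' : o'' ∈ Cfsg.octads) (hp : p ∈ o ∧ p ∈ o' ∧ p ∈ o'') (hq : q ∈ o ∧ q ∈ o' ∧ q ∈ o'') (h : (o ∩ o').card = (o ∩ o'').card) : {x : Finset Cfsg.GolayPt | x ∈ Cfsg.octads ∧ p ∈ x ∧ q ∈ x ∧ (o ∩ x).card = 2}.ncard = 16 ∧ {x : Finset Cfsg.GolayPt | x ∈ Cfsg.octads ∧ p ∈ x ∧ q ∈ x ∧ (o ∩ x).card = 4}.ncard = 60 ∧ ∃ g : Equiv.Perm Cfsg.GolayPt, g ∈ Cfsg.M24 ∧ g p = p ∧ g q = q ∧ g • o = o ∧ g • o' = o'' := by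
  obtain ⟨a, rfl, rfl, rfl⟩ := exists_smul_oct0_two ho hp.1 hq.1 hpq
  have c := cls.transport a _ {x | x ∈ octads ∧ a • pt 23 ∈ x ∧ a • pt 0 ∈ x}
    (fun x => (a • toSet oct0 ∩ x).card) (conj_mem_stab3 a _ _ _)
    (fun x => by simp only [Set.mem_ofPred_eq, msmul_mem_octads_iff, msmul_mem_msmul])
    (fun x => card_msmul_inter a _ x)
  refine ⟨c.ncard_of (v := 2) (by simp [decReps]) (fun x => by simp only [Set.mem_ofPred_eq, and_assoc]),
    c.ncard_of (v := 4) (by simp [decReps]) (fun x => by simp only [Set.mem_ofPred_eq, and_assoc]), ?_⟩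
  obtain ⟨g, hg, e⟩ := c.exists_smul ⟨ho', hp.2.1, hq.2.1⟩ ⟨ho'', hp.2.2, hq.2.2⟩ h
  exact ⟨g, g.2, hg.1.2, hg.2, hg.1.1, e⟩

end Cfsg.Agent.S1604
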