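import Cfsg.Statements.S1605
import Cfsg.Agent.H42.Flags

set_option autoImplicit false
set_option maxRecDepth 1000000
open scoped Pointwise
open Cfsg

namespace Cfsg.Agent.S1605

open Cfsg.Agent.H42

/-- Generators. -/
def gens : List ℕ := [984479654942482537185729562620150944, 971303706244795636696200773804528643]

theorem inM_gens : ∀ g ∈ gens, inM g = true := inM_of_allL (by decide +kernel)

theorem cls : Classes (MulAction.stabilizer Cfsg.M24 (toSet oct0) ⊓ MulAction.stabilizer Cfsg.M24 (pt 23) ⊓ MulAction.stabilizer Cfsg.M24 (pt 4)) {x | x ∈ octads ∧ pt 23 ∈ x ∧ pt 4 ∉ x} (fun x => (toSet oct0 ∩ x).card)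
    (decReps toSet [(8536111, 1, 8), (8490656, 70, 2), (8394986, 105, 4)]) :=
  classes_code inM_gens (MulAction.stabilizer Cfsg.M24 (toSet oct0) ⊓ MulAction.stabilizer Cfsg.M24 (pt 23) ⊓ MulAction.stabilizer Cfsg.M24 (pt 4)) (fun g hg => ⟨⟨allL_fix_set inM_gens oct0_lt (by decide +kernel) g hg, allL_fix_pt inM_gens (i := 23) (by norm_num) (by decide +kernel) g hg⟩, allL_fix_pt inM_gens (i := 4) (by norm_num) (by decide +kernel) g hg⟩) {x | x ∈ octads ∧ pt 23 ∈ x ∧ pt 4 ∉ x}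
    (fun g hg x hx => ⟨(msmul_mem_octads_iff g).mpr hx.1, (smul_mem_iff_of_fix hg.1.2).mpr hx.2.1, fun h => hx.2.2 ((smul_mem_iff_of_fix hg.2).mp h)⟩)
    (fun _ h => h.1.1) (fun n => Nat.beq (pc n) 8 && (tb n 23 && !tb n 4))
    (fun n hn => by simp only [Set.mem_ofPred_eq, toSet_mem_octads_iff' hn, pt_mem_toSet (show 23 < 24 by norm_num), pt_mem_toSet (show 4 < 24 by norm_num), Bool.and_eq_true, beq_iff, Bool.not_eq_true', Bool.not_eq_true]) oct0 oct0_lt (fun _ h => h.1.1) _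
    (by decide +kernel) 800 (by decide +kernel) (by decide) (by decide +kernel)

/-- The two-point stabiliser acts on the 176 octads through the first point avoiding the second with rank 3 and subdegrees 1, 70, 105 (intersections 8, 2, 4). -/
theorem result (p q : Cfsg.GolayPt) (hpq : p ≠ q) : {x : Finset Cfsg.GolayPt | (x ∈ Cfsg.octads ∧ p ∈ x ∧ q ∉ x)}.ncard = 176 ∧ (∀ o o' : Finset Cfsg.GolayPt, (o ∈ Cfsg.octads ∧ p ∈ o ∧ q ∉ o) → (o' ∈ Cfsg.octads ∧ p ∈ o' ∧ q ∉ o') → ∃ g : Equiv.Perm Cfsg.GolayPt, g ∈ Cfsg.M24 ∧ g p = p ∧ g q = q ∧ g • o = o') ∧ ∀ o : Finset Cfsg.GolayPt, (o ∈ Cfsg.octads ∧ p ∈ o ∧ q ∉ o) → {x : Finset Cfsg.GolayPt | (x ∈ Cfsg.octads ∧ p ∈ x ∧ q ∉ x) ∧ (o ∩ x).card = 2}.ncard = 70 ∧ {x : Finset Cfsg.GolayPt | (x ∈ Cfsg.octads ∧ p ∈ x ∧ q ∉ x) ∧ (o ∩ x).card = 4}.ncard = 105 ∧ ∀ o' o'' : Finset Cfsg.GolayPt, (o' ∈ Cfsg.octads ∧ p ∈ o' ∧ q ∉ o') → (o'' ∈ Cfsg.octads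 ∧ p ∈ o'' ∧ q ∉ o'') → (o ∩ o').card = (o ∩ o'').card → ∃ g : Equiv.Perm Cfsg.GolayPt, g ∈ Cfsg.M24 ∧ g p = p ∧ g q = q ∧ g • o = o ∧ g • o' = o'' := by
  refine ⟨?_, fun o o' ho ho' => ?_, fun o ho => ?_⟩
  · obtain ⟨a, rfl, rfl⟩ := exists_smul_two (p := pt 23) (q := pt 4)
      (pt_ne (by norm_num) (by norm_num) (by norm_num)) hpq
    rw [ncard_eq_of_smul a {x | x ∈ octads ∧ pt 23 ∈ x ∧ pt 4 ∉ x} _
      (fun x => by simp only [Set.mem_ofPred_eq, msmul_mem_octads_iff, msmul_mem_msmul]),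
      ncard_codeSets _ (fun n => Nat.beq (pc n) 8 && (tb n 23 && !tb n 4)) (fun _ h => h.1.1)
        (fun n hn => by simp only [Set.mem_ofPred_eq, toSet_mem_octads_iff' hn, pt_mem_toSet (show 23 < 24 by norm_num), pt_mem_toSet (show 4 < 24 by norm_num), Bool.and_eq_true, beq_iff, Bool.not_eq_true', Bool.not_eq_true])]
    decide +kernel
  · obtain ⟨g, h1, h2, h3⟩ := octad_in_out_transitive ho.1 ho'.1 ho.2.1 ho.2.2 ho'.2.1 ho'.2.2
    exact ⟨g, g.2, h2, h3, h1⟩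
  · obtain ⟨a, rfl, rfl, rfl⟩ := exists_smul_oct0_in_out ho.1 ho.2.1 ho.2.2
    have c := cls.transport a _ {x | x ∈ octads ∧ a • pt 23 ∈ x ∧ a • pt 4 ∉ x}
      (fun x => (a • toSet oct0 ∩ x).card) (conj_mem_stab3 a _ _ _)
      (fun x => by simp only [Set.mem_ofPred_eq, msmul_mem_octads_iff, msmul_mem_msmul])
      (fun x => card_msmul_inter a _ x)
    refine ⟨c.ncard_of (v := 2) (by simp [decReps]) (fun x => Iff.rfl),
      c.ncard_of (v := 4) (by simp [decReps]) (fun x => Iff.rfl), fun o' o'' ho' ho'' h => ?_⟩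
    obtain ⟨g, hg, e⟩ := c.exists_smul ho' ho'' h
    exact ⟨g, g.2, hg.1.2, hg.2, hg.1.1, e⟩

end Cfsg.Agent.S1605
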