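import Cfsg.Statements.S1606
import Cfsg.Agent.H42.Idx3

set_option autoImplicit false
set_option maxRecDepth 1000000
open scoped Pointwise
open Cfsg

namespace Cfsg.Agent.S1606

open Cfsg.Agent.H42

open MulAction

/-- An element of order 5. -/
def y5 : ℕ := 970580888866058872547839459126807104

/-- An element of order 4. -/
def n4 : ℕ := 971295725442997242909900942568143904

theorem inM_y5 : inM y5 = true := by decide +kernel

theorem inM_n4 : inM n4 = true := by decide +kernel

/-- Generators. -/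
def gensL5 : List ℕ := [978237495981193561145036972472417632, 967195316988621576078602724360469760]

theorem gensL5_chk : genChk gensL5
    [[2, 2, 0, 2, 1, 2, 1],
    [3, 4, 2, 2],
    [3, 1, 7, 5, 0, 0, 3, 7],
    [5, 5, 3, 0, 3, 4],
    [1, 10, 7, 5, 1],
    [6, 9, 2]]
    [(1, [970256298757292355925193712498412032]),
    (3, [977678364276495678649822781103356960]),
    (2, [978029839594700076676836534601759776]),
    (4, [971863989228759034920585190470420512])] 1920 = true := by decide +kernel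

theorem card_norm_y5 :
    Nat.card ↥(G22 ⊓ Subgroup.normalizer (Subgroup.zpowers (toM y5) : Set M24)) = 20 := by
  have h1 := encSet.card_inf_stabilizer_le (gens := gens22) inM_gens22 G22 gens22_mem
    (x0 := 32772) (show _ < 2 ^ 24 by norm_num) 240 (n := 231) (m := 1920) (by norm_num)
    (orbSize_set (by decide +kernel)) (by rw [card_G22])
  have hg := genChk_inM gensL5_chk
  refine card_inf_normalizer (eq_gen_of_genChk gensL5_chk (G22 ⊓ stabilizer M24 (toSet 32772))
    (fun g h => ⟨⟨allL_fix_pt hg (i := 23) (by norm_num) (by decide +kernel) g h,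
      allL_fix_pt hg (i := 0) (by norm_num) (by decide +kernel) g h⟩,
      allL_fix_set hg (by norm_num) (by decide +kernel) g h⟩) h1).1 hg (fun _ h => h.1) inM_y5
    (fun n hn => ?_) (fuel := 10) (fuel' := 2000) (by decide +kernel)
  exact ⟨hn.1, encSet.norm_smul_eq (fun _ h => h) (fun _ => rfl) inM_gens22 inM_y5
    (x0 := 32772) (show _ < 2 ^ 24 by norm_num) (by decide +kernel) (fuel := 240)
    (by decide +kernel) (G22_eq ▸ hn.1 : n ∈ gen gens22) hn.2⟩

theorem mem_norm {g x k : ℕ} (hg : inM g = true) (hx : inM x = true) (h : pconj g x = ppow x k) :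
    toM g ∈ Subgroup.normalizer (Subgroup.zpowers (toM x) : Set M24) := by
  rw [mem_normalizer_zpowers, ← toM_pconj hg hx, h, toM_ppow hx]
  exact Subgroup.npow_mem_zpowers _ _

theorem no_7920 {H : Subgroup M24} (hH : H ≤ G22) (hc : Nat.card H = 7920) : False := by
  obtain ⟨k, hk, h1⟩ := exists_cj_mem G22 H x11_mem_G22 orderOf_x11 (by rw [card_G22]; norm_num) hH
    (by rw [hc]; norm_num)
  have h2 := cj_le hk hH
  rw [← card_cj k H] at hc
  generalize cj k H = L at h1 h2 hc
  obtain ⟨n, m, h3, h4, h5, -, h6⟩ := sylow_norm G22 L h2 h1 orderOf_x11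
    (by rw [card_G22]; norm_num) card_norm_x11
  have h7 : toM y5 ∈ L := h6 (by
    have := Nat.le_of_dvd (by norm_num) h5
    interval_cases m <;> omega) ⟨mem_of_inK22 _ inM_y5 (by decide +kernel),
      mem_norm (k := 4) inM_y5 inM_x11 (by decide +kernel)⟩
  obtain ⟨n, m, h3, h4, h5, -, h6⟩ := sylow_norm (p := 5) G22 L h2 h7
    ((ordP_iff inM_y5).mp (by decide +kernel)) (by rw [card_G22]; norm_num) card_norm_y5
  have h8 : toM n4 ∈ L := h6 (by
    have := Nat.le_of_dvd (by norm_num) h5
    interval_cases m <;> omega) ⟨mem_of_inK22 _ inM_n4 (by decide +kernel),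
      mem_norm (k := 2) inM_n4 inM_y5 (by decide +kernel)⟩
  have h9 : G22 ≤ L := G22_eq ▸ gen_le _ fun g hg => (mem_of_slpChk (src := [x11, y5, n4])
    (by simp [inM_x11, inM_y5, inM_n4, h1, h7, h8])
    (prog := [[5, 1, 1, 4, 4, 1, 4],
    [4, 0, 0],
    [4, 8, 2, 9, 5],
    [3, 9, 1, 6, 8, 2, 6, 6, 10],
    [5, 8, 2, 8, 8],
    [3, 7, 3, 13, 5, 0, 9, 4],
    [14, 17, 7, 10, 14, 13],
    [11, 11, 1, 16, 0, 8, 1, 17],
    [16, 20, 11, 14, 2, 8, 5, 0],
    [20, 19, 2, 21, 10, 14, 7, 2, 8, 6]]) (by decide +kernel) g hg).2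
  have := Subgroup.card_le_of_le h9
  rw [card_G22, hc] at this
  omega

/-- The stabiliser of two points in the group of the length-24 code has no subgroups of index 56 or 210. -/
theorem result (p q : Cfsg.GolayPt) (hpq : p ≠ q) (H : Subgroup ↥(MulAction.stabilizer Cfsg.M24 p ⊓ MulAction.stabilizer Cfsg.M24 q)) : H.index ≠ 56 ∧ H.index ≠ 210 := by
  have h1 := H.index_mul_card
  rw [card_stab_two hpq, ← Subgroup.card_map_of_injective (Subgroup.subtype_injective _)] at h1
  have h2 := Subgroup.map_subtype_le H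
  refine ⟨fun h => ?_, fun h => ?_⟩ <;> rw [h] at h1
  · obtain ⟨a, rfl, rfl⟩ := exists_smul_two pt23_ne_pt0 hpq
    exact no_7920 (cj_inv_le_of_conj (conj_mem_stab2 a _ _) h2) (by rw [card_cj]; omega)
  · obtain ⟨n, h3, h4⟩ := M22_eleven hpq h2 (by omega)
    omega

end Cfsg.Agent.S1606
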