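import Cfsg.Statements.S1607
import Cfsg.Agent.H42.Flags

set_option autoImplicit false
set_option maxRecDepth 1000000
open scoped Pointwise
open Cfsg

namespace Cfsg.Agent.S1607

open Cfsg.Agent.H42

/-- Generators. -/
def gens : List ℕ := [969028452480680629601652399308051905, 981796040480216637185113692317058115]

theorem inM_gens : ∀ g ∈ gens, inM g = true := inM_of_allL (by decide +kernel)

theorem cls : Classes (MulAction.stabilizer Cfsg.M24 (toSet oct0) ⊓ MulAction.stabilizer Cfsg.M24 (pt 23)) {x | x ∈ octads ∧ pt 23 ∈ x} (fun x => (toSet oct0 ∩ x).card)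
    (decReps toSet [(8536111, 1, 8), (8401364, 112, 2), (8391797, 140, 4)]) :=
  classes_code inM_gens (MulAction.stabilizer Cfsg.M24 (toSet oct0) ⊓ MulAction.stabilizer Cfsg.M24 (pt 23)) (fun g hg => ⟨allL_fix_set inM_gens oct0_lt (by decide +kernel) g hg, allL_fix_pt inM_gens (i := 23) (by norm_num) (by decide +kernel) g hg⟩) {x | x ∈ octads ∧ pt 23 ∈ x}
    (fun g hg x hx => ⟨(msmul_mem_octads_iff g).mpr hx.1, (smul_mem_iff_of_fix hg.2).mpr hx.2⟩)
    (fun _ h => h.1.1) (fun n => Nat.beq (pc n) 8 && tb n 23)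
    (fun n hn => by simp only [Set.mem_ofPred_eq, toSet_mem_octads_iff' hn, pt_mem_toSet (show 23 < 24 by norm_num), Bool.and_eq_true, beq_iff]) oct0 oct0_lt (fun _ h => h.1) _
    (by decide +kernel) 800 (by decide +kernel) (by decide) (by decide +kernel)

/-- The point stabiliser acts on the 253 heptads of its S(4, 7, 23) with rank 3 and subdegrees 1, 112, 140 (intersections 8, 2, 4). -/
theorem result (x : Cfsg.GolayPt) (o : Finset Cfsg.GolayPt) (ho : o ∈ Cfsg.octads) (hx : x ∈ o) : {o' : Finset Cfsg.GolayPt | o' ∈ Cfsg.octads ∧ x ∈ o' ∧ (o ∩ o').card = 2}.ncard = 112 ∧ {o' : Finset Cfsg.GolayPt | o' ∈ Cfsg.octads ∧ x ∈ o' ∧ (o ∩ o').card = 4}.ncard = 140 ∧ ∀ o' o'' : Finset Cfsg.GolayPt, o' ∈ Cfsg.octads → o'' ∈ Cfsg.octads → x ∈ o' → x ∈ o'' → (o ∩ o').card = (o ∩ o'').card → ∃ g : Equiv.Perm Cfsg.GolayPt, g ∈ Cfsg.M24 ∧ g x = x ∧ g • o = o ∧ g • o' = o'' := by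
  obtain ⟨a, rfl, rfl⟩ := exists_smul_oct0_pt ho hx
  have c := cls.transport a _ {x | x ∈ octads ∧ a • pt 23 ∈ x}
    (fun x => (a • toSet oct0 ∩ x).card) (conj_mem_stab2 a _ _)
    (fun x => by simp only [Set.mem_ofPred_eq, msmul_mem_octads_iff, msmul_mem_msmul])
    (fun x => card_msmul_inter a _ x)
  refine ⟨c.ncard_of (v := 2) (by simp [decReps]) (fun x => by simp only [Set.mem_ofPred_eq, and_assoc]),
    c.ncard_of (v := 4) (by simp [decReps]) (fun x => by simp only [Set.mem_ofPred_eq, and_assoc]),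
    fun o' o'' h1 h2 h3 h4 h => ?_⟩
  obtain ⟨g, hg, e⟩ := c.exists_smul ⟨h1, h3⟩ ⟨h2, h4⟩ h
  exact ⟨g, g.2, hg.2, hg.1, e⟩

end Cfsg.Agent.S1607
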