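import Cfsg.Statements.S1609
import Cfsg.Agent.H42.Idx3

set_option autoImplicit false
set_option maxRecDepth 1000000
open scoped Pointwise
open Cfsg

namespace Cfsg.Agent.S1609

open Cfsg.Agent.H42

/-- Subgroups of index 253 in the Mathieu group of degree 23 are exactly the duad stabilisers and the heptad stabilisers. -/
theorem result (x : Cfsg.GolayPt) (H : Subgroup ↥(MulAction.stabilizer Cfsg.M24 x)) (hH : H.index = 253) : (∃ s : Finset Cfsg.GolayPt, s.card = 2 ∧ x ∉ s ∧ H = (MulAction.stabilizer Cfsg.M24 s).subgroupOf (MulAction.stabilizer Cfsg.M24 x)) ∨ ∃ o ∈ Cfsg.octads, x ∈ o ∧ H = (MulAction.stabilizer Cfsg.M24 o).subgroupOf (MulAction.stabilizer Cfsg.M24 x) := by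
  obtain ⟨a, rfl⟩ := exists_smul_one (pt 23) x
  have h1 := H.index_mul_card
  rw [card_stab_pt, hH, ← Subgroup.card_map_of_injective (Subgroup.subtype_injective _)] at h1
  have key : ∀ s : Finset GolayPt, cj a⁻¹ (H.map (Subgroup.subtype _)) =
      G23 ⊓ MulAction.stabilizer M24 s → H = (MulAction.stabilizer M24 (a • s)).subgroupOf
        (MulAction.stabilizer M24 (a • pt 23)) := fun s h => by
    ext g
    rw [Subgroup.mem_subgroupOf, ← Subgroup.mem_map_iff_mem (Subgroup.subtype_injective _),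
      ← conj_mem_cj (k := a⁻¹), h, conj_mem_stab2 a]
    simp only [inv_inv, mul_assoc, mul_inv_cancel_left, mul_inv_cancel, mul_one, Subgroup.mem_inf,
      Subgroup.subtype_apply]
    exact and_iff_right g.2
  rcases M23_index_253 (cj_inv_le_of_conj (conj_mem_stab1 a _) (Subgroup.map_subtype_le H))
    (by rw [card_cj]; omega) with ⟨s, h2, h3, h4⟩ | ⟨o, ho, h3, h4⟩
  · exact Or.inl ⟨a • s, by rwa [Finset.card_smul_finset], by rwa [msmul_mem_msmul], key s h4⟩
  · exact Or.inr ⟨a • o, (msmul_mem_octads_iff a).mpr ho, by rwa [msmul_mem_msmul], key o h4⟩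

end Cfsg.Agent.S1609
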