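import Cfsg.Statements.S1612
import Cfsg.Agent.H50.Rank3

set_option autoImplicit false
open Cfsg

namespace Cfsg.Agent.S1612

/-- In a 3-transposition group (no solvable normal subgroup, perfect derived group), the normaliser of a commuting set of transpositions of maximum size contains a Sylow 2-subgroup and is doubly transitive on the set. -/
theorem result {G : Type*} [Group G] [Finite G] (hsol : ∀ N : Subgroup G, N.Normal → Group.IsSolvable ↥N → N = ⊥) (hperf : ⁅commutator G, commutator G⁆ = commutator G) {D : Set G} (hD : Cfsg.IsThreeTranspositionClass D) {E : Set G} (hE : E ⊆ D) (hc : ∀ a ∈ E, ∀ b ∈ E, Commute a b) (hmax : ∀ E' : Set G, E' ⊆ D → (∀ a ∈ E', ∀ b ∈ E', Commute a b) → E'.ncard ≤ E.ncard) : (∃ P : Sylow 2 G, (P : Subgroup G) ≤ Subgroup.normalizer E) ∧ ∀ a ∈ E, ∀ b ∈ E, ∀ c ∈ E, ∀ d ∈ E, a ≠ b → c ≠ d → ∃ g ∈ Subgroup.normalizer E, g * a * g⁻¹ = c ∧ g * b * g⁻¹ = d := by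
  have h := H50.Prim.of_fischer hsol hperf hD
  have hn : ∀ g : G, (∀ x ∈ E, g * x * g⁻¹ ∈ E) → g ∈ Subgroup.normalizer E := fun g hg =>
    Subgroup.mem_normalizer_fintype hg
  constructor
  · haveI : Fact (Nat.Prime 2) := ⟨Nat.prime_two⟩
    obtain ⟨S, hS⟩ := (H50.isPGroup_closure_of_commute
      (fun a ha => H50.tt_mul_self hD.1 (hE ha)) hc).exists_le_sylow
    have e : E = {x | x ∈ D ∧ x ∈ (S : Subgroup G)} := Set.eq_of_subset_of_ncard_le
      (fun x hx => ⟨hE hx, hS (Subgroup.subset_closure hx)⟩)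
      (hmax _ (fun _ h => h.1) fun a ha b hb =>
        H50.tt_commute_of_mul_mem hD.1 (by norm_num) S.isPGroup' ha.1 hb.1 (mul_mem ha.2 hb.2))
    refine ⟨S, fun g hg => hn g fun x hx => ?_⟩
    rw [e] at hx ⊢
    exact ⟨h.conj g x hx.1, mul_mem (mul_mem hg hx.2) (inv_mem hg)⟩
  · intro a ha b hb c hc' d hd hab hcd
    obtain ⟨g, rfl⟩ := H50.class_trans hD (hE ha) (hE hc')
    obtain ⟨k, hk, rfl⟩ := h.trans_Dx (hE hc') (H50.Dx_conj h.conj g b ⟨hE hb, hab.symm, hc a ha b hb⟩)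
      ⟨hE hd, hcd.symm, hc _ hc' d hd⟩
    have h1 := H50.conj_eq_iff_commute.2
      (H50.commute_of_mem_closure_perp (H50.closure_Dx_le_perp _ hk)).symm
    have e1 : k * g * a * (k * g)⁻¹ = g * a * g⁻¹ := by rw [← h1]; group
    have e2 : k * g * b * (k * g)⁻¹ = k * (g * b * g⁻¹) * k⁻¹ := by group
    obtain ⟨m, hm, hm'⟩ := H50.exists_conj_max_commuting (H50.class_group hD) hE hc hmax
      (E' := (fun x => k * g * x * (k * g)⁻¹) '' E)
      (by rintro _ ⟨x, hx, rfl⟩; exact h.conj _ _ (hE hx))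
      (by rintro _ ⟨x, hx, rfl⟩ _ ⟨y, hy, rfl⟩; exact (H50.commute_conj_iff _).2 (hc x hx y hy))
      (C := Subgroup.centralizer {g * a * g⁻¹, k * (g * b * g⁻¹) * k⁻¹})
      (fun x hx => Subgroup.mem_centralizer_iff.2 (by
        rintro _ (rfl | rfl)
        exacts [hc _ hc' x hx, hc _ hd x hx]))
      (by
        rintro _ ⟨x, hx, rfl⟩
        refine Subgroup.mem_centralizer_iff.2 ?_
        rintro _ (rfl | rfl)
        · rw [← e1]; exact (H50.commute_conj_iff _).2 (hc _ ha x hx)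
        · rw [← e2]; exact (H50.commute_conj_iff _).2 (hc _ hb x hx))
    refine ⟨m * (k * g), hn _ fun x hx => ?_, ?_, ?_⟩
    · have := hm' _ ⟨x, hx, rfl⟩
      simpa [mul_assoc] using this
    · rw [← H50.conj_eq_iff_commute.2 (Subgroup.mem_centralizer_iff.1 hm _ (Or.inl rfl)).symm, ← e1]
      group
    · rw [← H50.conj_eq_iff_commute.2 (Subgroup.mem_centralizer_iff.1 hm _ (Or.inr rfl)).symm]
      group

end Cfsg.Agent.S1612
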