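import Cfsg.Statements.S1615
import Cfsg.Agent.H50.SymFive

set_option autoImplicit false
open Cfsg

namespace Cfsg.Agent.S1615

/-- If O(⟨D_x⟩) is not central in ⟨D_x⟩ for some transposition x, the 3-transposition group is the symmetric group of degree 5. -/
theorem result {G : Type*} [Group G] [Finite G] (hsol : ∀ N : Subgroup G, N.Normal → Group.IsSolvable ↥N → N = ⊥) (hperf : ⁅commutator G, commutator G⁆ = commutator G) {D : Set G} (hD : Cfsg.IsThreeTranspositionClass D) (x : G) (hx : x ∈ D) (h : ¬ Cfsg.oddCore ↥(Subgroup.closure {y : G | y ∈ D ∧ y ≠ x ∧ Commute x y}) ≤ Subgroup.center ↥(Subgroup.closure {y : G | y ∈ D ∧ y ≠ x ∧ Commute x y})) : Nonempty (G ≃* Equiv.Perm (Fin 5)) := by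
  have hP := (H50.Prim.of_fischer hsol hperf hD).rp
  have hF := (hP.fs.Dx x).sub
  obtain ⟨u, hu, w, hw, huw, hta⟩ : ∃ u ∈ H50.Dx D x, ∃ w ∈ H50.Dx D x, u ≠ w ∧
      H50.Ta (H50.Dx D x) u w := by
    by_contra hn
    push Not at hn
    refine h ((H50.le_center_iff (H50.closure_sub (H50.Dx D x))).2 fun g hg d hd => ?_)
    have h1 := hF.conj_closure (g := g) (by rw [H50.closure_sub]; trivial) d hd
    have h2 := H50.ta_of_mul_mem hF (N := oddCore _) (fun a ha b hb hab c => by
      by_contra hne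
      have := Subgroup.orderOf_dvd_natCard _ hab
      rw [H50.tt_orderOf_mul_of_commute hF.tt ha hb c hne] at this
      exact H3.not_dvd_card_pPrimeCore 2 _ this) hd h1 (H50.mul_conj_mem (hF.sq _ hd) hg)
    by_contra hne
    exact hn _ hd _ h1 (fun e => hne (Subtype.ext e.symm)) (H50.ta_sub.1 h2)
  obtain ⟨e, -⟩ := (hP.isSym_five_of_ta hx hu hw huw hta).equiv hP.fs hD.2.2
    (H50.center_eq_bot_of_hsol hsol) (by norm_num)
  exact ⟨e⟩

end Cfsg.Agent.S1615
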