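import Cfsg.Statements.S1616
import Cfsg.Agent.H50.Uni3
import Cfsg.Agent.H84.FiConv

set_option autoImplicit false
open Cfsg

namespace Cfsg.Agent.S1616

/-- If O₂(⟨D_x⟩) is not central in ⟨D_x⟩ for some transposition x, the 3-transposition group is some Sp(2n, 2) or PSU(n, 2). -/
theorem result {G : Type*} [Group G] [Finite G] (hsol : ∀ N : Subgroup G, N.Normal → Group.IsSolvable ↥N → N = ⊥) (hperf : ⁅commutator G, commutator G⁆ = commutator G) {D : Set G} (hD : Cfsg.IsThreeTranspositionClass D) (x : G) (hx : x ∈ D) (h : ¬ Cfsg.pCore 2 ↥(Subgroup.closure {y : G | y ∈ D ∧ y ≠ x ∧ Commute x y}) ≤ Subgroup.center ↥(Subgroup.closure {y : G | y ∈ D ∧ y ≠ x ∧ Commute x y})) : (∃ n : ℕ, Nonempty (G ≃* Matrix.symplecticGroup (Fin n) (ZMod 2))) ∨ ∃ (F : Type) (_ : Field F) (_ : Fintype F) (n : ℕ), Fintype.card F = 4 ∧ Nonempty (G ≃* Cfsg.PSU n F 2) := by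
  have hp := H50.Prim.of_fischer hsol hperf hD
  have h1 := hp.rp
  have hZ := H50.center_eq_bot_of_hsol hsol
  have ht : Subgroup.closure D = ⊤ := hD.2.2
  have h0 : ∃ d ∈ D, ¬ H50.ThT (H50.Dx D d) := ⟨x, hx, fun hT => h (by
    obtain ⟨a, ha, b, hb, hab⟩ := h1.two_Dx hx
    exact (H50.pCore_two_le_center_iff ((h1.cl_Dx hx).cls ⟨a, ha⟩)
      ⟨⟨a, Subgroup.subset_closure ha⟩, ha, ⟨b, Subgroup.subset_closure hb⟩, hb,
        fun e => H50.ne_of_not_commute hab (congrArg Subtype.val e)⟩).2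
      fun a ha b hb t => Subtype.ext (hT _ ha _ hb (H50.th_sub.1 t)))⟩
  rcases h1.sp_or_u h0 with ⟨-, n, hn, h2⟩ | ⟨-, n, hn, h2⟩
  · obtain ⟨m, -, e, -⟩ := H84.isSp_equiv h2 h1.fs ht hZ (by omega)
    exact Or.inl ⟨m, ⟨e⟩⟩
  · obtain ⟨e, -⟩ := H84.isU_equiv h2 h1.fs ht hZ hn
    exact Or.inr ⟨_, _, _, n, H28.card_K4, ⟨e⟩⟩

end Cfsg.Agent.S1616
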