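import Cfsg.Statements.S1622
import Cfsg.Agent.H47.J2Model

set_option autoImplicit false
open Quaternion
open Cfsg

namespace Cfsg.Agent.S1622

/-- The reflection group is transitive on its 315 reflections by conjugation. -/
theorem result (f f' : Equiv.Perm ↥Cfsg.Spor.icoLeech) (hf : Cfsg.Spor.IsIcoReflection f) (hf' : Cfsg.Spor.IsIcoReflection f') : ∃ g ∈ Cfsg.Spor.twoJ2, g * f * g⁻¹ = f' := by
  obtain ⟨j, rfl⟩ := H47.isIcoReflection_iff_rs.1 hf
  obtain ⟨k, rfl⟩ := H47.isIcoReflection_iff_rs.1 hf'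
  obtain ⟨g, -, rfl⟩ := H47.exists_rhoR_zero j
  obtain ⟨g', -, rfl⟩ := H47.exists_rhoR_zero k
  refine ⟨g' * g⁻¹, mul_mem g'.2 (inv_mem g.2), ?_⟩
  rw [← H47.rhoR_spec, ← H47.rhoR_spec]
  simp [mul_assoc]

end Cfsg.Agent.S1622
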