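import Cfsg.Statements.S1626
import Cfsg.Agent.H46.J3Iso

set_option autoImplicit false
open scoped MatrixGroups
open Matrix
open Cfsg

namespace Cfsg.Agent.S1626

/-- Orbits of the triple cover of the third Janko group on lines of its 9-space over the field with 4 elements: the line through the first basis vector has exactly 23256 images, and the isotropic lines (nonzero v with Σ v_z³ = 0) form a single orbit. -/
theorem result (F : Type) [Field F] [Fintype F] (hF : Fintype.card F = 4) (ω : F) (hω : ω ^ 2 + ω + 1 = 0) : {L : Submodule F (Cfsg.Spor.F9 → F) | ∃ g ∈ Cfsg.Spor.threeJ3 F ω, L = F ∙ ((g : Matrix Cfsg.Spor.F9 Cfsg.Spor.F9 F) *ᵥ (Pi.single (0 : Cfsg.Spor.F9) (1 : F) : Cfsg.Spor.F9 → F))}.ncard = 23256 ∧ ∀ v w : Cfsg.Spor.F9 → F, v ≠ 0 → w ≠ 0 → ∑ z, (v z) ^ 3 = 0 → ∑ z, (w z) ^ 3 = 0 → ∃ g ∈ Cfsg.Spor.threeJ3 F ω, ∃ c : F, c ≠ 0 ∧ (g : Matrix Cfsg.Spor.F9 Cfsg.Spor.F9 F) *ᵥ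 v = c • w := by
  have h := Cfsg.Agent.H46.isF4_of_card hF hω
  refine ⟨?_, fun v w hv hw h1 h2 => Cfsg.Agent.H46.J3.isotropic_transitive h v w hv hw h1 h2⟩
  rw [← Cfsg.Agent.H46.J3.ncard_orbit_e0 h]
  congr 1
  ext L
  constructor
  · rintro ⟨g, hg, rfl⟩
    exact ⟨⟨g, hg⟩, Cfsg.Agent.H46.smul_span_singleton g _⟩
  · rintro ⟨g, rfl⟩
    exact ⟨g, g.2, Cfsg.Agent.H46.smul_span_singleton (g : GL Cfsg.Spor.F9 F) _⟩

end Cfsg.Agent.S1626
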