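import Cfsg.Statements.S1630
import Cfsg.Agent.H47.OrthGen

set_option autoImplicit false
open scoped MatrixGroups
open Cfsg

namespace Cfsg.Agent.S1630

/-- The orthogonal transvections of the minus-type orthogonal group in dimension ≥ 6 over the field with two elements form a generating conjugacy class of 3-transpositions. -/
theorem result (m : ℕ) (hm : 2 ≤ m) : Cfsg.IsThreeTranspositionClass {g : ↥(Cfsg.isometryGroup (ZMod 2) (Cfsg.quadFormMinus m (ZMod 2) 1 1)) | (((g : GL ((Fin m ⊕ Fin m) ⊕ Fin 2) (ZMod 2)) : Matrix ((Fin m ⊕ Fin m) ⊕ Fin 2) ((Fin m ⊕ Fin m) ⊕ Fin 2) (ZMod 2)) - 1).rank = 1} := by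
  rw [← H47.qMinus_coe]
  apply H47.orth_two_threeTranspositionClass _ (H47.qMinus_nondegenerate m _ 1 1 (by decide))
  · simp only [Fintype.card_sum, Fintype.card_fin]; omega
  · refine ⟨Pi.single (.inr 0) 1, ?_⟩
    rw [H47.qMinus_coe]
    simp [Cfsg.quadFormMinus]

end Cfsg.Agent.S1630
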