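import Cfsg.Statements.S1633
import Cfsg.Agent.H48.U35

set_option autoImplicit false
open Cfsg

namespace Cfsg.Agent.S1633

open Cfsg.Agent.H48 Cfsg.Agent.H42 MulAction
open scoped Pointwise

/-- The Higman–Sims group acts transitively on 352 vectors, a set closed under x ↦ −w − x, with vector stabiliser isomorphic to PSU(3, 5). -/
theorem result (v w : ↥Cfsg.leechLattice) (hv : Cfsg.sqNorm (v : Cfsg.GolayPt → ℤ) = 48) (hw : Cfsg.sqNorm (w : Cfsg.GolayPt → ℤ) = 48) (hvw : Cfsg.dotInt (v : Cfsg.GolayPt → ℤ) (w : Cfsg.GolayPt → ℤ) = -32) (F : Type) [Field F] [Fintype F] (hF : Fintype.card F = 25) : {x : ↥Cfsg.leechLattice | Cfsg.sqNorm (x : Cfsg.GolayPt → ℤ) = 32 ∧ Cfsg.dotInt (v : Cfsg.GolayPt → ℤ) (x : Cfsg.GolayPt → ℤ) = 16 ∧ Cfsg.dotInt (w : Cfsg.GolayPt → ℤ) (x : Cfsg.GolayPt → ℤ) = -24}.ncard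 = 352 ∧ (∀ x ∈ {x : ↥Cfsg.leechLattice | Cfsg.sqNorm (x : Cfsg.GolayPt → ℤ) = 32 ∧ Cfsg.dotInt (v : Cfsg.GolayPt → ℤ) (x : Cfsg.GolayPt → ℤ) = 16 ∧ Cfsg.dotInt (w : Cfsg.GolayPt → ℤ) (x : Cfsg.GolayPt → ℤ) = -24}, -w - x ∈ {x : ↥Cfsg.leechLattice | Cfsg.sqNorm (x : Cfsg.GolayPt → ℤ) = 32 ∧ Cfsg.dotInt (v : Cfsg.GolayPt → ℤ) (x : Cfsg.GolayPt → ℤ) = 16 ∧ Cfsg.dotInt (w : Cfsg.GolayPt → ℤ) (x : Cfsg.GolayPt → ℤ) = -24}) ∧ (∀ x ∈ {x : ↥Cfsg.leechLattice | Cfsg.sqNorm (x : Cfsg.GolayPt → ℤ) = 32 ∧ Cfsg.dotInt (v : Cfsg.GolayPt → ℤ) (x : Cfsg.GolayPt → ℤ) = 16 ∧ Cfsg.dotInt (w : Cfsg.GolayPt → ℤ) (x : Cfsg.GolayPt → ℤ) = -24}, ∀ x' ∈ {x : ↥Cfsg.leechLattice | Cfsg.sqNorm (x : Cfsg.GolayPt → ℤ) = 32 ∧ Cfsg.dotInt (v : Cfsg.GolayPt → ℤ) (x : Cfsg.GolayPt → ℤ) = 16 ∧ Cfsg.dotInt (w : Cfsg.GolayPt → ℤ)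 (x : Cfsg.GolayPt → ℤ) = -24}, ∃ g : ↥Cfsg.Co0, g • v = v ∧ g • w = w ∧ g • x = x') ∧ ∀ x ∈ {x : ↥Cfsg.leechLattice | Cfsg.sqNorm (x : Cfsg.GolayPt → ℤ) = 32 ∧ Cfsg.dotInt (v : Cfsg.GolayPt → ℤ) (x : Cfsg.GolayPt → ℤ) = 16 ∧ Cfsg.dotInt (w : Cfsg.GolayPt → ℤ) (x : Cfsg.GolayPt → ℤ) = -24}, Nonempty (↥(MulAction.stabilizer ↥Cfsg.Co0 v ⊓ MulAction.stabilizer ↥Cfsg.Co0 w ⊓ MulAction.stabilizer ↥Cfsg.Co0 x) ≃* Cfsg.PSU 3 F 5) := by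
  refine ⟨?_, ?_, ?_, ?_⟩
  · obtain ⟨g, rfl, rfl⟩ := hs_form hv hw hvw
    rw [hs_set352, Set.ncard_smul_set, ncard_T352]
  · rintro x ⟨h1, h2, h3⟩
    refine ⟨?_, ?_, ?_⟩
    · rw [AddSubgroup.coe_sub, AddSubgroup.coe_neg, sqNorm_sub, sqNorm_neg, dotInt_neg_left, hw, h1,
        h3]; norm_num
    · rw [AddSubgroup.coe_sub, AddSubgroup.coe_neg, dotInt_sub_right, dotInt_neg_right, hvw, h2]
      norm_num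
    · rw [AddSubgroup.coe_sub, AddSubgroup.coe_neg, dotInt_sub_right, dotInt_neg_right,
        ← sqNorm_eq_dot, hw, h3]; norm_num
  · intro x hx x' hx'
    obtain ⟨g, h1, h2, h3⟩ := hs_form352 hv hw hvw hx
    obtain ⟨k, h4, h5, h6⟩ := hs_form352 hv hw hvw hx'
    refine ⟨k * g⁻¹, ?_, ?_, ?_⟩
    · conv_lhs => rw [← h1]
      rw [mul_smul, inv_smul_smul, h4]
    · conv_lhs => rw [← h2]
      rw [mul_smul, inv_smul_smul, h5]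
    · rw [← h3, mul_smul, inv_smul_smul, h6]
  · intro x hx
    obtain ⟨g, rfl, rfl, rfl⟩ := hs_form352 hv hw hvw hx
    obtain ⟨e⟩ := U35.equiv F hF
    exact ⟨(conjEquiv g _ _ (mem_conj3 g vY vV rp1)).symm.trans
      ((MulEquiv.subgroupCongr (by rw [St_Y_V])).trans e)⟩

end Cfsg.Agent.S1633
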