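import Cfsg.Statements.S1635
import Cfsg.Agent.H42.Code

set_option autoImplicit false
set_option maxRecDepth 1000000
open Cfsg

namespace Cfsg.Agent.S1635

open Cfsg.Agent.H42

theorem ncard_words (P : (GolayPt → ZMod 2) → Prop) :
    {v | P v}.ncard = {u | P (indWord u)}.ncard := by
  rw [← Set.ncard_image_of_injective _ indWord_injective]
  congr 1
  ext v
  obtain ⟨u, rfl⟩ := exists_indWord v
  exact (indWord_injective.mem_set_image (s := {u | P (indWord u)})).symm

/-- Coset leaders of the length-24 code: a coset contains a unique word of weight ≤ 3, or else exactly six words of weight 4 and none lighter. -/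
theorem result (w : Cfsg.GolayPt → ZMod 2) : ({v : Cfsg.GolayPt → ZMod 2 | hammingNorm v ≤ 4 ∧ w - v ∈ Cfsg.golayCode}.ncard = 1 ∧ ∃ v : Cfsg.GolayPt → ZMod 2, hammingNorm v ≤ 3 ∧ w - v ∈ Cfsg.golayCode) ∨ ({v : Cfsg.GolayPt → ZMod 2 | hammingNorm v ≤ 4 ∧ w - v ∈ Cfsg.golayCode}.ncard = 6 ∧ ∀ v : Cfsg.GolayPt → ZMod 2, w - v ∈ Cfsg.golayCode → hammingNorm v ≤ 4 → hammingNorm v = 4) := by
  obtain ⟨s, rfl⟩ := exists_indWord w
  obtain ⟨t, ht, hc⟩ := exists_leader s
  have key : ∀ u, indWord s - indWord u ∈ golayCode ↔ symmDiff t u ∈ codeSets := fun u => by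
    rw [indWord_sub, ← mem_codeSets_iff, symmDiff_mem_trans hc]
  rw [ncard_words]
  simp only [hammingNorm_indWord, key]
  by_cases h3 : t.card ≤ 3
  · refine Or.inl ⟨Set.ncard_eq_one.mpr ⟨t, Set.eq_singleton_iff_unique_mem.mpr ⟨⟨ht, ?_⟩,
      fun u hu => (eq_of_symmDiff_mem hu.2 (by have := hu.1; omega)).symm⟩⟩, indWord t, ?_, ?_⟩
    · rw [symmDiff_self]
      exact empty_mem_codeSets
    · rwa [hammingNorm_indWord]
    · rw [key, symmDiff_self]
      exact empty_mem_codeSets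
  · obtain ⟨S, hS, htS⟩ := exists_sextet_mem (show t.card = 4 by omega)
    refine Or.inr ⟨?_, fun v h1 h2 => ?_⟩
    · simp only [leader_four hS htS, Finset.setOfPred_mem, Set.ncard_coe_finset, hS.1]
    · obtain ⟨u, rfl⟩ := exists_indWord v
      rw [hammingNorm_indWord] at h2 ⊢
      exact hS.2.1 u ((leader_four hS htS).mp ⟨h2, (key u).mp h1⟩)

end Cfsg.Agent.S1635
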