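import Cfsg.Statements.S1636
import Cfsg.Agent.H42.Code

set_option autoImplicit false
set_option maxRecDepth 1000000
open Cfsg

namespace Cfsg.Agent.S1636

open Cfsg.Agent.H42

/-- The punctured word of a set of points. -/
def punct (s : Finset GolayPt) : ZMod 23 → ZMod 2 := fun x => indWord s (some x)

theorem norm_punct (s : Finset GolayPt) : hammingNorm (punct s) = (s.erase none).card := by
  rw [hammingNorm, ← Finset.card_map ⟨some, Option.some_injective _⟩]
  congr 1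
  ext p
  cases p <;> simp [punct, indWord]

theorem punct_sub (s t : Finset GolayPt) : punct s - punct t = punct (symmDiff s t) := by
  ext x
  exact congrFun (indWord_sub s t) (some x)

theorem seven_le {s : Finset GolayPt} (hs : s ∈ codeSets) (h : s ≠ ∅) :
    7 ≤ hammingNorm (punct s) := by
  have h1 := card_codeSets hs
  have h2 : s.card ≠ 0 := fun e => h (Finset.card_eq_zero.mp e)
  have h3 := Finset.pred_card_le_card_erase (s := s) (a := none)
  rw [norm_punct]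
  omega

theorem eq_of_norm_lt {s t : Finset GolayPt} (hs : s ∈ codeSets) (ht : t ∈ codeSets)
    (h : hammingNorm (punct s - punct t) < 7) : s = t := by
  rw [punct_sub] at h
  by_contra e
  exact absurd (seven_le (symmDiff_mem_codeSets hs ht) fun e' => e (symmDiff_eq_bot.mp e')) (by omega)

theorem punct_injOn : Set.InjOn punct codeSets := fun s hs t ht h =>
  eq_of_norm_lt hs ht (by rw [h, sub_self, hammingNorm_zero]; norm_num)

theorem mem_iff {u : ZMod 23 → ZMod 2} :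
    (∃ w ∈ golayCode, ∀ x : ZMod 23, u x = w (some x)) ↔ ∃ s ∈ codeSets, punct s = u :=
  ⟨fun ⟨w, hw, h⟩ => by
    obtain ⟨s, rfl⟩ := exists_indWord w
    exact ⟨s, (mem_codeSets_iff s).mpr hw, (funext h).symm⟩,
   fun ⟨s, hs, h⟩ => ⟨_, (mem_codeSets_iff s).mp hs, fun x => (congrFun h x).symm⟩⟩

theorem count {k m : ℕ} (h : cnt (fun m => force (enc m) fun n =>
    Nat.beq (pc (Nat.land n 8388607)) k) 4096 = m) :
    {u : ZMod 23 → ZMod 2 | u ∈ {u : ZMod 23 → ZMod 2 | ∃ w ∈ golayCode, ∀ x : ZMod 23,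
      u x = w (some x)} ∧ hammingNorm u = k}.ncard = m := by
  have h1 : toSet 8388607 = Finset.univ.erase none := by
    rw [show 8388607 = Nat.xor (Nat.pow 2 23) 16777215 by decide +kernel, toSet_compl,
      toSet_pow (by norm_num), pt_23, Finset.compl_singleton]
  rw [← h, ← ncard_codeSets {s | s ∈ codeSets ∧ hammingNorm (punct s) = k} _ (fun _ h => h.1)
    fun n hn => by
      rw [Set.mem_ofPred_eq, norm_punct, beq_iff, ← card_toSet_inter _ (isCode_lt hn), h1,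
        Finset.inter_erase, Finset.inter_univ]
      exact and_iff_right (toSet_mem_codeSets hn),
    ← Set.InjOn.ncard_image (punct_injOn.mono fun _ h => h.1)]
  congr 1
  ext u
  simp only [Set.mem_ofPred_eq, mem_iff, Set.mem_image]
  exact ⟨fun ⟨⟨s, hs, e⟩, h⟩ => ⟨s, ⟨hs, e ▸ h⟩, e⟩, fun ⟨s, ⟨hs, h⟩, e⟩ => ⟨⟨s, hs, e⟩, e ▸ h⟩⟩

/-- The punctured length-23 code has weight distribution 0^1 7^253 8^506 11^1288 12^1288 15^506 16^253 23^1. -/
theorem result : {u : ZMod 23 → ZMod 2 | ∃ w ∈ Cfsg.golayCode, ∀ x : ZMod 23, u x = w (some x)}.ncard = 4096 ∧ {u : ZMod 23 → ZMod 2 | u ∈ {u : ZMod 23 → ZMod 2 | ∃ w ∈ Cfsg.golayCode, ∀ x : ZMod 23, u x = w (some x)} ∧ hammingNorm u = 7}.ncard = 253 ∧ {u : ZMod 23 → ZMod 2 | u ∈ {u : ZMod 23 → ZMod 2 | ∃ w ∈ Cfsg.golayCode, ∀ x : ZMod 23, u x = w (some x)} ∧ hammingNorm u = 8}.ncard = 506 ∧ {u : ZMod 23 → ZMod 2 | u ∈ {u : ZMod 23 → ZMod 2 | ∃ w ∈ Cfsg.golayCode, ∀ x : ZMod 23, u x = w (some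 x)} ∧ hammingNorm u = 11}.ncard = 1288 ∧ {u : ZMod 23 → ZMod 2 | u ∈ {u : ZMod 23 → ZMod 2 | ∃ w ∈ Cfsg.golayCode, ∀ x : ZMod 23, u x = w (some x)} ∧ hammingNorm u = 12}.ncard = 1288 ∧ {u : ZMod 23 → ZMod 2 | u ∈ {u : ZMod 23 → ZMod 2 | ∃ w ∈ Cfsg.golayCode, ∀ x : ZMod 23, u x = w (some x)} ∧ hammingNorm u = 15}.ncard = 506 ∧ {u : ZMod 23 → ZMod 2 | u ∈ {u : ZMod 23 → ZMod 2 | ∃ w ∈ Cfsg.golayCode, ∀ x : ZMod 23, u x = w (some x)} ∧ hammingNorm u = 16}.ncard = 253 ∧ ∀ u ∈ {u : ZMod 23 → ZMod 2 | ∃ w ∈ Cfsg.golayCode, ∀ x : ZMod 23, u x = w (some x)}, u ≠ 0 → 7 ≤ hammingNorm u := by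
  refine ⟨?_, count (by decide +kernel), count (by decide +kernel), count (by decide +kernel),
    count (by decide +kernel), count (by decide +kernel), count (by decide +kernel), fun u hu h => ?_⟩
  · rw [← codeSets_ncard, ← punct_injOn.ncard_image]
    congr 1
    ext u
    exact mem_iff
  · obtain ⟨s, hs, rfl⟩ := mem_iff.mp hu
    refine seven_le hs fun e => h ?_
    ext x
    simp [e, punct, indWord]

end Cfsg.Agent.S1636
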