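import Cfsg.Statements.S1637
import Cfsg.Agent.S1636

set_option autoImplicit false
set_option maxRecDepth 1000000
open Cfsg

namespace Cfsg.Agent.S1637

open Cfsg.Agent.H42

/-- The punctured length-23 code is a perfect 3-error-correcting code: each word of length 23 is within distance 3 of exactly one codeword. -/
theorem result (u : ZMod 23 → ZMod 2) : ∃! c : ZMod 23 → ZMod 2, c ∈ {u : ZMod 23 → ZMod 2 | ∃ w ∈ Cfsg.golayCode, ∀ x : ZMod 23, u x = w (some x)} ∧ hammingDist u c ≤ 3 := by
  obtain ⟨s, hs, h0⟩ : ∃ s : Finset GolayPt, S1636.punct s = u ∧ ¬ Even s.card := by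
    obtain ⟨s, e⟩ := exists_indWord fun p => Option.rec 0 u p
    have h1 : S1636.punct s = u := funext fun x => congrFun e (some x)
    by_cases h : Even s.card
    · have h2 : none ∉ s := fun h => by
        have := congrFun e none
        simp [indWord, h] at this
      refine ⟨insert none s, h1 ▸ funext fun x => by simp [S1636.punct, indWord], ?_⟩
      rw [Finset.card_insert_of_notMem h2, Nat.even_add_one]
      exact fun h' => h' h
    · exact ⟨s, h1, h⟩
  obtain ⟨t, ht, hc⟩ := exists_leader s
  have h1 := card_symmDiff_add s t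
  have h2 := card_codeSets hc
  have h3 : hammingDist u (S1636.punct (symmDiff s t)) ≤ 3 := by
    rw [hammingDist_comm, hammingDist_eq_hammingNorm, neg_add_eq_sub, ← hs, S1636.punct_sub,
      symmDiff_symmDiff_cancel_left, S1636.norm_punct]
    have := Finset.card_erase_le (s := t) (a := none)
    rw [Nat.not_even_iff] at h0
    omega
  refine ⟨_, ⟨S1636.mem_iff.mpr ⟨_, hc, rfl⟩, h3⟩, fun c h => ?_⟩
  obtain ⟨c, hc', rfl⟩ := S1636.mem_iff.mp h.1
  rw [S1636.eq_of_norm_lt hc' hc (by
    have := hammingDist_triangle_left (S1636.punct c) (S1636.punct (symmDiff s t)) u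
    have := h.2
    rw [← neg_add_eq_sub, ← hammingDist_eq_hammingNorm, hammingDist_comm]
    omega)]

end Cfsg.Agent.S1637
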