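import Cfsg.Statements.S1638
import Cfsg.Agent.H42.More

set_option autoImplicit false
set_option maxRecDepth 1000000
open scoped Pointwise
open Cfsg

namespace Cfsg.Agent.S1638

open Cfsg.Agent.H42

/-- Indicator of a proposition. -/
noncomputable def ind (P : Prop) : ℕ := @ite _ P (Classical.propDecidable P) 1 0

theorem ind_pos {P : Prop} (h : P) : ind P = 1 := if_pos h
theorem ind_neg {P : Prop} (h : ¬ P) : ind P = 0 := if_neg h
theorem ind_bool (b : Bool) : ind (b = true) = iteB b 1 0 := by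
  cases b
  · exact ind_neg (by decide)
  · exact ind_pos rfl

/-- The invariant. -/
noncomputable def inv (p q : GolayPt) (s t : Finset GolayPt) : ℕ :=
  2 * (s ∩ t).card + ind (∃ o ∈ octads, p ∈ o ∧ q ∈ o ∧ s ∪ t ⊆ o)

theorem ex_iff (p q : GolayPt) (s : Finset GolayPt) :
    (∃ o ∈ octads, p ∈ o ∧ q ∈ o ∧ s ⊆ o) ↔ ∃ o ∈ octads, {p, q} ∪ s ⊆ o := by
  simp only [Finset.union_subset_iff, Finset.insert_subset_iff, Finset.singleton_subset_iff,
    and_assoc]

theorem inv_smul (g : M24) (p q : GolayPt) (s t : Finset GolayPt) :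
    inv (g • p) (g • q) (g • s) (g • t) = inv p q s t := by
  unfold inv
  rw [card_msmul_inter, ← msmul_union, ex_iff, ex_iff, ← inOct_smul_iff g ({p, q} ∪ (s ∪ t))]
  simp only [msmul_union, Finset.smul_finset_insert, Finset.smul_finset_singleton]

/-- Generators. -/
def gens : List ℕ := [972390119736746639066502945592280128, 971572204018427766861919399916962880]

theorem inM_gens : ∀ g ∈ gens, inM g = true := inM_of_allL (by decide +kernel)

theorem pair_eq : toSet duad0 = {pt 23, pt 0} := by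
  rw [← toSet_pow (by norm_num), Finset.insert_eq, ← toSet_pow (by norm_num), ← toSet_lor]
  rfl

theorem cls : Classes (MulAction.stabilizer M24 (pt 23) ⊓ MulAction.stabilizer M24 (pt 0) ⊓
      MulAction.stabilizer M24 (toSet 6)) {t | t.card = 2 ∧ pt 23 ∉ t ∧ pt 0 ∉ t}
    (inv (pt 23) (pt 0) (toSet 6)) (decReps toSet [(6, 1, 5), (40, 30, 1), (10, 40, 3), (24, 160, 0)]) :=
  classes_set inM_gens (MulAction.stabilizer M24 (pt 23) ⊓ MulAction.stabilizer M24 (pt 0) ⊓
      MulAction.stabilizer M24 (toSet 6))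
    (fun g hg => ⟨⟨allL_fix_pt inM_gens (i := 23) (by norm_num) (by decide +kernel) g hg,
      allL_fix_pt inM_gens (i := 0) (by norm_num) (by decide +kernel) g hg⟩,
      allL_fix_set inM_gens (by norm_num) (by decide +kernel) g hg⟩)
    {t | t.card = 2 ∧ pt 23 ∉ t ∧ pt 0 ∉ t}
    (fun g hg x hx => ⟨by rw [Finset.card_smul_finset]; exact hx.1,
      fun h => hx.2.1 ((smul_mem_iff_of_fix hg.1.1).mp h),
      fun h => hx.2.2 ((smul_mem_iff_of_fix hg.1.2).mp h)⟩) _
    (fun g hg x _ => by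
      rw [← inv_smul g _ _ _ x, show g • toSet 6 = _ from hg.2, show g • pt 23 = _ from hg.1.1,
        show g • pt 0 = _ from hg.1.2])
    (fun n => Nat.ble n 16777215 && (Nat.beq (pc n) 2 && (!tb n 23 && !tb n 0)))
    (fun n => 2 * pc (Nat.land 6 n) + iteB (inOct (Nat.lor duad0 (Nat.lor 6 n))) 1 0)
    (fun n hn => by
      simp only [Bool.and_eq_true, ble_iff, beq_iff, Bool.not_eq_true'] at hn
      have h : n < 2 ^ 24 := by omega
      refine ⟨h, ⟨by rw [card_toSet h, hn.2.1], by rw [pt_mem_toSet (by norm_num), hn.2.2.1]; decide,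
        by rw [pt_mem_toSet (by norm_num), hn.2.2.2]; decide⟩, ?_⟩
      rw [inv, ex_iff, ← pair_eq, ← toSet_lor, ← toSet_lor, card_toSet_inter _ (by norm_num),
        ← inOct_iff (lor_lt duad0_lt (lor_lt (show 6 < 2 ^ 24 by norm_num) h)), ind_bool]) _ (by decide +kernel) 200 (by decide +kernel) (by decide)
    (by
      rw [show {t : Finset GolayPt | t.card = 2 ∧ pt 23 ∉ t ∧ pt 0 ∉ t} =
        {t | t.card = 2 ∧ Disjoint (toSet duad0) t} by
          ext t; simp [pair_eq], ncard_card_disjoint, card_duad0]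
      decide)

/-- Fix two points p ≠ q and a pair s of two further points. Among the pairs avoiding p, q and disjoint from s, exactly 30 lie in an octad together with p, q and s and exactly 160 do not; and any two pairs other than s that meet s in equally many points and agree on that octad property are carried to one another by an element of the group of the length-24 code fixing p, q and s. -/
theorem result (p q : Cfsg.GolayPt) (hpq : p ≠ q) (s : Finset Cfsg.GolayPt) (hs : (s.card = 2 ∧ p ∉ s ∧ q ∉ s)) : {t : Finset Cfsg.GolayPt | (t.card = 2 ∧ p ∉ t ∧ q ∉ t) ∧ Disjoint s t ∧ (∃ o ∈ Cfsg.octads, p ∈ o ∧ q ∈ o ∧ s ∪ t ⊆ o)}.ncard = 30 ∧ {t : Finset Cfsg.GolayPt | (t.card = 2 ∧ p ∉ t ∧ q ∉ t) ∧ Disjoint s t ∧ ¬ (∃ o ∈ Cfsg.octads, p ∈ o ∧ q ∈ o ∧ s ∪ t ⊆ o)}.ncard = 160 ∧ ∀ t t' : Finset Cfsg.GolayPt, (t.card = 2 ∧ p ∉ t ∧ q ∉ t) → (t'.card = 2 ∧ p ∉ t' ∧ q ∉ t') → t ≠ s → t' ≠ s → (s ∩ t).card = (s ∩ t').card → ((∃ o ∈ Cfsg.octads,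 p ∈ o ∧ q ∈ o ∧ s ∪ t ⊆ o) ↔ (∃ o ∈ Cfsg.octads, p ∈ o ∧ q ∈ o ∧ s ∪ t' ⊆ o)) → ∃ g : Equiv.Perm Cfsg.GolayPt, g ∈ Cfsg.M24 ∧ g p = p ∧ g q = q ∧ g • s = s ∧ g • t = t' := by
  obtain ⟨x, y, hxy, rfl⟩ := Finset.card_eq_two.mp hs.1
  have h1 : p ≠ x ∧ p ≠ y := by simpa using hs.2.1
  have h2 : q ≠ x ∧ q ≠ y := by simpa using hs.2.2
  obtain ⟨a, rfl, rfl, rfl, rfl⟩ := exists_smul_four (a := pt 23) (b := pt 0) (c := pt 1) (d := pt 2)
    (pt_ne (by norm_num) (by norm_num) (by norm_num)) (pt_ne (by norm_num) (by norm_num) (by norm_num))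
    (pt_ne (by norm_num) (by norm_num) (by norm_num)) (pt_ne (by norm_num) (by norm_num) (by norm_num))
    (pt_ne (by norm_num) (by norm_num) (by norm_num)) (pt_ne (by norm_num) (by norm_num) (by norm_num))
    hpq h1.1 h1.2 h2.1 h2.2 hxy
  have e : ({a • pt 1, a • pt 2} : Finset GolayPt) = a • toSet 6 := by
    rw [← Finset.smul_finset_singleton, ← Finset.smul_finset_insert, ← toSet_pow (by norm_num),
      Finset.insert_eq, ← toSet_pow (by norm_num), ← toSet_lor]
    rfl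
  rw [e]
  have c := cls.transport a _ {t | t.card = 2 ∧ a • pt 23 ∉ t ∧ a • pt 0 ∉ t}
    (inv (a • pt 23) (a • pt 0) (a • toSet 6)) (conj_mem_stab3 a _ _ _)
    (fun x => by simp only [Set.mem_ofPred_eq, Finset.card_smul_finset, msmul_mem_msmul])
    (fun x => inv_smul a _ _ _ x)
  refine ⟨c.ncard_of (v := 1) (by simp [decReps]) (fun x => ?_),
    c.ncard_of (v := 0) (by simp [decReps]) (fun x => ?_), fun U U' h1 h2 _ _ h3 h => ?_⟩
  · simp only [Set.mem_ofPred_eq, inv, Finset.disjoint_iff_inter_eq_empty, ← Finset.card_eq_zero]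
    refine and_congr_right fun _ => ⟨fun h => by rw [ind_pos h.2, h.1], fun h => ?_⟩
    by_cases h1 : ∃ o ∈ octads, a • pt 23 ∈ o ∧ a • pt 0 ∈ o ∧ a • toSet 6 ∪ x ⊆ o
    · rw [ind_pos h1] at h; exact ⟨by omega, h1⟩
    · rw [ind_neg h1] at h; omega
  · simp only [Set.mem_ofPred_eq, inv, Finset.disjoint_iff_inter_eq_empty, ← Finset.card_eq_zero]
    refine and_congr_right fun _ => ⟨fun h => by rw [ind_neg h.2, h.1], fun h => ?_⟩
    by_cases h1 : ∃ o ∈ octads, a • pt 23 ∈ o ∧ a • pt 0 ∈ o ∧ a • toSet 6 ∪ x ⊆ o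
    · rw [ind_pos h1] at h; omega
    · rw [ind_neg h1] at h; exact ⟨by omega, h1⟩
  · obtain ⟨g, hg, e⟩ := c.exists_smul h1 h2 (by rw [inv, inv, h, h3])
    exact ⟨g, g.2, hg.1.1, hg.1.2, hg.2, e⟩

end Cfsg.Agent.S1638
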