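import Cfsg.Statements.S1639
import Cfsg.Agent.H42.Flags

set_option autoImplicit false
set_option maxRecDepth 1000000
open scoped Pointwise
open Cfsg

namespace Cfsg.Agent.S1639

open Cfsg.Agent.H42

/-- Generators. -/
def gens : List ℕ := [936387645834130189017006441359279680, 317201012503038960693562680799736928]

theorem inM_gens : ∀ g ∈ gens, inM g = true := inM_of_allL (by decide +kernel)

theorem cls : Classes (MulAction.stabilizer Cfsg.M24 (toSet dod0) ⊓ MulAction.stabilizer Cfsg.M24 (pt 0)) {x | x ∈ dodecads ∧ pt 0 ∈ x} (fun x => (toSet dod0 ∩ x).card)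
    (decReps toSet [(340831, 1, 12), (1727659, 165, 4), (28637, 330, 8), (195645, 792, 6)]) :=
  classes_code inM_gens (MulAction.stabilizer Cfsg.M24 (toSet dod0) ⊓ MulAction.stabilizer Cfsg.M24 (pt 0)) (fun g hg => ⟨allL_fix_set inM_gens dod0_lt (by decide +kernel) g hg, allL_fix_pt inM_gens (i := 0) (by norm_num) (by decide +kernel) g hg⟩) {x | x ∈ dodecads ∧ pt 0 ∈ x}
    (fun g hg x hx => ⟨(msmul_mem_dodecads_iff g).mpr hx.1, (smul_mem_iff_of_fix hg.2).mpr hx.2⟩)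
    (fun _ h => h.1.1) (fun n => Nat.beq (pc n) 12 && tb n 0)
    (fun n hn => by simp only [Set.mem_ofPred_eq, toSet_mem_dodecads_iff' hn, pt_mem_toSet (show 0 < 24 by norm_num), Bool.and_eq_true, beq_iff]) dod0 dod0_lt (fun _ h => h.1) _
    (by decide +kernel) 1300 (by decide +kernel) (by decide) (by decide +kernel)

/-- The point stabiliser acts on the 1288 dodecads through the point with rank 4 and subdegrees 1, 165, 330, 792, distinguished by intersection 4, 8, 6 with the fixed dodecad. -/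
theorem result (x : Cfsg.GolayPt) (d : Finset Cfsg.GolayPt) (hd : d ∈ Cfsg.dodecads) (hx : x ∈ d) : {d' : Finset Cfsg.GolayPt | d' ∈ Cfsg.dodecads ∧ x ∈ d' ∧ (d ∩ d').card = 4}.ncard = 165 ∧ {d' : Finset Cfsg.GolayPt | d' ∈ Cfsg.dodecads ∧ x ∈ d' ∧ (d ∩ d').card = 8}.ncard = 330 ∧ {d' : Finset Cfsg.GolayPt | d' ∈ Cfsg.dodecads ∧ x ∈ d' ∧ (d ∩ d').card = 6}.ncard = 792 ∧ ∀ d' d'' : Finset Cfsg.GolayPt, d' ∈ Cfsg.dodecads → d'' ∈ Cfsg.dodecads → x ∈ d' → x ∈ d'' → (d ∩ d').card = (d ∩ d'').card → ∃ g : Equiv.Perm Cfsg.GolayPt, g ∈ Cfsg.M24 ∧ g x = x ∧ g • d = d ∧ g • d' = d'' := by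
  obtain ⟨a, rfl, rfl⟩ := exists_smul_dod0_pt hd hx
  have c := cls.transport a _ {x | x ∈ dodecads ∧ a • pt 0 ∈ x}
    (fun x => (a • toSet dod0 ∩ x).card) (conj_mem_stab2 a _ _)
    (fun x => by simp only [Set.mem_ofPred_eq, msmul_mem_dodecads_iff, msmul_mem_msmul])
    (fun x => card_msmul_inter a _ x)
  refine ⟨c.ncard_of (v := 4) (by simp [decReps]) (fun x => by simp only [Set.mem_ofPred_eq, and_assoc]),
    c.ncard_of (v := 8) (by simp [decReps]) (fun x => by simp only [Set.mem_ofPred_eq, and_assoc]),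
    c.ncard_of (v := 6) (by simp [decReps]) (fun x => by simp only [Set.mem_ofPred_eq, and_assoc]),
    fun o' o'' h1 h2 h3 h4 h => ?_⟩
  obtain ⟨g, hg, e⟩ := c.exists_smul ⟨h1, h3⟩ ⟨h2, h4⟩ h
  exact ⟨g, g.2, hg.2, hg.1, e⟩

end Cfsg.Agent.S1639
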