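import Cfsg.Statements.S1640
import Cfsg.Agent.H48.Config

set_option autoImplicit false
open Cfsg

namespace Cfsg.Agent.S1640

open Cfsg.Agent.H48 Cfsg.Agent.H42 MulAction
open scoped Pointwise

/-- The stabiliser of a vector of customary norm 6 is transitive on the 11178 minimal vectors of customary inner product −2 with it. -/
theorem result (u : ↥Cfsg.leechLattice) (hu : Cfsg.sqNorm (u : Cfsg.GolayPt → ℤ) = 48) : {x : ↥Cfsg.leechLattice | Cfsg.sqNorm (x : Cfsg.GolayPt → ℤ) = 32 ∧ Cfsg.dotInt (u : Cfsg.GolayPt → ℤ) (x : Cfsg.GolayPt → ℤ) = -16}.ncard = 11178 ∧ ∀ x ∈ {x : ↥Cfsg.leechLattice | Cfsg.sqNorm (x : Cfsg.GolayPt → ℤ) = 32 ∧ Cfsg.dotInt (u : Cfsg.GolayPt → ℤ) (x : Cfsg.GolayPt → ℤ) = -16}, ∀ x' ∈ {x : ↥Cfsg.leechLattice | Cfsg.sqNorm (x : Cfsg.GolayPt → ℤ) = 32 ∧ Cfsg.dotInt (u : Cfsg.GolayPt → ℤ) (x : Cfsg.GolayPt → ℤ) = -16},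 ∃ g : ↥Cfsg.Co0, g • u = u ∧ g • x = x' := by
  refine ⟨(ncard_Cut_48 hu _).trans ncard_T11178, fun x hx x' hx' => ?_⟩
  obtain ⟨g, h1, h2⟩ := pair16 hu hx.1 hx.2
  obtain ⟨k, h3, h4⟩ := pair16 hu hx'.1 hx'.2
  refine ⟨k * g⁻¹, ?_, ?_⟩
  · conv_lhs => rw [← h1]
    rw [mul_smul, inv_smul_smul, h3]
  · rw [← h2, mul_smul, inv_smul_smul, h4]

end Cfsg.Agent.S1640
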