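import Cfsg.Statements.S1641
import Cfsg.Agent.H48.Config

set_option autoImplicit false
open Cfsg

namespace Cfsg.Agent.S1641

open Cfsg.Agent.H48 Cfsg.Agent.H42 MulAction
open scoped Pointwise

/-- The third Conway group acts on the 11178 cosets of the Higman–Sims group with rank 5 and subdegrees 1, 352, 1100, 4125, 5600. -/
theorem result (u x : ↥Cfsg.leechLattice) (hu : Cfsg.sqNorm (u : Cfsg.GolayPt → ℤ) = 48) (hx : x ∈ {x : ↥Cfsg.leechLattice | Cfsg.sqNorm (x : Cfsg.GolayPt → ℤ) = 32 ∧ Cfsg.dotInt (u : Cfsg.GolayPt → ℤ) (x : Cfsg.GolayPt → ℤ) = -16}) : ∃ y₁ ∈ {x : ↥Cfsg.leechLattice | Cfsg.sqNorm (x : Cfsg.GolayPt → ℤ) = 32 ∧ Cfsg.dotInt (u : Cfsg.GolayPt → ℤ) (x : Cfsg.GolayPt → ℤ) = -16}, ∃ y₂ ∈ {x : ↥Cfsg.leechLattice | Cfsg.sqNorm (x : Cfsg.GolayPt → ℤ) = 32 ∧ Cfsg.dotInt (u : Cfsg.GolayPt → ℤ) (x : Cfsg.GolayPt → ℤ) = -16}, ∃ y₃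 ∈ {x : ↥Cfsg.leechLattice | Cfsg.sqNorm (x : Cfsg.GolayPt → ℤ) = 32 ∧ Cfsg.dotInt (u : Cfsg.GolayPt → ℤ) (x : Cfsg.GolayPt → ℤ) = -16}, ∃ y₄ ∈ {x : ↥Cfsg.leechLattice | Cfsg.sqNorm (x : Cfsg.GolayPt → ℤ) = 32 ∧ Cfsg.dotInt (u : Cfsg.GolayPt → ℤ) (x : Cfsg.GolayPt → ℤ) = -16}, (MulAction.orbit ↥(MulAction.stabilizer ↥Cfsg.Co0 u ⊓ MulAction.stabilizer ↥Cfsg.Co0 x) y₁).ncard = 352 ∧ (MulAction.orbit ↥(MulAction.stabilizer ↥Cfsg.Co0 u ⊓ MulAction.stabilizer ↥Cfsg.Co0 x) y₂).ncard = 1100 ∧ (MulAction.orbit ↥(MulAction.stabilizer ↥Cfsg.Co0 u ⊓ MulAction.stabilizer ↥Cfsg.Co0 x) y₃).ncard = 4125 ∧ (MulAction.orbit ↥(MulAction.stabilizer ↥Cfsg.Co0 u ⊓ MulAction.stabilizer ↥Cfsg.Co0 x) y₄).ncard = 5600 ∧ {x : ↥Cfsg.leechLattice | Cfsg.sqNorm (x : Cfsg.GolayPt → ℤ) = 32 ∧ Cfsg.dotInt (u : Cfsg.GolayPt → ℤ) (x : Cfsg.GolayPt → ℤ) = -16} = {x} ∪ MulAction.orbit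 ↥(MulAction.stabilizer ↥Cfsg.Co0 u ⊓ MulAction.stabilizer ↥Cfsg.Co0 x) y₁ ∪ MulAction.orbit ↥(MulAction.stabilizer ↥Cfsg.Co0 u ⊓ MulAction.stabilizer ↥Cfsg.Co0 x) y₂ ∪ MulAction.orbit ↥(MulAction.stabilizer ↥Cfsg.Co0 u ⊓ MulAction.stabilizer ↥Cfsg.Co0 x) y₃ ∪ MulAction.orbit ↥(MulAction.stabilizer ↥Cfsg.Co0 u ⊓ MulAction.stabilizer ↥Cfsg.Co0 x) y₄ := by
  obtain ⟨g, rfl, rfl⟩ := pair16 hu hx.1 hx.2
  have e : {x : ↥Cfsg.leechLattice | Cfsg.sqNorm (x : Cfsg.GolayPt → ℤ) = 32 ∧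
      Cfsg.dotInt ((g • vV : Lam) : Cfsg.GolayPt → ℤ) (x : Cfsg.GolayPt → ℤ) = -16} =
      g • T11178 := by rw [smul_Cut, smul_Mn]; rfl
  rw [e]
  have h := cls_HS_11178
  refine ⟨g • rp6, Set.smul_mem_smul_set (h.mem (r := (rp6, 352, 56)) (by simp)),
    g • rp9, Set.smul_mem_smul_set (h.mem (r := (rp9, 1100, 80)) (by simp)),
    g • rp7, Set.smul_mem_smul_set (h.mem (r := (rp7, 4125, 64)) (by simp)),
    g • rp8, Set.smul_mem_smul_set (h.mem (r := (rp8, 5600, 72)) (by simp)), ?_⟩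
  simp only [orbit_stab_inf_smul, Set.ncard_smul_set]
  refine ⟨h.ncard_orbit (r := (rp6, 352, 56)) (by simp),
    h.ncard_orbit (r := (rp9, 1100, 80)) (by simp),
    h.ncard_orbit (r := (rp7, 4125, 64)) (by simp),
    h.ncard_orbit (r := (rp8, 5600, 72)) (by simp), ?_⟩
  rw [← Set.smul_set_singleton, ← Set.smul_set_union, ← Set.smul_set_union, ← Set.smul_set_union,
    ← Set.smul_set_union, (orbit_cut h rp6 352 56 (-8)).1, (orbit_cut h rp9 1100 80 16).1,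
    (orbit_cut h rp7 4125 64 0).1, (orbit_cut h rp8 5600 72 8).1]
  congr 1
  ext y
  simp only [Set.mem_union, Set.mem_singleton_iff, mem_Cut (T := T11178)]
  constructor
  · intro hy
    have h3 := cls_dot h hy
    simp only [List.map_cons, List.map_nil, List.mem_cons, List.not_mem_nil, or_false] at h3
    by_cases h4 : Cfsg.dotInt vU'.1 y.1 = 32
    · exact Or.inl (Or.inl (Or.inl (Or.inl (eq_of_dot sqNorm_leechU' hy.1 h4))))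
    · simp only [hy, true_and, or_assoc]
      right
      omega
  · rintro ((((rfl | h) | h) | h) | h)
    exacts [cls_HS_11178.mem (r := (vU', 1, 96)) (by simp), h.1, h.1, h.1, h.1]

end Cfsg.Agent.S1641
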