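import Cfsg.Statements.S1642
import Cfsg.Agent.H48.Config

set_option autoImplicit false
open Cfsg

namespace Cfsg.Agent.S1642

open Cfsg.Agent.H48 Cfsg.Agent.H42 MulAction
open scoped Pointwise

/-- Some involution of the Higman–Sims group acts without fixed points on its 100 points. -/
theorem result (v w : ↥Cfsg.leechLattice) (hv : Cfsg.sqNorm (v : Cfsg.GolayPt → ℤ) = 48) (hw : Cfsg.sqNorm (w : Cfsg.GolayPt → ℤ) = 48) (hvw : Cfsg.dotInt (v : Cfsg.GolayPt → ℤ) (w : Cfsg.GolayPt → ℤ) = -32) : ∃ g : ↥Cfsg.Co0, g • v = v ∧ g • w = w ∧ orderOf g = 2 ∧ ∀ x ∈ {x : ↥Cfsg.leechLattice | Cfsg.sqNorm (x : Cfsg.GolayPt → ℤ) = 32 ∧ Cfsg.dotInt (v : Cfsg.GolayPt → ℤ) (x : Cfsg.GolayPt → ℤ) = 24 ∧ Cfsg.dotInt (w : Cfsg.GolayPt → ℤ) (x : Cfsg.GolayPt → ℤ) = -24}, g • x ≠ x := by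
  have hs : ∀ x : Lam, (∀ i, i ∉ qrSet 0 → x.1 i = 0) → signEl _ (isWord_qrSet 0).compl • x = x := by
    intro x hx
    apply Subtype.ext; funext i
    rw [signEl_apply]
    split_ifs with h
    · rw [hx i (Finset.mem_compl.1 h)]; rfl
    · rfl
  let v0 : Lam := twoInd _ (isWord_qrSet 0)
  let w0 : Lam := e44 (some 0) (some 1) 4 (Or.inl rfl) - v0
  obtain ⟨a, rfl, rfl⟩ := hs_form hv hw hvw
  obtain ⟨b, h1, h2⟩ := hs_form (v := v0) (w := w0) (by decide +kernel) (by decide +kernel)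
    (by decide +kernel)
  have e1 : a • vY = (a * b⁻¹) • v0 := by rw [← h1, mul_smul, inv_smul_smul]
  have e2 : a • vV = (a * b⁻¹) • w0 := by rw [← h2, mul_smul, inv_smul_smul]
  rw [e1, e2]
  generalize a * b⁻¹ = g
  have hne : signEl _ (isWord_qrSet 0).compl ≠ 1 := by
    rw [← signEl_empty]
    intro h
    exact absurd (signEl_inj h) (by decide +kernel)
  refine ⟨g * signEl _ (isWord_qrSet 0).compl * g⁻¹, conj_map g (hs _ (by decide +kernel)),
    conj_map g (hs _ (by decide +kernel)), ?_, ?_⟩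
  · apply orderOf_eq_prime
    · rw [conj_pow, sq, signEl_mul_self, mul_one, mul_inv_cancel]
    · intro h
      exact hne (by simpa using h)
  · intro x hx h
    obtain ⟨y, rfl⟩ : ∃ y : Lam, x = g • y := ⟨g⁻¹ • x, (smul_inv_smul _ _).symm⟩
    rw [mul_smul, mul_smul, inv_smul_smul, smul_left_cancel_iff] at h
    have h3 := hx.2.1
    rw [co_dot] at h3
    have h4 : ∀ i, i ∉ qrSet 0 → y.1 i = 0 := by
      intro i hi
      have := congrArg (fun z : Lam => z.1 i) h
      simp only [signEl_apply, if_pos (Finset.mem_compl.2 hi)] at this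
      omega
    have h5 := (evenCond_of y.2 none (by rw [h4 _ (by decide +kernel)]; rfl)).2.1
    have h6 : Cfsg.dotInt v0.1 y.1 = 2 * ∑ i, y.1 i := by
      rw [Finset.mul_sum]
      apply Finset.sum_congr rfl
      intro i _
      by_cases hi : i ∈ qrSet 0
      · exact congrArg (· * y.1 i) (if_pos hi)
      · rw [h4 i hi, mul_zero, mul_zero]
    omega

end Cfsg.Agent.S1642
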