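import Cfsg.Statements.S1643
import Cfsg.Agent.H42.Idx3

set_option autoImplicit false
set_option maxRecDepth 1000000
open scoped Pointwise
open Cfsg

namespace Cfsg.Agent.S1643

open Cfsg.Agent.H42

open MulAction

/-- Multiplication by 2. -/
def m2 : ℕ := 983435072843990828779021698901151808

theorem inM_m2 : inM m2 = true := by decide +kernel

instance fact23 : Fact (Nat.Prime 23) := ⟨by norm_num⟩

theorem orderOf_x : orderOf (toM gShift) = 23 :=
  orderOf_toM_prime inM_gShift (by decide +kernel) (by decide +kernel)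

theorem inM_B : ∀ g ∈ [gShift, m2], inM g = true := inM_of_allL (by decide +kernel)

theorem inM_L : ∀ g ∈ [gShift, gInv, m2], inM g = true := inM_of_allL (by decide +kernel)

theorem card_B : Nat.card (gen [gShift, m2]) = 253 :=
  card_gen_of_orbSize inM_B (fuel := 260) (by norm_num) (by decide +kernel)

theorem card_L : Nat.card (gen [gShift, gInv, m2]) = 6072 :=
  card_gen_of_orbSize inM_L (fuel := 6100) (by norm_num) (by decide +kernel)

theorem B_le_G23 : gen [gShift, m2] ≤ G23 :=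
  gen_le G23 (allL_fix_pt inM_B (by norm_num) (by decide +kernel))

theorem x_mem_B : toM gShift ∈ gen [gShift, m2] := toM_mem_gen (by simp)

theorem B_le_L : gen [gShift, m2] ≤ gen [gShift, gInv, m2] :=
  gen_le _ fun g hg => toM_mem_gen (by
    rcases List.mem_pair.mp hg with rfl | rfl <;> simp)

theorem card_23 {H : Subgroup M24} (hH : H ≤ G23) (hx : toM gShift ∈ H) :
    Nat.card H = 23 * Nat.card ↥(H ⊓ stabilizer M24 (pt 0)) := by
  rw [card_eq_orbF_mul H (pt 0)]
  congr 1
  refine le_antisymm ?_ ?_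
  · have : orbF H (pt 0) ⊆ {pt 23}ᶜ := fun q hq => by
      obtain ⟨h, h1, rfl⟩ := mem_orbF.mp hq
      rw [Finset.mem_compl, Finset.mem_singleton]
      exact fun e => pt23_ne_pt0 (smul_left_cancel h ((hH h1).trans e.symm))
    have := Finset.card_le_card this
    rwa [Finset.card_compl, card_pt, Finset.card_singleton] at this
  · rw [card_orbF]
    have := encPt.orbSize_le (gens := [gShift]) (fun g hg => by rw [List.mem_singleton.mp hg]; exact inM_gShift)
      H (fun g hg => by rw [List.mem_singleton.mp hg]; exact hx) (x0 := 0) (by show 0 < 24; norm_num) 30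
    rwa [show orbSize (actsOf encPt.act [gShift]) 0 30 = 23 by decide +kernel] at this

theorem card_24 {H : Subgroup M24} (hH : gen [gShift, gInv, m2] ≤ H) :
    Nat.card H = 24 * Nat.card ↥(H ⊓ G23) := by
  rw [card_eq_orbF_mul H (pt 23)]
  congr 1
  refine le_antisymm ((Finset.card_le_univ _).trans card_pt.le) ?_
  rw [card_orbF]
  have := encPt.orbSize_le (gens := [gShift, gInv, m2]) inM_L H (fun g hg => hH (toM_mem_gen hg))
    (x0 := 23) (by show 23 < 24; norm_num) 30
  rwa [show orbSize (actsOf encPt.act [gShift, gInv, m2]) 23 30 = 24 by decide +kernel] at this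

theorem x_smul {i : ℕ} (hi : i < 22) : toM gShift • pt i = pt (i + 1) := by
  rw [toM_smul_pt inM_gShift (by omega), beq_iff.mp (of_allB
    (show allB (fun i => Nat.beq (app gShift i) (i + 1)) 22 = true by decide +kernel) hi)]

theorem eq_one_of_fix {g : M24} (h : g ∈ Subgroup.normalizer (Subgroup.zpowers (toM gShift) : Set M24))
    (h0 : g • pt 0 = pt 0) (h1 : g • pt 1 = pt 1) (h23 : g • pt 23 = pt 23) : g = 1 := by
  rw [mem_normalizer_zpowers, ← gen_singleton] at h
  obtain ⟨y, hy, e, h2⟩ := forall_gen (gens := [gShift])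
    (fun g hg => by rw [List.mem_singleton.mp hg]; exact inM_gShift) (fuel := 30)
    (p := fun y => Bool.or (Nat.beq y gShift) (!Nat.beq (app y 0) 1)) (by decide +kernel) h
  have h3 : app y 0 = 1 := by
    refine pt_inj (app_lt_of_isPerm (inM_isPerm hy) (by norm_num)) (by norm_num) ?_
    rw [← toM_smul_pt hy (by norm_num), e, mul_smul, mul_smul, inv_smul_eq_iff.mpr h0.symm,
      x_smul (by norm_num), h1]
  rw [h3] at h2
  rw [beq_iff.mp ((Bool.or_false _).symm.trans h2), eq_mul_inv_iff_mul_eq] at e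
  have h4 : ∀ i < 23, g • pt i = pt i := fun i hi => by
    induction i with
    | zero => exact h0
    | succ i ih => rw [← x_smul (by omega), ← mul_smul, ← e, mul_smul, ih (by omega)]
  refine M24_eq_one (forall_pt.mpr fun i hi => ?_)
  rcases Nat.lt_succ_iff_lt_or_eq.mp hi with hi | rfl
  exacts [h4 i hi, h23]

theorem B_le_N : gen [gShift, m2] ≤ G23 ⊓ Subgroup.normalizer (Subgroup.zpowers (toM gShift) : Set M24) :=
  le_inf B_le_G23 (gen_le _ fun g hg => by
    rcases List.mem_pair.mp hg with rfl | rfl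
    · exact Subgroup.le_normalizer (Subgroup.mem_zpowers _)
    · rw [mem_normalizer_zpowers, ← toM_pconj inM_m2 inM_gShift,
        show pconj m2 gShift = ppow gShift 2 by decide +kernel, toM_ppow inM_gShift]
      exact Subgroup.npow_mem_zpowers _ _)

theorem card_N : Nat.card ↥(G23 ⊓ Subgroup.normalizer (Subgroup.zpowers (toM gShift) : Set M24)) = 253 := by
  generalize hN : G23 ⊓ Subgroup.normalizer (Subgroup.zpowers (toM gShift) : Set M24) = N
  have hB : gen [gShift, m2] ≤ N := hN ▸ B_le_N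
  have h1 := card_23 (H := N) (hN ▸ inf_le_left) (hB x_mem_B)
  have h2 := Subgroup.card_dvd_of_le hB
  have h3 : N ⊓ stabilizer M24 (pt 0) ≤ G22 := inf_le_inf_right _ (hN ▸ inf_le_left)
  have h4 := card_le_ncard_mul (N ⊓ stabilizer M24 (pt 0)) (pt 1)
    (({pt 23, pt 0}ᶜ : Finset GolayPt) : Set GolayPt) (Finset.finite_toSet _) fun g hg => by
      rw [Finset.mem_coe, Finset.mem_compl, Finset.mem_insert, Finset.mem_singleton, not_or]
      exact ⟨fun e => pt23_ne_pt1 (smul_left_cancel g ((h3 hg).1.trans e.symm)),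
        fun e => pt0_ne_pt1 (smul_left_cancel g ((h3 hg).2.trans e.symm))⟩
  have h5 : N ⊓ stabilizer M24 (pt 0) ⊓ stabilizer M24 (pt 1) = ⊥ :=
    (Subgroup.eq_bot_iff_forall _).mpr fun g hg =>
      eq_one_of_fix (hN ▸ hg.1.1 : g ∈ G23 ⊓ Subgroup.normalizer _).2 hg.1.2 hg.2 (h3 hg.1).1
  rw [h5, Subgroup.card_bot, ncard_compl_finset, Finset.card_pair pt23_ne_pt0] at h4
  rw [card_B, h1] at h2
  obtain ⟨n, h6, h7⟩ := M22_eleven pt23_ne_pt0 h3 (Nat.dvd_of_mul_dvd_mul_left (k := 23) (by norm_num) h2)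
  omega

theorem max_B {H : Subgroup M24} (hB : gen [gShift, m2] ≤ H) (hH : H ≤ G23) :
    Nat.card H = 253 ∨ Nat.card H = 10200960 := by
  obtain ⟨n, h1, h2⟩ := sylow_count (p := 23) (a := 1) H (Subgroup.zpowers (toM gShift))
    (Subgroup.zpowers_le_of_mem (hB x_mem_B)) (by rw [Nat.card_zpowers, orderOf_x, pow_one])
    fun h => absurd (h.trans (Subgroup.card_dvd_of_le hH)) (by rw [card_G23]; norm_num)
  have h3 : H ⊓ Subgroup.normalizer (Subgroup.zpowers (toM gShift) : Set M24) = gen [gShift, m2] :=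
    (Subgroup.eq_of_le_of_card_ge (le_inf hB (B_le_N.trans inf_le_right))
      ((Subgroup.card_le_of_le (inf_le_inf_right _ hH)).trans (by rw [card_N, card_B]))).symm
  rw [h3, card_B] at h2
  have h4 := card_23 hH (hB x_mem_B)
  have h5 := Subgroup.card_dvd_of_le hH
  rw [card_G23, h2] at h5
  have h6 : n ∣ 40320 := Nat.dvd_of_mul_dvd_mul_right (k := 253) (by norm_num) h5
  obtain ⟨k, h7, h8⟩ := M22_eleven pt23_ne_pt0 (inf_le_inf_right (stabilizer M24 (pt 0)) hH)
    ⟨n, by omega⟩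
  have h9 := of_allB (show allB (fun j => force (23 * j + 1) fun n => Bool.or (!Nat.beq (40320 % n) 0)
    (Bool.or (Bool.or (Nat.beq n 1) (Nat.beq n 40320)) (Bool.and (!Nat.beq (n % 11) 1)
      (Bool.or (!Nat.beq (n % 5) 0) (!Nat.beq (n % 11) 5))))) 1754 = true by decide +kernel)
    (i := n / 23) (by have := Nat.le_of_dvd (by norm_num) h6; omega)
  rw [force_eq, show 23 * (n / 23) + 1 = n by omega, Nat.mod_eq_zero_of_dvd h6] at h9
  simp only [Bool.or_eq_true, Bool.and_eq_true, Bool.not_eq_true', beq_iff, beq_false_iff] at h9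
  omega

theorem mulLeft_mem {u : (ZMod 23)ˣ} (hu : IsSquare u) :
    ∃ k, toPerm (ppow m2 k) = Equiv.optionCongr (Units.mulLeft u) := by
  obtain ⟨r, rfl⟩ := hu
  obtain ⟨k, hk⟩ := (show ∀ a : ZMod 23, a ≠ 0 → ∃ k : Fin 11, app (ppow m2 k) 23 = 23 ∧
    ∀ t : ZMod 23, pt (app (ppow m2 k) (idx (some t))) = some (a * a * t) by decide +kernel) r r.ne_zero
  refine ⟨k, toPerm_eq_of_forall (isPerm_ppow (inM_isPerm inM_m2) _) _ fun p => ?_⟩
  cases p with
  | none => exact congrArg pt hk.1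
  | some t => exact hk.2 t

theorem closure_eq (l : List ℕ) (hl : ∀ g ∈ l, inM g = true) (hm : m2 ∈ l) (S : Set (Equiv.Perm GolayPt))
    (h1 : ∀ σ ∈ S, ∃ g ∈ l, toPerm g = σ) (h2 : ∀ g ∈ l, g = m2 ∨ toPerm g ∈ S) :
    Subgroup.closure (S ∪ {g : Equiv.Perm GolayPt | ∃ u : (ZMod 23)ˣ, IsSquare u ∧
      g = Equiv.optionCongr (Units.mulLeft u)}) = (gen l).map M24.subtype := by
  refine le_antisymm ((Subgroup.closure_le _).mpr ?_) (Subgroup.map_le_iff_le_comap.mpr
    (gen_le _ fun g hg => Subgroup.subset_closure ?_))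
  · rintro σ (h | ⟨u, hu, rfl⟩)
    · obtain ⟨g, hg, rfl⟩ := h1 σ h
      exact ⟨toM g, toM_mem_gen hg, coe_toM (hl g hg)⟩
    · obtain ⟨k, hk⟩ := mulLeft_mem hu
      exact ⟨toM (ppow m2 k), toM_ppow inM_m2 k ▸ pow_mem (toM_mem_gen hm) k,
        (coe_toM (inM_ppow inM_m2 k)).trans hk⟩
  · rw [Subgroup.coe_subtype, coe_toM (hl g hg)]
    rcases h2 g hg with rfl | h
    · refine Or.inr ⟨Units.mkOfMulEqOne 5 14 (by decide) * Units.mkOfMulEqOne 5 14 (by decide),
        ⟨_, rfl⟩, toPerm_eq_of_forall (inM_isPerm inM_m2) _ (by decide +kernel)⟩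
    · exact Or.inl h

theorem map_subgroupOf (H : Subgroup M24) : (H.map M24.subtype).subgroupOf M24 = H :=
  Subgroup.comap_map_eq_self_of_injective M24.subtype_injective H

/-- PSL(2, 23) = ⟨t ↦ t+1, t ↦ u t (u square), t ↦ −1/t⟩ is maximal of order 6072 in the group of the length-24 code, and its point stabiliser 23:11 (order 253) is maximal in the Mathieu group of degree 23. -/
theorem result : (Subgroup.closure ({Equiv.optionCongr (Equiv.addRight (1 : ZMod 23)), Cfsg.projInv} ∪ {g : Equiv.Perm Cfsg.GolayPt | ∃ u : (ZMod 23)ˣ, IsSquare u ∧ g = Equiv.optionCongr (Units.mulLeft u)}) ≤ Cfsg.M24 ∧ Nat.card ↥(Subgroup.closure ({Equiv.optionCongr (Equiv.addRight (1 : ZMod 23)), Cfsg.projInv} ∪ {g : Equiv.Perm Cfsg.GolayPt | ∃ u : (ZMod 23)ˣ, IsSquare u ∧ g = Equiv.optionCongr (Units.mulLeft u)})) = 6072 ∧ IsCoatom ((Subgroup.closure ({Equiv.optionCongr (Equiv.addRight (1 : ZMod 23)), Cfsg.projInv} ∪ {g : Equiv.Perm Cfsg.GolayPt | ∃ u : (ZMod 23)ˣ, IsSquare u ∧ g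 = Equiv.optionCongr (Units.mulLeft u)})).subgroupOf Cfsg.M24)) ∧ (Subgroup.closure ({Equiv.optionCongr (Equiv.addRight (1 : ZMod 23))} ∪ {g : Equiv.Perm Cfsg.GolayPt | ∃ u : (ZMod 23)ˣ, IsSquare u ∧ g = Equiv.optionCongr (Units.mulLeft u)}) ≤ Cfsg.M24 ⊓ MulAction.stabilizer (Equiv.Perm Cfsg.GolayPt) (none : Cfsg.GolayPt) ∧ Nat.card ↥(Subgroup.closure ({Equiv.optionCongr (Equiv.addRight (1 : ZMod 23))} ∪ {g : Equiv.Perm Cfsg.GolayPt | ∃ u : (ZMod 23)ˣ, IsSquare u ∧ g = Equiv.optionCongr (Units.mulLeft u)})) = 253 ∧ IsCoatom (((Subgroup.closure ({Equiv.optionCongr (Equiv.addRight (1 : ZMod 23))} ∪ {g : Equiv.Perm Cfsg.GolayPt | ∃ u : (ZMod 23)ˣ, IsSquare u ∧ g = Equiv.optionCongr (Units.mulLeft u)})).subgroupOf Cfsg.M24).subgroupOf (MulAction.stabilizer Cfsg.M24 (none : Cfsg.GolayPt)))) := by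
  rw [closure_eq [gShift, gInv, m2] inM_L (by simp) _ (by simp [toPerm_gShift, toPerm_gInv])
      (by simp [toPerm_gShift, toPerm_gInv]),
    closure_eq [gShift, m2] inM_B (by simp) _ (by simp [toPerm_gShift]) (by simp [toPerm_gShift]),
    map_subgroupOf, map_subgroupOf, Subgroup.card_map_of_injective M24.subtype_injective,
    Subgroup.card_map_of_injective M24.subtype_injective]
  refine ⟨⟨Subgroup.map_subtype_le _, card_L, fun h => ?_, fun H hH => ?_⟩,
    le_inf (Subgroup.map_subtype_le _) ?_, card_B, fun h => ?_, fun H hH => ?_⟩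
  · have := card_L
    rw [h, card_G24] at this
    exact absurd this (by norm_num)
  · have h1 := card_24 hH.le
    rcases max_B (le_inf (B_le_L.trans hH.le) B_le_G23) inf_le_right with h | h
    · exact absurd (Subgroup.eq_of_le_of_card_ge hH.le (by rw [card_L, h1, h])) hH.ne
    · exact Subgroup.eq_top_of_card_eq _ (by rw [h1, h, card_M24])
  · rintro _ ⟨g, hg, rfl⟩
    exact B_le_G23 hg
  · have := Subgroup.card_le_of_le (Subgroup.subgroupOf_eq_top.mp h)
    rw [card_stab_pt, card_B] at this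
    exact absurd this (by norm_num)
  · have h1 : gen [gShift, m2] ≤ H.map (stabilizer M24 (none : GolayPt)).subtype := fun g hg =>
      ⟨⟨g, B_le_G23 hg⟩, hH.le hg, rfl⟩
    rcases max_B h1 (Subgroup.map_subtype_le H) with h | h <;>
      rw [Subgroup.card_map_of_injective (Subgroup.subtype_injective _)] at h
    · refine absurd (Subgroup.eq_of_le_of_card_ge hH.le ?_) hH.ne
      rw [h, Nat.card_congr (Subgroup.subgroupOfEquivOfLe (K := stabilizer M24 (none : GolayPt))
        B_le_G23).toEquiv, card_B]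
    · exact Subgroup.eq_top_of_card_eq _ (by rw [h, card_stab_pt])

end Cfsg.Agent.S1643
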