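import Cfsg.Statements.S1646
import Cfsg.Agent.H49.JU6
import Cfsg.Agent.H46.J4B

set_option autoImplicit false
open Cfsg

namespace Cfsg.Agent.S1646

/-- The fourth Janko group from an involution centraliser: suppose a finite simple group has an involution t whose centraliser C has normal subgroups Q ≤ N ≤ M with M of index 2 and every element of C that centralises M / N lying in M, Q extraspecial of order 2 ^ 13 and containing its centraliser in C, containing an elementary abelian subgroup of order 2 ^ 7, N / Q of order 3 and central in M / Q, M / Q perfect, and M / N isomorphic to the Mathieu group M₂₂. Then the group has exactly two conjugacy classes of involutions and order 2^21·3^3·5·7·11^3·23·29·31·37·43. -/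
theorem result {G : Type*} [Group G] [Finite G] [IsSimpleGroup G] (t : G) (ht : orderOf t = 2) (Q N M : Subgroup (Subgroup.centralizer ({t} : Set G))) [Q.Normal] [N.Normal] [M.Normal] (hQN : Q ≤ N) (hNM : N ≤ M) (hM : M.index = 2) (hQ : Cfsg.IsExtraspecial 2 Q) (hcard : Nat.card Q = 2 ^ 13) (hplus : ∃ E : Subgroup Q, Cfsg.IsElementaryAbelian 2 E ∧ Nat.card E = 2 ^ 7) (hN : Nat.card N = 3 * Nat.card Q) (hcent : ⁅M, N⁆ ≤ Q) (hperf : M ≤ ⁅M, M⁆ ⊔ Q) (h2c : Subgroup.centralizer (Q : Set (Subgroup.centralizer ({t} : Set G))) ≤ Q) (hout : ∀ c : Subgroup.centralizer ({t} : Set G), (∀ m ∈ M, c * m * c⁻¹ * m⁻¹ ∈ N) → c ∈ M) (hM22 : Cfsg.Spor.IsoM22 (M ⧸ N.subgroupOf M)) : Cfsg.IsJ4 G ∧ ∃ x y : G, orderOf x = 2 ∧ orderOf y = 2 ∧ ¬ IsConj x y ∧ ∀ z : G, orderOf z = 2 → IsConj z x ∨ IsConj z y := by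
  open Cfsg.Agent.H49 in
  have h : IsOfJankoFourType G := ⟨t, H16.J4Hyp.of_1646 t ht Q N M hQN hNM hM hQ hcard hN hcent hperf h2c hout hM22⟩
  exact ⟨⟨inferInstance, JU.card_J4 H46.J4.hub (JU.noncomm h) h⟩, JU.two_cls h⟩

end Cfsg.Agent.S1646
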