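import Cfsg.Statements.S1666
import Cfsg.Agent.H36.Rank3
import Cfsg.Agent.H45.HSGraph
import Cfsg.Agent.H48.Simple
import Cfsg.Agent.H74.Mathieu

set_option autoImplicit false
open Cfsg

namespace Cfsg.Agent.S1666

section

open MulAction Cfsg.Agent.H36.R3

theorem srg_hs {G Ω : Type*} [Group G] [Finite G] [MulAction G Ω] [Fintype Ω]
    [IsPretransitive G Ω] {a b c : Ω} (h : Dat G a b c 22 77) [DecidableRel h.graph.Adj] :
    h.graph.IsSRGWith 100 22 0 6 := by
  obtain ⟨p, q, hs⟩ := h.srg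
  have h1 := hs.param_eq _ (by norm_num)
  have h2 : p < 22 := by
    have h3 : h.graph.Adj a b := ⟨1, one_smul _ _, one_smul _ _⟩
    have h4 := h3.card_commonNeighbors_lt_degree
    rwa [hs.of_adj a b h3, hs.regular a] at h4
  have h3 : p = 0 ∧ q = 6 ∨ p = 7 ∧ q = 4 ∨ p = 14 ∧ q = 2 ∨ p = 21 ∧ q = 0 := by omega
  rcases h3 with ⟨rfl, rfl⟩ | ⟨rfl, rfl⟩ | ⟨rfl, rfl⟩ | ⟨rfl, rfl⟩
  · exact hs
  all_goals
    exfalso
    obtain ⟨f, hf⟩ := srg_int hs (by norm_num) (by norm_num) (by norm_num)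
    norm_num at hf
    generalize (99 : ℤ) - 2 * f = z at hf
  · have : (81 : ℤ) ∣ 116281 := ⟨z ^ 2, by rw [← hf]; ring⟩
    omega
  · have h4 : z ^ 2 = 6776 := by omega
    have h5 : |z| ≤ 82 ∨ 83 ≤ |z| := by omega
    rw [← sq_abs] at h4
    rcases h5 with h5 | h5 <;> nlinarith [abs_nonneg z]
  · have : (529 : ℤ) ∣ 4507129 := ⟨z ^ 2, by rw [← hf]; ring⟩
    omega

/-- Transport of graph automorphisms. -/
def conjHom {V W : Type*} {Γ : SimpleGraph V} {Δ : SimpleGraph W} (e : Γ ≃g Δ) :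
    (Γ ≃g Γ) →* (Δ ≃g Δ) where
  toFun f := (e.symm.trans f).trans e
  map_one' := RelIso.ext fun x => e.apply_symm_apply x
  map_mul' f g := RelIso.ext fun x => by
    change e (f (g (e.symm x))) = e (f (e.symm (e (g (e.symm x)))))
    rw [e.symm_apply_apply]

theorem conjHom_inj {V W : Type*} {Γ : SimpleGraph V} {Δ : SimpleGraph W} (e : Γ ≃g Δ) :
    Function.Injective (conjHom e) := fun f g h => RelIso.ext fun x => by
  have h1 : e (f (e.symm (e x))) = e (g (e.symm (e x))) := congrArg (fun φ : Δ ≃g Δ => φ (e x)) h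
  rw [e.symm_apply_apply] at h1
  exact e.injective h1

theorem ncard_sub {G X : Type*} [Group G] [MulAction G X] (K : Subgroup G) (x : X)
    (y : orbit K x) : (orbit (stabilizer K (⟨x, mem_orbit_self x⟩ : orbit K x)) y).ncard =
      (orbit ↥(K ⊓ stabilizer G x) y.1).ncard := by
  rw [← Set.ncard_image_of_injective _ Subtype.val_injective]
  congr 1
  ext z
  constructor
  · rintro ⟨_, ⟨g, rfl⟩, rfl⟩
    exact ⟨⟨g.1.1, g.1.2, congrArg Subtype.val g.2⟩, rfl⟩
  · rintro ⟨g, rfl⟩
    exact ⟨_, ⟨⟨⟨g.1, g.2.1⟩, Subtype.ext g.2.2⟩, rfl⟩, rfl⟩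

open H48 in
theorem hs_embed {α : Type*} [Fintype α] [DecidableEq α] {B : Set (Finset α)}
    (hα : Fintype.card α = 22) (hB : IsSteinerSystem 3 6 B) :
    ∃ φ : Spor.HS →* H45.PBA B, Function.Injective φ := by
  classical
  let K := St vV ⊓ St vU'
  have : Finite K := Nat.finite_of_card_ne_zero (by rw [card_HS']; norm_num)
  have hT : (orbit K vU).ncard = 100 := by rw [orbit_HS_U, ncard_T100]
  have : Finite (orbit K vU) := Set.finite_of_ncard_ne_zero (by rw [hT]; norm_num)
  have := Fintype.ofFinite (orbit K vU)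
  have h4 : rp4 ∈ orbit K vU := orbit_HS_U ▸ cls_M22_100.mem (r := (rp4, 22, 72)) (by simp)
  have h5 : rp5 ∈ orbit K vU := orbit_HS_U ▸ cls_M22_100.mem (r := (rp5, 77, 80)) (by simp)
  have hD : Dat K (⟨vU, mem_orbit_self vU⟩ : orbit K vU) ⟨rp4, h4⟩ ⟨rp5, h5⟩ 22 77 :=
    ⟨(ncard_sub K vU _).trans (cls_M22_100.ncard_orbit (r := (rp4, 22, 72)) (by simp)),
      (ncard_sub K vU _).trans (cls_M22_100.ncard_orbit (r := (rp5, 77, 80)) (by simp)),
      by rw [← Nat.card_eq_fintype_card, Nat.card_coe_set_eq, hT], by norm_num, by norm_num,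
      by norm_num⟩
  obtain ⟨e, -⟩ := H45.exists_iso_pb' hα hB (srg_hs hD) ⟨vU, mem_orbit_self vU⟩
  have hi : Function.Injective hD.hom := by
    rw [← MonoidHom.ker_eq_bot_iff]
    have := simple_HS'
    refine (hD.hom.normal_ker.eq_bot_or_eq_top).resolve_right fun h => ?_
    obtain ⟨g, hg⟩ := exists_smul_eq K (⟨vU, mem_orbit_self vU⟩ : orbit K vU) ⟨rp4, h4⟩
    have h1 : hD.hom g = 1 := h.ge (Subgroup.mem_top g)
    refine hD.ne ⟨1, one_smul _ _, one_smul _ _⟩ ?_
    rw [← hg, ← hD.hom_apply, h1]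
    rfl
  exact ⟨((conjHom e).comp hD.hom).comp equivHS.symm.toMonoidHom,
    ((conjHom_inj e).comp hi).comp equivHS.symm.injective⟩

end

/-- Recognition of the Higman–Sims group as a rank 3 permutation group: a transitive permutation group on 100 points in which the stabiliser of a point is isomorphic to the Mathieu group M₂₂ and has two further orbits, of sizes 22 and 77, is isomorphic to the Higman–Sims group. -/
theorem result {Ω : Type*} [Fintype Ω] [DecidableEq Ω] (hΩ : Fintype.card Ω = 100) (G : Subgroup (Equiv.Perm Ω)) [MulAction.IsPretransitive G Ω] (a : Ω)  (e : MulAction.stabilizer G a ≃* Cfsg.Spor.M22) (b c : Ω) (hb : (MulAction.orbit (MulAction.stabilizer G a) b).ncard = 22) (hc : (MulAction.orbit (MulAction.stabilizer G a) c).ncard = 77) : Cfsg.Spor.IsoHS G := by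
  classical
  have hD : H36.R3.Dat G a b c 22 77 := ⟨hb, hc, hΩ, by norm_num, by norm_num, by norm_num⟩
  have hs := srg_hs hD
  have hα : Fintype.card (hD.graph.neighborSet a) = 22 := by
    rw [SimpleGraph.card_neighborSet_eq_degree, hs.regular a]
  have hB := H45.nDes_steiner hs a
  obtain ⟨φ, hφ⟩ := hs_embed hα hB
  obtain ⟨f, -⟩ := H45.exists_iso_pb' hα hB hs a
  have hi : Function.Injective hD.hom := fun g g' h => Subtype.ext (Equiv.ext fun x =>
    congrArg (fun φ : hD.graph ≃g hD.graph => φ x) h)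
  have hψ : Function.Injective ((conjHom f).comp hD.hom) := (conjHom_inj f).comp hi
  have hG : Nat.card G = 44352000 := by
    rw [H36.R3.card_eq a, hΩ, Nat.card_congr e.toEquiv, H74.card_M22]
  have hidx : ∀ K : Subgroup (H45.PBA (H45.nDes hD.graph a)), Nat.card K = 44352000 →
      K.index = 2 := fun K hK => by
    have := K.card_mul_index
    rw [hK, H45.card_PBA hα hB] at this
    omega
  have e1 := MonoidHom.ofInjective hφ
  have e2 := MonoidHom.ofInjective hψ
  have c1 : Nat.card φ.range = 44352000 := (Nat.card_congr e1.toEquiv).symm.trans H48.card_HS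
  have c2 := (Nat.card_congr e2.toEquiv).symm.trans hG
  have := H48.simple_HS
  have h := H45.eq_of_simple_of_index_two e1.symm.isSimpleGroup (by rw [c1]; norm_num) (hidx _ c1)
    (hidx _ c2)
  exact ⟨e2.trans ((MulEquiv.subgroupCongr h.symm).trans e1.symm)⟩

end Cfsg.Agent.S1666
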