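import Cfsg.Statements.S1679
import Cfsg.Agent.H44.SuzM
import Cfsg.Agent.H44.G24I

set_option autoImplicit false
open Cfsg

namespace Cfsg.Agent.S1679

/-- In the presented sporadic Suzuki group (generators a, …, g), the subgroup generated by the images of a, …, f is isomorphic to the adjoint Chevalley group of type G₂ over a field with four elements. -/
theorem result : ∃ (K : Type) (_ : Field K) (_ : Fintype K), Fintype.card K = 4 ∧ Nonempty ((((Subgroup.closure ({Cfsg.Spor.Suz.a, Cfsg.Spor.Suz.b, Cfsg.Spor.Suz.c, Cfsg.Spor.Suz.d, Cfsg.Spor.Suz.e, Cfsg.Spor.Suz.f} : Set (FreeGroup Cfsg.Spor.Suz.Gen))).map (PresentedGroup.mk (Cfsg.Spor.coxRelators Cfsg.Spor.Suz.edges ∪ {r | r ∈ Cfsg.Spor.Suz.extra})))) ≃* Cfsg.Lie.chevG2.group K) := by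
  rw [show _ = Cfsg.Agent.H44.wgen Cfsg.Agent.H44.Suz.gm [[1], [2], [3], [4], [5], [6]] from
    Cfsg.Agent.H44.Suz.ok.map_closure [(.l .a), (.l .b), (.l .c), (.l .d), (.l .e), (.l .f)]
      (by ext; simp [Cfsg.Agent.H44.Ex.val]) (by decide +kernel), show H44.wgen H44.Suz.gm [[1], [2], [3], [4], [5], [6]] = _ from (H44.gen_eq_wgen H44.Suz.gm 6).symm]
  open H28 in
  refine ⟨H28.F4, inferInstance, inferInstance, H28.card_F4,
    H44.G24I.equiv (H44.Suz.sat.mono (by decide +kernel)) fun h => ?_⟩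
  have := H44.apply_of_ptL H44.SuzM.model.ok (code := H44.SuzM.code) (l := [1]) (a := 2) (b := 3)
    (by decide) (by decide) (by decide +kernel)
  rw [← H44.SuzM.model.map_ev (by decide), H44.ev_single, h, map_one] at this
  exact absurd this (by decide)

end Cfsg.Agent.S1679
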