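import Cfsg.Statements.S1682
import Cfsg.Agent.H44.HeS

set_option autoImplicit false
open Cfsg

namespace Cfsg.Agent.S1682

/-- In the presented Held group, the subgroup H generated by the images of a, c, d, e, f, (ab)^2 and (bcde)^7 has a normal subgroup of index 2 isomorphic to the 4-dimensional symplectic group over a field with four elements. -/
theorem result : ∃ (N : Subgroup (((Subgroup.closure ({Cfsg.Spor.He.a, Cfsg.Spor.He.c, Cfsg.Spor.He.d, Cfsg.Spor.He.e, Cfsg.Spor.He.f, (Cfsg.Spor.He.a * Cfsg.Spor.He.b) ^ 2, (Cfsg.Spor.He.b * Cfsg.Spor.He.c * Cfsg.Spor.He.d * Cfsg.Spor.He.e) ^ 7} : Set (FreeGroup Cfsg.Spor.He.Gen))).map (PresentedGroup.mk (Cfsg.Spor.coxRelators Cfsg.Spor.He.edges ∪ {r | r ∈ Cfsg.Spor.He.extra}))))) (K : Type) (_ : Field K) (_ : Fintype K), N.Normal ∧ N.index = 2 ∧ Fintype.card K = 4 ∧ Nonempty (N ≃* Matrix.symplecticGroup (Fin 2) K) := by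
  rw [show _ = Cfsg.Agent.H44.wgen Cfsg.Agent.H44.He.gm [[1], [3], [4], [5], [6], [1, 2, 1, 2], [2, 3, 4, 5, 2, 3, 4, 5, 2, 3, 4, 5, 2, 3, 4, 5, 2, 3, 4, 5, 2, 3, 4, 5, 2, 3, 4, 5]] from
    Cfsg.Agent.H44.He.ok.map_closure [(.l .a), (.l .c), (.l .d), (.l .e), (.l .f), (.pow (.mul (.l .a) (.l .b)) 2), (.pow (.mul (.mul (.mul (.l .b) (.l .c)) (.l .d)) (.l .e)) 7)]
      (by ext; simp [Cfsg.Agent.H44.Ex.val]) (by decide +kernel)]
  obtain ⟨N, h1, h2, h3⟩ := H44.HeS.main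
  open H28 in
  exact ⟨N, H28.F4, inferInstance, inferInstance, h1, h2, H28.card_F4, h3⟩

end Cfsg.Agent.S1682
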