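import Cfsg.Statements.S1690
import Cfsg.Agent.H44.F24M

set_option autoImplicit false
open Cfsg

namespace Cfsg.Agent.S1690

/-- In the presented group Fi₂₄ = Fi₂₄′:2, the subgroup generated by the images of a, b, c, d, e, f, g, h, i, j and l (every generator but k) has index 306936. -/
theorem result : (((Subgroup.closure ({Cfsg.Spor.Fi24.a, Cfsg.Spor.Fi24.b, Cfsg.Spor.Fi24.c, Cfsg.Spor.Fi24.d, Cfsg.Spor.Fi24.e, Cfsg.Spor.Fi24.f, Cfsg.Spor.Fi24.g, Cfsg.Spor.Fi24.h, Cfsg.Spor.Fi24.i, Cfsg.Spor.Fi24.j, Cfsg.Spor.Fi24.l} : Set (FreeGroup Cfsg.Spor.Fi24.Gen))).map (PresentedGroup.mk (Cfsg.Spor.coxRelators Cfsg.Spor.Fi24.edges ∪ {r | r ∈ Cfsg.Spor.Fi24.extra})))).index = 306936 := by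
  rw [show _ = Cfsg.Agent.H44.wgen Cfsg.Agent.H44.Fi24.gm [[1], [2], [3], [4], [5], [6], [7], [8], [9], [10], [12]] from
    Cfsg.Agent.H44.Fi24.ok.map_closure [(.l .a), (.l .b), (.l .c), (.l .d), (.l .e), (.l .f), (.l .g), (.l .h), (.l .i), (.l .j), (.l .l)]
      (by ext; simp [Cfsg.Agent.H44.Ex.val]) (by decide +kernel)]
  exact H44.F24.index_K

end Cfsg.Agent.S1690
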