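import Cfsg.Statements.S1711
import Cfsg.Agent.H17.J4Simple

set_option autoImplicit false
open Cfsg

namespace Cfsg.Agent.S1711

/-- In the presented fourth Janko group (generators x, y, t), the subgroup generated by the images of x and y is isomorphic to the Mathieu group M₂₄. -/
theorem result : Nonempty ((((Subgroup.closure ({Cfsg.Spor.J4.x, Cfsg.Spor.J4.y} : Set (FreeGroup Cfsg.Spor.J4.Gen))).map (PresentedGroup.mk (Cfsg.Spor.coxRelators Cfsg.Spor.J4.edges ∪ {r | r ∈ Cfsg.Spor.J4.extra})))) ≃* Cfsg.M24) := by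
  rw [H17.J4R.map_closure_xy]
  exact ⟨(MonoidHom.ofInjective H17.J4R.phi_injective).symm⟩

end Cfsg.Agent.S1711
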