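import Cfsg.Statements.S1717
import Cfsg.Agent.S5424
import Cfsg.Agent.H96.PGrp

set_option autoImplicit false
open Cfsg

namespace Cfsg.Agent.S1717

/-- Elements of the centraliser of the transvection commuting with its 2-core. -/
theorem core_cent (s : Matrix.SpecialLinearGroup (Fin 5) (ZMod 2))
    (hs : (s : Matrix (Fin 5) (Fin 5) (ZMod 2)) = Matrix.transvection 0 1 1) :
    ∃ t : Subgroup.centralizer ({s} : Set (Matrix.SpecialLinearGroup (Fin 5) (ZMod 2))),
      ∀ x : Subgroup.centralizer ({s} : Set (Matrix.SpecialLinearGroup (Fin 5) (ZMod 2))),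
        (∀ q ∈ pCore 2 (Subgroup.centralizer ({s} : Set (Matrix.SpecialLinearGroup (Fin 5) (ZMod 2)))),
          q * x = x * q) → x ≠ 1 → x = t := by
  obtain ⟨hE, -, -, hL, -⟩ := S5424.result 3 (by norm_num) s hs _ rfl
  set C := Subgroup.centralizer ({s} : Set (Matrix.SpecialLinearGroup (Fin 5) (ZMod 2))) with hC
  set Q := (pCore 2 C).map C.subtype with hQ
  have h2 : Nat.card (Subgroup.centralizer (Q : Set (Matrix.SpecialLinearGroup (Fin 5) (ZMod 2)))) = 2 := by
    rw [hL.2.1, Subgroup.card_map_of_injective Subtype.val_injective]; exact hE.2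
  obtain ⟨t, ht1, ht⟩ := (Nat.card_eq_two_iff' 1).1 h2
  have key : ∀ x : C, (∀ q ∈ pCore 2 C, q * x = x * q) → x ≠ 1 → (x : Matrix.SpecialLinearGroup (Fin 5) (ZMod 2)) = t := by
    intro x hx hx1
    have hm : (x : Matrix.SpecialLinearGroup (Fin 5) (ZMod 2)) ∈
        Subgroup.centralizer (Q : Set (Matrix.SpecialLinearGroup (Fin 5) (ZMod 2))) := by
      rw [Subgroup.mem_centralizer_iff]
      rintro _ ⟨q, hq, rfl⟩
      exact congrArg Subtype.val (hx q hq)
    have := ht ⟨x, hm⟩ (fun h => hx1 (Subtype.ext (by simpa using congrArg Subtype.val h)))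
    exact congrArg Subtype.val this
  by_cases h : ∃ x : C, (∀ q ∈ pCore 2 C, q * x = x * q) ∧ x ≠ 1
  · obtain ⟨x, hx, hx1⟩ := h
    exact ⟨x, fun y hy hy1 => Subtype.ext ((key y hy hy1).trans (key x hx hx1).symm)⟩
  · exact ⟨1, fun y hy hy1 => absurd ⟨y, hy, hy1⟩ h⟩

/-- Let G be a finite group with an involution z whose centraliser C is isomorphic to the centraliser of a transvection of SL(5, 2). Then a Sylow 2-subgroup of C, viewed in G, is a Sylow 2-subgroup of G (its index in G is odd). -/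
theorem result {G : Type*} [Group G] [Finite G] (s : Matrix.SpecialLinearGroup (Fin 5) (ZMod 2)) (hs : (s : Matrix (Fin 5) (Fin 5) (ZMod 2)) = Matrix.transvection 0 1 1) (z : G) (hz : orderOf z = 2) (e : (Subgroup.centralizer ({z} : Set G)) ≃* Subgroup.centralizer ({s} : Set (Matrix.SpecialLinearGroup (Fin 5) (ZMod 2)))) (T : Sylow 2 (Subgroup.centralizer ({z} : Set G))) : ¬ 2 ∣ ((T : Subgroup (Subgroup.centralizer ({z} : Set G))).map (Subgroup.subtype (Subgroup.centralizer ({z} : Set G)))).index := by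
  classical
  haveI : Fact (Nat.Prime 2) := ⟨Nat.prime_two⟩
  obtain ⟨t, ht⟩ := core_cent s hs
  revert T
  set C := Subgroup.centralizer ({z} : Set G) with hC
  intro T
  have hz1 : z ≠ 1 := by rintro rfl; simp at hz
  have hzC : z ∈ C := Subgroup.mem_centralizer_singleton_iff.2 rfl
  -- elements of `C` commuting with `T`
  have key : ∀ x : C, (∀ q ∈ (T : Subgroup C), q * x = x * q) → x ≠ 1 → e x = t := by
    intro x hx hx1
    refine ht (e x) (fun q hq => ?_) (fun h => hx1 (e.injective (by rw [h, map_one])))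
    have hle := H96.pCore_le_sylow (T.mapSurjective (f := e.toMonoidHom) e.surjective) hq
    obtain ⟨y, hy, rfl⟩ := hle
    have := congrArg e (hx y hy)
    simpa using this
  have hzt : e ⟨z, hzC⟩ = t := key _ (fun q _ => Subtype.ext
    (Subgroup.mem_centralizer_singleton_iff.1 q.2)) (fun h => hz1 (congrArg Subtype.val h))
  have hzT : (⟨z, hzC⟩ : C) ∈ (T : Subgroup C) := by
    have h2 : IsPGroup 2 (Subgroup.zpowers (⟨z, hzC⟩ : C)) := by
      apply IsPGroup.of_card (n := 1)
      rw [Nat.card_zpowers, ← Subgroup.orderOf_coe]; simpa using hz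
    have hn : (Subgroup.zpowers (⟨z, hzC⟩ : C)).Normal := ⟨fun a ha g => by
      obtain ⟨k, rfl⟩ := ha
      have hc : Commute g (⟨z, hzC⟩ : C) := Subtype.ext (Subgroup.mem_centralizer_singleton_iff.1 g.2)
      have := (hc.zpow_right k).eq
      show g * (⟨z, hzC⟩ : C) ^ k * g⁻¹ ∈ _
      rw [this, mul_inv_cancel_right]; exact ⟨k, rfl⟩⟩
    exact h2.le_sylow_of_normal T (Subgroup.mem_zpowers _)
  set T0 := (T : Subgroup C).map C.subtype with hT0
  have hT0p : IsPGroup 2 T0 := T.isPGroup'.map _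
  obtain ⟨P, hP⟩ := hT0p.exists_le_sylow
  suffices h : T0 = P by rw [h]; exact P.not_dvd_index
  by_contra hne
  have hlt : T0.subgroupOf P < ⊤ := by
    rw [lt_top_iff_ne_top]
    intro h
    exact hne (le_antisymm hP (Subgroup.subgroupOf_eq_top.1 h))
  haveI : Group.IsNilpotent P := P.isPGroup'.isNilpotent
  obtain ⟨g, hg, hgT⟩ := SetLike.exists_of_lt (Group.normalizerCondition_of_isNilpotent _ hlt)
  have hgn : ∀ x ∈ T0, (g : G) * x * (g : G)⁻¹ ∈ T0 ∧ (g : G)⁻¹ * x * g ∈ T0 := by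
    intro x hx
    have h1 := (Subgroup.mem_normalizer_iff.1 hg ⟨x, hP hx⟩).1 hx
    have h2 := (Subgroup.mem_normalizer_iff.1 (inv_mem hg) ⟨x, hP hx⟩).1 hx
    exact ⟨h1, by simpa [Subgroup.mem_subgroupOf] using h2⟩
  have hz0 : z ∈ T0 := ⟨_, hzT, rfl⟩
  obtain ⟨w, hw, hwe⟩ := (hgn z hz0).1
  have hw' : e w = t := by
    refine key w (fun q hq => Subtype.ext ?_) (fun h => hz1 ?_)
    · obtain ⟨q', -, hq'⟩ := (hgn q ⟨q, hq, rfl⟩).2
      have h1 : (q' : G) * z = z * q' := Subgroup.mem_centralizer_singleton_iff.1 q'.2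
      have hq'' : (q' : G) = (g : G)⁻¹ * q * g := hq'
      have hwe' : (w : G) = g * z * (g : G)⁻¹ := hwe
      rw [hq''] at h1
      show (q : G) * w = w * q
      rw [hwe']
      calc (q : G) * (g * z * (g : G)⁻¹) = g * (((g : G)⁻¹ * q * g) * z) * (g : G)⁻¹ := by group
        _ = g * (z * ((g : G)⁻¹ * q * g)) * (g : G)⁻¹ := by rw [h1]
        _ = g * z * (g : G)⁻¹ * q := by group
    · have hwe' : (w : G) = g * z * (g : G)⁻¹ := hwe
      rw [h] at hwe'
      have : (g : G) * z * (g : G)⁻¹ = 1 := hwe'.symm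
      simpa using this
  have hwz : w = ⟨z, hzC⟩ := e.injective (hw'.trans hzt.symm)
  have hgC : (g : G) ∈ C := by
    have hwe' : (w : G) = g * z * (g : G)⁻¹ := hwe
    rw [hwz] at hwe'
    refine Subgroup.mem_centralizer_singleton_iff.2 ?_
    have : z = g * z * (g : G)⁻¹ := hwe'
    conv_rhs => rw [this]
    group
  have hPC : IsPGroup 2 ((P : Subgroup G).subgroupOf C) := P.isPGroup'.comap_subtype
  have hTle : (T : Subgroup C) ≤ (P : Subgroup G).subgroupOf C := fun x hx => hP ⟨x, hx, rfl⟩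
  have := T.is_maximal' hPC hTle
  have hgT' : (⟨g, hgC⟩ : C) ∈ (T : Subgroup C) := by rw [← this]; exact g.2
  exact hgT ⟨_, hgT', rfl⟩

end Cfsg.Agent.S1717
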