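import Cfsg.Statements.S1725
import Cfsg.Agent.H59.SzZ

set_option autoImplicit false
open Cfsg

namespace Cfsg.Agent.S1725

/-- A 3-local step in the uniqueness proof for the sporadic Suzuki group: let G satisfy the large-extraspecial hypothesis with Q of order 2 ^ 7, quotient Ω⁻(6, 2) and z not weakly closed in Q, and let X be a subgroup of order 3 of the centraliser C of z with the commutator subgroup of Q and X of order 8 and non-abelian (a quaternion group). Then for any Sylow 3-subgroup P of the normaliser of X in G, P is a Sylow 3-subgroup of G (its index in G is prime to 3), and P contains an elementary abelian subgroup A of order 3 ^ 5 with C_G(A) = A and N_G(A) / A isomorphic to the Mathieu group M₁₁. -/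
theorem result {G : Type*} [Group G] [Finite G] (z : G) (hz : orderOf z = 2) (Q : Subgroup (Subgroup.centralizer ({z} : Set G))) [Q.Normal] (hF : Cfsg.generalizedFittingSubgroup (Subgroup.centralizer ({z} : Set G)) = Q) (hQ : Cfsg.IsExtraspecial 2 Q) (hcard : Nat.card Q = 2 ^ 7) (e : (Subgroup.centralizer ({z} : Set G)) ⧸ Q ≃* Cfsg.Omega (ZMod 2) (Cfsg.quadFormMinus 2 (ZMod 2) 1 1)) (hnwc : ∃ g : G, (∃ hq : g * z * g⁻¹ ∈ Subgroup.centralizer ({z} : Set G), (⟨g * z * g⁻¹, hq⟩ : Subgroup.centralizer ({z} : Set G)) ∈ Q) ∧ g * z * g⁻¹ ≠ z) (X : Subgroup (Subgroup.centralizer ({z} : Set G))) (hX : Nat.card X = 3) (hQX : Nat.card ↥⁅Q, X⁆ = 8) (hQXna : ¬ IsMulCommutative ↥⁅Q, X⁆) (P : Sylow 3 ↥(Subgroup.normalizer ((X.map (Subgroup.subtype (Subgroup.centralizer ({z} : Set G))) : Subgroup G) : Set G))) : ¬ 3 ∣ (((P : Subgroup ↥(Subgroup.normalizer ((X.map (Subgroup.subtype (Subgroup.centralizer ({z} : Set G))) : Subgroup G) : Set G))).map (Subgroup.subtype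 (Subgroup.normalizer ((X.map (Subgroup.subtype (Subgroup.centralizer ({z} : Set G))) : Subgroup G) : Set G)))).index) ∧ ∃ A : Subgroup G, A ≤ (P : Subgroup ↥(Subgroup.normalizer ((X.map (Subgroup.subtype (Subgroup.centralizer ({z} : Set G))) : Subgroup G) : Set G))).map (Subgroup.subtype (Subgroup.normalizer ((X.map (Subgroup.subtype (Subgroup.centralizer ({z} : Set G))) : Subgroup G) : Set G))) ∧ Cfsg.IsElementaryAbelian 3 A ∧ Nat.card A = 3 ^ 5 ∧ Subgroup.centralizer (A : Set G) = A ∧ ∃ _ : (A.subgroupOf (Subgroup.normalizer (A : Set G))).Normal, Cfsg.Spor.IsoM11 (↥(Subgroup.normalizer (A : Set G)) ⧸ A.subgroupOf (Subgroup.normalizer (A : Set G))) := by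
  obtain ⟨h, -, ⟨f⟩⟩ := H59.suz_main z hz Q hF hQ hcard e hnwc
  obtain ⟨x, hx, hX', h32⟩ := h.dvd_cent hX hQX hQXna
  obtain ⟨i, rfl⟩ := H59.Sz.exists_iso3 f hx h32
  have : Fact (Nat.Prime 3) := ⟨Nat.prime_three⟩
  generalize X.map (Subgroup.subtype _) = Y at P hX' ⊢
  have h1 : ¬ 3 ∣ ((P : Subgroup _).map (Subgroup.normalizer (Y : Set G)).subtype).index := by
    rw [Subgroup.index_map_subtype, Nat.prime_three.dvd_mul, not_or]
    refine ⟨P.not_dvd_index, fun h3 => ?_⟩
    have h4 := h3.trans (Subgroup.index_dvd_of_le (Subgroup.centralizer_le_normalizer _))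
    have h5 := Subgroup.card_mul_index (Subgroup.centralizer (Y : Set G))
    rw [← Nat.card_congr f.toEquiv, H59.Sz.card_Γ] at h5
    rw [hX', H59.cent_zpowers] at h4 h5
    rw [H59.card_cent_equiv, H59.Sz.cent3] at h5
    omega
  obtain ⟨S, hS⟩ := (IsPGroup.of_card (p := 3) (n := 5) H59.Sz.card_A5).exists_le_sylow
  obtain ⟨j, hj⟩ := H59.exists_equiv_sylow f S ((P.isPGroup'.map _).toSylow h1)
  obtain ⟨k⟩ := H59.Sz.iso_NA
  refine ⟨h1, H59.Sz.A5.map j.toMonoidHom, (Subgroup.map_mono hS).trans hj.ge, ⟨⟨⟨?_⟩⟩, ?_⟩,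
    by rw [H59.card_map_equiv, H59.Sz.card_A5]; rfl, by rw [H59.map_cent, H59.Sz.cent_A5],
    inferInstance, ⟨(H59.quot_map j rfl (Subgroup.map_equiv_normalizer_eq _ _).symm).some.trans k⟩⟩
  · rintro ⟨_, a, ha, rfl⟩ ⟨_, b, hb, rfl⟩
    exact Subtype.ext ((map_mul j a b).symm.trans
      ((congrArg j (H59.Sz.comm_A5 a ha b hb)).trans (map_mul j b a)))
  · rintro _ ⟨a, ha, rfl⟩
    rw [← map_pow, H59.Sz.pow_A5 a ha, map_one]

end Cfsg.Agent.S1725
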