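import Cfsg.Statements.S1753

set_option autoImplicit false
universe u
open Cfsg

namespace Cfsg.Agent.S1753

theorem section_card_lt {G : Type u} [Group G] [Finite G] (H : Subgroup G) (hH : H ≠ ⊤)
    (L : Subgroup H) (N : Subgroup L) [N.Normal] : Nat.card (L ⧸ N) < Nat.card G := by
  have h1 : Nat.card (L ⧸ N) ≤ Nat.card L :=
    Nat.card_le_card_of_surjective _ (QuotientGroup.mk_surjective (s := N))
  have h2 : Nat.card L ≤ Nat.card H := Subgroup.card_le_card_group L
  have h3 : Nat.card H < Nat.card G := by
    refine lt_of_le_of_ne (Subgroup.card_le_card_group H) ?_
    intro h
    exact hH (Subgroup.eq_top_of_card_eq H h)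
  omega


/-- Let K be any property of groups. (1) If G is a minimal counterexample relative to K — a finite non-abelian simple group not satisfying K such that every finite non-abelian simple group of smaller order satisfies K — then every proper subgroup of G is a K-group (all its non-abelian simple sections satisfy K), since such sections have smaller order than G. (2) Consequently (induction on the order), if every finite non-abelian simple group all of whose proper subgroups are K-groups satisfies K, then every finite non-abelian simple group satisfies K. -/
theorem result (K : ∀ (X : Type u) [Group X], Prop) :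
    (∀ (G : Type u) [Group G], Cfsg.IsMinCounterexampleWith K G → Cfsg.IsKProperWith K G) ∧
      ((∀ (X : Type u) [Group X] [Finite X], IsSimpleGroup X → ¬ IsMulCommutative X → Cfsg.IsKProperWith K X → K X) →
        ∀ (G : Type u) [Group G] [Finite G], IsSimpleGroup G → ¬ IsMulCommutative G → K G) := by
  refine ⟨?_, ?_⟩
  · intro G _ hG H hH L N _ hs hc
    obtain ⟨hfin, -, -, -, hmin⟩ := hG
    exact hmin _ hs hc (section_card_lt H hH L N)
  · intro h G _ _
    induction' hn : Nat.card G using Nat.strong_induction_on with n ih generalizing G
    intro hs hc
    apply h G hs hc
    intro H hH L N _ hs' hc'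
    exact ih _ (hn ▸ section_card_lt H hH L N) (L ⧸ N) rfl hs' hc'

end Cfsg.Agent.S1753
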