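import Cfsg.Statements.S1755
import Cfsg.Agent.H52.FStar
import Cfsg.Agent.H81.SCN2

set_option autoImplicit false
open Cfsg

namespace Cfsg.Agent.S1755

open Subgroup Cfsg.Agent.H81 Cfsg.Agent.H85


/-- Let G be a finite group and let z be an involution of G such that Q, the generalized Fitting subgroup of the centralizer C of z, is a 2-group of symplectic type (every characteristic abelian subgroup of Q is cyclic). Let B be a characteristic abelian subgroup of Q, viewed as a subgroup of G. Then for every g in G, the conjugate of B by g either equals B or meets B trivially. -/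
theorem result {G : Type*} [Group G] [Finite G] (z : G) (hz : orderOf z = 2) (hQ : Cfsg.IsOfSymplecticType ↥(Cfsg.generalizedFittingSubgroup ↥(Subgroup.centralizer ({z} : Set G))))
    (B : Subgroup ↥(Cfsg.generalizedFittingSubgroup ↥(Subgroup.centralizer ({z} : Set G)))) (hBc : B.Characteristic) (hBa : IsMulCommutative ↥B) (g : G) :
    ((B.map (Cfsg.generalizedFittingSubgroup ↥(Subgroup.centralizer ({z} : Set G))).subtype).map (Subgroup.centralizer ({z} : Set G)).subtype).map (MulAut.conj g).toMonoidHom =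
        (B.map (Cfsg.generalizedFittingSubgroup ↥(Subgroup.centralizer ({z} : Set G))).subtype).map (Subgroup.centralizer ({z} : Set G)).subtype ∨
      ((B.map (Cfsg.generalizedFittingSubgroup ↥(Subgroup.centralizer ({z} : Set G))).subtype).map (Subgroup.centralizer ({z} : Set G)).subtype).map (MulAut.conj g).toMonoidHom ⊓
        (B.map (Cfsg.generalizedFittingSubgroup ↥(Subgroup.centralizer ({z} : Set G))).subtype).map (Subgroup.centralizer ({z} : Set G)).subtype = ⊥ := by
  haveI : Fact (Nat.Prime 2) := ⟨Nat.prime_two⟩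
  let C := centralizer ({z} : Set G)
  let Q := generalizedFittingSubgroup C
  haveI : Q.Characteristic := H52.fstar_characteristic
  let f : Q →* G := C.subtype.comp Q.subtype
  have hf : Function.Injective f := C.subtype_injective.comp Q.subtype_injective
  have hB : (B.map Q.subtype).map C.subtype = B.map f := map_map _ _ _
  have hzC : z ∈ C := mem_cent_iff_comm.2 (Commute.refl z)
  have hzc : (⟨z, hzC⟩ : C) ∈ center C :=
    mem_center_iff.2 (fun c => Subtype.ext (mem_cent_singleton.1 c.2))
  have hzQ : (⟨z, hzC⟩ : C) ∈ Q := by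
    refine H52.pCore_le_fstar (p := 2) ?_
    haveI : (zpowers (⟨z, hzC⟩ : C)).Normal := ⟨fun n hn g => by
      rw [mem_center_iff.1 (zpowers_le.2 hzc hn) g, mul_inv_cancel_right]; exact hn⟩
    refine H3.le_pCore (isPGroup_of_sq (E := zpowers (⟨z, hzC⟩ : C)) (fun e he => ?_))
      (mem_zpowers _)
    have hzz : (⟨z, hzC⟩ : C) * ⟨z, hzC⟩ = 1 := Subtype.ext (H9.mul_self_of_orderOf_two hz)
    rcases mem_zpowers_two hzz he with rfl | rfl
    · simp
    · exact hzz
  have hcyc : IsCyclic ↥(B ⊔ center Q) := by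
    refine hQ.2 _ inferInstance ⟨⟨fun a b => Subtype.ext ?_⟩⟩
    obtain ⟨a1, h1, a2, h2, e⟩ := (mem_sup_of_le_normalizer' (A := B) (B := center Q)
      (by rw [normalizer_eq_top]; exact le_top)).1 a.2
    obtain ⟨b1, k1, b2, k2, e'⟩ := (mem_sup_of_le_normalizer' (A := B) (B := center Q)
      (by rw [normalizer_eq_top]; exact le_top)).1 b.2
    have c1 : a1 * b1 = b1 * a1 := setLike_mul_comm h1 k1
    change (a : Q) * b = b * a
    rw [← e, ← e']
    calc a1 * a2 * (b1 * b2) = a1 * ((b1 * b2) * a2) := by rw [mem_center_iff.1 h2 (b1 * b2)]; group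
      _ = b1 * (a1 * b2) * a2 := by rw [← mul_assoc, ← mul_assoc, c1]; group
      _ = b1 * b2 * (a1 * a2) := by rw [mem_center_iff.1 k2 a1]; group
  have key : ∀ x ∈ B.map f, orderOf x = 2 → x = z := by
    rintro _ ⟨b, hb, rfl⟩ hx
    have := involution_unique_of_isCyclic hcyc (mem_sup_left hb)
      (mem_sup_right (show (⟨⟨z, hzC⟩, hzQ⟩ : Q) ∈ center Q from
        mem_center_iff.2 (fun c => Subtype.ext (mem_center_iff.1 hzc c))))
      (by rw [← hx, orderOf_injective f hf])
      (by rw [← orderOf_injective f hf]; exact hz)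
    rw [this]; rfl
  change cj g ((B.map Q.subtype).map C.subtype) = (B.map Q.subtype).map C.subtype ∨
    cj g ((B.map Q.subtype).map C.subtype) ⊓ (B.map Q.subtype).map C.subtype = ⊥
  rw [hB, or_iff_not_imp_right]
  intro hne
  obtain ⟨x, hx, hx1, hx2⟩ := exists_order_prime_mem
    ((hQ.1.to_subgroup B).map f).to_inf_right hne
  have ho := orderOf_eq_prime' hx1 hx2
  have e1 := key x hx.2 ho
  obtain ⟨y, hy, e⟩ := hx.1
  change g * y * g⁻¹ = x at e
  have e2 := key y hy (by rw [← H9.orderOf_conj' g, e, ho])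
  have hg : g ∈ C := conj_eq_iff_mem_cent.1 (by rw [← e2, e, e1, e2])
  rw [← hB]
  haveI : (B.map Q.subtype).Normal := inferInstance
  refine cj_eq_of_mem_normalizer (mem_normalizer_of_cj_le ?_)
  rintro _ ⟨_, ⟨y, hy, rfl⟩, rfl⟩
  exact ⟨⟨g, hg⟩ * y * (⟨g, hg⟩ : C)⁻¹, Normal.conj_mem inferInstance y hy _, rfl⟩

end Cfsg.Agent.S1755
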