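import Cfsg.Statements.S1756
import Cfsg.Agent.S5395
import Cfsg.Agent.H81.D8Cent

set_option autoImplicit false
open Cfsg

namespace Cfsg.Agent.S1756

open Subgroup Cfsg.Agent.H81

theorem central {G : Type*} [Group G] [Finite G] {Q : Subgroup G} {t : G} (ht : t * t = 1)
    (htN : t ∈ normalizer (Q : Set G)) (hi : (centralizer ({t} : Set G) ⊓ Q).relIndex Q ≤ 2)
    {x : G} (hx : x ∈ Q) {s : G} (hs : s ∈ Q) :
    s * (t * x * t⁻¹ * x⁻¹) = t * x * t⁻¹ * x⁻¹ * s := by
  have h4 : ((centralizer ({t} : Set G) ⊓ Q).subgroupOf Q).index ≠ 0 := index_ne_zero_of_finite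
  have hti : t⁻¹ = t := inv_eq_of_mul_eq_one_right ht
  by_cases hc : x * t = t * x
  · rw [← hc]; group
  have hidx : ∀ y ∈ Q, ¬ y * t = t * y → x⁻¹ * y * t = t * (x⁻¹ * y) := by
    intro y hy e
    unfold relIndex at hi
    rcases (by omega : ((centralizer ({t} : Set G) ⊓ Q).subgroupOf Q).index = 1 ∨
      ((centralizer ({t} : Set G) ⊓ Q).subgroupOf Q).index = 2) with h5 | h5
    · exact absurd (mem_cent_singleton.1 (subgroupOf_eq_top.1 (index_eq_one.1 h5) hx).1) hc
    · refine mem_cent_singleton.1 ((mul_mem_iff_of_index_two h5 (a := ⟨x⁻¹, inv_mem hx⟩)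
        (b := ⟨y, hy⟩)).2 ?_).1
      simp only [mem_subgroupOf, inv_mem_iff]
      exact ⟨fun h => absurd (mem_cent_singleton.1 h.1) hc,
        fun h => absurd (mem_cent_singleton.1 h.1) e⟩
  have hall : ∀ y ∈ Q, ¬ y * t = t * y → y * t * y⁻¹ = x * t * x⁻¹ := by
    intro y hy e
    calc y * t * y⁻¹ = x * (x⁻¹ * y * t) * y⁻¹ := by group
      _ = x * t * x⁻¹ := by rw [hidx y hy e]; group
  set u := x * t * x⁻¹ with hu
  have hw : t * x * t⁻¹ * x⁻¹ = t * u := by rw [hu, hti]; group
  rw [hw]
  have h1 : ¬ t * x * t⁻¹ * t = t * (t * x * t⁻¹) := fun e => hc (by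
    calc x * t = t⁻¹ * (t * x * t⁻¹ * t) * t := by group
      _ = t * x := by rw [e]; group)
  have htu : t * u = u * t := by
    have := hall _ (nconj_mem htN hx) h1
    calc t * u = (t * x * t⁻¹ * t * (t * x * t⁻¹)⁻¹) * t := by rw [hu]; group
      _ = u * t := by rw [this]
  by_cases e : s * t = t * s
  · have h2 : ¬ s * x * t = t * (s * x) := fun e' => hc (by
      calc x * t = s⁻¹ * (s * x * t) := by group
        _ = s⁻¹ * (t * s) * x := by rw [e']; group
        _ = t * x := by rw [← e]; group)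
    have := hall _ (Q.mul_mem hs hx) h2
    calc s * (t * u) = t * (s * x * t * (s * x)⁻¹) * s := by rw [← mul_assoc, e, hu]; group
      _ = t * u * s := by rw [this]
  · have h2 := hall s hs e
    have h3 : s * u * s⁻¹ = t := by
      have h5 := hidx _ (Q.mul_mem hx (Q.mul_mem hs hx)) (fun e' => ?_)
      · calc s * u * s⁻¹ = x⁻¹ * (x * (s * x)) * t * (s * x)⁻¹ := by rw [hu]; group
          _ = t := by rw [h5]; group
      · have h6 := hidx _ (Q.inv_mem hs) (fun e'' => e (by
          calc s * t = s * (t * s⁻¹) * s := by group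
            _ = t * s := by rw [← e'']; group))
        apply hc
        calc x * t = (x * (s * x)) * (x⁻¹ * s⁻¹ * t) := by group
          _ = (x * (s * x) * t) * (x⁻¹ * s⁻¹) := by rw [h6]; group
          _ = t * x := by rw [e']; group
    calc s * (t * u) = (s * t * s⁻¹) * (s * u * s⁻¹) * s := by group
      _ = t * u * s := by rw [h2, h3, htu]


/-- Let Q be an extraspecial 2-subgroup of the finite group G (special with centre of order 2) and t an involution of G normalizing Q such that the centralizer of t in Q has index at most 2 in Q. Then t lies in the product of Q with the centralizer of Q. -/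
theorem result {G : Type*} [Group G] [Finite G] (Q : Subgroup G)
    (hQ : Cfsg.IsExtraspecial 2 ↥Q) (t : G) (ht : orderOf t = 2) (htN : t ∈ Subgroup.normalizer (Q : Set G))
    (hi : (Subgroup.centralizer ({t} : Set G) ⊓ Q).relIndex Q ≤ 2) :
    t ∈ Q ⊔ Subgroup.centralizer (Q : Set G) := by
  obtain ⟨g, hg⟩ := S5395.result hQ (Q.normalizerMonoidHom ⟨t, htN⟩) (fun x =>
    mem_center_iff.2 (fun s => Subtype.ext
      (central (H9.mul_self_of_orderOf_two ht) htN hi x.2 s.2)))
  have h1 : (g : G)⁻¹ * t ∈ centralizer (Q : Set G) := by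
    intro x hx
    have : t * x * t⁻¹ = g * x * (g : G)⁻¹ := congrArg Subtype.val (hg ⟨x, hx⟩)
    calc x * ((g : G)⁻¹ * t) = (g : G)⁻¹ * (g * x * (g : G)⁻¹) * t := by group
      _ = (g : G)⁻¹ * t * x := by rw [← this]; group
  have := mul_mem (mem_sup_left (T := centralizer (Q : Set G)) g.2) (mem_sup_right (S := Q) h1)
  rwa [mul_inv_cancel_left] at this

end Cfsg.Agent.S1756
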