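import Cfsg.Statements.S1774
import Cfsg.Agent.H3.FStarCent
import Cfsg.Agent.H3.TIAb
import Cfsg.Agent.H49.FourGroup

set_option autoImplicit false
open Cfsg

namespace Cfsg.Agent.S1774

open Subgroup Cfsg.Agent.H63 Cfsg.Agent.H67 Cfsg.Agent.H3
open scoped commutatorElement

section
variable {G : Type*} [Group G] [Finite G] {Q T N : Subgroup G} {z : G}

theorem mem_zpowers_of_cyclic (hT : IsCyclic T) (hz : z ∈ T) (h1 : z ≠ 1) (hzz : z * z = 1)
    {u : G} (hu : u ∈ T) (huu : u ^ 2 = 1) : u ∈ zpowers z := by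
  have hc : IsMulCommutative T := by haveI := hT; infer_instance
  have hK := card_le_of_isCyclic_of_pow Nat.prime_two (isCyclic_of_le' hT (omegaOne_le 2 T))
    (fun x hx => elemAb_pow (elemAb_omegaOne hc) hx)
  have := eq_of_le_of_card_le (zpowers_le.2 (mem_omegaOne hz (by rw [pow_two, hzz])))
    (by rw [H49.card_zpowers_invol h1 hzz]; exact hK)
  rw [this]; exact mem_omegaOne hu huu

theorem frattiniOf_le_of_sq (hQ : IsPGroup 2 Q) (h : ∀ a ∈ Q, a ^ 2 ∈ N) : frattiniOf Q ≤ N := by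
  refine (frattiniOf_le_iff hQ).2 ⟨commutator_le.2 fun a ha b hb => ?_, h⟩
  have : ⁅a, b⁆ = a ^ 2 * (a⁻¹ * b) ^ 2 * b⁻¹ ^ 2 := by
    simp only [commutatorElement_def, pow_two]; group
  rw [this]
  exact mul_mem (mul_mem (h a ha) (h _ (mul_mem (inv_mem ha) hb))) (h _ (inv_mem hb))

theorem sq_mem_zpowers (hQ : IsPGroup 2 Q) (hs : ∀ A, CharIn A Q → IsMulCommutative A → IsCyclic A)
    (h4 : ∀ q ∈ Q, q ^ 4 = 1) (hz : z ∈ Z[Q]) (h1 : z ≠ 1) (hzz : z * z = 1) :
    ∀ a ∈ Q, a ^ 2 ∈ zpowers z := by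
  set F := frattiniOf Q with hF
  have hFQ : F ≤ Q := frattiniOf_le Q
  have sq4 : ∀ q ∈ Q, (q ^ 2) ^ 2 = 1 := fun q hq => by rw [← pow_mul]; exact h4 q hq
  by_contra hn
  have hF0 : F ≠ ⊥ := fun e => hn fun a ha => by
    have := pow_mem_frattiniOf hQ ha
    rw [← hF, e, mem_bot] at this
    rw [this]; exact one_mem _
  have hzF : z ∈ F := by
    have hne := inf_center_ne_bot_of_isNilpotent hQ.isNilpotent (frattiniOf_normalIn Q) hF0
    obtain ⟨y, hy, hy1⟩ := exists_ne_one_of_ne_bot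
      (omegaOne_ne_bot_of_isPGroup Nat.prime_two (hQ.to_le (inf_le_left.trans hFQ)) hne)
    have hy' := (mem_omegaOne_iff_of_comm
      (isMulCommutative_of_le (isMulCommutative_center Q) inf_le_right)).1 hy
    have := mem_zpowers_of_cyclic (hs _ (charIn_center Q) (isMulCommutative_center Q)) hz h1 hzz
      hy'.1.2 hy'.2
    rcases (H49.mem_zpowers_invol hzz).1 this with e | e
    · exact absurd e hy1
    · rw [← e]; exact hy'.1.1
  have hTc : IsCyclic ↥Z[F] := hs _ ((charIn_center F).trans (charIn_frattiniOf Q))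
    (isMulCommutative_center F)
  have hzT : z ∈ Z[F] := ⟨hzF, H67.centralizer_anti hFQ hz.2⟩
  have invT : ∀ t ∈ Z[F], t ^ 2 = 1 → t ∈ zpowers z := fun t ht h =>
    mem_zpowers_of_cyclic hTc hzT h1 hzz ht h
  have lem1 : ∀ w ∈ F, (∀ a ∈ Q, ⁅a, w⁆ ∈ zpowers z) → w ∈ Z[F] := by
    intro w hw h
    refine ⟨hw, mem_centralizer_iff_le.2 (frattiniOf_le_of_sq hQ fun a ha => ?_)⟩
    rw [mem_centralizer_singleton_iff, ← commutatorElement_eq_one_iff_mul_comm,
      commutator_sq_left ((zpowers_le.2 hz.2 : zpowers z ≤ C[Q]) (h a ha) a ha)]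
    rcases (H49.mem_zpowers_invol hzz).1 (h a ha) with e | e <;> rw [e]
    · exact one_pow 2
    · rw [pow_two, hzz]
  have hlt : Z[F] < F := by
    refine lt_of_le_of_ne inf_le_left fun e => hn fun a ha => ?_
    exact invT _ (by rw [e]; exact pow_mem_frattiniOf hQ ha) (sq4 a ha)
  obtain ⟨U, hUF, hU⟩ := exists_chiefFactor_bot (frattiniOf_normalIn Q) hlt
    (frattiniOf_normalIn Q).center.norm
  have hUQ := hU.commutator_le_of_nil (normalIn_refl Q) hQ.isNilpotent
  have cm : ∀ u ∈ U, ∀ a ∈ Q, ⁅a, u⁆ ∈ Z[F] := fun u hu a ha => by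
    rw [commutator_comm] at hUQ
    exact hUQ (commutator_mem_commutator ha hu)
  have cm2 : ∀ u ∈ U, ∀ a ∈ Q, ⁅a, u ^ 2⁆ = ⁅a, u⁆ ^ 2 := fun u hu a ha =>
    commutator_sq_right ((cm u hu a ha).2 u (hUF hu))
  have k1 : ∀ u ∈ U, u ^ 2 = 1 → u ∈ Z[F] := fun u hu h =>
    lem1 u (hUF hu) fun a ha => invT _ (cm u hu a ha)
      (by rw [← cm2 u hu a ha, h, commutatorElement_one_right])
  have k2 : ∀ u ∈ U, u ^ 2 ∈ zpowers z := fun u hu =>
    invT _ (lem1 _ (pow_mem (hUF hu) 2) fun a ha => by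
      rw [cm2 u hu a ha]
      exact invT _ (pow_mem (cm u hu a ha) 2) (sq4 _ (hFQ (cm u hu a ha).1))) (sq4 u (hFQ (hUF hu)))
  obtain ⟨u, hu, hu'⟩ := SetLike.exists_of_lt hU.lt
  apply hu'
  rcases (H49.mem_zpowers_invol hzz).1 (k2 u hu) with e | e
  · exact k1 u hu e
  by_cases hw : ∃ w ∈ Z[F], w ^ 2 = z
  · obtain ⟨w, hw, hw2⟩ := hw
    have hc : Commute u w := hw.2 u (hUF hu)
    have := k1 (u * w) (mul_mem hu (hU.le hw)) (by rw [hc.mul_pow, e, hw2, hzz])
    exact (mul_mem_cancel_right hw).1 this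
  · refine lem1 u (hUF hu) fun a ha => invT _ (cm u hu a ha) ?_
    rcases (H49.mem_zpowers_invol hzz).1 (k2 _ (hU.le (cm u hu a ha))) with e' | e'
    · exact e'
    · exact absurd ⟨_, cm u hu a ha, e'⟩ hw

/-- The dihedral case. -/
theorem isPGroup_cent_of_card_eight (h : H49.LX Q z) (h8 : Nat.card Q = 8) {x : G} (hx : x ∈ Q)
    (h1 : x ≠ 1) (hz : x ≠ z) (hxx : x * x = 1) : IsPGroup 2 C1[z] := by
  obtain ⟨q, hq, hxq⟩ := h.exists_not_comm hx h1 hz
  obtain ⟨c, hc, hxc, hcc⟩ : ∃ c ∈ Q, x * c ≠ c * x ∧ c * c = z := by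
    rcases h.sq hq with e | e
    · refine ⟨x * q, mul_mem hx hq, fun e' => hxq ?_, ?_⟩
      · rw [mul_assoc] at e'; exact mul_left_cancel e'
      · calc x * q * (x * q) = x * (q * x * z * q) * z * (z * z)⁻¹ := by
              rw [mul_assoc (q * x), ← h.cen q hq]; group
          _ = z := by
              rw [← h.comm_of_ne hx hq hxq, h.zz, mul_assoc x q, e, mul_one, hxx]; group
    · exact ⟨q, hq, hxq, e⟩
  have hc1 : c ≠ 1 := fun e => hxc (by rw [e]; group)
  have hcz : c ≠ z := fun e => hxc (by rw [e]; exact h.cen x hx)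
  have hc4 : orderOf c = 4 := by
    have : orderOf c = 2 ^ (1 + 1) := orderOf_eq_prime_pow (p := 2)
      (by rw [pow_one, pow_two, hcc]; exact h.ne) (h.pow_four hc)
    exact this
  have hT : zpowers c = Q ⊓ C1[c] := by
    refine eq_of_le_of_card_le (zpowers_le.2 ⟨hc, mem_centralizer_singleton_self c⟩) ?_
    have := h.card_inf_centralizer hc hc1 hcz
    rw [Nat.card_zpowers, hc4]; omega
  have hinv : x * c * x⁻¹ = c⁻¹ := by
    rw [h.conj_of_ne hx hc hxc, eq_inv_iff_mul_eq_one, mul_assoc, ← h.cen c hc, ← mul_assoc, hcc, h.zz]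
  have hinvT : ∀ w ∈ zpowers c, x * w * x⁻¹ = w⁻¹ := by
    rintro _ ⟨n, rfl⟩
    simp only
    rw [← conj_zpow, hinv, inv_zpow]
  have out : ∀ y ∈ Q, y * c ≠ c * y → x⁻¹ * y ∈ zpowers c := fun y hy hyc => by
    rw [hT]
    refine ⟨Q.mul_mem (Q.inv_mem hx) hy, mem_centralizer_singleton_iff.2 ?_⟩
    rw [inv_eq_of_mul_eq_one_right hxx]
    exact h.mul_comm_of_ne_of_ne hx hy hc hxc hyc
  refine isPGroup_of_isPi Nat.prime_two fun r hr hd => ?_
  by_contra hne
  obtain ⟨y, hy, ho⟩ := exists_orderOf_eq_prime hr hd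
  have hyz : y * z = z * y := mem_centralizer_singleton_iff.1 hy
  have hodd : Odd (orderOf y) := by rw [ho]; exact hr.odd_of_ne_two hne
  have hyc : y * c * y⁻¹ = c := by
    refine H49.conj_eq_of_odd hodd h.zz hyz ?_
    have hm := h.conj_mem hyz hc
    have hsq : (y * c * y⁻¹) * (y * c * y⁻¹) = z := by
      calc _ = y * (c * c) * y⁻¹ := by group
        _ = z := by rw [hcc, hyz]; group
    by_cases hcm : (y * c * y⁻¹) * c = c * (y * c * y⁻¹)
    · have hp : (y * c * y⁻¹ * c) ^ 2 = 1 := by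
        rw [Commute.mul_pow hcm, pow_two, pow_two, hsq, hcc, h.zz]
      have hmT : y * c * y⁻¹ * c ∈ zpowers c := by
        rw [hT]
        exact mul_mem ⟨hm, mem_centralizer_singleton_iff.2 hcm⟩
          ⟨hc, mem_centralizer_singleton_self c⟩
      have := mem_zpowers_of_cyclic (T := zpowers c) inferInstance
        (by rw [← hcc]; exact mul_mem (mem_zpowers c) (mem_zpowers c)) h.ne h.zz hmT hp
      rcases h.mem_Z.1 this with e | e
      · right
        rw [eq_inv_of_mul_eq_one_left e, eq_comm, eq_inv_iff_mul_eq_one, mul_assoc, ← h.cen c hc,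
          ← mul_assoc, hcc, h.zz]
      · left; rw [← hcc] at e; exact mul_right_cancel e
    · exfalso
      have := hinvT _ (out _ hm hcm)
      apply h.ne
      rw [← hsq]
      calc y * c * y⁻¹ * (y * c * y⁻¹) = (x * (x⁻¹ * (y * c * y⁻¹)) * x⁻¹) * (x * x) *
            (x⁻¹ * (y * c * y⁻¹)) := by group
        _ = 1 := by rw [this, hxx]; group
  have hyT : ∀ w ∈ zpowers c, y * w * y⁻¹ = w := by
    rintro _ ⟨n, rfl⟩
    simp only
    rw [← conj_zpow, hyc]
  have hyx : y * x * y⁻¹ = x := by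
    have hm := h.conj_mem hyz hx
    have hw := out _ hm (fun e => hxc (by
      calc x * c = y⁻¹ * ((y * x * y⁻¹) * (y * c * y⁻¹)) * y := by group
        _ = y⁻¹ * ((y * c * y⁻¹) * (y * x * y⁻¹)) * y := by rw [hyc, e]
        _ = c * x := by group))
    set w := x⁻¹ * (y * x * y⁻¹) with hwd
    have e1 : y * x * y⁻¹ = x * w := by rw [hwd]; group
    have it : ∀ k : ℕ, y ^ k * x * (y ^ k)⁻¹ = x * w ^ k := by
      intro k
      induction k with
      | zero => simp
      | succ k ih =>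
        calc y ^ (k + 1) * x * (y ^ (k + 1))⁻¹ = y * (y ^ k * x * (y ^ k)⁻¹) * y⁻¹ := by group
          _ = (y * x * y⁻¹) * (y * w ^ k * y⁻¹) := by rw [ih]; group
          _ = x * w ^ (k + 1) := by rw [e1, hyT _ (pow_mem hw k)]; group
    have e2 := it (orderOf y)
    rw [pow_orderOf_eq_one] at e2
    have e3 : w ^ orderOf y = 1 := by simpa using e2.symm
    have e4 : w ^ 4 = 1 := h.pow_four (mul_mem (inv_mem hx) hm)
    have e5 : orderOf w ∣ Nat.gcd (orderOf y) 4 :=
      Nat.dvd_gcd (orderOf_dvd_of_pow_eq_one e3) (orderOf_dvd_of_pow_eq_one e4)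
    rw [show Nat.gcd (orderOf y) 4 = 1 from (Nat.coprime_two_right.2 hodd).pow_right 2,
      Nat.dvd_one, orderOf_eq_one_iff] at e5
    rw [e1, e5, mul_one]
  have hyQ : y ∈ Q := by
    refine h.cQ fun a ha => ?_
    suffices y * a * y⁻¹ = a by rw [mul_inv_eq_iff_eq_mul] at this; exact this.symm
    by_cases hac : a * c = c * a
    · exact hyT a (by rw [hT]; exact ⟨ha, mem_centralizer_singleton_iff.2 hac⟩)
    · calc y * a * y⁻¹ = (y * x * y⁻¹) * (y * (x⁻¹ * a) * y⁻¹) := by group
        _ = a := by rw [hyx, hyT _ (out a ha hac)]; group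
  have := orderOf_dvd_card_of_mem hyQ
  rw [ho, h8] at this
  exact hne ((Nat.prime_dvd_prime_iff_eq hr Nat.prime_two).1
    (hr.dvd_of_dvd_pow (n := 3) this))
end

/-- Let G be a finite group and let z be an involution of G such that Q, the generalized Fitting subgroup of the centralizer C of z, is a 2-group of symplectic type (every characteristic abelian subgroup of Q is cyclic); suppose every element of Q has order dividing 4. Let g ∈ G with z' = g z g⁻¹ ≠ z and z' ∈ Q. Then z lies in the conjugate g Q g⁻¹, and the subgroup X generated by Q and g Q g⁻¹ induces every automorphism of the four-group generated by z and z': for any two distinct non-identity elements u, v of that four-group there is x ∈ X with x z x⁻¹ = u and x z' x⁻¹ = v. -/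
theorem result {G : Type*} [Group G] [Finite G] (z : G) (hz : orderOf z = 2) (hQ : Cfsg.IsOfSymplecticType ↥(Cfsg.generalizedFittingSubgroup ↥(Subgroup.centralizer ({z} : Set G))))
    (h4 : ∀ q ∈ (Cfsg.generalizedFittingSubgroup ↥(Subgroup.centralizer ({z} : Set G))).map (Subgroup.centralizer ({z} : Set G)).subtype, q ^ 4 = 1) (g : G) (hne : g * z * g⁻¹ ≠ z) (hin : g * z * g⁻¹ ∈ (Cfsg.generalizedFittingSubgroup ↥(Subgroup.centralizer ({z} : Set G))).map (Subgroup.centralizer ({z} : Set G)).subtype) :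
    z ∈ ((Cfsg.generalizedFittingSubgroup ↥(Subgroup.centralizer ({z} : Set G))).map (Subgroup.centralizer ({z} : Set G)).subtype).map (MulAut.conj g).toMonoidHom ∧
      ∀ u ∈ Subgroup.closure ({z, g * z * g⁻¹} : Set G), ∀ v ∈ Subgroup.closure ({z, g * z * g⁻¹} : Set G),
        u ≠ 1 → v ≠ 1 → u ≠ v →
          ∃ x ∈ (Cfsg.generalizedFittingSubgroup ↥(Subgroup.centralizer ({z} : Set G))).map (Subgroup.centralizer ({z} : Set G)).subtype ⊔ ((Cfsg.generalizedFittingSubgroup ↥(Subgroup.centralizer ({z} : Set G))).map (Subgroup.centralizer ({z} : Set G)).subtype).map (MulAut.conj g).toMonoidHom, x * z * x⁻¹ = u ∧ x * (g * z * g⁻¹) * x⁻¹ = v := by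
  change _ ∈ fsC z at hin
  change _ ∈ (fsC z).map _ ∧ ∀ u ∈ _, ∀ v ∈ _, _ → _ → _ → ∃ x ∈ fsC z ⊔ (fsC z).map _, _
  change ∀ q ∈ fsC z, _ at h4
  obtain ⟨h1, hzz⟩ := H49.orderOf_two_iff.1 hz
  have hQp : IsPGroup 2 (fsC z) := hQ.1.map _
  have hcore : ∀ y : G, IsPGroup 2 (fsC y) → O[{2}](C1[y]) = fsC y := fun y hy =>
    le_antisymm (by rw [← map_pCore_subtype Nat.prime_two]; exact map_mono H52.pCore_le_fstar)
      (le_pCoreOf Nat.prime_two ⟨fsC_le y, fsC_norm y⟩ hy)
  have hs : ∀ A, CharIn A (fsC z) → IsMulCommutative A → IsCyclic A := by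
    intro A hA hc
    let e := equivMapOfInjective (generalizedFittingSubgroup C1[z]) _ (subtype_injective C1[z])
    haveI := hA.2
    have hch : ((A.subgroupOf (fsC z)).map e.symm.toMonoidHom).Characteristic := by
      rw [characteristic_iff_map_eq]
      intro φ
      have := characteristic_iff_map_eq.1 hA.2 (e.symm.trans (φ.trans e))
      conv_rhs => rw [← this]
      rw [map_map, map_map]
      congr 1
      ext; simp
    have := hQ.2 _ hch (isMulCommutative_map (isMulCommutative_subgroupOf hc _) _)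
    have := (MulEquiv.isCyclic (equivMapOfInjective _ _ e.symm.injective)).2 this
    exact (MulEquiv.isCyclic (subgroupOfEquivOfLe hA.1)).1 this
  set Q := fsC z with hQd
  have hzZ : z ∈ Z[Q] := ⟨mem_fsC z, mem_centralizer_iff_le.2 (fsC_le z)⟩
  have hZc : IsCyclic ↥Z[Q] := hs _ (charIn_center Q) (isMulCommutative_center Q)
  have hsq := sq_mem_zpowers hQp hs h4 hzZ h1 hzz
  have hcomm : ∀ a ∈ Q, ∀ b ∈ Q, a * b = b * a ∨ a * b = b * a * z := by
    intro a ha b hb
    have := (derived_le_frattiniOf hQp).trans (frattiniOf_le_of_sq hQp hsq)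
      (commutator_mem_commutator (inv_mem ha) (inv_mem hb))
    rcases (H49.mem_zpowers_invol hzz).1 this with e | e
    · left
      calc a * b = b * a * ⁅a⁻¹, b⁻¹⁆ := by simp only [commutatorElement_def]; group
        _ = b * a := by rw [e, mul_one]
    · right
      rw [← e]; simp only [commutatorElement_def]; group
  have hconj : ∀ y ∈ Q, y * y = 1 → y ≠ 1 → y ≠ z → ∃ q ∈ Q, q * y * q⁻¹ = y * z := by
    intro y hy hyy hy1 hyz
    by_contra hn
    push Not at hn
    have : y ∈ Z[Q] := by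
      refine ⟨hy, fun a ha => (hcomm a ha y hy).resolve_right fun e => hn a ha ?_⟩
      rw [e, mul_assoc y, mem_centralizer_singleton_iff.1 (fsC_le z ha)]; group
    rcases (H49.mem_zpowers_invol hzz).1
      (mem_zpowers_of_cyclic hZc hzZ h1 hzz this (by rw [pow_two, hyy])) with e | e
    · exact hy1 e
    · exact hyz e
  have hR : Q.map (MulAut.conj g).toMonoidHom = fsC (g * z * g⁻¹) := fsC_cj z g
  set x := g * z * g⁻¹ with hx
  have hxx : x * x = 1 := by
    calc x * x = g * (z * z) * g⁻¹ := by rw [hx]; group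
      _ = 1 := by rw [hzz]; group
  have hx1 : x ≠ 1 := fun e => h1 (by
    calc z = g⁻¹ * x * g := by rw [hx]; group
      _ = 1 := by rw [e]; group)
  have hxz : x * z = z * x := mem_centralizer_singleton_iff.1 (fsC_le z hin)
  obtain ⟨q, hq, hqx⟩ := hconj x hin hxx hx1 hne
  have hqz : q * z * q⁻¹ = z := by rw [mem_centralizer_singleton_iff.1 (fsC_le z hq)]; group
  have hRp : IsPGroup 2 (fsC x) := hR ▸ hQp.map _
  have hzR : z ∈ Q.map (MulAut.conj g).toMonoidHom := by
    by_cases hZ : ∀ c ∈ Q, (∀ y ∈ Q, c * y = y * c) → c = 1 ∨ c = z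
    · have hL : H49.LX Q z :=
        { mem := hzZ.1, ne := h1, zz := hzz
          cen := fun y hy => mem_centralizer_singleton_iff.1 (fsC_le z hy)
          cent := hZ, comm := hcomm
          nonab := ⟨q, hq, x, hin, fun e => h1 (by
            rw [e, mul_inv_cancel_right] at hqx
            exact (left_eq_mul.1 hqx))⟩
          cQ := cent_fsC_le z, nz := fsC_norm z }
      rcases hL.eight_le_card.lt_or_eq with h8 | h8
      · exact hL.mem_cj_of_mem h8 hin
      · have hp := isPGroup_cent_of_card_eight hL h8.symm hin hx1 hne hxx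
        have e : C1[z] = Q := by
          rw [hQd, ← hcore z hQp]
          exact (piCoreOf_eq_self (isPi_of_isPGroup Nat.prime_two hp)).symm
        rw [← e]
        change z ∈ cj g C1[z]
        rw [cj_centralizer_singleton]
        exact mem_centralizer_singleton_iff.2 hxz.symm
    · push Not at hZ
      obtain ⟨c, hc, hcc, hc1, hcz⟩ := hZ
      have hcZ : c ∈ Z[Q] := ⟨hc, fun y hy => (hcc y hy).symm⟩
      have hc2 : c ^ 2 = z := by
        rcases (H49.mem_zpowers_invol hzz).1 (hsq c hc) with e | e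
        · rcases (H49.mem_zpowers_invol hzz).1 (mem_zpowers_of_cyclic hZc hzZ h1 hzz hcZ e) with
            e' | e'
          · exact absurd e' hc1
          · exact absurd e' hcz
        · exact e
      have hTI : IsTISub Z[Q] := by
        intro k
        by_cases hi : cj k Z[Q] ⊓ Z[Q] = ⊥
        · exact Or.inr hi
        left
        obtain ⟨y, hy, hy1⟩ := exists_ne_one_of_ne_bot (omegaOne_ne_bot_of_isPGroup Nat.prime_two
          (hQp.to_le (inf_le_right.trans inf_le_left)) hi)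
        have hy' := (mem_omegaOne_iff_of_comm
          (isMulCommutative_of_le (isMulCommutative_center Q) inf_le_right)).1 hy
        have e1 := ((H49.mem_zpowers_invol hzz).1
          (mem_zpowers_of_cyclic hZc hzZ h1 hzz hy'.1.2 hy'.2)).resolve_left hy1
        have e2 := (H49.mem_zpowers_invol hzz).1
          (mem_zpowers_of_cyclic hZc hzZ h1 hzz (mem_cj.1 hy'.1.1) (by
            rw [e1]
            calc (k⁻¹ * z * k) ^ 2 = k⁻¹ * (z * z) * k := by rw [pow_two]; group
              _ = 1 := by rw [hzz]; group))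
        rw [e1] at e2
        refine cj_eq_self (normalizer_le_normalizer_center Q (fsC_norm z
          (mem_centralizer_singleton_iff.2 ?_)))
        rcases e2 with e | e
        · exact absurd (by
            calc z = k * (k⁻¹ * z * k) * k⁻¹ := by group
              _ = 1 := by rw [e]; group) h1
        · calc k * z = k * (k⁻¹ * z * k) := by rw [e]
            _ = z * k := by group
      have := hTI.sq_mem_pcore (M := C1[x]) (isMulCommutative_center Q) (hQp.to_le inf_le_left)
        (inf_le_right.trans (centralizer_le_centralizer_singleton hin))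
        (by rw [hcore x hRp]; exact fsC_cent x) hcZ
      rw [hc2, hcore x hRp] at this
      rwa [hR]
  refine ⟨hzR, ?_⟩
  obtain ⟨r, hr, hrz, hrx⟩ : ∃ r ∈ Q.map (MulAut.conj g).toMonoidHom,
      r * z * r⁻¹ = z * x ∧ r * x * r⁻¹ = x := by
    have hz' : g⁻¹ * z * g ∈ Q := mem_cj.1 hzR
    obtain ⟨s, hs, hsz⟩ := hconj _ hz' (by
      calc g⁻¹ * z * g * (g⁻¹ * z * g) = g⁻¹ * (z * z) * g := by group
        _ = 1 := by rw [hzz]; group) (fun e => h1 (by
      calc z = g * (g⁻¹ * z * g) * g⁻¹ := by group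
        _ = 1 := by rw [e]; group)) (fun e => hne (by
      calc x = g * z * g⁻¹ := hx
        _ = g * (g⁻¹ * z * g) * g⁻¹ := by rw [e]
        _ = z := by group))
    refine ⟨g * s * g⁻¹, conj_mem_cj hs, ?_, ?_⟩
    · calc g * s * g⁻¹ * z * (g * s * g⁻¹)⁻¹ = g * (s * (g⁻¹ * z * g) * s⁻¹) * g⁻¹ := by group
        _ = z * x := by rw [hsz, hx]; group
    · calc g * s * g⁻¹ * x * (g * s * g⁻¹)⁻¹ = g * (s * z * s⁻¹) * g⁻¹ := by rw [hx]; group
        _ = x := by rw [mem_centralizer_singleton_iff.1 (fsC_le z hs), hx]; group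
  have hF : H49.Four z x := ⟨h1, hx1, hzz, hxx, hne, hxz.symm⟩
  have mq : q ∈ Q ⊔ Q.map (MulAut.conj g).toMonoidHom := mem_sup_left hq
  have mr : r ∈ Q ⊔ Q.map (MulAut.conj g).toMonoidHom := mem_sup_right hr
  have hqx' : q * x * q⁻¹ = z * x := by rw [hqx, hxz]
  have hqzx : q * (z * x) * q⁻¹ = x := by
    calc q * (z * x) * q⁻¹ = (q * z * q⁻¹) * (q * x * q⁻¹) := by group
      _ = x := by rw [hqz, hqx', ← mul_assoc, hzz, one_mul]
  have hrzx : r * (z * x) * r⁻¹ = z := by
    calc r * (z * x) * r⁻¹ = (r * z * r⁻¹) * (r * x * r⁻¹) := by group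
      _ = z := by rw [hrz, hrx, mul_assoc, hxx, mul_one]
  have cc : ∀ a b y : G, a * b * y * (a * b)⁻¹ = a * (b * y * b⁻¹) * a⁻¹ := fun a b y => by group
  intro u hu v hv hu1 hv1 huv
  rcases hF.mem_closure.1 hu with rfl | rfl | rfl | rfl
  · exact absurd rfl hu1
  · rcases hF.mem_closure.1 hv with rfl | rfl | rfl | rfl
    · exact absurd rfl hv1
    · exact absurd rfl huv
    · exact ⟨1, one_mem _, by group, by group⟩
    · exact ⟨q, mq, hqz, hqx'⟩
  · rcases hF.mem_closure.1 hv with rfl | rfl | rfl | rfl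
    · exact absurd rfl hv1
    · exact ⟨r * (q * r), mul_mem mr (mul_mem mq mr), by rw [cc, cc, hrz, hqzx, hrx],
        by rw [cc, cc, hrx, hqx', hrzx]⟩
    · exact absurd rfl huv
    · exact ⟨q * r, mul_mem mq mr, by rw [cc, hrz, hqzx], by rw [cc, hrx, hqx']⟩
  · rcases hF.mem_closure.1 hv with rfl | rfl | rfl | rfl
    · exact absurd rfl hv1
    · exact ⟨r * q, mul_mem mr mq, by rw [cc, hqz, hrz], by rw [cc, hqx', hrzx]⟩
    · exact ⟨r, mr, hrz, hrx⟩
    · exact absurd rfl huv

end Cfsg.Agent.S1774
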