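import Cfsg.Statements.S1775
import Cfsg.Agent.H52.Comp2

set_option autoImplicit false
open Cfsg

namespace Cfsg.Agent.S1775

/-- Let G be a finite group whose generalized Fitting subgroup is a non-abelian simple group and in which every proper section (every quotient H/N of a proper subgroup H, or of G by a nontrivial normal subgroup) has the B-property. Let x, y be commuting involutions, let D be the intersection of the 2-layer of C_G(x) with C_G(y), and let J be a 2-component of D. Write Q for the quotient of C_G(y) by its largest normal odd-order subgroup. Then (i) the image of J in Q is a component of the centralizer in Q of the image of x; and (ii) for every J-invariant subgroup E of odd order of C_G(x) ∩ C_G(y), the commutator subgroup [J, E] lies in the largest normal odd-order subgroup of C_G(y). -/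
theorem result {G : Type*} [Group G] [Finite G]
    (hF : IsSimpleGroup ↥(Cfsg.generalizedFittingSubgroup G)) (hF' : ¬ IsMulCommutative ↥(Cfsg.generalizedFittingSubgroup G))
    (hsec : ∀ (H : Subgroup G) (N : Subgroup ↥H) [N.Normal], (H ≠ ⊤ ∨ N ≠ ⊥) → Cfsg.HasBProperty (↥H ⧸ N))
    (x y : G) (hx : orderOf x = 2) (hy : orderOf y = 2) (hxy : x * y = y * x)
    (J : Subgroup ↥((Cfsg.pLayer 2 ↥(Subgroup.centralizer ({x} : Set G))).map (Subgroup.centralizer ({x} : Set G)).subtype ⊓ Subgroup.centralizer ({y} : Set G)))
    (hJ : Cfsg.IsPComponent 2 J) :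
    Cfsg.IsComponent
        ((((J.map (Subgroup.subtype _)).subgroupOf (Subgroup.centralizer ({y} : Set G))).map (QuotientGroup.mk' (Cfsg.oddCore ↥(Subgroup.centralizer ({y} : Set G))))).subgroupOf
          (Subgroup.centralizer ({(QuotientGroup.mk' (Cfsg.oddCore ↥(Subgroup.centralizer ({y} : Set G))) ⟨x, Subgroup.mem_centralizer_singleton_iff.mpr hxy⟩ : ↥(Subgroup.centralizer ({y} : Set G)) ⧸ Cfsg.oddCore ↥(Subgroup.centralizer ({y} : Set G)))} : Set _))) ∧
      ∀ E : Subgroup G, E ≤ Subgroup.centralizer ({x} : Set G) ⊓ Subgroup.centralizer ({y} : Set G) → Odd (Nat.card ↥E) →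
        (∀ j ∈ J.map (Subgroup.subtype _), ∀ e ∈ E, j * e * j⁻¹ ∈ E) →
          ⁅J.map (Subgroup.subtype _), E⁆ ≤ (Cfsg.oddCore ↥(Subgroup.centralizer ({y} : Set G))).map (Subgroup.centralizer ({y} : Set G)).subtype := by
  have hne : Subgroup.centralizer ({y} : Set G) ≠ ⊤ := by
    intro h
    have hy' : y ∈ Subgroup.center G := Subgroup.mem_center_iff.mpr fun g =>
      (H52.mem_centralizer_singleton_iff'.mp (h ▸ Subgroup.mem_top g)).symm
    have hq := H52.isQuasisimple_of_isSimpleGroup hF'
    have hyF : y ∈ generalizedFittingSubgroup G := H52.fitting_le_fstar (H52.center_le_fitting hy')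
    have h1 : (⟨y, hyF⟩ : generalizedFittingSubgroup G) ∈ Subgroup.center _ :=
      Subgroup.mem_center_iff.mpr fun g => Subtype.ext (Subgroup.mem_center_iff.mp hy' g)
    rcases hF.eq_bot_or_eq_top_of_normal (Subgroup.center _) inferInstance with h2 | h2
    · rw [h2, Subgroup.mem_bot] at h1
      have : y = 1 := congrArg Subtype.val h1
      rw [this, orderOf_one] at hy
      exact absurd hy (by decide)
    · exact hF' (Subgroup.center_eq_top_iff.mp h2)
  have hB := hsec _ (oddCore _) (Or.inl hne)
  have hf := QuotientGroup.mk'_surjective (oddCore (Subgroup.centralizer ({y} : Set G)))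
  have hk := H52.coprime_card_ker_mk'_pPrimeCore (G := Subgroup.centralizer ({y} : Set G)) (p := 2)
  set x' : Subgroup.centralizer ({y} : Set G) :=
    ⟨x, Subgroup.mem_centralizer_singleton_iff.mpr hxy⟩ with hx'
  have hx2 : orderOf x' = 2 := by rw [← Subgroup.orderOf_coe]; exact hx
  have hJ1 := H52.IsPComponentOf.trans (H52.IsPComponent.isPComponentOf_map_subtype hJ)
    ((H52.SN.of_le_normalizer (H52.Lp_le (p := 2) _) (H52.le_normalizer_Lp _)).inf_right _)
  set J' := J.map (Subgroup.subtype _) with hJ'
  have hJC : J' ≤ Subgroup.centralizer ({y} : Set G) := hJ1.1.trans inf_le_right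
  have hc : ((Subgroup.centralizer ({x} : Set G) ⊓ Subgroup.centralizer ({y} : Set G)).subgroupOf
      (Subgroup.centralizer ({y} : Set G))).map (QuotientGroup.mk' (oddCore _)) =
      Subgroup.centralizer {QuotientGroup.mk' (oddCore _) x'} := by
    rw [Subgroup.inf_subgroupOf_right, ← H52.map_centralizer_singleton hf hk
      (H52.isPGroup_zpowers_of_orderOf_eq_prime hx2), H52.centralizer_singleton_subgroupOf]
  have hJ2 := H52.IsPComponentOf.map_of_coprime_ker (H52.IsPComponentOf.subgroupOf hJ1 hJC) _ hk
  rw [hc] at hJ2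
  have hJ3 := H52.HasBProperty.isComponentOf hB H52.pPrimeCore_quotient_pPrimeCore
    (H52.orderOf_map_of_coprime_ker hk hx2) hJ2
  refine ⟨hJ3.2, fun E hE hodd hn => ?_⟩
  have hEC : E ≤ Subgroup.centralizer ({y} : Set G) := hE.trans inf_le_right
  have hJE : J' ≤ Subgroup.normalizer (E : Set G) := by
    intro j hj
    apply H52.mem_normalizer_of_cnj_le
    rintro _ ⟨e, he, rfl⟩
    exact hn j hj e he
  rcases H52.IsComponent.le_or_commutator_eq_bot' hJ3.1 hJ3.2
    (N := (E.subgroupOf _).map (QuotientGroup.mk' (oddCore _)))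
    (hc ▸ Subgroup.map_mono (Subgroup.comap_mono hE))
    ((Subgroup.map_mono ((Subgroup.comap_mono hJE).trans (Subgroup.le_normalizer_comap _))).trans
      (Subgroup.le_normalizer_map _)) with h | h
  · exact absurd h ((H52.IsPComponentOf.isPQS hJ2).not_le_of_coprime (H52.coprime_card_map _
      (H52.coprime_card_subgroupOf _ (Nat.coprime_two_right.mpr hodd))))
  · rw [← H52.map_subtype_commutator_subgroupOf hJC hEC]
    exact Subgroup.map_mono (H52.commutator_le_of_map_commutator_eq_bot h)

end Cfsg.Agent.S1775
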