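import Cfsg.Statements.S1783
import Cfsg.Agent.H3.TIAb
import Cfsg.Agent.H52.FStar

set_option autoImplicit false
open Cfsg

namespace Cfsg.Agent.S1783

open Subgroup Cfsg.Agent.H63 Cfsg.Agent.H67 Cfsg.Agent.H3

/-- Let X be a finite group whose generalized Fitting subgroup equals its largest normal 2-subgroup Q, and let A be an abelian 2-subgroup of X such that every conjugate of A equals A or meets A trivially. Let B be the subgroup generated by the squares of the elements of A. Then B lies in Q, and if B is not an elementary abelian 2-group then the normal closure of B in X is commutative. -/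
theorem result {X : Type*} [Group X] [Finite X]
    (hX : Cfsg.generalizedFittingSubgroup X = Cfsg.pCore 2 X) (A : Subgroup X) (hA2 : IsPGroup 2 ↥A) (hAa : IsMulCommutative ↥A)
    (hti : ∀ h : X, A.map (MulAut.conj h).toMonoidHom = A ∨ A.map (MulAut.conj h).toMonoidHom ⊓ A = ⊥) :
    Subgroup.closure ((fun a : X => a ^ 2) '' (A : Set X)) ≤ Cfsg.pCore 2 X ∧
      (¬ Cfsg.IsElementaryAbelian 2 (Subgroup.closure ((fun a : X => a ^ 2) '' (A : Set X))) →
        IsMulCommutative ↥(Subgroup.normalClosure ((fun a : X => a ^ 2) '' (A : Set X)))) := by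
  have hT : IsTISub A := hti
  have hQ : pCore 2 X = O[{2}]((⊤ : Subgroup X)) := pCore_eq_top_form Nat.prime_two
  have hC : ⊤ ⊓ C[O[{2}]((⊤ : Subgroup X))] ≤ O[{2}]((⊤ : Subgroup X)) := by
    rw [← hQ, ← hX]; exact inf_le_right.trans H52.centralizer_fstar_le
  set B := closure ((fun a : X => a ^ 2) '' (A : Set X)) with hB
  have hBQ : B ≤ pCore 2 X := by
    rw [hB, closure_le, hQ]
    rintro _ ⟨a, ha, rfl⟩
    exact hT.sq_mem_pcore hAa hA2 le_top hC ha
  refine ⟨hBQ, fun hne => ?_⟩
  have hBA : B ≤ A := by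
    rw [hB, closure_le]
    rintro _ ⟨a, ha, rfl⟩
    exact pow_mem ha 2
  have hBc := isMulCommutative_of_le hAa hBA
  have hcjB : ∀ g, cj g A = A → cj g B = B := by
    intro g hg
    refine cj_eq_self (mem_normalizer_of_cj_le ?_)
    rw [hB, cj_closure, closure_le]
    rintro _ ⟨_, ⟨a, ha, rfl⟩, rfl⟩
    exact subset_closure ⟨g * a * g⁻¹, conj_mem_of_mem_normalizer (cj_eq_self_iff.1 hg) ha,
      conj_pow⟩
  have hTB : IsTISub B := fun g => (hT g).imp (hcjB g) fun h : cj g A ⊓ A = ⊥ =>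
    eq_bot_iff.2 ((inf_le_inf (cj_mono hBA) hBA).trans h.le)
  have h4 : ∃ a ∈ B, a ^ 2 ≠ 1 ∧ a ^ 4 = 1 := by
    refine exists_order_four (hA2.to_le hBA) ?_
    by_contra hn
    push Not at hn
    apply hne
    rw [← omegaOne_eq_self hn]
    exact elemAb_omegaOne hBc
  have hQn : (pCore 2 X).Normal := by rw [hQ]; exact normalIn_top_iff.1 (piCoreOf_normalIn _ _)
  have hQp : IsPGroup 2 (pCore 2 X) := by
    rw [hQ]; exact isPGroup_of_isPi Nat.prime_two (isPi_piCoreOf _ _)
  have hle : ∀ g, cj g B ≤ pCore 2 X := fun g =>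
    cj_le_of_mem_normalizer (by rw [normalizer_eq_top]; exact mem_top g) hBQ
  rw [← le_centralizer_iff_isMulCommutative, normalClosure, centralizer_closure, closure_le]
  intro x hx y hy
  obtain ⟨a, ha, hxa⟩ := Group.mem_conjugatesOfSet_iff.1 hx
  obtain ⟨b, hb, hyb⟩ := Group.mem_conjugatesOfSet_iff.1 hy
  obtain ⟨g, rfl⟩ := isConj_iff.1 hxa
  obtain ⟨k, rfl⟩ := isConj_iff.1 hyb
  exact hTB.cj_cent_of_le hBc h4 hQp.isNilpotent (hle k) (hle g)
    (conj_mem_cj (subset_closure ha)) _ (conj_mem_cj (subset_closure hb))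

end Cfsg.Agent.S1783
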