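import Cfsg.Statements.S1784
import Cfsg.Agent.H3.FStarCent

set_option autoImplicit false
open Cfsg

namespace Cfsg.Agent.S1784

open Subgroup Cfsg.Agent.H3

theorem aux {G : Type*} [Group G] [Finite G] {Q : Subgroup G} {z : G} (h : H49.LX Q z) {α : G}
    (hα : α * α = 1) (hαz : α * z = z * α) (hαQ : α ∉ Q) (Q₀ : Subgroup G)
    (hQ₀ : ∀ q : G, q ∈ Q₀ ↔ (q ∈ Q ∧ α * q * α⁻¹ * q⁻¹ ∈ zpowers z)) :
    closure ((fun q : G => α * q * α⁻¹ * q⁻¹) '' (Q : Set G)) = (center ↥Q₀).map Q₀.subtype := by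
  set D := closure ((fun q : G => α * q * α⁻¹ * q⁻¹) '' (Q : Set G)) with hD
  have hαi : α⁻¹ = α := inv_eq_of_mul_eq_one_right hα
  have cjm : ∀ q ∈ Q, α * q * α⁻¹ ∈ Q := fun q hq => h.conj_mem hαz hq
  have hDQ : D ≤ Q := by
    rw [hD, closure_le]
    rintro _ ⟨q, hq, rfl⟩
    exact mul_mem (cjm q hq) (inv_mem hq)
  have gen : ∀ q ∈ Q, α * q * α⁻¹ * q⁻¹ ∈ D := fun q hq => subset_closure ⟨q, hq, rfl⟩
  -- `z ∈ D`
  have hzD : z ∈ D := by
    by_contra hzD
    apply hαQ
    apply h.cQ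
    intro q hq
    by_contra hne
    have h1 : α * q * α⁻¹ * q⁻¹ ≠ 1 := by
      intro e; apply hne
      rw [mul_inv_eq_one, mul_inv_eq_iff_eq_mul] at e; exact e.symm
    have h2 : α * q * α⁻¹ * q⁻¹ ≠ z := fun e => hzD (e ▸ gen q hq)
    obtain ⟨y, hy, hyc⟩ := h.exists_conj_eq_mul_z (hDQ (gen q hq)) h1 h2
    apply hzD
    have e1 : y * (α * q * α⁻¹ * q⁻¹) * y⁻¹ =
        (α * y * α⁻¹ * y⁻¹)⁻¹ * (α * (y * q) * α⁻¹ * (y * q)⁻¹) := by group
    have m1 : y * (α * q * α⁻¹ * q⁻¹) * y⁻¹ ∈ D := by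
      rw [e1]; exact mul_mem (inv_mem (gen y hy)) (gen _ (mul_mem hy hq))
    rw [hyc] at m1
    exact (mul_mem_cancel_left (gen q hq)).1 m1
  -- commutation signs are preserved by `α`
  have key : ∀ x y : G, (α * x * α⁻¹) * y = y * (α * x * α⁻¹) ↔
      x * (α * y * α⁻¹) = (α * y * α⁻¹) * x := by
    intro x y
    rw [hαi]
    constructor
    · intro e
      calc x * (α * y * α) = α * (α * x * α * y) * α := by
            rw [show α * (α * x * α * y) * α = (α * α) * x * (α * y * α) by group, hα, one_mul]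
        _ = α * (y * (α * x * α)) * α := by rw [e]
        _ = α * y * α * x := by
            rw [show α * (y * (α * x * α)) * α = α * y * α * x * (α * α) by group, hα, mul_one]
    · intro e
      calc α * x * α * y = α * (x * (α * y * α)) * α := by
            rw [show α * (x * (α * y * α)) * α = α * x * α * y * (α * α) by group, hα, mul_one]
        _ = α * (α * y * α * x) * α := by rw [e]
        _ = y * (α * x * α) := by
            rw [show α * (α * y * α * x) * α = (α * α) * y * (α * x * α) by group, hα, one_mul]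
  have sgn : ∀ x y : G, H49.csign (α * x * α⁻¹) y = H49.csign x (α * y * α⁻¹) := by
    intro x y
    unfold H49.csign
    by_cases e : x * (α * y * α⁻¹) = (α * y * α⁻¹) * x
    · rw [if_pos e, if_pos ((key x y).2 e)]
    · rw [if_neg e, if_neg (fun e' => e ((key x y).1 e'))]
  have sinv : ∀ x ∈ Q, ∀ y ∈ Q, H49.csign x⁻¹ y = H49.csign x y := by
    intro x hx y hy
    have := h.csign_mul_left (inv_mem hx) hx hy
    rw [inv_mul_cancel, H49.csign_eq_one.2 (by simp)] at this
    rcases Int.units_eq_one_or (H49.csign x⁻¹ y) with e | e <;>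
      rcases Int.units_eq_one_or (H49.csign x y) with e' | e' <;> simp_all
  have hC : Q ⊓ centralizer (D : Set G) = Q₀ := by
    ext y
    rw [hQ₀, mem_inf]
    refine and_congr_right fun hy => ?_
    have hy' : α * y * α⁻¹ * y⁻¹ ∈ Q := mul_mem (cjm y hy) (inv_mem hy)
    have main : ∀ q ∈ Q, H49.csign (α * q * α⁻¹ * q⁻¹) y = H49.csign q (α * y * α⁻¹ * y⁻¹) := by
      intro q hq
      rw [h.csign_mul_left (cjm q hq) (inv_mem hq) hy, sgn, sinv q hq y hy,
        h.csign_mul_right (cjm y hy) (inv_mem hy) hq, H49.csign_symm q y⁻¹, sinv y hy q hq,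
        H49.csign_symm y q]
    constructor
    · intro hc
      rw [← h.inf_centralizer_self]
      refine ⟨hy', fun q hq => ?_⟩
      rw [← H49.csign_eq_one, ← main q hq, H49.csign_eq_one]
      exact hc _ (gen q hq)
    · intro hc
      rw [hD, centralizer_closure]
      rintro _ ⟨q, hq, rfl⟩
      rw [← H49.csign_eq_one, main q hq, H49.csign_eq_one]
      rw [← h.inf_centralizer_self] at hc
      exact hc.2 q hq
  have hDD := h.centralizer_centralizer hDQ hzD
  rw [hC] at hDD
  rw [H49.center_map_eq_inf]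
  apply le_antisymm
  · refine le_inf ?_ (hDD ▸ inf_le_right)
    rw [hD, closure_le]
    rintro _ ⟨q, hq, rfl⟩
    have hc := hDQ (gen q hq)
    refine (hQ₀ _).2 ⟨hc, ?_⟩
    have : α * (α * q * α⁻¹ * q⁻¹) * α⁻¹ * (α * q * α⁻¹ * q⁻¹)⁻¹ =
        (α * q * α⁻¹ * q⁻¹)⁻¹ * (α * q * α⁻¹ * q⁻¹)⁻¹ := by
      congr 1
      rw [hαi]
      calc α * (α * q * α * q⁻¹) * α = (α * α) * (q * α * q⁻¹ * α) := by group
        _ = (α * q * α * q⁻¹)⁻¹ := by rw [hα, one_mul, mul_inv_rev, mul_inv_rev, mul_inv_rev, hαi]; group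
    rw [this]
    exact h.sq_mem (inv_mem hc)
  · rw [← hDD]
    exact inf_le_inf_right _ (hC ▸ inf_le_left)

/-- Let G be a finite group and let z be an involution of G such that Q, the generalized Fitting subgroup of the centralizer C of z, is a 2-group of symplectic type (every characteristic abelian subgroup of Q is cyclic); suppose Q is extraspecial, and view Q inside G. Let α be an involution of C that is not in Q, and let Q₀ be the subgroup of those q ∈ Q whose commutator with α lies in the subgroup generated by z. Then (a) the subgroup generated by the commutators α q α⁻¹ q⁻¹, q ∈ Q, equals the centre of Q₀; and (b) if Q₀ is not contained in the product of the centralizer of α in Q with the subgroup generated by z, then some element of Q conjugates α to α z. -/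
theorem result {G : Type*} [Group G] [Finite G] (z : G) (hz : orderOf z = 2) (hQ : Cfsg.IsOfSymplecticType ↥(Cfsg.generalizedFittingSubgroup ↥(Subgroup.centralizer ({z} : Set G)))) (hE : Cfsg.IsExtraspecial 2 ↥(Cfsg.generalizedFittingSubgroup ↥(Subgroup.centralizer ({z} : Set G))))
    (α : G) (hα : orderOf α = 2) (hαC : α ∈ Subgroup.centralizer ({z} : Set G)) (hαQ : α ∉ (Cfsg.generalizedFittingSubgroup ↥(Subgroup.centralizer ({z} : Set G))).map (Subgroup.centralizer ({z} : Set G)).subtype)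
    (Q₀ : Subgroup G) (hQ₀ : ∀ q : G, q ∈ Q₀ ↔ (q ∈ (Cfsg.generalizedFittingSubgroup ↥(Subgroup.centralizer ({z} : Set G))).map (Subgroup.centralizer ({z} : Set G)).subtype ∧ α * q * α⁻¹ * q⁻¹ ∈ Subgroup.zpowers z)) :
    Subgroup.closure ((fun q : G => α * q * α⁻¹ * q⁻¹) '' ((Cfsg.generalizedFittingSubgroup ↥(Subgroup.centralizer ({z} : Set G))).map (Subgroup.centralizer ({z} : Set G)).subtype : Set G)) = (Subgroup.center ↥Q₀).map Q₀.subtype ∧
      (¬ Q₀ ≤ ((Cfsg.generalizedFittingSubgroup ↥(Subgroup.centralizer ({z} : Set G))).map (Subgroup.centralizer ({z} : Set G)).subtype ⊓ Subgroup.centralizer ({α} : Set G)) ⊔ Subgroup.zpowers z →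
        ∃ q ∈ (Cfsg.generalizedFittingSubgroup ↥(Subgroup.centralizer ({z} : Set G))).map (Subgroup.centralizer ({z} : Set G)).subtype, q * α * q⁻¹ = α * z) := by
  have h := LX_fsC hz hE
  have hαz : α * z = z * α := mem_centralizer_singleton_iff.1 hαC
  have hαα := (H49.orderOf_two_iff.1 hα).2
  refine ⟨aux h hαα hαz hαQ Q₀ hQ₀, fun hn => ?_⟩
  obtain ⟨q, hq, hq'⟩ := SetLike.not_le_iff_exists.1 hn
  obtain ⟨hqQ, hc⟩ := (hQ₀ q).1 hq
  refine ⟨q, hqQ, ?_⟩
  have hαi : α⁻¹ = α := inv_eq_of_mul_eq_one_right hαα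
  rcases h.mem_Z.1 hc with e | e
  · exfalso
    apply hq'
    refine mem_sup_left ⟨hqQ, mem_centralizer_singleton_iff.2 ?_⟩
    rw [mul_inv_eq_one, mul_inv_eq_iff_eq_mul] at e; exact e.symm
  · rw [← e, hαi]
    calc q * α * q⁻¹ = (α * α) * (q * α * q⁻¹) := by rw [hαα, one_mul]
      _ = _ := by group

end Cfsg.Agent.S1784
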