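import Cfsg.Statements.S1785
import Cfsg.Agent.H81.Four

set_option autoImplicit false
open Cfsg

namespace Cfsg.Agent.S1785


/-- Let X be a finite 2-group having a normal elementary abelian subgroup of order at least 32. Then (a) for any two elementary abelian subgroups A, B of X of order 8 there is a chain A = A₁, A₂, …, Aₙ = B of elementary abelian subgroups of order 8 in which consecutive members commute elementwise; and (b) every elementary abelian subgroup of X of order 4 is contained in an elementary abelian subgroup of order 8. -/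
theorem result {X : Type*} [Group X] [Finite X]
    (hX : IsPGroup 2 X) (E : Subgroup X) [E.Normal] (hE : Cfsg.IsElementaryAbelian 2 E) (hE32 : 32 ≤ Nat.card ↥E) :
    (∀ A B : Subgroup X, Cfsg.IsElementaryAbelian 2 A → Nat.card ↥A = 8 → Cfsg.IsElementaryAbelian 2 B → Nat.card ↥B = 8 →
        Relation.ReflTransGen
          (fun C D : Subgroup X => Cfsg.IsElementaryAbelian 2 C ∧ Nat.card ↥C = 8 ∧ Cfsg.IsElementaryAbelian 2 D ∧ Nat.card ↥D = 8 ∧ ⁅C, D⁆ = ⊥)
          A B) ∧
      (∀ V : Subgroup X, Cfsg.IsElementaryAbelian 2 V → Nat.card ↥V = 4 →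
        ∃ A : Subgroup X, V ≤ A ∧ Cfsg.IsElementaryAbelian 2 A ∧ Nat.card ↥A = 8) := by
  obtain ⟨hc, hE2⟩ := H51.isEA_iff.1 hE
  have hEp := H51.isEA_isPGroup hE
  have hN : ∀ x : X, x ∈ Subgroup.normalizer (E : Set X) := fun x => by
    rw [Subgroup.normalizer_eq_top]; trivial
  have h8 : ∀ a : X, a ^ 2 = 1 → 8 ≤ Nat.card ↥(E ⊓ Subgroup.centralizer {a}) := fun a ha =>
    H81.card_centralizer_ge hE ha (hN a) (k := 2) (by simpa using hE32)
  have h4 : ∀ V : Subgroup X, IsElementaryAbelian 2 V → Nat.card V = 4 →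
      ∃ W, W ≤ E ∧ W ≤ Subgroup.centralizer (V : Set X) ∧ Nat.card W = 4 := by
    intro V hV hV4
    obtain ⟨hVc, hV2⟩ := H51.isEA_iff.1 hV
    obtain ⟨b, hb, hb1, hb2⟩ := H81.exists_order_prime_mem (H51.isEA_isPGroup hV)
      (by rintro rfl; simp at hV4)
    obtain ⟨U, hUV, hbU, hU⟩ := H81.exists_index_two_avoiding hV (by rintro rfl; simp at hV4) hb1
    have hU2 : Nat.card U = 2 := by omega
    obtain ⟨a, ha, ha1, ha2⟩ := H81.exists_order_prime_mem ((H51.isEA_isPGroup hV).to_le hUV)
      (by rintro rfl; simp at hU2)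
    have hUa : U = Subgroup.zpowers a := by
      symm
      apply Subgroup.eq_of_le_of_card_ge (by rwa [Subgroup.zpowers_le])
      rw [Nat.card_zpowers, orderOf_eq_prime ha2 ha1, hU2]
    have hbU' : b ∈ Subgroup.centralizer (U : Set X) := fun u hu => hVc u (hUV hu) b hb
    have hVeq : U ⊔ Subgroup.zpowers b = V := by
      apply Subgroup.eq_of_le_of_card_ge (sup_le hUV (by rwa [Subgroup.zpowers_le]))
      rw [H81.card_sup_zpowers hb2 hbU (Subgroup.centralizer_le_normalizer _ hbU'), hU2, hV4]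
    have hbn : b ∈ Subgroup.normalizer ((E ⊓ Subgroup.centralizer {a} : Subgroup X) : Set X) := by
      have := H85.le_normalizer_inf (H := Subgroup.zpowers b) (A := E) (B := Subgroup.centralizer {a})
        (fun x _ => hN x) (by
          rw [Subgroup.zpowers_le]
          exact Subgroup.le_normalizer
            (Subgroup.mem_centralizer_singleton_iff.2 (hVc b hb a (hUV ha))))
      exact this (Subgroup.mem_zpowers b)
    have h1 := H81.card_centralizer_ge (H51.isEA_of_le hE inf_le_left) hb2 hbn (k := 1)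
      (by simpa using h8 a ha2)
    obtain ⟨W, hW, hW4⟩ := H81.exists_le_card_eq (hEp.to_le (inf_le_left.trans inf_le_left)) h1
    refine ⟨W, hW.trans (inf_le_left.trans inf_le_left), ?_, by simpa using hW4⟩
    rw [Subgroup.le_centralizer_iff, ← hVeq]
    refine sup_le ?_ ?_
    · rw [hUa, Subgroup.zpowers_le]
      exact fun v hv => Subgroup.mem_centralizer_singleton_iff.1 (hW hv).1.2
    · rw [Subgroup.zpowers_le]
      exact fun v hv => Subgroup.mem_centralizer_singleton_iff.1 (hW hv).2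
  have hadj : ∀ V : Subgroup X, IsElementaryAbelian 2 V → Nat.card V = 4 → ∀ z : X, z ^ 2 = 1 → z ∉ V →
      z ∈ Subgroup.centralizer (V : Set X) →
      IsElementaryAbelian 2 (V ⊔ Subgroup.zpowers z) ∧ Nat.card ↥(V ⊔ Subgroup.zpowers z) = 8 := by
    intro V hV hV4 z hz2 hzV hzc
    refine ⟨H81.isEA_sup_zpowers hV hz2 hzc, ?_⟩
    rw [H81.card_sup_zpowers hz2 hzV (Subgroup.centralizer_le_normalizer _ hzc), hV4]
  refine ⟨?_, ?_⟩
  · let r := fun C D : Subgroup X => Cfsg.IsElementaryAbelian 2 C ∧ Nat.card ↥C = 8 ∧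
      Cfsg.IsElementaryAbelian 2 D ∧ Nat.card ↥D = 8 ∧ ⁅C, D⁆ = ⊥
    have hsymm : ∀ A B, r A B → r B A := fun A B h =>
      ⟨h.2.2.1, h.2.2.2.1, h.1, h.2.1, by rw [Subgroup.commutator_comm]; exact h.2.2.2.2⟩
    have key : ∀ A : Subgroup X, IsElementaryAbelian 2 A → Nat.card A = 8 →
        ∃ B, B ≤ E ∧ Nat.card B = 8 ∧ Relation.ReflTransGen r A B := by
      intro A hA hA8
      obtain ⟨hAc, hA2⟩ := H51.isEA_iff.1 hA
      obtain ⟨z, hzE, hzc, hz1, hz2⟩ := H81.exists_fixed_of_normalized (H51.isEA_isPGroup hA) hEp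
        (fun x _ => hN x) (by rintro rfl; simp at hE32)
      obtain ⟨V, hVA, hzV, hV⟩ := H81.exists_index_two_avoiding hA (by rintro rfl; simp at hA8) hz1
      have hV4 : Nat.card V = 4 := by omega
      have hVe := H51.isEA_of_le hA hVA
      obtain ⟨h1e, h18⟩ := hadj V hVe hV4 z hz2 hzV (Subgroup.centralizer_le hVA hzc)
      have r1 : r A (V ⊔ Subgroup.zpowers z) := by
        refine ⟨hA, hA8, h1e, h18, ?_⟩
        rw [Subgroup.commutator_comm, Subgroup.commutator_eq_bot_iff_le_centralizer]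
        exact sup_le (fun v hv a ha => hAc a ha v (hVA hv)) (by rwa [Subgroup.zpowers_le])
      by_cases hVE : V ≤ E
      · exact ⟨_, sup_le hVE (by rwa [Subgroup.zpowers_le]), h18, Relation.ReflTransGen.single r1⟩
      obtain ⟨a, haV, haE⟩ := SetLike.not_le_iff_exists.1 hVE
      obtain ⟨W, hWE, hWc, hW4⟩ := h4 V hVe hV4
      have ha2 := hA2 a (hVA haV)
      obtain ⟨h2e, h28⟩ := hadj W (H51.isEA_of_le hE hWE) hW4 a ha2 (fun h => haE (hWE h))
        (Subgroup.le_centralizer_iff.1 hWc haV)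
      have r2 : r (V ⊔ Subgroup.zpowers z) (W ⊔ Subgroup.zpowers a) := by
        refine ⟨h1e, h18, h2e, h28, ?_⟩
        rw [Subgroup.commutator_eq_bot_iff_le_centralizer]
        refine sup_le ?_ ?_
        · rw [Subgroup.le_centralizer_iff]
          refine sup_le hWc ?_
          rw [Subgroup.zpowers_le]
          exact fun v hv => hAc v (hVA hv) a (hVA haV)
        · rw [Subgroup.le_centralizer_iff]
          refine sup_le ?_ ?_
          · rw [Subgroup.le_centralizer_iff, Subgroup.zpowers_le]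
            exact fun w hw => hc w (hWE hw) z hzE
          · rw [Subgroup.le_centralizer_iff, Subgroup.zpowers_le]
            exact Subgroup.centralizer_le (show (Subgroup.zpowers a : Set X) ⊆ A from
              Subgroup.zpowers_le.2 (hVA haV)) hzc
      obtain ⟨B, hB, hB8⟩ := H81.exists_le_card_eq (hEp.to_le inf_le_left) (k := 3)
        (by simpa using h8 a ha2)
      refine ⟨B, hB.trans inf_le_left, by simpa using hB8,
        ((Relation.ReflTransGen.single r1).tail r2).tail
          ⟨h2e, h28, H51.isEA_of_le hE (hB.trans inf_le_left), by simpa using hB8, ?_⟩⟩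
      rw [Subgroup.commutator_eq_bot_iff_le_centralizer]
      refine sup_le (fun w hw b hb => hc b (hB hb).1 w (hWE hw)) ?_
      rw [Subgroup.zpowers_le]
      exact fun b hb => Subgroup.mem_centralizer_singleton_iff.1 (hB hb).2
    intro A B hA hA8 hB hB8
    obtain ⟨W1, h1, h1', h1''⟩ := key A hA hA8
    obtain ⟨W2, h2, h2', h2''⟩ := key B hB hB8
    refine (h1''.tail ⟨H51.isEA_of_le hE h1, h1', H51.isEA_of_le hE h2, h2', ?_⟩).trans
      (H81.reflTransGen_symm hsymm h2'')
    rw [Subgroup.commutator_eq_bot_iff_le_centralizer]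
    exact fun a ha b hb => hc b (h2 hb) a (h1 ha)
  · intro V hV hV4
    obtain ⟨z, hzE, hzc, hzV⟩ : ∃ z ∈ E, z ∈ Subgroup.centralizer (V : Set X) ∧ z ∉ V := by
      by_cases hVE : V ≤ E
      · have : ¬ E ≤ V := fun h => by have := Subgroup.card_le_of_le h; omega
        obtain ⟨z, hz, hzV⟩ := SetLike.not_le_iff_exists.1 this
        exact ⟨z, hz, fun v hv => hc v (hVE hv) z hz, hzV⟩
      · obtain ⟨W, hWE, hWc, hW4⟩ := h4 V hV hV4
        have : ¬ W ≤ V := fun h =>
          hVE ((Subgroup.eq_of_le_of_card_ge h (by omega)).ge.trans hWE)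
        obtain ⟨z, hz, hzV⟩ := SetLike.not_le_iff_exists.1 this
        exact ⟨z, hWE hz, hWc hz, hzV⟩
    exact ⟨_, le_sup_left, hadj V hV hV4 z (hE2 z hzE) hzV hzc⟩

end Cfsg.Agent.S1785
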