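import Cfsg.Statements.S1833
import Cfsg.Agent.H72.QA2

set_option autoImplicit false
open Cfsg

namespace Cfsg.Agent.S1833

/-- Let G be a non-abelian finite simple QTKE-group and T a Sylow 2-subgroup of G, and let Z = Ω₁(Z(T)). Suppose ℒ_f(G, T) is empty and C_G(Z) lies in at least two distinct maximal 2-local subgroups of G. Then C_G(Z) = T. -/
theorem result {G : Type*} [Group G] [Finite G] [IsSimpleGroup G]
    (hG : ¬ IsMulCommutative G) (hQ : Cfsg.IsQTKE G) (T : Sylow 2 G)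
    (hE : Cfsg.calLf (T : Subgroup G) = ∅)
    (hZ : ∃ M₁ M₂ : Subgroup G,
      M₁ ∈ Cfsg.maxTwoLocalsContaining (Subgroup.centralizer ((Cfsg.omegaOne 2 ((T : Subgroup G) ⊓ Subgroup.centralizer ((T : Subgroup G) : Set G))) : Set G)) ∧
      M₂ ∈ Cfsg.maxTwoLocalsContaining (Subgroup.centralizer ((Cfsg.omegaOne 2 ((T : Subgroup G) ⊓ Subgroup.centralizer ((T : Subgroup G) : Set G))) : Set G)) ∧ M₁ ≠ M₂) :
    Subgroup.centralizer ((Cfsg.omegaOne 2 ((T : Subgroup G) ⊓ Subgroup.centralizer ((T : Subgroup G) : Set G))) : Set G) = (T : Subgroup G) := by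
  obtain ⟨M₁, M₂, h₁, h₂, hne⟩ := hZ
  exact ((H72.QA.ha_of hQ T hE h₁ h₂ hne).exists_pr_T h₁ h₂ hne).1

end Cfsg.Agent.S1833
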