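import Cfsg.Statements.S1850
import Cfsg.Agent.H83.Parab

set_option autoImplicit false
open Cfsg

namespace Cfsg.Agent.S1850

open Subgroup Cfsg.Agent.H83

/-- Let G be a non-abelian finite simple QTKE-group and T a Sylow 2-subgroup of G. If U is a nontrivial 2-subgroup of G with U ∩ Z(T) ≠ 1, then F*(N_G(U)) = O₂(N_G(U)). -/
theorem result {G : Type*} [Group G] [Finite G] [IsSimpleGroup G]
    (hG : ¬ IsMulCommutative G) (hQ : Cfsg.IsQTKE G) (T : Sylow 2 G) (U : Subgroup G)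
    (hU : IsPGroup 2 ↥U) (hZ : U ⊓ ((T : Subgroup G) ⊓ Subgroup.centralizer ((T : Subgroup G) : Set G)) ≠ ⊥) :
    Subgroup.normalizer (U : Set G) ∈ Cfsg.calHe G := by
  haveI : Fact (Nat.Prime 2) := ⟨Nat.prime_two⟩
  have hP : Cfsg.IsOfParabolicCharacteristic 2 G := fun R hR h0 hp =>
    hQ.2.2 _ ⟨R, hR, h0, rfl⟩ hp
  obtain ⟨⟨z, hzU, hzT, hzc⟩, hz1⟩ := ne_bot_iff_exists_ne_one.mp hZ
  have hz1' : z ≠ 1 := fun e => hz1 (Subtype.ext e)
  have h1 := parChar_cent hP (isSylowIn_top T) hzT hzc hz1'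
  exact charP_iff_fstar.mp (charP_norm_of_mem hU hzU h1)

end Cfsg.Agent.S1850
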