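import Cfsg.Statements.S1957
import Cfsg.Agent.H3.Char2
import Cfsg.Agent.H81.Four

set_option autoImplicit false
open Cfsg

namespace Cfsg.Agent.S1957

open Subgroup Cfsg.Agent.H63 Cfsg.Agent.H67 Cfsg.Agent.H3

/-- Let `G` be a finite non-abelian simple group in which every local subgroup is solvable and which is of characteristic 2 type. Let `P` be a Sylow 2-subgroup of `G` and `U` a normal subgroup of `P` that is a four-group, with `U` central in `P` if the centre of `P` is not cyclic. Then `U` centralizes every subgroup of odd order of `G` that it normalizes. -/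
theorem result {G : Type*} [Group G] [Finite G]
    [IsSimpleGroup G] (hna : ¬ IsMulCommutative G) (hN : Cfsg.IsNGroup G) (h2 : Cfsg.IsCharacteristicTwoType G)
    (P : Sylow 2 G) (U : Subgroup G) (hUP : U ≤ (P : Subgroup G)) (hUn : (P : Subgroup G) ≤ Subgroup.normalizer (U : Set G))
    (hU4 : IsKleinFour ↥U)
    (hUZ : ¬ IsCyclic ↥((P : Subgroup G) ⊓ Subgroup.centralizer ((P : Subgroup G) : Set G)) →
      U ≤ Subgroup.centralizer ((P : Subgroup G) : Set G))
    (K : Subgroup G) (hK : Odd (Nat.card K)) (hUK : U ≤ Subgroup.normalizer (K : Set G)) :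
    U ≤ Subgroup.centralizer (K : Set G) := by
  obtain ⟨hUe, hU4'⟩ := H81.isKleinFour_iff.1 hU4
  have sylP := syl_top P
  have pP := syl_isPGroup sylP
  have hUc := elemAb_le_centralizer hUe
  have cop : (Nat.card U).Coprime (Nat.card K) := by
    rw [hU4']; exact ((Nat.coprime_two_left.2 hK).pow_left 2 : (2 ^ 2).Coprime _)
  have hnc : ¬ IsCyclic U := fun h => by
    have := (elemAb_isCyclic_iff hUe).1 h; omega
  rw [le_centralizer_iff]
  refine coprime_abelian_gen_cent1 (elemAb_comm hUe) hnc hUK cop fun u hu h1 => ?_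
  have huu := elemAb_pow hUe hu
  have hH := charP'_cent1 h2 h1 (by rw [← pow_two, huu])
  have hUH : U ≤ C1[u] := hUc.trans (centralizer_le_centralizer_singleton hu)
  have key : ∃ T, IsSyl 2 T C1[u] ∧ U ⊴ T := by
    by_cases hP : (P : Subgroup G) ≤ C1[u]
    · exact ⟨P, hall_of_le sylP hP le_top, hUP, hUn⟩
    have hcyc : IsCyclic ↥Z[(P : Subgroup G)] := by
      by_contra hn
      exact hP (mem_centralizer_iff_le.1 (hUZ hn hu))
    set P₁ := (P : Subgroup G) ⊓ C1[u] with hP₁
    obtain ⟨T, hT, hP₁T⟩ := exists_syl_ge (inf_le_right : P₁ ≤ C1[u]) (pP.to_le inf_le_left)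
    have hi : P₁.relIndex P ≤ 2 := by
      rw [hP₁, inf_comm, inf_relIndex_right]
      exact (relIndex_le_of_le_left (centralizer_le_centralizer_singleton hu)
        (relIndex_ne_zero' _ _)).trans
        (H71.relIndex_cent_le_prime pP (elemAb_isPGroup hUe) hUn hU4'.le)
    have hnP : P₁ ⊴ P := H71.normalIn_of_relIndex_le pP inf_le_left hi
    have hnT : P₁ ⊴ T := by
      refine H71.normalIn_of_relIndex_le (syl_isPGroup hT) hP₁T ?_
      have h2 := card_le_syl sylP le_top (syl_isPGroup hT)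
      rw [← H67.card_mul_relIndex hP₁T, ← H67.card_mul_relIndex (inf_le_left : P₁ ≤ P)] at h2
      exact (Nat.le_of_mul_le_mul_left h2 Nat.card_pos).trans hi
    obtain ⟨z, ⟨hzU, hzP⟩, hz1⟩ := exists_ne_one_of_ne_bot
      (inf_centralizer_ne_bot_of_isPGroup Nat.prime_two pP (elemAb_isPGroup hUe) hUn
        (ne_bot_of_mem hu h1))
    have hUC : U ≤ C[P₁] := by
      have hlt : zpowers z < U ⊓ C[P₁] := by
        refine lt_of_le_of_ne (zpowers_le.2 ⟨hzU, H67.centralizer_anti inf_le_left hzP⟩) fun e => ?_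
        have : u ∈ zpowers z := by
          rw [e]; exact ⟨hu, mem_centralizer_iff_le.2 inf_le_right⟩
        exact hP (mem_centralizer_iff_le.1 ((zpowers_le.2 hzP : zpowers z ≤ _) this))
      have h3 := card_lt_of_lt hlt
      rw [Nat.card_zpowers, orderOf_eq_prime (elemAb_pow hUe hzU) hz1] at h3
      have h4 := card_dvd_of_le' (inf_le_left : U ⊓ C[P₁] ≤ U)
      rw [hU4'] at h4
      have h5 : Nat.card ↥(U ⊓ C[P₁]) = 4 := by
        have := Nat.le_of_dvd (by norm_num) h4
        interval_cases Nat.card ↥(U ⊓ C[P₁]) <;> simp_all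
      exact (eq_of_le_of_card_le inf_le_left (by omega) : U ⊓ C[P₁] = U) ▸ inf_le_right
    have hUZ' : U ≤ omegaOne 2 Z[P₁] := elemAb_le_omegaOne hUe (le_inf (le_inf hUP hUH) hUC)
    obtain ⟨w, hw, hw'⟩ := SetLike.not_le_iff_exists.1 hP
    have hi2 : P₁.relIndex P = 2 := by
      have h0 := relIndex_ne_zero' P₁ P
      have h1 : P₁.relIndex P ≠ 1 := fun e => hP ((relIndex_eq_one.1 e).trans inf_le_right)
      omega
    have hmul : ∀ a ∈ (P : Subgroup G), a ∉ P₁ → w * a ∈ P₁ := fun a ha ha' => by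
      have := (mul_mem_iff_of_index_two (H := P₁.subgroupOf P) hi2 (a := ⟨w, hw⟩) (b := ⟨a, ha⟩)).2
        ⟨fun h => absurd h.2 hw', fun h => absurd h ha'⟩
      exact this
    have hle := card_le_sq_of_sq_cent (elemAb_omegaOne_center 2 P₁) (w := w)
      (le_centralizer_iff.1 (omegaOne_center_le_centralizer 2 P₁)
        (by rw [pow_two]; exact hmul w hw fun h => hw' h.2))
      (normalizer_le_normalizer_omegaOne_center 2 P₁ (hnP.norm hw))
    have hsub : omegaOne 2 Z[P₁] ⊓ C1[w] ≤ Z[(P : Subgroup G)] := by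
      rintro y ⟨hy, hyw⟩
      refine ⟨(omegaOne_center_le 2 P₁ hy).1, fun a ha => ?_⟩
      have hyc := omegaOne_center_le_centralizer 2 P₁ hy
      by_cases ha' : a ∈ P₁
      · exact hyc a ha'
      · have e1 := hyc _ (hmul a ha ha')
        have e2 := mem_centralizer_singleton_iff.1 hyw
        calc a * y = w⁻¹ * (w * a * y) := by group
          _ = y * a := by rw [e1, ← mul_assoc y, e2]; group
    have hc2 := card_le_of_isCyclic_of_pow Nat.prime_two (isCyclic_of_le' hcyc hsub)
      fun x hx => elemAb_pow (elemAb_omegaOne_center 2 P₁) hx.1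
    have hE : U = omegaOne 2 Z[P₁] := eq_of_le_of_card_le hUZ' (by nlinarith)
    refine ⟨T, hT, (le_inf hUP hUH).trans hP₁T, ?_⟩
    rw [hE]
    exact hnT.norm.trans (normalizer_le_normalizer_omegaOne_center 2 P₁)
  obtain ⟨T, hT, hUT⟩ := key
  have hUQ := hH.four_le hT hUT hU4' hu h1 huu le_rfl
  rw [le_centralizer_iff, ← commutator_eq_bot_iff_le_centralizer, eq_bot_iff]
  have hK2 : IsPiSubgroup {2}ᶜ K :=
    (isPi_compl_singleton_iff Nat.prime_two).2 (Odd.not_two_dvd_nat hK)
  rw [← isPi_inf_eq_bot (isPi_piCoreOf {2} C1[u]) hK2]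
  refine le_inf ((commutator_mono hUQ inf_le_right).trans (piCoreOf_normalIn _ _).commutator_le) ?_
  exact (commutator_mono le_rfl inf_le_left).trans (commutator_le_of_norm_right hUK)

end Cfsg.Agent.S1957
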