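import Cfsg.Statements.S1961
import Cfsg.Agent.H56.Control

set_option autoImplicit false
open Cfsg

namespace Cfsg.Agent.S1961

/-- Local-to-global control of strong fusion through well-placed subgroups. Let p be a prime, G a finite group with Sylow p-subgroup S, and W a conjugacy functor for p on G. If W controls strong fusion in N_G(T) for every nonidentity subgroup T of S that is well placed in S with respect to W, then W controls strong fusion in G. -/
theorem result {G : Type*} [Group G] [Finite G] {p : ℕ} [Fact p.Prime] (S : Sylow p G) (W : Subgroup G → Subgroup G) (hW : Cfsg.IsConjugacyFunctor p W) (hloc : ∀ T : Subgroup G, T ≠ ⊥ → Cfsg.IsWellPlaced p W (S : Subgroup G) T → Cfsg.ControlsStrongFusionIn p W (Subgroup.normalizer ((T : Subgroup G) : Set G))) : Cfsg.ControlsStrongFusionIn p W ⊤ := by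
  have hS := H85.isSyl_top S
  rw [H56.controlsStrongFusionIn_iff hW hS]
  refine H56.subFus_of_wp hS hW fun U h1 h2 => ?_
  rw [← H56.controlsStrongFusionIn_iff hW h2.extremal, top_inf_eq]
  exact hloc U h1 ((H56.wp_top_iff S.isPGroup').1 h2)

end Cfsg.Agent.S1961
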