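import Cfsg.Statements.S1966
import Cfsg.Agent.H56.Control

set_option autoImplicit false
open Cfsg

namespace Cfsg.Agent.S1966

/-- Let p be a prime, G a finite group with Sylow p-subgroup S and 𝓕 a conjugation family for S in G. Then the members of 𝓕 containing O_p(G) still form a conjugation family for S in G. -/
theorem result {G : Type*} [Group G] [Finite G] {p : ℕ} [Fact p.Prime] (S : Sylow p G) (𝓕 : Set (Subgroup G)) (h : Cfsg.IsConjugationFamily 𝓕 (S : Subgroup G)) : Cfsg.IsConjugationFamily {T : Subgroup G | T ∈ 𝓕 ∧ Cfsg.pCore p G ≤ T} (S : Subgroup G) := by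
  rw [H56.isConjugationFamily_iff] at h ⊢
  refine ⟨fun T hT => h.1 T hT.1, fun A g hA hAS hg => ?_⟩
  have hO : pCore p G ≤ S := H85.pCore_le_sylow S
  have hn : ∀ c a : G, a ∈ pCore p G → c⁻¹ * a * c ∈ pCore p G := fun c a ha =>
    (pCore_normal p G).conj_mem' a ha c
  have := h.2 (A ∪ pCore p G) g (hA.mono Set.subset_union_left) (Set.union_subset hAS hO)
    (fun a ha => ha.elim (hg a) fun ha => hO (hn g a ha))
  refine H56.rtg_mono (fun c d ⟨T, h1, h2, h3⟩ => ⟨T, ⟨h1, fun a ha => ?_⟩, h2,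
    fun a ha => h3 a (Or.inl ha)⟩) this
  have := h3 _ (Or.inr (hn c⁻¹ a ha))
  simpa [mul_assoc] using this

end Cfsg.Agent.S1966
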