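import Cfsg.Statements.S1968
import Cfsg.Agent.H56.Control

set_option autoImplicit false
open Cfsg

namespace Cfsg.Agent.S1968

/-- Let p be a prime, G a finite group with Sylow p-subgroup S and W a conjugacy functor for p on G with Z(P) ≤ W(P) for every p-subgroup P. Let A be a subgroup of Z(S) normalized by N_G(W(S)) that is not weakly closed in S with respect to G. Then there is a subgroup T of S, well placed in S with respect to W, such that: A ≤ T; N_G(W(N_S(T))) normalizes A; N_S(T) is a Sylow p-subgroup of N_G(T); A ≤ Z(N_S(T)); and A is not weakly closed in N_S(T) with respect to N_G(T), that is, some N_G(T)-conjugate of A other than A lies in N_S(T). -/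
theorem result {G : Type*} [Group G] [Finite G] {p : ℕ} [Fact p.Prime] (S : Sylow p G) (W : Subgroup G → Subgroup G) (hW : Cfsg.IsConjugacyFunctor p W) (hWZ : ∀ P : Subgroup G, IsPGroup p ↥P → P ⊓ Subgroup.centralizer (P : Set G) ≤ W P) (A : Subgroup G) (hAZ : A ≤ (S : Subgroup G) ⊓ Subgroup.centralizer ((S : Subgroup G) : Set G)) (hAN : Subgroup.normalizer ((W (S : Subgroup G) : Subgroup G) : Set G) ≤ Subgroup.normalizer ((A : Subgroup G) : Set G)) (hnwc : ¬ Cfsg.IsWeaklyClosed A (S : Subgroup G)) : ∃ T : Subgroup G, Cfsg.IsWellPlaced p W (S : Subgroup G) T ∧ A ≤ T ∧ Subgroup.normalizer ((W ((S : Subgroup G) ⊓ Subgroup.normalizer ((T : Subgroup G) : Set G)) : Subgroup G) : Set G) ≤ Subgroup.normalizer ((A : Subgroup G) : Set G) ∧ ¬ p ∣ ((S : Subgroup G) ⊓ Subgroup.normalizer ((T : Subgroup G) : Set G)).relIndex (Subgroup.normalizer ((T : Subgroup G) : Set G)) ∧ A ≤ Subgroup.centralizer (((S : Subgroup G) ⊓ Subgroup.normalizer ((T : Subgroup G) : Set G) : Subgroup G) :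 Set G) ∧ ∃ g ∈ Subgroup.normalizer ((T : Subgroup G) : Set G), A.map (MulAut.conj g).toMonoidHom ≤ (S : Subgroup G) ⊓ Subgroup.normalizer ((T : Subgroup G) : Set G) ∧ A.map (MulAut.conj g).toMonoidHom ≠ A := by
  have hS := H85.isSyl_top S
  have hAS : A ≤ S := hAZ.trans inf_le_left
  rw [IsWeaklyClosed, not_and] at hnwc
  have h0 := hnwc hAS
  push Not at h0
  obtain ⟨g, hg1, hg2⟩ := h0
  obtain ⟨T, h1, h2, h3, h4⟩ := H56.exists_wp_of_not_weaklyClosed hS hW hWZ hAZ le_rfl
    (inf_le_right.trans hAN) (Subgroup.mem_top g) (fun h => hg2 (H85.cj_eq_of_mem_normalizer h)) hg1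
  rw [top_inf_eq] at h3 h4
  obtain ⟨y, hy1, hy2⟩ := SetLike.not_le_iff_exists.1 h4
  refine ⟨T, (H56.wp_top_iff S.isPGroup').1 h1, h2, h3,
    (H56.extremal_top_iff S.isPGroup').1 h1.extremal,
    (hAZ.trans inf_le_right).trans (Subgroup.centralizer_le inf_le_left), y, hy1, ?_,
    fun h => hy2 (H85.cj_eq_iff_mem_normalizer.1 h)⟩
  exact (H85.cj_le_of_mem_normalizer h2 hy1).trans (le_inf h1.le Subgroup.le_normalizer)

end Cfsg.Agent.S1968
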