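import Cfsg.Statements.S1979
import Cfsg.Agent.H54.KInf

set_option autoImplicit false
open Cfsg

namespace Cfsg.Agent.S1979

/-- Let P be a finite p-group and Q a subgroup of P containing every term of the K-sequence of P of nonnegative index (every even-indexed term and every odd-indexed term after the initial term P). Then the K-infinity subgroups of Q, computed in Q and viewed in P, equal those of P. -/
theorem result {P : Type*} [Group P] [Finite P] {p : ℕ} [Fact p.Prime] (hP : IsPGroup p P) (Q : Subgroup P) (hQ : ∀ n : ℕ, Cfsg.kSeqEven P n ≤ Q ∧ Cfsg.kSeqOdd P (n + 1) ≤ Q) : (Cfsg.kInfLower ↥Q).map Q.subtype = Cfsg.kInfLower P ∧ (Cfsg.kInfUpper ↥Q).map Q.subtype = Cfsg.kInfUpper P := by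
  have hQ' : ∀ n : ℕ, Cfsg.kSeqEven P n ≤ Q.subtype.range ∧
      Cfsg.kSeqOdd P (n + 1) ≤ Q.subtype.range := by
    rw [Subgroup.range_subtype]; exact hQ
  exact ⟨H54.map_kInfLower_of_range Q.subtype_injective hQ',
    H54.map_kInfUpper_of_range Q.subtype_injective hQ'⟩

end Cfsg.Agent.S1979
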