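import Cfsg.Statements.S1989
import Cfsg.Agent.H54.Qd
import Cfsg.Agent.H54.KFusion
import Cfsg.Agent.S2795

set_option autoImplicit false
universe u
open Cfsg

namespace Cfsg.Agent.S1989

/-- Let p be an odd prime and G a finite group. Then Qd(p) (the natural semidirect product of an elementary abelian group of order p² by SL₂(p)) is not involved in G if and only if, in every section K/R of G and for every Sylow p-subgroup T of K/R, the lower K-infinity subgroup of T controls strong fusion in K/R. -/
theorem result {G : Type u} [Group G] [Finite G] {p : ℕ} [Fact p.Prime] (hp : p ≠ 2) : ¬ Cfsg.Involves ↥(Cfsg.qd p) G ↔ ∀ (K R : Subgroup G) [hR : (R.subgroupOf K).Normal], ∀ T : Sylow p (↥K ⧸ R.subgroupOf K), Cfsg.ControlsStrongFusion p (Cfsg.inducedFunctor (G := (↥K ⧸ R.subgroupOf K)) Cfsg.kInfLower (T : Subgroup (↥K ⧸ R.subgroupOf K))) := by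
  constructor
  · intro h K R hR T
    exact H54.kInf_controlsStrongFusion_section (Or.inl rfl) ((S2795.result hp).mp h) K R T
  · rintro h ⟨K, R, hR, ⟨e⟩⟩
    obtain ⟨T⟩ : Nonempty (Sylow p (↥K ⧸ R.subgroupOf K)) := inferInstance
    have hT : Nontrivial (T : Subgroup (↥K ⧸ R.subgroupOf K)) :=
      (Subgroup.nontrivial_iff_ne_bot _).mpr (H54.Aff.sylow_ne_bot e T)
    have := H54.kInfLower_characteristic (P := (T : Subgroup (↥K ⧸ R.subgroupOf K)))
    exact H54.Aff.not_controlsStrongFusion e T _
      ((H54.isCharPFunctor_kInfLower p).1 _ T.isPGroup' hT) (h K R T)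

end Cfsg.Agent.S1989
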