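import Cfsg.Statements.S2004
import Cfsg.Agent.H51.QdInv
import Cfsg.Agent.H51.ZJFun

set_option autoImplicit false
open Cfsg

namespace Cfsg.Agent.S2004

/-- Let p be an odd prime and G a finite group such that SL₂(p) is not involved in N_G(P) for any nonidentity p-subgroup P of G. Then every section of G is p-stable in the normalizer form: in each section, whenever an element of the normalizer of a p-subgroup Q acts quadratically on Q, its image in N(Q)/C(Q) lies in O_p(N(Q)/C(Q)). -/
theorem result {G : Type*} [Group G] [Finite G] {p : ℕ} [Fact p.Prime] (hp : p ≠ 2) (h : ∀ P : Subgroup G, IsPGroup p ↥P → P ≠ ⊥ → ¬ Cfsg.Involves (Matrix.SpecialLinearGroup (Fin 2) (ZMod p)) ↥(Subgroup.normalizer ((P : Subgroup G) : Set G))) : ∀ (K R : Subgroup G) [hR : (R.subgroupOf K).Normal], Cfsg.IsNormalizerPStable p (↥K ⧸ R.subgroupOf K) := by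
  intro K R hR
  rw [H51.isNormalizerPStable_iff']
  intro Q hQ a ha hq
  by_contra hna
  have h1 := (H51.involves_of_not_mem_opMod hp hQ le_rfl ha hq hna).2
  obtain ⟨P, hP, hPQ, hN⟩ := H51.exists_isPGroup_map_normalizer
    (QuotientGroup.mk'_surjective (R.subgroupOf K)) hQ
  refine h (P.map K.subtype) (hP.map _) ?_ ?_
  · intro h0
    rw [Subgroup.map_eq_bot_iff_of_injective _ K.subtype_injective] at h0
    apply hna
    refine H51.inf_le_opMod (H51.normalizer_le_normalizer_centralizer' _) ⟨ha, ?_⟩
    rw [← hPQ, h0, Subgroup.map_bot]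
    intro x hx
    rw [Subgroup.mem_bot.mp hx, one_mul, mul_one]
  · rw [← hN] at h1
    refine H54.involves_trans (H54.involves_trans h1 (H51.involves_map _ _)) ?_
    have hle := H51.map_le_normalizer_map (le_refl (Subgroup.normalizer (P : Set K))) K.subtype
    exact H51.involves_of_injective ((Subgroup.inclusion hle).comp
      (Subgroup.equivMapOfInjective _ K.subtype K.subtype_injective).toMonoidHom)
      ((Subgroup.inclusion_injective hle).comp (MulEquiv.injective _))

end Cfsg.Agent.S2004
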