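import Cfsg.Statements.S2008
import Cfsg.Agent.H56.Inv

set_option autoImplicit false
open Cfsg

namespace Cfsg.Agent.S2008

/-- Let H be a finite group and z an involution such that every proper normal subgroup of H meets the centralizer of z trivially, and suppose z lies in a Klein four-subgroup E of H all three of whose involutions are conjugate to z in H. Then H has no non-trivial abelian normal subgroup. -/
theorem result {H : Type*} [Group H] [Finite H] (z : H) (hz : orderOf z = 2) (hN : ∀ N : Subgroup H, N.Normal → N ≠ ⊤ → N ⊓ Subgroup.centralizer ({z} : Set H) = ⊥) (E : Subgroup H) (hE : IsKleinFour ↥E) (hzE : z ∈ E) (hc : ∀ e ∈ E, e ≠ 1 → IsConj z e) (N : Subgroup H) [N.Normal] (hab : IsMulCommutative ↥N) : N = ⊥ := by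
  by_cases h : N = ⊤
  · subst h
    refine H56.eq_bot_of_four_group hE hz hzE hc ?_
    by_contra h0
    have hE1 : E ≤ Subgroup.zpowers z := fun e he => by
      by_cases h1 : e = 1
      · rw [h1]; exact one_mem _
      obtain ⟨g, rfl⟩ := isConj_iff.1 (hc e he h1)
      rw [show g * z = z * g from congrArg Subtype.val
        (hab.is_comm.comm (⟨g, trivial⟩ : (⊤ : Subgroup H)) ⟨z, trivial⟩)]
      simp
    have := Subgroup.card_le_of_le hE1
    rw [hE.card_four, Nat.card_zpowers, hz] at this
    omega
  · exact H56.eq_bot_of_four_group hE hz hzE hc (hN N inferInstance h)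

end Cfsg.Agent.S2008
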