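import Cfsg.Statements.S2053
import Cfsg.Agent.H74.MultFi22

set_option autoImplicit false
open Cfsg

namespace Cfsg.Agent.S2053

/-- The Schur multiplier of the Fischer group Fi₂₂ (the finitely presented group of the definitions) is cyclic of order 6; here the Schur multiplier is described through stem extensions, as in the definitions: surjective homomorphisms onto the group from a finite group, whose kernel is central in that finite group and contained in that finite group's commutator subgroup. -/
theorem result : Cfsg.HasCyclicSchurMultiplier Cfsg.Spor.Fi22 6 :=
  have := Cfsg.Agent.H44.Fi22M.finite
  Cfsg.Agent.H74.F22.bound.finish_cyclic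
    (Cfsg.Agent.H74.F22.elt2.mul Cfsg.Agent.H74.F22.elt3 (by norm_num))

end Cfsg.Agent.S2053
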