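import Cfsg.Statements.S2055
import Cfsg.Agent.H74.F24Up
import Cfsg.Agent.H74.F24Low

set_option autoImplicit false
open Cfsg

namespace Cfsg.Agent.S2055

/-- The Schur multiplier of the Fischer group Fi₂₄′ (the commutator subgroup of the presented group Fi₂₄) is cyclic of order 3; here the Schur multiplier is described through stem extensions, as in the definitions: surjective homomorphisms onto the group from a finite group, whose kernel is central in that finite group and contained in that finite group's commutator subgroup. -/
theorem result : Cfsg.HasCyclicSchurMultiplier Cfsg.Spor.Fi24' 3 :=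
  have : Finite Cfsg.Spor.Fi24 := Nat.finite_of_card_ne_zero (by rw [Cfsg.Agent.H44.F24.card]; norm_num)
  Cfsg.Agent.H74.F24U.bound.finish_cyclic Cfsg.Agent.H74.F24L.mElt

end Cfsg.Agent.S2055
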