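import Cfsg.Statements.S2087
import Cfsg.Agent.S2086
import Cfsg.Agent.S0495
import Cfsg.Agent.S0243
import Cfsg.Agent.S0249

set_option autoImplicit false
open Cfsg

namespace Cfsg.Agent.S2087

/-- Exceptional Schur multiplier: over the field with 2 elements, PSL₃ has Schur multiplier cyclic of order 2 (here the Schur multiplier is described through stem extensions, as in the definitions). -/
theorem result {F : Type*} [Field F] [Fintype F] (hF : Fintype.card F = 2) : Cfsg.HasCyclicSchurMultiplier (Matrix.ProjectiveSpecialLinearGroup (Fin 3) F) 2 := by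
  have := Fact.mk (show Nat.Prime 7 by norm_num)
  have h1 := S0249.result (F := F) 3 le_rfl
  have h2 := S0243.result hF 3 (by norm_num)
  obtain ⟨e⟩ := S0495.result (G := Matrix.ProjectiveSpecialLinearGroup (Fin 3) F)
    (by simpa [Fin.prod_univ_three] using h2) (F := ZMod 7) (ZMod.card 7)
  exact H80.hasSchurMultiplier_congr_left
    (S2086.result (ZMod.card 7) 2 le_rfl (by norm_num) (by simp)) e.symm

end Cfsg.Agent.S2087
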