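import Cfsg.Statements.S2094
import Cfsg.Agent.H80.OrthMult

set_option autoImplicit false
open Cfsg

namespace Cfsg.Agent.S2094

/-- Schur multipliers of the odd-dimensional orthogonal groups: for m ≥ 3 and a field F of odd order q with (m, q) ≠ (3, 3), the Schur multiplier of PΩ_(2m+1)(F) (for the form x₀² + Σ xᵢyᵢ) is cyclic of order 2 = gcd(2, q − 1); here the Schur multiplier is described through stem extensions, as in the definitions. -/
theorem result {F : Type*} [Field F] [Fintype F] {q : ℕ} (hF : Fintype.card F = q) (hq : Odd q) (m : ℕ) (hm : 3 ≤ m) (hexc : ¬ (m = 3 ∧ q = 3)) : Cfsg.HasCyclicSchurMultiplier (Cfsg.POmega F (Cfsg.quadFormOdd m F)) 2 := by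
  obtain ⟨m, rfl⟩ : ∃ k, m = k + 1 := ⟨m - 1, by omega⟩
  subst hF
  have h1 := Fintype.one_lt_card (α := F)
  obtain ⟨k, hk⟩ := hq
  obtain ⟨A, _, φ, h2, h3, h4⟩ := H80.exists_multiplier_odd (F := F) (m := m)
    (H30.two_ne_zero_iff_odd_card.2 ⟨k, hk⟩) (by omega) (by rw [Nat.card_eq_fintype_card]; omega)
  obtain ⟨e⟩ := H80.nonempty_equiv_zmod φ h2 h3
  rw [Nat.card_eq_fintype_card, hk, Nat.add_sub_cancel, Nat.gcd_mul_right_right] at e
  exact H80.hasSchurMultiplier_congr_right h4 e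

end Cfsg.Agent.S2094
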