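import Cfsg.Statements.S2095
import Cfsg.Agent.H74.MultO7
import Cfsg.Agent.H47.O7Main
import Cfsg.Agent.H28.Transport

set_option autoImplicit false
open Cfsg

namespace Cfsg.Agent.S2095

/-- Exceptional Schur multiplier: over the field with 3 elements, PΩ₇ (for the form x₀² + Σ xᵢyᵢ) has Schur multiplier cyclic of order 6 (the product of cyclic groups of orders 3 and 2; here the Schur multiplier is described through stem extensions, as in the definitions). -/
theorem result {F : Type*} [Field F] [Fintype F] (hF : Fintype.card F = 3) : Cfsg.HasCyclicSchurMultiplier (Cfsg.POmega F (Cfsg.quadFormOdd 3 F)) 6 :=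
  by
  have : Fact (Nat.Prime 3) := ⟨by norm_num⟩
  obtain ⟨e⟩ := Cfsg.Agent.H47.O7.equiv_pomega
  let f := FiniteField.ringEquivOfCardEq ((ZMod.card 3).trans hF.symm)
  have e' := Cfsg.Agent.H28.pomegaEquiv
    (Cfsg.Agent.H28.isometryEquiv f _ _ (Cfsg.Agent.H28.quadFormOdd_map f 3))
  exact Cfsg.Agent.H80.hasSchurMultiplier_congr_left Cfsg.Agent.H74.MO7.mult (e.trans e')

end Cfsg.Agent.S2095
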