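import Cfsg.Statements.S2096
import Cfsg.Agent.H80.OrthMult

set_option autoImplicit false
open Cfsg

namespace Cfsg.Agent.S2096

/-- Schur multipliers of the even-dimensional orthogonal groups of plus type and odd rank: for odd l ≥ 5 and a field F with q elements, the Schur multiplier of PΩ⁺_2l(F) (for the form Σ xᵢyᵢ) is cyclic of order gcd(4, q^l − 1); here the Schur multiplier is described through stem extensions, as in the definitions. -/
theorem result {F : Type*} [Field F] [Fintype F] {q : ℕ} (hF : Fintype.card F = q) (l : ℕ) (hl : 5 ≤ l) (hodd : Odd l) : Cfsg.HasCyclicSchurMultiplier (Cfsg.POmega F (Cfsg.quadFormPlus l F)) (Nat.gcd 4 (q ^ l - 1)) := by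
  obtain ⟨k, rfl⟩ : ∃ k, l = k + 2 := ⟨l - 2, by omega⟩
  subst hF
  obtain ⟨A, _, φ, h2, h3, h4⟩ := H80.exists_multiplier_plus (F := F) (k := k) (by omega) (by omega)
  obtain ⟨j, rfl⟩ : ∃ j, k = 2 * j + 1 := by obtain ⟨j, hj⟩ := hodd; exact ⟨j - 1, by omega⟩
  have h5 : ∀ x : Fˣ × Fˣ, x ∈ φ.range ↔ x.1 ^ 2 = 1 ∧ x.2 ^ 2 = x.1 := fun x =>
    (h3 x).trans (and_congr_right fun h => by rw [pow_succ _ (2 * j), pow_mul, h, one_pow, one_mul])
  obtain ⟨e⟩ := H80.nonempty_equiv_zmod ((MonoidHom.snd _ _).comp φ) (g := 4)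
    ((injective_iff_map_eq_one _).2 fun a h => by
      have h6 : (φ a).2 = 1 := h
      exact h2 ((Prod.ext (by simpa [h6] using ((h5 _).1 ⟨a, rfl⟩).2.symm) h6).trans (map_one φ).symm))
    fun t => ⟨fun ⟨a, h⟩ => by
      have h6 := (h5 _).1 ⟨a, rfl⟩
      rw [← h, show 4 = 2 * 2 from rfl, pow_mul]
      exact (congrArg (· ^ 2) h6.2).trans h6.1, fun h => by
      obtain ⟨a, ha⟩ := (h5 (t ^ 2, t)).2 ⟨by rw [← pow_mul]; exact h, rfl⟩
      exact ⟨a, congrArg Prod.snd ha⟩⟩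
  rw [Nat.card_eq_fintype_card,
    ← (H80.gcd_pow_sub_one Fintype.card_pos (by omega)).2 hodd] at e
  exact H80.hasSchurMultiplier_congr_right h4 e

end Cfsg.Agent.S2096
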