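import Cfsg.Statements.S2097
import Cfsg.Agent.H80.OrthMult

set_option autoImplicit false
open Cfsg

namespace Cfsg.Agent.S2097

/-- Schur multipliers of the even-dimensional orthogonal groups of plus type and even rank: for even l ≥ 4 and a field F with q elements, (l, q) ≠ (4, 2), the Schur multiplier of PΩ⁺_2l(F) (for the form Σ xᵢyᵢ) is the product of two cyclic groups of order gcd(2, q^l − 1) (so trivial for q even and a four-group for q odd; here the Schur multiplier is described through stem extensions, as in the definitions). -/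
theorem result {F : Type*} [Field F] [Fintype F] {q : ℕ} (hF : Fintype.card F = q) (l : ℕ) (hl : 4 ≤ l) (heven : Even l) (hexc : ¬ (l = 4 ∧ q = 2)) : Cfsg.HasSchurMultiplier (Cfsg.POmega F (Cfsg.quadFormPlus l F)) (Multiplicative (ZMod (Nat.gcd 2 (q ^ l - 1)) × ZMod (Nat.gcd 2 (q ^ l - 1)))) := by
  obtain ⟨k, rfl⟩ : ∃ k, l = k + 2 := ⟨l - 2, by omega⟩
  subst hF
  obtain ⟨A, _, φ, h2, h3, h4⟩ := H80.exists_multiplier_plus (F := F) (k := k) (by omega)
    (by rw [Nat.card_eq_fintype_card]; omega)
  obtain ⟨j, rfl⟩ : ∃ j, k = 2 * j := by obtain ⟨j, hj⟩ := heven; exact ⟨j - 1, by omega⟩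
  have h5 : φ.range = (powMonoidHom 2).ker.prod (powMonoidHom 2).ker := Subgroup.ext fun x =>
    (h3 x).trans (and_congr_right fun h => by rw [pow_mul, h, one_pow]; rfl)
  obtain ⟨e⟩ := H80.nonempty_equiv_zmod (powMonoidHom 2 : Fˣ →* Fˣ).ker.subtype (g := 2)
    (Subgroup.subtype_injective _) fun t => by rw [Subgroup.range_subtype]; rfl
  rw [Nat.card_eq_fintype_card,
    ← (H80.gcd_pow_sub_one (l := 2 * j + 2) Fintype.card_pos (by omega)).1] at e
  exact H80.hasSchurMultiplier_congr_right h4 ((φ.ofInjective h2).trans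
    ((MulEquiv.subgroupCongr h5).trans ((Subgroup.prodEquiv _ _).trans
      ((e.prodCongr e).trans (MulEquiv.prodMultiplicative _ _).symm))))

end Cfsg.Agent.S2097
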