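import Cfsg.Statements.S2104
import Cfsg.Agent.H78.MulF42B
import Cfsg.Agent.H80.ExcPP
import Cfsg.Agent.H34.TwF4

set_option autoImplicit false
open Cfsg

namespace Cfsg.Agent.S2104
open Cfsg.Lie Cfsg.Agent.H34 Cfsg.Agent.H37 Cfsg.Agent.H74 Cfsg.Agent.H78.Mul
open Cfsg.Agent.H78.Mul.F42 Cfsg.Agent.H42 Cfsg.Agent.H46

theorem tab1 : ∀ e < 4, ∀ r < chevF4.nroots, [e].foldr chevF4.reflectRoot r = dat.π e r ∧
    dat.c e r = 1 := by decide +kernel


/-- Exceptional Schur multiplier: over the field with 2 elements the Chevalley group of type F₄ has Schur multiplier cyclic of order 2 (here the Schur multiplier is described through stem extensions, as in the definitions). -/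
theorem result {F : Type*} [Field F] [Fintype F] (hF : Fintype.card F = 2) : Cfsg.HasCyclicSchurMultiplier ↥(Cfsg.Lie.chevF4.group F) 2 := by
  have := charP_of_card_eq_prime_pow (p := 2) (f := 1) hF
  have hc : Nat.card F = 2 := Nat.card_eq_fintype_card.trans hF
  have hf : dat.Fld (1 : F) := ⟨Nat.prime_two, CharP.cast_eq_zero F 2, Or.inl ⟨rfl, rfl⟩,
    fun t => by
      obtain ⟨a, rfl⟩ := (ZMod.ringEquiv F hF).surjective t
      exact ⟨a.val, 0, by
        rw [← ZMod.natCast_zmod_val a, map_natCast, ZMod.val_natCast_of_lt a.val_lt]; simp⟩, hc⟩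
  have : Subsingleton Fˣ := (Nat.card_eq_one_iff_unique.1 (by rw [Nat.card_units, hc])).1
  obtain ⟨a, b⟩ := Dat.main_one (C := cF4) hf (Dat.lev0_of_chk c0) (Dat.lev1_of_chk c1)
    (fun k => of_allB c2) (fun e => of_allB c3) c5 rfl (by decide)
    (g := fun e => nl cF4 F [e])
    (fun e he => Dat.act_of (a := fun _ => 1) (fun r hr t => by
      rw [one_mul]; exact (nl_conj (List.forall_mem_singleton.2 he) hr t).2) fun r hr _ =>
        ⟨(tab1 e he r hr).1, by simp [tab1 e he r hr]⟩)
    1 (fun u => ⟨0, Subsingleton.elim _ _⟩) (fun i hi => Or.inl rfl)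
    (fun i hi => ⟨i, hi, mul_one _⟩) (k := 197358525) (S1062.result hF)
    (by decide) cert_nrm cert_chk
  exact ((a.mul (H80.mBound_F4_two hF)).congr (by norm_num) le_rfl).finish_cyclic b

end Cfsg.Agent.S2104
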