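import Cfsg.Statements.S2105
import Cfsg.Agent.H80.ChevMult
import Cfsg.Agent.S1079

set_option autoImplicit false
open Cfsg

namespace Cfsg.Agent.S2105

/-- Schur multipliers of the (adjoint, simple) Chevalley groups of type E₆: over a field with q elements the Schur multiplier is cyclic of order gcd(3, q − 1) (here the Schur multiplier is described through stem extensions, as in the definitions). -/
theorem result {F : Type*} [Field F] [Fintype F] {q : ℕ} (hF : Fintype.card F = q) : Cfsg.HasCyclicSchurMultiplier ↥(Cfsg.Lie.chevE6.group F) (Nat.gcd 3 (q - 1)) := by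
  refine H80.multiplier_chev_prime (by simp) (fun h => absurd h ?_) (H80.multiplier_st_E (by simp))
    Nat.prime_three (S1079.result hF (Cfsg.Lie.chevE6, 3) (by simp))
  simp only [List.mem_cons, List.not_mem_nil, or_false]
  rintro (h | h) <;> exact absurd (congrArg Cfsg.Lie.ChevalleyDatum.rank h) (by decide)

end Cfsg.Agent.S2105
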