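import Cfsg.Statements.S2143
import Cfsg.Agent.H33.OrthDeg8

set_option autoImplicit false
open Cfsg

namespace Cfsg.Agent.S2143

/-- Minimal index of a proper subgroup of the odd-dimensional orthogonal groups: for m ≥ 3 and a field F with q elements, q odd and q ≥ 5, every proper subgroup of PΩ_(2m+1)(F) (for the form x₀² + Σ xᵢyᵢ) has index at least (q^(2m) − 1)/(q − 1), and that index is attained. -/
theorem result {F : Type*} [Field F] [Fintype F] {q : ℕ} (hF : Fintype.card F = q) (hodd : Odd q) (h5 : 5 ≤ q) (m : ℕ) (hm : 3 ≤ m) : (∀ H : Subgroup (Cfsg.POmega F (Cfsg.quadFormOdd m F)), H ≠ ⊤ → (q ^ (2 * m) - 1) / (q - 1) ≤ H.index) ∧ (∃ H : Subgroup (Cfsg.POmega F (Cfsg.quadFormOdd m F)), H.index = (q ^ (2 * m) - 1) / (q - 1)) := by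
  subst hF
  obtain ⟨k, rfl⟩ : ∃ k, m = k + 1 := ⟨m - 1, by omega⟩
  have nd := H30.qOdd_nondegenerate (H30.two_ne_zero_iff_odd_card.2 hodd) (k + 1)
  have hV : Module.finrank F (Unit ⊕ (Fin (k + 1) ⊕ Fin (k + 1)) → F) = 2 * k + 3 := by
    simp; omega
  have hN := H33.OD.mul_div_int (a := Fintype.card F ^ (2 * (k + 1)) - 1) (b := Fintype.card F - 1)
    (X := (Fintype.card F : ℤ) ^ (2 * k + 2) - 1) (Y := (Fintype.card F : ℤ) - 1)
    (by rw [Nat.cast_sub (by omega)]; simp)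
    (by rw [Nat.cast_sub (Nat.one_le_pow _ _ (by omega))]; push_cast; ring)
    (by simpa using sub_dvd_pow_sub_pow (Fintype.card F : ℤ) 1 (2 * k + 2))
  refine H33.OD.min_index_POmega (H33.OD.data_odd nd (by omega) hV (Or.inl ⟨by omega, hN⟩))
    (Or.inl rfl) ?_
  rw [hN, H33.OD.card_singular_int, H30.nc_odd nd (m := k + 1) hV, Nat.card_eq_fintype_card]
  push_cast
  ring

end Cfsg.Agent.S2143
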