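import Cfsg.Statements.S2145
import Cfsg.Agent.H33.OrthDeg8

set_option autoImplicit false
open Cfsg

namespace Cfsg.Agent.S2145

/-- Minimal index of a proper subgroup of the even-dimensional orthogonal groups of plus type: for m ≥ 4 and a field F with q ≥ 4 elements, every proper subgroup of PΩ⁺_2m(F) (for the form Σ xᵢyᵢ) has index at least (q^m − 1)(q^(m−1) + 1)/(q − 1), and that index is attained (the singular points). -/
theorem result {F : Type*} [Field F] [Fintype F] {q : ℕ} (hF : Fintype.card F = q) (hq : 4 ≤ q) (m : ℕ) (hm : 4 ≤ m) : (∀ H : Subgroup (Cfsg.POmega F (Cfsg.quadFormPlus m F)), H ≠ ⊤ → (q ^ m - 1) * (q ^ (m - 1) + 1) / (q - 1) ≤ H.index) ∧ (∃ H : Subgroup (Cfsg.POmega F (Cfsg.quadFormPlus m F)), H.index = (q ^ m - 1) * (q ^ (m - 1) + 1) / (q - 1)) := by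
  subst hF
  obtain ⟨k, rfl⟩ : ∃ k, m = k + 2 := ⟨m - 2, by omega⟩
  have nd := H30.qPlus_nondegenerate (F := F) (k + 2)
  have hV : Module.finrank F (Fin (k + 2) ⊕ Fin (k + 2) → F) = 2 * k + 4 := by
    simp; omega
  have hp : H79.IsPlus (F := F) (H30.qPlus F (k + 2)) := H79.isPlus_plus _
  have hN := H33.OD.mul_div_int
    (a := (Fintype.card F ^ (k + 2) - 1) * (Fintype.card F ^ (k + 2 - 1) + 1))
    (b := Fintype.card F - 1)
    (X := ((Fintype.card F : ℤ) ^ (k + 2) - 1) * ((Fintype.card F : ℤ) ^ (k + 1) + 1))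
    (Y := (Fintype.card F : ℤ) - 1) (by rw [Nat.cast_sub (by omega)]; simp)
    (by rw [Nat.cast_mul, Nat.cast_sub (Nat.one_le_pow _ _ (by omega))]; push_cast; rfl)
    (Dvd.dvd.mul_right (by simpa using sub_dvd_pow_sub_pow (Fintype.card F : ℤ) 1 (k + 2)) _)
  refine H33.OD.min_index_POmega (H33.OD.data_plus nd (by omega) hV hp (Or.inl ⟨hq, hN⟩))
    (Or.inl rfl) ?_
  rw [hN, H33.OD.card_singular_int, H30.nc_plus_zero_int nd (m := k + 1) hV hp,
    Nat.card_eq_fintype_card]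
  ring

end Cfsg.Agent.S2145
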