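import Cfsg.Statements.S2152
import Cfsg.Agent.H31.UniN
import Cfsg.Agent.H31.PsuIdx

set_option autoImplicit false
open Cfsg

namespace Cfsg.Agent.S2152

open Cfsg.Agent.H31

/-- Minimal index of a proper subgroup of the unitary groups of even dimension n ≥ 6: for a field F with q² elements, q ≥ 3, every proper subgroup of PSU_n(q) has index at least (q^n − 1)(q^(n−1) + 1)/(q² − 1), and that index is attained (the isotropic points). -/
theorem result {F : Type*} [Field F] [Fintype F] (q : ℕ) (hF : Fintype.card F = q ^ 2) (hq : 3 ≤ q) (n : ℕ) (hn : 6 ≤ n) (heven : Even n) : (∀ H : Subgroup (Cfsg.PSU n F q), H ≠ ⊤ → (q ^ n - 1) * (q ^ (n - 1) + 1) / (q ^ 2 - 1) ≤ H.index) ∧ (∃ H : Subgroup (Cfsg.PSU n F q), H.index = (q ^ n - 1) * (q ^ (n - 1) + 1) / (q ^ 2 - 1)) := by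
  have hI : cI q n = (q ^ n - 1) * (q ^ (n - 1) + 1) := if_pos heven
  have hN : cN q n = q ^ (n - 1) * (q ^ n - 1) := if_pos heven
  refine ⟨fun K hK => ?_, ?_⟩
  · obtain ⟨H, hH, h1, h2, -⟩ := exists_subgroup_of_PSU hF (by omega) hK
    have h3 := (isHerm_hermB hF n).le_relIndex_of_five_le hF (fun _ => rfl)
      (by rw [finrank_fin]; omega) hH h2
    rw [finrank_fin, h1, hI, hN] at h3
    refine Nat.div_le_of_le_mul ?_
    rw [mul_comm _ K.index]
    rcases h3 with h3 | h3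
    · exact h3
    · rw [sq_sub_one_eq (by omega), ← mul_assoc]
      have h4 : 1 ≤ q ^ (n - 1) := Nat.one_le_pow _ _ (by omega)
      calc (q ^ n - 1) * (q ^ (n - 1) + 1) ≤ (q ^ n - 1) * (q ^ (n - 1) * 2) :=
            Nat.mul_le_mul_left _ (by omega)
        _ = q ^ (n - 1) * (q ^ n - 1) * 2 := by ring
        _ ≤ _ := Nat.mul_le_mul h3 (by omega)
  · obtain ⟨K, hK⟩ := exists_PSU_index_iso hF (n := n) (by omega)
    exact ⟨K, Nat.eq_div_of_mul_eq_left (sq_sub_one_pos hF).ne' (hK.trans hI)⟩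

end Cfsg.Agent.S2152
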