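import Cfsg.Statements.S2153
import Cfsg.Agent.H31.UniN
import Cfsg.Agent.H31.PsuIdx

set_option autoImplicit false
open Cfsg

namespace Cfsg.Agent.S2153

open Cfsg.Agent.H31

/-- Minimal index of a proper subgroup of the unitary groups PSU_n(2) with n divisible by 6, realised over the field with 4 elements: every proper subgroup has index at least 2^(n−1)(2^n − 1)/3, and that index is attained. -/
theorem result {F : Type*} [Field F] [Fintype F] (hF : Fintype.card F = 4) (n : ℕ) (hn : 6 ∣ n) (hpos : 6 ≤ n) : (∀ H : Subgroup (Cfsg.PSU n F 2), H ≠ ⊤ → 2 ^ (n - 1) * (2 ^ n - 1) / 3 ≤ H.index) ∧ (∃ H : Subgroup (Cfsg.PSU n F 2), H.index = 2 ^ (n - 1) * (2 ^ n - 1) / 3) := by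
  have hF' : Fintype.card F = 2 ^ 2 := hF
  have heven : Even n := even_iff_two_dvd.mpr (Dvd.dvd.trans (by norm_num) hn)
  have hI : cI 2 n = (2 ^ n - 1) * (2 ^ (n - 1) + 1) := if_pos heven
  have hN : cN 2 n = 2 ^ (n - 1) * (2 ^ n - 1) := if_pos heven
  refine ⟨fun K hK => ?_, ?_⟩
  · obtain ⟨H, hH, h1, h2, -⟩ := exists_subgroup_of_PSU hF' (by omega) hK
    have h3 := (isHerm_hermB hF' n).le_relIndex_of_five_le hF' (fun _ => rfl)
      (by rw [finrank_fin]; omega) hH h2
    rw [finrank_fin, h1, hI, hN] at h3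
    refine Nat.div_le_of_le_mul ?_
    rw [mul_comm _ K.index]
    rcases h3 with h3 | h3
    · refine le_trans ?_ h3
      rw [mul_comm]
      exact Nat.mul_le_mul_left _ (Nat.le_succ _)
    · exact h3
  · obtain ⟨K, hK⟩ := exists_PSU_index_non hF' (n := n) (by omega)
    exact ⟨K, Nat.eq_div_of_mul_eq_left (by norm_num) (hK.trans hN)⟩

end Cfsg.Agent.S2153
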