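import Cfsg.Statements.S2154
import Cfsg.Agent.H75.ChevLin

set_option autoImplicit false
open Cfsg

namespace Cfsg.Agent.S2154

/-- The Borel–Tits property of the finite Chevalley groups of types G₂, B₂, D₄, F₄, E₆, E₇, E₈ over a finite field of characteristic p: for every non-trivial p-subgroup U of the group G there are an element g of G and a proper set J of fundamental roots such that the normaliser of U in G lies in the conjugate by g of the standard parabolic subgroup P_J and U lies in the conjugate by g of its unipotent radical U_J. -/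
theorem result {F : Type*} [Field F] [Fintype F] (p : ℕ) [Fact p.Prime] [CharP F p] (D : Cfsg.Lie.ChevalleyDatum) (hD : D ∈ [Cfsg.Lie.chevG2, Cfsg.Lie.chevB2, Cfsg.Lie.chevD4, Cfsg.Lie.chevF4, Cfsg.Lie.chevE6, Cfsg.Lie.chevE7, Cfsg.Lie.chevE8]) (U : Subgroup (GL D.Idx F)) (hUG : U ≤ D.group F) (hU : IsPGroup p ↥U) (hne : U ≠ ⊥) : ∃ g ∈ D.group F, ∃ J : Set ℕ, (∃ i, i < D.rank ∧ i ∉ J) ∧ Subgroup.normalizer (U : Set (GL D.Idx F)) ⊓ D.group F ≤ (D.parabolicSubgroup F J).map (MulAut.conj g).toMonoidHom ∧ U ≤ (D.unipotentRadical F J).map (MulAut.conj g).toMonoidHom := by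
  let M := H75.chevModel1 hD F p
  have hU' : IsPGroup p (U.subgroupOf (D.group F)) := hU.comap_subtype
  have hne' : U.subgroupOf (D.group F) ≠ ⊥ := by
    rw [Ne, Subgroup.subgroupOf_eq_bot]
    exact fun h => hne (h.eq_bot_of_le hUG)
  obtain ⟨g, J, -, hJ, h1, h2⟩ := M.borelTits hU' hne'
  obtain ⟨i, hi⟩ := (Set.ne_univ_iff_exists_notMem _).1 hJ
  have e : J = Fin.val ⁻¹' (Fin.val '' J) := (Set.preimage_image_eq _ Fin.val_injective).symm
  refine ⟨g, g.2, Fin.val '' J, ⟨i.1, i.2, fun h => hi (e ▸ h)⟩, fun x hx => ?_, fun x hx => ?_⟩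
  · have h3 := h2 ⟨x, hx.2⟩ (Subgroup.mem_normalizer_iff.2 fun y =>
      Subgroup.mem_normalizer_iff.1 hx.1 y)
    rw [e] at h3
    exact ⟨_, H75.chevModel1_par hD F p _ h3, by simp [mul_assoc]⟩
  · have h3 := h1 ⟨x, hUG hx⟩ hx
    rw [e] at h3
    exact ⟨_, (H75.mem_rad_iff (H34.cert hD) _).1 h3, by simp [mul_assoc]⟩

end Cfsg.Agent.S2154
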