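import Cfsg.Statements.S2155
import Cfsg.Agent.H40.ChevPar
import Cfsg.Agent.H75.ChevLin
import Cfsg.Agent.H52.FStar
-- import your own Cfsg.Agent.* helpers here

set_option autoImplicit false
open Cfsg

namespace Cfsg.Agent.S2155

/-- In a Chevalley group of type G₂, B₂, D₄, F₄, E₆, E₇ or E₈ over a finite field of characteristic p (for types G₂ and B₂ the field is assumed to have at least 3 elements, so that the group is simple), the generalized Fitting subgroup of every proper standard parabolic subgroup P_J is a p-group (P_J is p-constrained with trivial largest normal subgroup of order prime to p). -/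
theorem result {F : Type*} [Field F] [Fintype F] (p : ℕ) [Fact p.Prime] [CharP F p] (D : Cfsg.Lie.ChevalleyDatum) (hD : D ∈ [Cfsg.Lie.chevG2, Cfsg.Lie.chevB2, Cfsg.Lie.chevD4, Cfsg.Lie.chevF4, Cfsg.Lie.chevE6, Cfsg.Lie.chevE7, Cfsg.Lie.chevE8]) (hq : (D = Cfsg.Lie.chevG2 ∨ D = Cfsg.Lie.chevB2) → 3 ≤ Fintype.card F) (J : Set ℕ) (hJ : ∃ i, i < D.rank ∧ i ∉ J) : IsPGroup p ↥(Cfsg.generalizedFittingSubgroup ↥(D.parabolicSubgroup F J)) := by
  have C := H34.cert hD
  have hle : D.parabolicSubgroup F J ≤ D.group F := by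
    rw [← H40.map_Par C F J]; exact Subgroup.map_subtype_le _
  have hR : ∀ g : D.group F, g ∈ H40.Rad (C.split F) (H40.nodes D J) ↔ (g : GL D.Idx F) ∈ D.unipotentRadical F J :=
    fun g => by rw [← H40.map_Rad C F J]; exact (Subgroup.mem_map_iff_mem (D.group F).subtype_injective).symm
  have hRle : D.unipotentRadical F J ≤ D.parabolicSubgroup F J := by
    rw [← H40.map_Par C F J, ← H40.map_Rad C F J]; exact Subgroup.map_mono (H40.Rad_le_Par _)
  have hn : ((D.unipotentRadical F J).subgroupOf (D.parabolicSubgroup F J)).Normal := ⟨fun u hu g => by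
    have h1 : (⟨g, hle g.2⟩ : D.group F) ∈ H40.Par (C.split F) (H40.nodes D J) := by
      rw [← Subgroup.mem_map_iff_mem (D.group F).subtype_injective, H40.map_Par]; exact g.2
    exact (hR _).1 (H40.conj_mem_of_mem_normalizer (H40.Par_le_normalizer_Rad _ h1)
      ((hR ⟨u, hle u.2⟩).2 hu))⟩
  have hp : IsPGroup p (D.unipotentRadical F J) := by
    rw [← H40.map_Rad C F J]
    exact ((H35.Chev.isPGroup_Up C F p).to_le (H40.Rad_le_Up _)).map _
  have : Finite (D.parabolicSubgroup F J) := inferInstance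
  refine H52.fstar_eq_pCore_iff_isPGroup.1 (H52.fstar_eq_pCore_of_centralizer_le
    (Q := (D.unipotentRadical F J).subgroupOf (D.parabolicSubgroup F J)) hp.comap_subtype fun x hx => ?_)
  obtain ⟨i, hi, hiJ⟩ := hJ
  obtain ⟨a, ha, h, hh, h1, e⟩ := (H75.chevModel1 hD F p).exists_of_comm (J := Fin.val ⁻¹' J) (fun _ => Iff.rfl)
    (fun e => hiJ (e.ge (Set.mem_univ (⟨i, hi⟩ : Fin D.rank)))) (x := ⟨x, hle x.2⟩) fun z hz => by
      have h2 := (H75.mem_rad_iff (H34.cert hD) J).1 hz
      exact Subtype.ext (congrArg Subtype.val (hx ⟨z, hRle h2⟩ h2)).symm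
  rw [H75.chevModel1_G1] at h1
  rw [H40.eq_one_of_comm_Up (H34.cert hD) hh fun u _ => h1 u trivial, mul_one] at e
  exact (H75.mem_rad_iff (H34.cert hD) J).1 (e ▸ ha :)

end Cfsg.Agent.S2155
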