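import Cfsg.Statements.S2158
import Cfsg.Agent.H37.AutThm

set_option autoImplicit false
open Cfsg

namespace Cfsg.Agent.S2158

/-- In a Chevalley group of type G₂, B₂, D₄, F₄, E₆, E₇ or E₈ over any field, an element of the group whose matrix is the diagonal matrix `ĥ(χ)` of a character `χ` of the root lattice already lies in the diagonal subgroup H (the non-trivial inclusion of the statement that the group meets the group of all such diagonal matrices in H). -/
theorem result {F : Type*} [Field F] (D : Cfsg.Lie.ChevalleyDatum) (hD : D ∈ [Cfsg.Lie.chevG2, Cfsg.Lie.chevB2, Cfsg.Lie.chevD4, Cfsg.Lie.chevF4, Cfsg.Lie.chevE6, Cfsg.Lie.chevE7, Cfsg.Lie.chevE8]) (χ : ℕ → Fˣ) (hχ : D.IsRootCharacter χ) (g : GL D.Idx F) (hg : g ∈ D.group F)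
    (hgχ : (g : Matrix D.Idx D.Idx F) = D.charDiag F χ) : g ∈ D.diagonalSubgroup F := by
  have C := H34.cert hD
  have e : g = H37.dG D F χ := Units.ext hgχ
  have hl : C.Lifts F g 1 := H34.Cert.lifts_hatH ⟨χ, hχ, e⟩
  have key : ∀ k : D.group F, C.Lifts F k 1 → k ∈ (C.split F).B := fun k hk =>
    H37.mem_B_of_conj (H34.Split.Twist.one (C.split F)) (H37.one_h1 C) (H37.one_h2 C) ⟨k, rfl⟩ fun u hu _ => by
      refine H34.Split.Up_le_B (H34.Split.U_le (K := (C.split F).Up.comap (MulAut.conj k).toMonoidHom) ?_ hu)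
      intro r hr x hx
      obtain ⟨t, rfl⟩ := H34.Cert.mem_X.1 hx
      obtain ⟨c, -, hc⟩ := hk
      exact H34.Split.mem_U hr (H34.Cert.mem_X.2 ⟨c r * t, Subtype.ext (hc r t).symm⟩)
  obtain ⟨n, hn, en⟩ := (C.split F).exists_lift (C.S.wJ_mem_W Set.univ)
  obtain ⟨hw, hl'⟩ := H34.Cert.nu_spec (C := C) (H34.Cert.mem_N.1 hn)
  refine H34.Cert.mem_H.1 (H34.Split.mem_H_of_conj_w0 (g := ⟨g, hg⟩) hn en (key _ hl) (key _ ?_))
  simpa using (hl'.mul hl (one_mem _)).mul (hl'.inv hw) (inv_mem hw)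

end Cfsg.Agent.S2158
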