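import Cfsg.Statements.S2159
import Cfsg.Agent.H37.OutCard

set_option autoImplicit false
open Cfsg

namespace Cfsg.Agent.S2159

/-- Structure of the outer automorphism group of the Chevalley group `G` of type G₂, B₂, D₄, F₄, E₆, E₇ or E₈ over a finite field. Let `D̄` be the image in `Out(G)` of the subgroup generated by the diagonal automorphisms and `F̄` the image of the subgroup generated by the field automorphisms. Then `D̄` is a normal abelian subgroup of `Out(G)`, `F̄` is cyclic, `D̄F̄` is a normal subgroup, and the quotient of `Out(G)` by `D̄F̄` is trivial, of order 2, or non-abelian of order 6 (so isomorphic to the symmetric group on three letters): its index is 1 or 2, or it is 6 with the commutator subgroup of `Out(G)` not inside `D̄F̄`. -/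
theorem result {F : Type*} [Field F] [Finite F] (D : Cfsg.Lie.ChevalleyDatum) (hD : D ∈ [Cfsg.Lie.chevG2, Cfsg.Lie.chevB2, Cfsg.Lie.chevD4, Cfsg.Lie.chevF4, Cfsg.Lie.chevE6, Cfsg.Lie.chevE7, Cfsg.Lie.chevE8])
    (Dbar Fbar : Subgroup (Cfsg.Out ↥(D.group F)))
    (hDbar : Dbar = (Subgroup.closure {φ : MulAut ↥(D.group F) | D.IsDiagonalAut φ}).map (QuotientGroup.mk' (Cfsg.Inn ↥(D.group F))))
    (hFbar : Fbar = (Subgroup.closure {φ : MulAut ↥(D.group F) | D.IsFieldAut φ}).map (QuotientGroup.mk' (Cfsg.Inn ↥(D.group F)))) :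
    Dbar.Normal ∧ IsMulCommutative ↥Dbar ∧ IsCyclic ↥Fbar ∧ (Dbar ⊔ Fbar).Normal ∧
      ((Dbar ⊔ Fbar).index = 1 ∨ (Dbar ⊔ Fbar).index = 2 ∨
        ((Dbar ⊔ Fbar).index = 6 ∧ ¬ commutator (Cfsg.Out ↥(D.group F)) ≤ Dbar ⊔ Fbar)) := by
  have C := H34.cert hD
  have hF := H37.diagFacts hD
  have e1 : {φ : MulAut ↥(D.group F) | D.IsDiagonalAut φ} = (H37.diagHom (F := F) C).range :=
    Set.ext fun _ => H37.isDiagonalAut_iff_range C
  have e2 : {φ : MulAut ↥(D.group F) | D.IsFieldAut φ} = (H37.fieldAutHom F C).range :=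
    Set.ext fun _ => H37.isFieldAut_iff_range C
  rw [e1, Subgroup.closure_eq] at hDbar
  rw [e2, Subgroup.closure_eq] at hFbar
  subst hDbar hFbar
  rw [H37.map_sup_eq (hF := hF), H37.index_map_ker]
  refine ⟨H37.normal_map_diagHom (hF := hF), ?_, ?_, Subgroup.Normal.map inferInstance _ (H37.presOut_surjective C), ?_⟩
  · rw [← MonoidHom.range_comp]; infer_instance
  · rw [← MonoidHom.range_comp]
    have := H73.isCyclic_ringAut (F := F)
    exact isCyclic_of_surjective _ (MonoidHom.rangeRestrict_surjective _)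
  · simp only [List.mem_cons, List.not_mem_nil, or_false] at hD
    rcases hD with rfl | rfl | rfl | rfl | rfl | rfl | rfl
    · exact (H37.card_graphSet_le_two hF fun _ => H37.symG2).imp id Or.inl
    · exact (H37.card_graphSet_le_two hF fun _ => H37.symB2).imp id Or.inl
    · refine Or.inr (Or.inr ⟨H37.card_graphSet_D4 C, fun h => ?_⟩)
      have := H37.comm_of_commutator_le h ⟨_, H37.graphDataD4c.isStd H37.okD4c H37.longD4⟩
        ⟨_, H37.graphDataD4d.isStd H37.okD4d H37.longD4⟩
      have h1 := congrArg (fun π : Equiv.Perm (Fin Cfsg.Lie.chevD4.rank) => (π ⟨0, by decide⟩ : ℕ)) this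
      simp only [Equiv.Perm.mul_apply, H37.PermOK.coe_perm] at h1
      simp at h1
    · exact (H37.card_graphSet_le_two hF fun _ => H37.symF4).imp id Or.inl
    · exact Or.inr (Or.inl (H37.card_graphSet_E6 C))
    · exact Or.inl (H37.card_graphSet_E7 C)
    · exact Or.inl (H37.card_graphSet_E8 C)

end Cfsg.Agent.S2159
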