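import Cfsg.Statements.S2160
import Cfsg.Agent.H37.Autos

set_option autoImplicit false
open Cfsg

namespace Cfsg.Agent.S2160

/-- In a Chevalley group of type G₂, B₂, D₄, F₄, E₆, E₇ or E₈ over a finite field, every field automorphism commutes with every graph automorphism. -/
theorem result {F : Type*} [Field F] [Finite F] (D : Cfsg.Lie.ChevalleyDatum) (hD : D ∈ [Cfsg.Lie.chevG2, Cfsg.Lie.chevB2, Cfsg.Lie.chevD4, Cfsg.Lie.chevF4, Cfsg.Lie.chevE6, Cfsg.Lie.chevE7, Cfsg.Lie.chevE8]) (f g : ↥(D.group F) ≃* ↥(D.group F))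
    (hf : D.IsFieldAut f) (hg : D.IsGraphAut g) (y : ↥(D.group F)) : f (g y) = g (f y) := by
  have V := H37.validOf hD
  obtain ⟨σ, rfl⟩ := V.isFieldAut_iff.1 hf
  obtain ⟨π, -, h⟩ := V.isGraphAut_iff.1 hg
  have : g.trans (V.fieldEquiv σ) = (V.fieldEquiv σ).trans g := by
    refine V.equiv_ext_simple (fun i hi t => ?_) (fun i hi t => ?_)
    · simp only [MulEquiv.trans_apply, V.fieldEquiv_xE]
      rw [(h ⟨i, hi⟩ t).1, (h ⟨i, hi⟩ (σ t)).1, V.fieldEquiv_xE, map_pow]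
    · simp only [MulEquiv.trans_apply, V.fieldEquiv_xE]
      rw [(h ⟨i, hi⟩ t).2, (h ⟨i, hi⟩ (σ t)).2, V.fieldEquiv_xE, map_pow]
  exact MulEquiv.congr_fun this y

end Cfsg.Agent.S2160
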