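import Cfsg.Statements.S2298
import Cfsg.Agent.H77.GL2Chars

set_option autoImplicit false
open Cfsg

namespace Cfsg.Agent.S2298

open Cfsg.Agent.H77

/-- Over a finite field F with q elements, every irreducible complex character of GL₂ has degree 1, q − 1, q or q + 1; and when q ≥ 3 (so that these four numbers are distinct) there are exactly q − 1 irreducible characters of degree 1, exactly q − 1 of degree q, exactly (q − 1)(q − 2)/2 of degree q + 1 and exactly q(q − 1)/2 of degree q − 1. -/
theorem result {F : Type*} [Field F] [Fintype F] :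
    (∀ χ : Matrix.GeneralLinearGroup (Fin 2) F → ℂ, Cfsg.IsIrrCharacter (Matrix.GeneralLinearGroup (Fin 2) F) χ →
      χ 1 = 1 ∨ χ 1 = (Fintype.card F : ℂ) - 1 ∨ χ 1 = (Fintype.card F : ℂ) ∨ χ 1 = (Fintype.card F : ℂ) + 1) ∧
    (3 ≤ Fintype.card F →
      Nat.card {χ : Cfsg.IrrCharacter (Matrix.GeneralLinearGroup (Fin 2) F) // (χ : Matrix.GeneralLinearGroup (Fin 2) F → ℂ) 1 = 1} = Fintype.card F - 1 ∧
      Nat.card {χ : Cfsg.IrrCharacter (Matrix.GeneralLinearGroup (Fin 2) F) // (χ : Matrix.GeneralLinearGroup (Fin 2) F → ℂ) 1 = (Fintype.card F : ℂ)} = Fintype.card F - 1 ∧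
      Nat.card {χ : Cfsg.IrrCharacter (Matrix.GeneralLinearGroup (Fin 2) F) // (χ : Matrix.GeneralLinearGroup (Fin 2) F → ℂ) 1 = (Fintype.card F : ℂ) + 1} = (Fintype.card F - 1) * (Fintype.card F - 2) / 2 ∧
      Nat.card {χ : Cfsg.IrrCharacter (Matrix.GeneralLinearGroup (Fin 2) F) // (χ : Matrix.GeneralLinearGroup (Fin 2) F → ℂ) 1 = (Fintype.card F : ℂ) - 1} = Fintype.card F * (Fintype.card F - 1) / 2) := by
  classical
  refine ⟨fun χ hχ => ?_, fun hq => ⟨?_, ?_, ?_, ?_⟩⟩
  · rcases gl_irr_mem (QExt F) hχ with h | h | h | h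
    · exact Or.inl (glSet1_val h).2.1
    · exact Or.inr (Or.inr (Or.inl (glSet2_val h).2.1))
    · exact Or.inr (Or.inr (Or.inr (glSet3_val h).2.1))
    · exact Or.inr (Or.inl (glSet4_val h).2.1)
  · rw [card_irr_subtype (fun χ => χ 1 = 1) (glSet1 F), card_glSet1]
    refine fun χ => ⟨fun h => ⟨(glSet1_val h).1, (glSet1_val h).2.1⟩, fun ⟨hχ, e⟩ => ?_⟩
    rcases gl_irr_mem (QExt F) hχ with h | h | h | h
    · exact h
    all_goals
      exfalso
      first | rw [(glSet1_val h).2.1] at e | rw [(glSet2_val h).2.1] at e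
            | rw [(glSet3_val h).2.1] at e | rw [(glSet4_val h).2.1] at e
      try rw [← cast_q_sub_one] at e
      norm_cast at e
      omega
  · rw [card_irr_subtype (fun χ => χ 1 = (Fintype.card F : ℂ)) (glSet2 F), card_glSet2]
    refine fun χ => ⟨fun h => ⟨(glSet2_val h).1, (glSet2_val h).2.1⟩, fun ⟨hχ, e⟩ => ?_⟩
    rcases gl_irr_mem (QExt F) hχ with h | h | h | h
    swap
    · exact h
    all_goals
      exfalso
      first | rw [(glSet1_val h).2.1] at e | rw [(glSet2_val h).2.1] at e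
            | rw [(glSet3_val h).2.1] at e | rw [(glSet4_val h).2.1] at e
      try rw [← cast_q_sub_one] at e
      norm_cast at e
      omega
  · rw [card_irr_subtype (fun χ => χ 1 = (Fintype.card F : ℂ) + 1) (glSet3 F), ← card_glSet3,
      Nat.mul_div_cancel_left _ two_pos]
    refine fun χ => ⟨fun h => ⟨(glSet3_val h).1, (glSet3_val h).2.1⟩, fun ⟨hχ, e⟩ => ?_⟩
    rcases gl_irr_mem (QExt F) hχ with h | h | h | h
    pick_goal 3
    · exact h
    all_goals
      exfalso
      first | rw [(glSet1_val h).2.1] at e | rw [(glSet2_val h).2.1] at e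
            | rw [(glSet3_val h).2.1] at e | rw [(glSet4_val h).2.1] at e
      try rw [← cast_q_sub_one] at e
      norm_cast at e
      omega
  · rw [card_irr_subtype (fun χ => χ 1 = (Fintype.card F : ℂ) - 1) (glSet4 F (QExt F)),
      ← card_glSet4 (K := QExt F), Nat.mul_div_cancel_left _ two_pos]
    refine fun χ => ⟨fun h => ⟨(glSet4_val h).1, (glSet4_val h).2.1⟩, fun ⟨hχ, e⟩ => ?_⟩
    rcases gl_irr_mem (QExt F) hχ with h | h | h | h
    pick_goal 4
    · exact h
    all_goals
      exfalso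
      first | rw [(glSet1_val h).2.1] at e | rw [(glSet2_val h).2.1] at e
            | rw [(glSet3_val h).2.1] at e | rw [(glSet4_val h).2.1] at e
      try rw [← cast_q_sub_one] at e
      norm_cast at e
      omega

end Cfsg.Agent.S2298
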