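import Cfsg.Statements.S2299
import Cfsg.Agent.H77.SL2Table

set_option autoImplicit false
open Cfsg

namespace Cfsg.Agent.S2299

open Cfsg.Agent.H77

/-- Over a finite field F with q elements, q odd, every irreducible complex character of SL₂ has degree 1, q, q + 1, q − 1, (q + 1)/2 or (q − 1)/2; and when q ≥ 5 (so that these six numbers are distinct) there are exactly one irreducible character of degree 1, one of degree q, (q − 3)/2 of degree q + 1, (q − 1)/2 of degree q − 1, two of degree (q + 1)/2 and two of degree (q − 1)/2. -/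
theorem result {F : Type*} [Field F] [Fintype F] (hodd : Odd (Fintype.card F)) :
    (∀ χ : Matrix.SpecialLinearGroup (Fin 2) F → ℂ, Cfsg.IsIrrCharacter (Matrix.SpecialLinearGroup (Fin 2) F) χ →
      χ 1 = 1 ∨ χ 1 = (Fintype.card F : ℂ) ∨ χ 1 = (Fintype.card F : ℂ) + 1 ∨ χ 1 = (Fintype.card F : ℂ) - 1 ∨
        χ 1 = (((Fintype.card F + 1) / 2 : ℕ) : ℂ) ∨ χ 1 = (((Fintype.card F - 1) / 2 : ℕ) : ℂ)) ∧
    (5 ≤ Fintype.card F →
      Nat.card {χ : Cfsg.IrrCharacter (Matrix.SpecialLinearGroup (Fin 2) F) // (χ : Matrix.SpecialLinearGroup (Fin 2) F → ℂ) 1 = 1} = 1 ∧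
      Nat.card {χ : Cfsg.IrrCharacter (Matrix.SpecialLinearGroup (Fin 2) F) // (χ : Matrix.SpecialLinearGroup (Fin 2) F → ℂ) 1 = (Fintype.card F : ℂ)} = 1 ∧
      Nat.card {χ : Cfsg.IrrCharacter (Matrix.SpecialLinearGroup (Fin 2) F) // (χ : Matrix.SpecialLinearGroup (Fin 2) F → ℂ) 1 = (Fintype.card F : ℂ) + 1} = (Fintype.card F - 3) / 2 ∧
      Nat.card {χ : Cfsg.IrrCharacter (Matrix.SpecialLinearGroup (Fin 2) F) // (χ : Matrix.SpecialLinearGroup (Fin 2) F → ℂ) 1 = (Fintype.card F : ℂ) - 1} = (Fintype.card F - 1) / 2 ∧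
      Nat.card {χ : Cfsg.IrrCharacter (Matrix.SpecialLinearGroup (Fin 2) F) // (χ : Matrix.SpecialLinearGroup (Fin 2) F → ℂ) 1 = (((Fintype.card F + 1) / 2 : ℕ) : ℂ)} = 2 ∧
      Nat.card {χ : Cfsg.IrrCharacter (Matrix.SpecialLinearGroup (Fin 2) F) // (χ : Matrix.SpecialLinearGroup (Fin 2) F → ℂ) 1 = (((Fintype.card F - 1) / 2 : ℕ) : ℂ)} = 2) := by
  classical
  have h2 := two_ne_zero_of_odd hodd
  have ho := Nat.odd_iff.mp hodd
  rw [← cast_q_sub_one, ← cast_q_add_one]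
  refine ⟨fun χ hχ => ?_, fun hq => ⟨?_, ?_, ?_, ?_, ?_, ?_⟩⟩
  · rcases sl_irr_deg_cases (QExt F) hχ with ⟨d, -⟩ | ⟨d, -⟩ | ⟨d, -⟩ | ⟨d, -⟩ | ⟨d, -⟩ | ⟨d, -⟩
    · exact Or.inl (by simpa using d)
    all_goals simp only [d, true_or, or_true]
  · rw [card_irr_subtype (fun χ => χ 1 = 1) {fun _ => 1}, Finset.card_singleton]
    refine fun χ => ⟨fun h => ?_, fun ⟨hχ, e⟩ => ?_⟩
    · obtain rfl := Finset.mem_singleton.mp h
      exact ⟨H11.isIrrCharacter_one, rfl⟩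
    rcases sl_irr_deg_cases (QExt F) hχ with ⟨-, h⟩ | ⟨d, -⟩ | ⟨d, -⟩ | ⟨d, -⟩ | ⟨d, h, -⟩ | ⟨d, h, -⟩
    · exact Finset.mem_singleton.mpr h
    all_goals
      exfalso
      rw [d] at e
      norm_cast at e
      omega
  · rw [card_irr_subtype (fun χ => χ 1 = (Fintype.card F : ℂ)) {sSt F}, Finset.card_singleton]
    refine fun χ => ⟨fun h => ?_, fun ⟨hχ, e⟩ => ?_⟩
    · obtain rfl := Finset.mem_singleton.mp h
      exact ⟨isIrr_sSt, sSt_one⟩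
    rcases sl_irr_deg_cases (QExt F) hχ with ⟨d, -⟩ | ⟨-, h⟩ | ⟨d, -⟩ | ⟨d, -⟩ | ⟨d, h, -⟩ | ⟨d, h, -⟩
    swap
    · exact Finset.mem_singleton.mpr h
    all_goals
      exfalso
      rw [d] at e
      norm_cast at e
      omega
  · rw [card_irr_subtype (fun χ => χ 1 = ((Fintype.card F + 1 : ℕ) : ℂ)) (slSet3 F)]
    · have h3 := card_slSet3 (F := F)
      rw [Nat.gcd_eq_right (by omega)] at h3
      omega
    refine fun χ => ⟨fun h => ⟨(slSet3_val h).1, (slSet3_val h).2.2.1.trans cast_q_add_one.symm⟩,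
      fun ⟨hχ, e⟩ => ?_⟩
    rcases sl_irr_deg_cases (QExt F) hχ with ⟨d, -⟩ | ⟨d, -⟩ | ⟨-, h⟩ | ⟨d, -⟩ | ⟨d, h, -⟩ | ⟨d, h, -⟩
    pick_goal 3
    · exact mem_slSet3.mpr h
    all_goals
      exfalso
      rw [d] at e
      norm_cast at e
      omega
  · rw [card_irr_subtype (fun χ => χ 1 = ((Fintype.card F - 1 : ℕ) : ℂ)) (slSet4 F (QExt F))]
    · have h3 := card_slSet4 (F := F) (K := QExt F)
      rw [Nat.gcd_eq_right (by omega)] at h3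
      omega
    refine fun χ => ⟨fun h => ⟨(slSet4_val h).1, (slSet4_val h).2.2.1.trans cast_q_sub_one.symm⟩,
      fun ⟨hχ, e⟩ => ?_⟩
    rcases sl_irr_deg_cases (QExt F) hχ with ⟨d, -⟩ | ⟨d, -⟩ | ⟨d, -⟩ | ⟨-, h⟩ | ⟨d, h, -⟩ | ⟨d, h, -⟩
    pick_goal 4
    · exact mem_slSet4.mpr h
    all_goals
      exfalso
      rw [d] at e
      norm_cast at e
      omega
  · obtain ⟨⟨α, a1, a2, a3⟩, -⟩ := exists_quad (QExt F) h2
    obtain ⟨χ₁, χ₂, hα⟩ := exists_halves_sR a1 a2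
    rw [card_irr_subtype (fun χ => χ 1 = (((Fintype.card F + 1) / 2 : ℕ) : ℂ)) {χ₁, χ₂},
      Finset.card_pair hα.ne]
    simp only [Finset.mem_insert, Finset.mem_singleton]
    refine fun χ => ⟨?_, fun ⟨hχ, e⟩ => ?_⟩
    · rintro (rfl | rfl)
      exacts [⟨hα.irr₁, hα.one_sR h2⟩, ⟨hα.irr₂, hα.symm.one_sR h2⟩]
    rcases sl_irr_deg_cases (QExt F) hχ with ⟨d, -⟩ | ⟨d, -⟩ | ⟨d, -⟩ | ⟨d, -⟩ |
      ⟨-, -, β, χ', b1, b2, h⟩ | ⟨d, -⟩
    pick_goal 5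
    · exact hα.eq_or_eq (a3 β b1 b2 ▸ h)
    all_goals
      exfalso
      rw [d] at e
      norm_cast at e
      omega
  · obtain ⟨-, α, a1, a2, a3⟩ := exists_quad (QExt F) h2
    obtain ⟨χ₁, χ₂, hα⟩ := exists_halves_sD a1 a2
    rw [card_irr_subtype (fun χ => χ 1 = (((Fintype.card F - 1) / 2 : ℕ) : ℂ)) {χ₁, χ₂},
      Finset.card_pair hα.ne]
    simp only [Finset.mem_insert, Finset.mem_singleton]
    refine fun χ => ⟨?_, fun ⟨hχ, e⟩ => ?_⟩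
    · rintro (rfl | rfl)
      exacts [⟨hα.irr₁, hα.one_sD h2⟩, ⟨hα.irr₂, hα.symm.one_sD h2⟩]
    rcases sl_irr_deg_cases (QExt F) hχ with ⟨d, -⟩ | ⟨d, -⟩ | ⟨d, -⟩ | ⟨d, -⟩ | ⟨d, -⟩ |
      ⟨-, -, β, χ', b1, b2, h⟩
    pick_goal 6
    · exact hα.eq_or_eq (a3 β b1 b2 ▸ h)
    all_goals
      exfalso
      rw [d] at e
      norm_cast at e
      omega

end Cfsg.Agent.S2299
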