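import Cfsg.Statements.S2300
import Cfsg.Agent.H77.SL2Table

set_option autoImplicit false
open Cfsg

namespace Cfsg.Agent.S2300

open Cfsg.Agent.H77

/-- Over a finite field F with q elements, q even, every irreducible complex character of SL₂ has degree 1, q − 1, q or q + 1; and when q ≥ 4 (so that these four numbers are distinct) there are exactly one irreducible character of degree 1, one of degree q, (q − 2)/2 of degree q + 1 and q/2 of degree q − 1. -/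
theorem result {F : Type*} [Field F] [Fintype F] [CharP F 2] :
    (∀ χ : Matrix.SpecialLinearGroup (Fin 2) F → ℂ, Cfsg.IsIrrCharacter (Matrix.SpecialLinearGroup (Fin 2) F) χ →
      χ 1 = 1 ∨ χ 1 = (Fintype.card F : ℂ) - 1 ∨ χ 1 = (Fintype.card F : ℂ) ∨ χ 1 = (Fintype.card F : ℂ) + 1) ∧
    (4 ≤ Fintype.card F →
      Nat.card {χ : Cfsg.IrrCharacter (Matrix.SpecialLinearGroup (Fin 2) F) // (χ : Matrix.SpecialLinearGroup (Fin 2) F → ℂ) 1 = 1} = 1 ∧
      Nat.card {χ : Cfsg.IrrCharacter (Matrix.SpecialLinearGroup (Fin 2) F) // (χ : Matrix.SpecialLinearGroup (Fin 2) F → ℂ) 1 = (Fintype.card F : ℂ)} = 1 ∧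
      Nat.card {χ : Cfsg.IrrCharacter (Matrix.SpecialLinearGroup (Fin 2) F) // (χ : Matrix.SpecialLinearGroup (Fin 2) F → ℂ) 1 = (Fintype.card F : ℂ) + 1} = (Fintype.card F - 2) / 2 ∧
      Nat.card {χ : Cfsg.IrrCharacter (Matrix.SpecialLinearGroup (Fin 2) F) // (χ : Matrix.SpecialLinearGroup (Fin 2) F → ℂ) 1 = (Fintype.card F : ℂ) - 1} = Fintype.card F / 2) := by
  classical
  have h2 : (2 : F) = 0 := CharTwo.two_eq_zero
  have he : Fintype.card F % 2 = 0 := by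
    rw [← Nat.even_iff, ← Nat.not_odd_iff_even]
    exact fun h => two_ne_zero_of_odd h h2
  rw [← cast_q_sub_one, ← cast_q_add_one]
  refine ⟨fun χ hχ => ?_, fun hq => ⟨?_, ?_, ?_, ?_⟩⟩
  · rcases sl_irr_deg_cases (QExt F) hχ with ⟨d, -⟩ | ⟨d, -⟩ | ⟨d, -⟩ | ⟨d, -⟩ | ⟨-, d, -⟩ | ⟨-, d, -⟩
    · exact Or.inl (by simpa using d)
    · exact Or.inr (Or.inr (Or.inl d))
    · exact Or.inr (Or.inr (Or.inr d))
    · exact Or.inr (Or.inl d)
    · omega
    · omega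
  · rw [card_irr_subtype (fun χ => χ 1 = 1) {fun _ => 1}, Finset.card_singleton]
    refine fun χ => ⟨fun h => ?_, fun ⟨hχ, e⟩ => ?_⟩
    · obtain rfl := Finset.mem_singleton.mp h
      exact ⟨H11.isIrrCharacter_one, rfl⟩
    rcases sl_irr_deg_cases (QExt F) hχ with ⟨-, h⟩ | ⟨d, -⟩ | ⟨d, -⟩ | ⟨d, -⟩ | ⟨d, h, -⟩ | ⟨d, h, -⟩
    · exact Finset.mem_singleton.mpr h
    all_goals
      exfalso
      rw [d] at e
      norm_cast at e
      omega
  · rw [card_irr_subtype (fun χ => χ 1 = (Fintype.card F : ℂ)) {sSt F}, Finset.card_singleton]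
    refine fun χ => ⟨fun h => ?_, fun ⟨hχ, e⟩ => ?_⟩
    · obtain rfl := Finset.mem_singleton.mp h
      exact ⟨isIrr_sSt, sSt_one⟩
    rcases sl_irr_deg_cases (QExt F) hχ with ⟨d, -⟩ | ⟨-, h⟩ | ⟨d, -⟩ | ⟨d, -⟩ | ⟨d, h, -⟩ | ⟨d, h, -⟩
    swap
    · exact Finset.mem_singleton.mpr h
    all_goals
      exfalso
      rw [d] at e
      norm_cast at e
      omega
  · rw [card_irr_subtype (fun χ => χ 1 = ((Fintype.card F + 1 : ℕ) : ℂ)) (slSet3 F)]
    · have h3 := card_slSet3 (F := F)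
      rw [Nat.coprime_two_right.mpr (Nat.odd_iff.mpr (by omega))] at h3
      omega
    refine fun χ => ⟨fun h => ⟨(slSet3_val h).1, (slSet3_val h).2.2.1.trans cast_q_add_one.symm⟩,
      fun ⟨hχ, e⟩ => ?_⟩
    rcases sl_irr_deg_cases (QExt F) hχ with ⟨d, -⟩ | ⟨d, -⟩ | ⟨-, h⟩ | ⟨d, -⟩ | ⟨d, h, -⟩ | ⟨d, h, -⟩
    pick_goal 3
    · exact mem_slSet3.mpr h
    all_goals
      exfalso
      rw [d] at e
      norm_cast at e
      omega
  · rw [card_irr_subtype (fun χ => χ 1 = ((Fintype.card F - 1 : ℕ) : ℂ)) (slSet4 F (QExt F))]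
    · have h3 := card_slSet4 (F := F) (K := QExt F)
      rw [Nat.coprime_two_right.mpr (Nat.odd_iff.mpr (by omega))] at h3
      omega
    refine fun χ => ⟨fun h => ⟨(slSet4_val h).1, (slSet4_val h).2.2.1.trans cast_q_sub_one.symm⟩,
      fun ⟨hχ, e⟩ => ?_⟩
    rcases sl_irr_deg_cases (QExt F) hχ with ⟨d, -⟩ | ⟨d, -⟩ | ⟨d, -⟩ | ⟨-, h⟩ | ⟨d, h, -⟩ | ⟨d, h, -⟩
    pick_goal 4
    · exact mem_slSet4.mpr h
    all_goals
      exfalso
      rw [d] at e
      norm_cast at e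
      omega

end Cfsg.Agent.S2300
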