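import Cfsg.Statements.S2301
import Cfsg.Agent.H77.Borel

set_option autoImplicit false
open Cfsg

namespace Cfsg.Agent.S2301

open Cfsg.Agent.H77

/-- Over a finite field with q elements of odd characteristic p, the elements of order p of SL₂ (the non-identity unipotent elements) fall into exactly two conjugacy classes, each of size (q² − 1)/2; two upper unitriangular matrices with non-zero off-diagonal entries b and b′ are conjugate exactly when bb′ is a square. -/
theorem result {F : Type*} [Field F] [Fintype F] (p : ℕ) [Fact p.Prime] [CharP F p] (hp : p ≠ 2) :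
    Nat.card {C : ConjClasses (Matrix.SpecialLinearGroup (Fin 2) F) // ∃ g : Matrix.SpecialLinearGroup (Fin 2) F, orderOf g = p ∧ ConjClasses.mk g = C} = 2 ∧
    (∀ g : Matrix.SpecialLinearGroup (Fin 2) F, orderOf g = p → Nat.card (ConjClasses.mk g).carrier = (Fintype.card F ^ 2 - 1) / 2) ∧
    ∀ g h : Matrix.SpecialLinearGroup (Fin 2) F, (g : Matrix (Fin 2) (Fin 2) F) 0 0 = 1 → (g : Matrix (Fin 2) (Fin 2) F) 1 1 = 1 → (g : Matrix (Fin 2) (Fin 2) F) 1 0 = 0 → (g : Matrix (Fin 2) (Fin 2) F) 0 1 ≠ 0 →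
      (h : Matrix (Fin 2) (Fin 2) F) 0 0 = 1 → (h : Matrix (Fin 2) (Fin 2) F) 1 1 = 1 → (h : Matrix (Fin 2) (Fin 2) F) 1 0 = 0 → (h : Matrix (Fin 2) (Fin 2) F) 0 1 ≠ 0 →
      (IsConj g h ↔ IsSquare ((g : Matrix (Fin 2) (Fin 2) F) 0 1 * (h : Matrix (Fin 2) (Fin 2) F) 0 1)) := by
  classical
  have h2 : (2 : F) ≠ 0 := by
    intro h
    exact hp ((Nat.prime_dvd_prime_iff_eq Fact.out Nat.prime_two).mp
      ((CharP.cast_eq_zero_iff F p 2).mp (by exact_mod_cast h)))
  obtain ⟨ν, hν⟩ := FiniteField.exists_nonsquare (F := F) (by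
    rw [ringChar.eq F p]; exact hp)
  have hν0 : ν ≠ 0 := by
    rintro rfl
    exact hν IsSquare.zero
  refine ⟨?_, fun g hg => ?_, fun g h g1 g2 g3 g4 h1 h2 h3 h4 => ?_⟩
  · rw [Nat.card_eq_two_iff]
    refine ⟨⟨ConjClasses.mk (uts 1 1), _, orderOf_uts_unip p one_ne_zero, rfl⟩,
      ⟨ConjClasses.mk (uts 1 ν), _, orderOf_uts_unip p hν0, rfl⟩, ?_, ?_⟩
    · intro e
      have := ConjClasses.mk_eq_mk_iff_isConj.mp (congrArg Subtype.val e)
      rw [isConj_uts_par_iff (one_pow 2) one_ne_zero, one_mul] at this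
      exact hν this.2.2
    · rw [Set.eq_univ_iff_forall]
      rintro ⟨C, g, hg, rfl⟩
      obtain ⟨b, hb, hc⟩ := (sl_orderOf_eq_char_iff p).mp hg
      simp only [Set.mem_insert_iff, Set.mem_singleton_iff, Subtype.mk.injEq,
        ConjClasses.mk_eq_mk_iff_isConj]
      by_cases hs : IsSquare b
      · left
        exact hc.symm.trans ((isConj_uts_par_iff (one_pow 2) hb).mpr
          ⟨rfl, one_ne_zero, by rwa [mul_one]⟩)
      · right
        refine hc.symm.trans ((isConj_uts_par_iff (one_pow 2) hb).mpr ⟨rfl, hν0, ?_⟩)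
        rw [← quadraticChar_one_iff_isSquare (mul_ne_zero hb hν0), map_mul,
          quadraticChar_neg_one_iff_not_isSquare.mpr hs,
          quadraticChar_neg_one_iff_not_isSquare.mpr hν]
        norm_num
  · obtain ⟨b, hb, hc⟩ := (sl_orderOf_eq_char_iff p).mp hg
    have h1 := card_carrier_mul_card_cent g
    rw [sl_card_cent_isPar ((sl_isPar_of_isConj hc).mp (isPar_uts (one_pow 2) hb)),
      card_sq_eq_one_of_two_ne h2, card_SL2, mul_comm (Nat.card F), ← mul_assoc] at h1
    have h3 := Nat.eq_of_mul_eq_mul_right Nat.card_pos h1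
    rw [← Nat.card_eq_fintype_card, ← h3, Nat.mul_div_cancel _ two_pos]
  · obtain ⟨a, b, rfl⟩ := exists_eq_uts g3
    obtain ⟨a', b', rfl⟩ := exists_eq_uts h3
    obtain rfl : a = 1 := Units.ext g1
    obtain rfl : a' = 1 := Units.ext h1
    exact (isConj_uts_par_iff (b := b) (one_pow 2) g4).trans ⟨fun h => h.2.2, fun h => ⟨rfl, h4, h⟩⟩

end Cfsg.Agent.S2301
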