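import Cfsg.Statements.S2302
import Cfsg.Agent.H77.Borel

set_option autoImplicit false
open Cfsg

namespace Cfsg.Agent.S2302

open Cfsg.Agent.H77

/-- Over a finite field with q elements of characteristic 2, the involutions of SL₂ (the non-identity unipotent elements) form a single conjugacy class, of size q² − 1. -/
theorem result {F : Type*} [Field F] [Fintype F] [CharP F 2] (g h : Matrix.SpecialLinearGroup (Fin 2) F) (hg : orderOf g = 2) (hh : orderOf h = 2) :
    IsConj g h ∧ Nat.card (ConjClasses.mk g).carrier = Fintype.card F ^ 2 - 1 := by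
  classical
  have h2 : (2 : F) = 0 := CharTwo.two_eq_zero
  obtain ⟨b, hb, hgb⟩ := (sl_orderOf_eq_char_iff 2).mp hg
  obtain ⟨b', hb', hhb⟩ := (sl_orderOf_eq_char_iff 2).mp hh
  refine ⟨hgb.symm.trans (((isConj_uts_par_iff (one_pow 2) hb).mpr ⟨rfl, hb', ?_⟩).trans hhb), ?_⟩
  · exact FiniteField.isSquare_of_char_two (ringChar.eq F 2) _
  · have h1 := card_carrier_mul_card_cent g
    rw [sl_card_cent_isPar ((sl_isPar_of_isConj hgb).mp (isPar_uts (one_pow 2) hb)),
      card_sq_eq_one_of_two_eq h2, one_mul, card_SL2, mul_comm (Nat.card F)] at h1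
    rw [Nat.eq_of_mul_eq_mul_right Nat.card_pos h1, Nat.card_eq_fintype_card]

end Cfsg.Agent.S2302
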