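import Cfsg.Statements.S2309
import Cfsg.Agent.H77.GL2Chars

set_option autoImplicit false
open Cfsg

namespace Cfsg.Agent.S2309

open Cfsg.Agent.H77

/-- Over a finite field F with q elements: every irreducible complex character of GL₂ of degree q − 1 vanishes at every diagonal matrix with two distinct entries, and every irreducible complex character of degree q + 1 vanishes at every element with no eigenvector in F². -/
theorem result {F : Type*} [Field F] [Fintype F] (χ : Matrix.GeneralLinearGroup (Fin 2) F → ℂ) (hχ : Cfsg.IsIrrCharacter (Matrix.GeneralLinearGroup (Fin 2) F) χ) (g : Matrix.GeneralLinearGroup (Fin 2) F) :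
    (χ 1 = (Fintype.card F : ℂ) - 1 → (g : Matrix (Fin 2) (Fin 2) F) 0 1 = 0 → (g : Matrix (Fin 2) (Fin 2) F) 1 0 = 0 → (g : Matrix (Fin 2) (Fin 2) F) 0 0 ≠ (g : Matrix (Fin 2) (Fin 2) F) 1 1 → χ g = 0) ∧
    (χ 1 = (Fintype.card F : ℂ) + 1 → (∀ (c : F) (v : Fin 2 → F), v ≠ 0 → (g : Matrix (Fin 2) (Fin 2) F).mulVec v ≠ c • v) → χ g = 0) := by
  classical
  have hq : 1 < Fintype.card F := Fintype.one_lt_card
  refine ⟨fun e h1 h2 h3 => ?_, fun e h => ?_⟩
  · obtain ⟨a, d, b, rfl⟩ := exists_eq_ut h2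
    have had : a ≠ d := fun e => h3 (congrArg Units.val e)
    have hq3 : 2 < Fintype.card F := by
      have : Nontrivial Fˣ := ⟨a, d, had⟩
      have := Fintype.one_lt_card (α := Fˣ)
      rw [Fintype.card_units] at this
      omega
    rw [← cast_q_sub_one] at e
    rcases gl_irr_cases (QExt F) hχ with ⟨α, rfl⟩ | ⟨α, rfl⟩ | ⟨α, β, -, rfl⟩ | ⟨Θ, -, rfl⟩
    pick_goal 4
    · exact chD_split _ (isSplit_ut had b)
    all_goals
      exfalso
      first | rw [chL_one] at e | rw [chSt_one] at e | rw [chR_one] at e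
      norm_cast at e
      omega
  · rcases gl_irr_cases (QExt F) hχ with ⟨α, rfl⟩ | ⟨α, rfl⟩ | ⟨α, β, -, rfl⟩ | ⟨Θ, -, rfl⟩
    pick_goal 3
    · exact chR_noEig _ _ h
    all_goals
      exfalso
      first | rw [chL_one] at e | rw [chSt_one] at e | rw [chD_one, ← cast_q_sub_one] at e
      norm_cast at e
      omega

end Cfsg.Agent.S2309
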