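import Cfsg.Statements.S2310
import Cfsg.Agent.H77.GL2Chars

set_option autoImplicit false
open Cfsg

namespace Cfsg.Agent.S2310

open Cfsg.Agent.H77

/-- Over a finite field F with q ≥ 3 elements, let u be the upper unitriangular matrix of GL₂ with off-diagonal entry 1. An irreducible complex character χ of GL₂ takes at u the value 1 if χ has degree 1 or q + 1, the value −1 if χ has degree q − 1, and the value 0 if χ has degree q. -/
theorem result {F : Type*} [Field F] [Fintype F] (hq : 3 ≤ Fintype.card F) (χ : Matrix.GeneralLinearGroup (Fin 2) F → ℂ) (hχ : Cfsg.IsIrrCharacter (Matrix.GeneralLinearGroup (Fin 2) F) χ)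
    (u : Matrix.GeneralLinearGroup (Fin 2) F) (hu : (u : Matrix (Fin 2) (Fin 2) F) = !![1, 1; 0, 1]) :
    (χ 1 = 1 → χ u = 1) ∧ (χ 1 = (Fintype.card F : ℂ) + 1 → χ u = 1) ∧
    (χ 1 = (Fintype.card F : ℂ) - 1 → χ u = -1) ∧ (χ 1 = (Fintype.card F : ℂ) → χ u = 0) := by
  classical
  obtain rfl : u = ut 1 1 1 := Units.ext (by rw [hu, coe_ut]; simp)
  rw [← cast_q_sub_one]
  rcases gl_irr_mem (QExt F) hχ with h | h | h | h
  all_goals
    first | rw [(glSet1_val h).2.1, (glSet1_val h).2.2] | rw [(glSet2_val h).2.1, (glSet2_val h).2.2]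
          | rw [(glSet3_val h).2.1, (glSet3_val h).2.2]
          | rw [(glSet4_val h).2.1, (glSet4_val h).2.2, ← cast_q_sub_one]
    refine ⟨fun e => ?_, fun e => ?_, fun e => ?_, fun e => ?_⟩ <;>
      first | rfl | (exfalso; norm_cast at e; omega)

end Cfsg.Agent.S2310
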