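import Cfsg.Statements.S2313
import Cfsg.Agent.H35.ChevSt

set_option autoImplicit false
open Cfsg

namespace Cfsg.Agent.S2313

/-- In a Chevalley group of type G₂, B₂, D₄, F₄, E₆, E₇ or E₈ over a finite field, the restriction of the Steinberg character to the subgroup B = UH is the permutation character of B on the cosets of the diagonal subgroup H: at b ∈ B its value is the number of cosets xH, x ∈ B, with bxH = xH. -/
theorem result {F : Type*} [Field F] [Fintype F] (D : Cfsg.Lie.ChevalleyDatum) (hD : D ∈ [Cfsg.Lie.chevG2, Cfsg.Lie.chevB2, Cfsg.Lie.chevD4, Cfsg.Lie.chevF4, Cfsg.Lie.chevE6, Cfsg.Lie.chevE7, Cfsg.Lie.chevE8]) (b : ↥((D.borelSubgroup F).subgroupOf (D.group F))) :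
    D.steinbergCharacter F ((((D.borelSubgroup F).subgroupOf (D.group F)).subtype) b) =
      Cfsg.fixedPointCharacter (((D.diagonalSubgroup F).subgroupOf (D.group F)).subgroupOf ((D.borelSubgroup F).subgroupOf (D.group F))) b := by
  classical
  have C := H34.cert hD
  have : Finite (D.group F) := inferInstance
  have := Fintype.ofFinite (D.group F)
  have := Fintype.ofFinite (H35.Chev.bn C F).S
  obtain ⟨p, hp⟩ := CharP.exists F
  have : Fact p.Prime := ⟨CharP.char_is_prime F p⟩
  rw [H35.Chev.st_eq C F, H35.fixedPointCharacter_subgroupOf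
    (by rw [← H35.Chev.bn_B C F, ← H35.Chev.bn_B_inf_N C F]; exact inf_le_left),
    (H35.Chev.spl C F p).st_of_mem_B (by rw [H35.Chev.bn_B]; exact b.2), H35.Chev.bn_B_inf_N,
    H35.Chev.bn_B]
  rfl

end Cfsg.Agent.S2313
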