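import Cfsg.Statements.S2315
import Cfsg.Agent.H76.PPart
import Cfsg.Agent.H75.ModSL
import Cfsg.Agent.H26.SLBasic

set_option autoImplicit false
open Cfsg

namespace Cfsg.Agent.S2315

/-- Steinberg's count of unipotent elements for the general linear group: over a finite field with q elements of characteristic p, the number of elements of GL_n of p-power order (the unipotent matrices) is q^(n(n−1)). -/
theorem result {F : Type*} [Field F] [Fintype F] (p : ℕ) [Fact p.Prime] [CharP F p] (n : ℕ) :
    Nat.card {g : Matrix.GeneralLinearGroup (Fin n) F // ∃ k : ℕ, orderOf g = p ^ k} = Fintype.card F ^ (n * (n - 1)) := by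
  classical
  have hp : p.Prime := Fact.out
  have hdet : ∀ g : GL (Fin n) F, (∃ k : ℕ, orderOf g = p ^ k) → (g : Matrix (Fin n) (Fin n) F).det = 1 := by
    rintro g ⟨k, hk⟩
    have h1 : g ^ p ^ k = 1 := hk ▸ pow_orderOf_eq_one g
    have h2 : (g : Matrix (Fin n) (Fin n) F).det ^ p ^ k = 1 := by
      rw [← Matrix.det_pow, ← Units.val_pow_eq_pow_val, h1, Units.val_one, Matrix.det_one]
    have h3 : ((g : Matrix (Fin n) (Fin n) F).det - 1) ^ p ^ k = 0 := by
      rw [sub_pow_char_pow, h2, one_pow, sub_self]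
    exact sub_eq_zero.1 (pow_eq_zero_iff (pow_ne_zero _ hp.ne_zero) |>.1 h3)
  have hinj : Function.Injective (Matrix.SpecialLinearGroup.toGL (n := Fin n) (R := F)) :=
    Matrix.SpecialLinearGroup.toGL_injective
  have e : Nat.card {g : GL (Fin n) F // ∃ k : ℕ, orderOf g = p ^ k} =
      Nat.card {g : Matrix.SpecialLinearGroup (Fin n) F // ∃ k : ℕ, orderOf g = p ^ k} := by
    refine (Nat.card_eq_of_bijective
      (fun g : {g : Matrix.SpecialLinearGroup (Fin n) F // ∃ k : ℕ, orderOf g = p ^ k} =>
        (⟨Matrix.SpecialLinearGroup.toGL g.1, by rw [orderOf_injective _ hinj]; exact g.2⟩ :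
          {g : GL (Fin n) F // ∃ k : ℕ, orderOf g = p ^ k})) ⟨?_, ?_⟩).symm
    · intro a b h
      exact Subtype.ext (hinj (congrArg Subtype.val h))
    · rintro ⟨g, hg⟩
      let s : Matrix.SpecialLinearGroup (Fin n) F := ⟨g, hdet g hg⟩
      have e1 : Matrix.SpecialLinearGroup.toGL s = g := Units.ext rfl
      refine ⟨⟨s, ?_⟩, Subtype.ext e1⟩
      rw [← orderOf_injective _ hinj, e1]; exact hg
  rw [e]
  rcases Nat.lt_or_ge n 2 with hn | hn
  · have h0 : n * (n - 1) = 0 := by interval_cases n <;> rfl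
    have : Subsingleton (Matrix.SpecialLinearGroup (Fin n) F) := by
      interval_cases n
      · exact ⟨fun a b => Subtype.ext (Subsingleton.elim _ _)⟩
      · refine ⟨fun a b => Subtype.ext ?_⟩
        ext i j
        have ha := a.2
        have hb := b.2
        rw [Matrix.det_fin_one] at ha hb
        fin_cases i; fin_cases j
        exact ha.trans hb.symm
    rw [h0, pow_zero, Nat.card_eq_one_iff_unique]
    exact ⟨inferInstance, ⟨⟨1, 0, by simp⟩⟩⟩
  obtain ⟨M, -, -⟩ := H75.exists_modelSL (K := F) p hn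
  have := Fintype.ofFinite (Matrix.SpecialLinearGroup (Fin n) F)
  have := Fintype.ofFinite M.bn.S
  have : Nonempty (Fin n) := ⟨⟨0, by omega⟩⟩
  have h1 := H76.pow_factorization_card_GL (F := F) p n
  have h2 : ¬ p ∣ Nat.card Fˣ := by
    obtain ⟨f, -, hf⟩ := FiniteField.card F p
    rw [Nat.card_units, Nat.card_eq_fintype_card, hf, ← pow_one (p ^ _)]
    exact H76.not_dvd_ppow_sub_one hp f.ne_zero one_ne_zero
  rw [← H26.card_units_mul_card_sl, Nat.factorization_mul Nat.card_pos.ne' Nat.card_pos.ne',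
    Finsupp.add_apply, Nat.factorization_eq_zero_of_not_dvd h2, zero_add] at h1
  rw [M.spl.card_pElements, M.spl.card_U, h1, ← pow_mul, Finset.sum_range_id_mul_two]

end Cfsg.Agent.S2315
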