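import Cfsg.Statements.S2316
import Cfsg.Agent.H76.PPart
import Cfsg.Agent.H75.ModCl
import Cfsg.Agent.H27.AltCard

set_option autoImplicit false
open Cfsg

namespace Cfsg.Agent.S2316

/-- Steinberg's count of unipotent elements for the symplectic group: over a finite field with q elements of characteristic p, the number of elements of Sp_{2m} of p-power order is q^(2m²). -/
theorem result {F : Type*} [Field F] [Fintype F] (p : ℕ) [Fact p.Prime] [CharP F p] (m : ℕ) :
    Nat.card {g : ↥(Matrix.symplecticGroup (Fin m) F) // ∃ k : ℕ, orderOf g = p ^ k} = Fintype.card F ^ (2 * m ^ 2) := by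
  classical
  rcases Nat.eq_zero_or_pos m with rfl | hm
  · have : Subsingleton (Matrix.symplecticGroup (Fin 0) F) :=
      ⟨fun a b => Subtype.ext (Subsingleton.elim _ _)⟩
    simp only [ne_eq, OfNat.ofNat_ne_zero, not_false_eq_true, zero_pow, mul_zero, pow_zero]
    rw [Nat.card_eq_one_iff_unique]
    exact ⟨inferInstance, ⟨⟨1, 0, by simp⟩⟩⟩
  obtain ⟨M, -, -⟩ := H75.exists_modelSp (F := F) p hm
  have := Fintype.ofFinite (Matrix.symplecticGroup (Fin m) F)
  have := Fintype.ofFinite M.bn.S
  have hp : p.Prime := Fact.out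
  obtain ⟨f, -, hf⟩ := FiniteField.card F p
  rw [M.spl.card_pElements, M.spl.card_U, H27.card_sp, H27.spOrder, hf, ← pow_mul p f,
    H76.pow_factorization_eq hp, Fintype.card_fin, ← pow_mul, ← pow_mul]
  · congr 1; ring
  rw [Prime.dvd_finset_prod_iff hp.prime]
  rintro ⟨i, -, h⟩
  exact H76.not_dvd_ppow_sub_one hp f.ne_zero (by omega) h

end Cfsg.Agent.S2316
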