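import Cfsg.Statements.S2319
import Cfsg.Agent.H35.HeckeCount
import Cfsg.Agent.H35.ChevSt
import Cfsg.Agent.S1039

set_option autoImplicit false
open Cfsg

namespace Cfsg.Agent.S2319

/-- In a Chevalley group of type G₂, B₂, D₄, F₄, E₆, E₇ or E₈ over a finite field, the number of distinct irreducible constituents of the permutation character on the cosets of B = UH equals the number of conjugacy classes (equivalently, of irreducible characters) of the Weyl group, the Coxeter group of the type with nodes numbered as the fundamental roots. -/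
theorem result {F : Type*} [Field F] [Fintype F]
    (dw : Cfsg.Lie.ChevalleyDatum × (Σ n : ℕ, CoxeterMatrix (Fin n)))
    (hdw : dw ∈ [(Cfsg.Lie.chevG2, ⟨2, CoxeterMatrix.G₂⟩), (Cfsg.Lie.chevB2, ⟨2, CoxeterMatrix.B 2⟩), (Cfsg.Lie.chevD4, ⟨4, Cfsg.Lie.coxeterD4⟩), (Cfsg.Lie.chevF4, ⟨4, CoxeterMatrix.F₄⟩),
      (Cfsg.Lie.chevE6, ⟨6, CoxeterMatrix.E₆⟩), (Cfsg.Lie.chevE7, ⟨7, CoxeterMatrix.E₇⟩), (Cfsg.Lie.chevE8, ⟨8, CoxeterMatrix.E₈⟩)]) :
    Nat.card {χ : Cfsg.IrrCharacter ↥(dw.1.group F) //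
      ∃ φ : ↥(dw.1.group F) → ℂ, Cfsg.IsCharacter ↥(dw.1.group F) φ ∧
        Cfsg.fixedPointCharacter ((dw.1.borelSubgroup F).subgroupOf (dw.1.group F)) = (χ : ↥(dw.1.group F) → ℂ) + φ} =
      Nat.card (ConjClasses dw.2.2.Group) := by
  classical
  obtain ⟨φ, h1, h2, -⟩ := S1039.result (F := F) dw hdw
  obtain ⟨D, n, M⟩ := dw
  have C : H34.Cert D := H34.cert (by
    simp only [List.mem_cons, Prod.mk.injEq, List.not_mem_nil, or_false] at hdw ⊢
    tauto)
  have : Finite (D.group F) := inferInstance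
  let P := H35.Chev.bn C F
  let ψ : P.N →* M.Group := φ.comp
    { toFun := fun g => ⟨((g : D.group F) : GL D.Idx F), g.2⟩
      map_one' := rfl
      map_mul' := fun _ _ => rfl }
  have h3 : Function.Surjective ψ := fun w => by
    obtain ⟨g, rfl⟩ := h1 w
    exact ⟨⟨⟨g, H34.Cert.monomial_le_group (C := C) g.2⟩, g.2⟩, rfl⟩
  have h4 : (P.B ⊓ P.N).subgroupOf P.N = ψ.ker := by
    ext g
    rw [Subgroup.mem_subgroupOf, H35.Chev.bn_B_inf_N]
    exact (SetLike.ext_iff.1 h2 ⟨((g : D.group F) : GL D.Idx F), g.2⟩).symm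
  let e : H35.BN.W P ≃* M.Group := (QuotientGroup.quotientMulEquivOfEq h4).trans
    (QuotientGroup.quotientKerEquivOfSurjective ψ h3)
  have : Finite M.Group := Finite.of_surjective ψ h3
  have h5 := H35.BN.card_constituents P
  rw [← H11.card_irr_eq_card_conjClasses, ← Nat.card_congr (H11.irrEquivOfMulEquiv e),
    H11.card_irr_eq_card_conjClasses] at h5
  rw [← h5, ← H35.Chev.bn_B C F]
  rfl

end Cfsg.Agent.S2319
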