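import Cfsg.Statements.S2320
import Cfsg.Agent.H77.GL2Chars

set_option autoImplicit false
open Cfsg

namespace Cfsg.Agent.S2320

open Cfsg.Agent.H77

/-- Over a finite field F with q elements, every irreducible complex character of GL₂ of degree q takes a value of absolute value 1 at every diagonal matrix with two different diagonal entries and at every element with no eigenvector in F². -/
theorem result {F : Type*} [Field F] [Fintype F] (χ : Matrix.GeneralLinearGroup (Fin 2) F → ℂ) (hχ : Cfsg.IsIrrCharacter (Matrix.GeneralLinearGroup (Fin 2) F) χ) (hdeg : χ 1 = (Fintype.card F : ℂ)) (g : Matrix.GeneralLinearGroup (Fin 2) F) :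
    ((g : Matrix (Fin 2) (Fin 2) F) 0 1 = 0 → (g : Matrix (Fin 2) (Fin 2) F) 1 0 = 0 → (g : Matrix (Fin 2) (Fin 2) F) 0 0 ≠ (g : Matrix (Fin 2) (Fin 2) F) 1 1 → ‖χ g‖ = 1) ∧
    ((∀ (c : F) (v : Fin 2 → F), v ≠ 0 → (g : Matrix (Fin 2) (Fin 2) F).mulVec v ≠ c • v) → ‖χ g‖ = 1) := by
  classical
  have hq : 1 < Fintype.card F := Fintype.one_lt_card
  rcases gl_irr_cases (QExt F) hχ with ⟨α, rfl⟩ | ⟨α, rfl⟩ | ⟨α, β, -, rfl⟩ | ⟨Θ, -, rfl⟩
  swap
  · refine ⟨fun h1 h2 h3 => ?_, fun h => ?_⟩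
    · obtain ⟨a, d, b, rfl⟩ := exists_eq_ut h2
      rw [chSt_split _ (fun e => h3 (congrArg Units.val e)), norm_mul, norm_mulChar, norm_mulChar,
        mul_one]
    · rw [chSt_noEig _ h, norm_neg]
      exact norm_mulChar α (Matrix.GeneralLinearGroup.det g)
  all_goals
    exfalso
    first | rw [chL_one] at hdeg | rw [chR_one] at hdeg | rw [chD_one, ← cast_q_sub_one] at hdeg
    norm_cast at hdeg
    omega

end Cfsg.Agent.S2320
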