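import Cfsg.Statements.S2322
import Cfsg.Agent.H77.SL2Table

set_option autoImplicit false
open Cfsg

namespace Cfsg.Agent.S2322

open Cfsg.Agent.H77

/-- Over a finite field F with q elements, q odd: every irreducible complex character of SL₂ of degree q − 1 or (q − 1)/2 vanishes at every diagonal matrix whose diagonal entry a has a² ≠ 1, and every irreducible complex character of degree q + 1 or (q + 1)/2 vanishes at every element with no eigenvector in F². -/
theorem result {F : Type*} [Field F] [Fintype F] (hodd : Odd (Fintype.card F)) (χ : Matrix.SpecialLinearGroup (Fin 2) F → ℂ) (hχ : Cfsg.IsIrrCharacter (Matrix.SpecialLinearGroup (Fin 2) F) χ) (g : Matrix.SpecialLinearGroup (Fin 2) F) :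
    ((χ 1 = (Fintype.card F : ℂ) - 1 ∨ χ 1 = (((Fintype.card F - 1) / 2 : ℕ) : ℂ)) →
      (g : Matrix (Fin 2) (Fin 2) F) 0 1 = 0 → (g : Matrix (Fin 2) (Fin 2) F) 1 0 = 0 → (g : Matrix (Fin 2) (Fin 2) F) 0 0 ^ 2 ≠ 1 → χ g = 0) ∧
    ((χ 1 = (Fintype.card F : ℂ) + 1 ∨ χ 1 = (((Fintype.card F + 1) / 2 : ℕ) : ℂ)) →
      (∀ (c : F) (v : Fin 2 → F), v ≠ 0 → (g : Matrix (Fin 2) (Fin 2) F).mulVec v ≠ c • v) → χ g = 0) := by
  classical
  have hq : 1 < Fintype.card F := Fintype.one_lt_card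
  have ho := Nat.odd_iff.mp hodd
  rw [← cast_q_sub_one]
  constructor
  · intro e h1 h2 h3
    obtain ⟨a, ha, rfl⟩ := uts_of_diag h1 h2 h3
    have h4 := five_le_of_units ha
    rcases sl_irr_deg_cases (QExt F) hχ with ⟨d, -⟩ | ⟨d, -⟩ | ⟨d, -⟩ | ⟨-, θ, -, rfl⟩ | ⟨d, -⟩ |
      ⟨-, -, α, χ', -, -, h⟩
    pick_goal 4
    · exact sD_split _ (isSplit_uts ha 0)
    pick_goal 5
    · have := h.two_mul_of_isReg (isReg_of_isSplit (isSplit_uts ha 0))
      rw [sD_split _ (isSplit_uts ha 0)] at this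
      linear_combination this / 2
    all_goals
      exfalso
      rw [d] at e
      norm_cast at e
      omega
  · intro e hg
    rcases sl_irr_deg_cases (QExt F) hχ with ⟨d, -⟩ | ⟨d, -⟩ | ⟨-, α, -, rfl⟩ | ⟨d, θ, hθ, rfl⟩ |
      ⟨-, -, α, χ', -, -, h⟩ | ⟨d, -⟩
    pick_goal 3
    · exact sR_noEig _ hg
    pick_goal 3
    · refine sD_noEig_three ?_ hθ hg
      rw [d] at e
      norm_cast at e
      omega
    pick_goal 3
    · have := h.two_mul_of_isReg (isReg_of_noEig hg)
      rw [sR_noEig _ hg] at this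
      linear_combination this / 2
    all_goals
      exfalso
      rw [d] at e
      norm_cast at e
      omega

end Cfsg.Agent.S2322
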