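import Cfsg.Statements.S2324
import Cfsg.Agent.H77.SL2Table

set_option autoImplicit false
open Cfsg

namespace Cfsg.Agent.S2324

open Cfsg.Agent.H77

/-- Over a finite field F with q elements, q odd and q ≥ 5, let u be the upper unitriangular matrix of SL₂ with off-diagonal entry 1 and let δ = (−1)^((q−1)/2). Every irreducible complex character χ of SL₂ of degree (q + 1)/2 satisfies (2χ(u) − 1)² = δq, and every irreducible complex character χ of degree (q − 1)/2 satisfies (2χ(u) + 1)² = δq; that is, χ(u) = (1 ± √(δq))/2 in the first case and χ(u) = (−1 ± √(δq))/2 in the second. Moreover two different irreducible characters of degree (q + 1)/2 take the two different values (their values at u add up to 1), and likewise for degree (q − 1)/2 (values adding up to −1). -/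
theorem result {F : Type*} [Field F] [Fintype F] (hodd : Odd (Fintype.card F)) (hq : 5 ≤ Fintype.card F)
    (u : Matrix.SpecialLinearGroup (Fin 2) F) (hu : (u : Matrix (Fin 2) (Fin 2) F) = !![1, 1; 0, 1]) :
    (∀ χ : Matrix.SpecialLinearGroup (Fin 2) F → ℂ, Cfsg.IsIrrCharacter (Matrix.SpecialLinearGroup (Fin 2) F) χ → χ 1 = (((Fintype.card F + 1) / 2 : ℕ) : ℂ) → (2 * χ u - 1) ^ 2 = (-1 : ℂ) ^ ((Fintype.card F - 1) / 2) * (Fintype.card F : ℂ)) ∧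
    (∀ χ : Matrix.SpecialLinearGroup (Fin 2) F → ℂ, Cfsg.IsIrrCharacter (Matrix.SpecialLinearGroup (Fin 2) F) χ → χ 1 = (((Fintype.card F - 1) / 2 : ℕ) : ℂ) → (2 * χ u + 1) ^ 2 = (-1 : ℂ) ^ ((Fintype.card F - 1) / 2) * (Fintype.card F : ℂ)) ∧
    (∀ χ₁ χ₂ : Matrix.SpecialLinearGroup (Fin 2) F → ℂ, Cfsg.IsIrrCharacter (Matrix.SpecialLinearGroup (Fin 2) F) χ₁ → Cfsg.IsIrrCharacter (Matrix.SpecialLinearGroup (Fin 2) F) χ₂ → χ₁ ≠ χ₂ →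
      χ₁ 1 = (((Fintype.card F + 1) / 2 : ℕ) : ℂ) → χ₂ 1 = (((Fintype.card F + 1) / 2 : ℕ) : ℂ) → χ₁ u + χ₂ u = 1) ∧
    (∀ χ₁ χ₂ : Matrix.SpecialLinearGroup (Fin 2) F → ℂ, Cfsg.IsIrrCharacter (Matrix.SpecialLinearGroup (Fin 2) F) χ₁ → Cfsg.IsIrrCharacter (Matrix.SpecialLinearGroup (Fin 2) F) χ₂ → χ₁ ≠ χ₂ →
      χ₁ 1 = (((Fintype.card F - 1) / 2 : ℕ) : ℂ) → χ₂ 1 = (((Fintype.card F - 1) / 2 : ℕ) : ℂ) → χ₁ u + χ₂ u = -1) := by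
  classical
  obtain rfl := eq_uts_one_one hu
  have ho := Nat.odd_iff.mp hodd
  have h2 := two_ne_zero_of_odd hodd
  obtain ⟨⟨α, -, -, a3⟩, θ, -, -, t3⟩ := exists_quad (QExt F) h2
  have k1 : ∀ χ : SL2 F → ℂ, IsIrrCharacter (SL2 F) χ →
      χ 1 = (((Fintype.card F + 1) / 2 : ℕ) : ℂ) → ∃ χ', Halves (sR α) χ χ' := by
    intro χ hχ e
    rcases sl_irr_deg_cases (QExt F) hχ with ⟨d, -⟩ | ⟨d, -⟩ | ⟨d, -⟩ | ⟨d, -⟩ |
      ⟨-, -, β, χ', b1, b2, h⟩ | ⟨d, -⟩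
    pick_goal 5
    · exact ⟨χ', a3 β b1 b2 ▸ h⟩
    all_goals
      exfalso
      rw [d] at e
      norm_cast at e
      omega
  have k2 : ∀ χ : SL2 F → ℂ, IsIrrCharacter (SL2 F) χ →
      χ 1 = (((Fintype.card F - 1) / 2 : ℕ) : ℂ) → ∃ χ', Halves (sD θ) χ χ' := by
    intro χ hχ e
    rcases sl_irr_deg_cases (QExt F) hχ with ⟨d, -⟩ | ⟨d, -⟩ | ⟨d, -⟩ | ⟨d, -⟩ | ⟨d, -⟩ |
      ⟨-, -, β, χ', b1, b2, h⟩
    pick_goal 6
    · exact ⟨χ', t3 β b1 b2 ▸ h⟩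
    all_goals
      exfalso
      rw [d] at e
      norm_cast at e
      omega
  rw [← quadraticChar_neg_one_eq hodd]
  refine ⟨fun χ hχ e => ?_, fun χ hχ e => ?_, fun χ₁ χ₂ h₁ h₂ hne e₁ e₂ => ?_,
    fun χ₁ χ₂ h₁ h₂ hne e₁ e₂ => ?_⟩
  · obtain ⟨χ', h⟩ := k1 χ hχ e
    rw [← h.two_mul_sub_sq h2, sR_unip _ one_ne_zero]
  · obtain ⟨χ', h⟩ := k2 χ hχ e
    rw [← h.two_mul_sub_sq h2, sD_unip _ one_ne_zero, sub_neg_eq_add]
  · obtain ⟨χ', h⟩ := k1 χ₁ h₁ e₁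
    obtain ⟨χ'', h'⟩ := k1 χ₂ h₂ e₂
    rw [(h.eq_or_eq h').resolve_left hne.symm, ← h.apply_add, sR_unip _ one_ne_zero]
  · obtain ⟨χ', h⟩ := k2 χ₁ h₁ e₁
    obtain ⟨χ'', h'⟩ := k2 χ₂ h₂ e₂
    rw [(h.eq_or_eq h').resolve_left hne.symm, ← h.apply_add, sD_unip _ one_ne_zero]

end Cfsg.Agent.S2324
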