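import Cfsg.Statements.S2331
import Cfsg.Agent.H77.Weyl

set_option autoImplicit false
open Cfsg

namespace Cfsg.Agent.S2331

open Cfsg.Agent.H77

/-- Over a finite field with q elements, q even, the special linear group SL₂ has exactly q + 1 conjugacy classes. -/
theorem result {F : Type*} [Field F] [Fintype F] [CharP F 2] :
    Nat.card (ConjClasses (Matrix.SpecialLinearGroup (Fin 2) F)) = Fintype.card F + 1 := by
  exact card_conjClasses_SL2_even CharTwo.two_eq_zero

end Cfsg.Agent.S2331
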