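import Cfsg.Statements.S2362
import Cfsg.Agent.H76.OSpec
import Cfsg.Agent.H82.Zsigmondy

set_option autoImplicit false
open Cfsg

namespace Cfsg.Agent.S2362

/-- Let F be a finite field of odd order and n ≥ 3. The simple orthogonal group PΩ(2n+1, F) (type B_n) and the projective symplectic group PSp(2n, F) (type C_n), which have the same order, do not have the same set of element orders. -/
theorem result {F : Type*} [Field F] [Fintype F] (hodd : Odd (Fintype.card F)) (n : ℕ) (hn : 3 ≤ n) :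
    Set.range (orderOf : Cfsg.POmega F (Cfsg.quadFormOdd n F) → ℕ) ≠ Set.range (orderOf : Cfsg.PSp n F → ℕ) := by
  obtain ⟨p, hp⟩ := CharP.exists F
  have hpp := Fact.mk (CharP.char_is_prime F p)
  let L := AlgebraicClosure F
  have : CharP L p := charP_of_injective_algebraMap (algebraMap F _).injective p
  have h2 := H30.two_ne_zero_iff_odd_card.2 hodd
  have hQ := H30.qOdd_nondegenerate h2 n
  have hι : Fintype.card (Unit ⊕ (Fin n ⊕ Fin n)) = 2 * n + 1 := by simp; ring
  have hpq := H76.char_dvd_card F p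
  have hq1 := Fintype.one_lt_card (α := F)
  obtain ⟨n, rfl⟩ : ∃ k, n = k + 1 := ⟨n - 1, by omega⟩
  intro h
  rw [← H30.coe_qOdd, H76.range_orderOf_pomega_odd h2 hQ (hι ▸ odd_two_mul_add_one _)
    (by omega)] at h
  obtain ⟨g, hg⟩ : (Fintype.card F ^ n + 1) * p ∈
      Set.range (orderOf : Omega F ⇑(H30.qOdd F (n + 1)) → ℕ) := by
    rw [h]
    obtain ⟨α, a, h3, h4, h5, -⟩ := H76.exists_fadm_torus (L := L) (good := Even) hpq
      (D := n) (by omega) (Or.inr rfl) (c := Fintype.card F ^ n + 1) (by simp)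
    refine (H76.models_psp F L p (n + 1)).exists_eq
      (h4.add (H76.fadm_single (one_zpow _) (one_pow 2) two_pos even_two)) fun k hk => ?_
    have h6 := hk.ok (e := 2) (by simp)
    refine Nat.Coprime.mul_dvd_of_dvd_of_dvd ?_
      (h3 ▸ orderOf_dvd_of_pow_eq_one (h6 (α, 1) (by simp [h5])).1)
      ((dvd_pow_self p (Nat.one_le_iff_ne_zero.1 (H76.one_le_clog hpp.out.one_lt le_rfl))).trans
        (h6 (1, 2) (by simp)).2)
    exact ((Nat.Prime.coprime_iff_not_dvd hpp.out).2 (H76.not_dvd_of_dvd_pow_sub hpq (D := n)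
      (by omega) (Or.inr rfl) (by simp))).symm
  have hs := H76.necO_ojord (L := L) h2 hQ g
  have hok := fun k => (H76.orderOf_omega_dvd_iff (L := L) p g k).2
  rw [hg] at hok
  rw [hι] at hs
  generalize H76.ojord L g = s at hs hok
  obtain ⟨r, hr, hr1⟩ := H82.zsigmondy (Fintype.card F) (2 * n) hq1 (by omega)
    (fun h => by rw [h.1] at hodd; exact absurd hodd (by decide)) (by omega)
  have hk : 2 * n = orderOf ((Fintype.card F : ℤ) : ZMod r) := by
    rw [Int.cast_natCast]; exact hr1.eq_orderOf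
  have hr3 := H76.dvd_pow_add_one_of_even hr (by omega) hk
  have hr2 : r ≠ 2 := by
    rintro rfl
    rw [Int.cast_natCast, (ZMod.natCast_eq_one_iff_odd).2 hodd, orderOf_one] at hk
    omega
  have hrp : r ≠ p := by
    rintro rfl
    exact H76.not_dvd_of_dvd_pow_sub hpq (D := n) (by omega) (Or.inr rfl) hr3 dvd_rfl
  obtain ⟨x, hx, h3⟩ := hs.fadm.adm.exists_dvd_orderOf hpp.out hr hrp fun k hk =>
    (Dvd.dvd.mul_right (by exact_mod_cast (sub_neg_eq_add _ (1 : ℤ) ▸ hr3)) p).trans (hok k hk)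
  obtain ⟨y, hy, h4⟩ := hs.fadm.adm.exists_two_le hpp.out hpq fun k hk =>
    (dvd_mul_left _ _).trans (hok k hk)
  obtain ⟨a, t, D, e, H, m, ε, rfl, k1, k2, k3, k4, k5, k6, k7, k8, k9, k10⟩ :=
    hs.exists_atom h2 hx (H76.sq_ne_one_of_dvd hr hr2 h3)
  have k11 : (r : ℤ) ∣ (Fintype.card F : ℤ) ^ D - ε := by
    rw [← k8]
    exact_mod_cast h3.trans (orderOf_dvd_of_pow_eq_one (k9 x k1).2.2)
  obtain ⟨c, rfl⟩ := H76.IsEta.dvd_of (Or.inr ⟨even_two_mul n, rfl⟩) hk k7 k11
  obtain ⟨rfl, rfl⟩ : c = 1 ∧ e = 1 := by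
    have k12 : c * e = 1 := by
      rw [mul_assoc] at k4
      have : 0 < c * e := Nat.mul_pos (Nat.pos_of_mul_pos_left k5) k6
      by_contra k13
      have : n * 2 ≤ n * (c * e) := Nat.mul_le_mul_left _ (by omega)
      omega
    exact ⟨Nat.eq_one_of_mul_eq_one_right k12, Nat.eq_one_of_mul_eq_one_left k12⟩
  obtain rfl : m = 3 := by omega
  rw [mul_one] at k8 k11
  obtain rfl : ε = -1 := k7.resolve_left (by
    rintro rfl
    rw [H76.int_dvd_pow_sub_one_iff, ← hk] at k11
    have := Nat.le_of_dvd (by omega) k11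
    omega)
  have hyt : y ∈ t := (Multiset.mem_add.1 hy).resolve_left fun h => by
    have := (k9 y h).1; omega
  obtain ⟨k12, k13⟩ := (k2.two_mul_le_or hyt).resolve_left (by omega)
  have k14 : y.2 = 3 := by have := k2.adm.le hyt; obtain ⟨j, hj⟩ := k12; omega
  obtain rfl := H76.eq_singleton_of_wt k2.adm.pos hyt (by rw [k2.adm.wt_eq, k14])
  have k15 : y.1 = 1 := H76.eq_one_of_odd_pow k13 k12 (by simpa using k3)
  have k16 := k10 (by simpa using k15) odd_one
  have hp3 : 3 ≤ p := by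
    have := hpp.out.two_le
    have : p ≠ 2 := fun h => h2 ((H76.two_eq_zero_iff F p).2 h)
    omega
  have k17 := hok (H * p) fun z hz => by
    rcases Multiset.mem_add.1 hz with hz | hz
    · exact ⟨by rw [pow_mul, k16 z hz, one_pow], by simp [(k9 z hz).1]⟩
    · rw [Multiset.mem_singleton.1 hz, k15, k14, H76.clog_eq_one (by omega) hp3, pow_one]
      exact ⟨one_pow _, dvd_mul_left _ _⟩
  have k18 : Fintype.card F ^ n + 1 = 2 * H := by
    zify
    linarith
  have := Nat.le_of_dvd (by omega) (Nat.dvd_of_mul_dvd_mul_right hpp.out.pos k17)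
  omega

end Cfsg.Agent.S2362
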