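import Cfsg.Statements.S2367
import Mathlib

set_option autoImplicit false
open Cfsg

namespace Cfsg.Agent.S2367

theorem prime_mem (p : ℕ) (hp : p.Prime) (h2 : p ≠ 2) (h : p ≤ 71) :
    p ∈ [3, 5, 7, 11, 13, 17, 19, 23, 29, 31, 37, 41, 43, 47, 53, 59, 61, 67, 71] := by
  interval_cases p <;> first | decide | exact absurd rfl h2 | exact absurd hp (by norm_num)

theorem spor (N a : ℕ) (hN : N ∣ Nat.factorial 71) (ha : 2 ^ a ∣ N)
    (hchk : ∀ p ∈ [3, 5, 7, 11, 13, 17, 19, 23, 29, 31, 37, 41, 43, 47, 53, 59, 61, 67, 71],
      p ^ 3 ∣ N → p ^ 4 ∣ N ∨ p ^ 3 < 2 ^ a)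
    (p : ℕ) (hp : p.Prime) (hodd : p ≠ 2) (h3 : N.factorization p = 3) :
    p ^ 3 < 2 ^ N.factorization 2 := by
  have hN0 : N ≠ 0 := by
    rintro rfl
    exact absurd (Nat.eq_zero_of_zero_dvd hN) (Nat.factorial_ne_zero _)
  have h1 : p ^ 3 ∣ N := (hp.pow_dvd_iff_le_factorization hN0).2 h3.ge
  have h2 : ¬ p ^ 4 ∣ N := by
    rw [hp.pow_dvd_iff_le_factorization hN0]; omega
  have hp71 : p ≤ 71 :=
    hp.dvd_factorial.1 (((dvd_pow_self p (by norm_num)).trans h1).trans hN)
  have h4 := (hchk p (prime_mem p hp hodd hp71) h1).resolve_left h2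
  have h5 : a ≤ N.factorization 2 := (Nat.prime_two.pow_dvd_iff_le_factorization hN0).1 ha
  exact h4.trans_le (Nat.pow_le_pow_right (by norm_num) h5)

theorem cube_lt (p : ℕ) (hp : 3 ≤ p) : p ^ 3 < 2 ^ (2 * p - 1) := by
  induction p, hp using Nat.le_induction with
  | base => norm_num
  | succ n hn ih =>
    have : 2 * (n + 1) - 1 = (2 * n - 1) + 2 := by omega
    rw [this, pow_add]
    have h4 : (n + 1) ^ 3 ≤ 4 * n ^ 3 := by nlinarith [Nat.mul_le_mul hn (le_refl (n * n)), Nat.mul_le_mul hn hn]
    omega

theorem alt (n : ℕ) (hn : 5 ≤ n) (N : ℕ) (hN : 2 * N = n.factorial)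
    (p : ℕ) (hp : p.Prime) (hodd : p ≠ 2) (h3 : N.factorization p = 3) :
    p ^ 3 < 2 ^ N.factorization 2 := by
  have hN0 : N ≠ 0 := by
    rintro rfl
    exact absurd hN.symm (Nat.factorial_ne_zero _)
  have hp3 : 3 ≤ p := by have := hp.two_le; omega
  have e1 : (n.factorial).factorization p = 3 := by
    rw [← hN, Nat.factorization_mul two_ne_zero hN0, Finsupp.add_apply, h3,
      Nat.Prime.factorization Nat.prime_two, Finsupp.single_apply, if_neg (Ne.symm hodd)]
  have e2 : (n.factorial).factorization 2 = N.factorization 2 + 1 := by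
    rw [← hN, Nat.factorization_mul two_ne_zero hN0, Finsupp.add_apply,
      Nat.Prime.factorization Nat.prime_two, Finsupp.single_apply, if_pos rfl, add_comm]
  have hn3 : 3 * p ≤ n := by
    by_contra hlt
    push Not at hlt
    have hlog : Nat.log p n < 2 := by
      apply Nat.log_lt_of_lt_pow (by omega)
      nlinarith
    rw [Nat.factorization_factorial hp hlog] at e1
    simp only [Nat.Ico_succ_singleton, Finset.sum_singleton, pow_one] at e1
    have := Nat.div_mul_le_self n p
    rw [e1] at this
    omega
  have e3 : n / 2 + n / 4 ≤ (n.factorial).factorization 2 := by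
    rw [Nat.factorization_factorial Nat.prime_two (b := Nat.log 2 n + 3) (by omega)]
    calc n / 2 + n / 4 = ∑ i ∈ Finset.Ico 1 3, n / 2 ^ i := by
          simp [Finset.sum_Ico_eq_sum_range, Finset.sum_range_succ]
      _ ≤ _ := Finset.sum_le_sum_of_subset (Finset.Ico_subset_Ico_right (by omega))
  refine (cube_lt p hp3).trans_le (Nat.pow_le_pow_right (by norm_num) ?_)
  omega


/-- Let G be an alternating group of degree at least 5 or a simple group with the order of one of the 26 sporadic groups, and let p be an odd prime such that p³ is the exact power of p dividing the order of G. Then p³ is less than the 2-part of the order of G. -/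
theorem result {G : Type*} [Group G] [Finite G] (hG : Cfsg.IsAlternating G ∨ Cfsg.IsSporadic G)
    (p : ℕ) (hp : p.Prime) (hodd : p ≠ 2) (h3 : (Nat.card G).factorization p = 3) :
    p ^ 3 < 2 ^ (Nat.card G).factorization 2 := by
  rcases hG with ⟨n, hn, ⟨e⟩⟩ | hG
  · haveI : Nontrivial (Fin n) := Fin.nontrivial_iff_two_le.2 (by omega)
    refine alt n hn _ ?_ p hp hodd h3
    rw [Nat.card_congr e.toEquiv, two_mul_nat_card_alternatingGroup, Nat.card_perm]
    simp
  · rcases hG with h | h | h | h | h | h | h | h | h | h | h | h | h | h | h | h | h | h | h | h | h | h | h | h | h | h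
    · rw [h.2] at h3 ⊢
      exact spor _ 4 (by decide +kernel) (by decide +kernel) (by decide +kernel) p hp hodd h3
    · rw [h.2] at h3 ⊢
      exact spor _ 6 (by decide +kernel) (by decide +kernel) (by decide +kernel) p hp hodd h3
    · rw [h.2] at h3 ⊢
      exact spor _ 7 (by decide +kernel) (by decide +kernel) (by decide +kernel) p hp hodd h3
    · rw [h.2] at h3 ⊢
      exact spor _ 7 (by decide +kernel) (by decide +kernel) (by decide +kernel) p hp hodd h3
    · rw [h.2] at h3 ⊢
      exact spor _ 10 (by decide +kernel) (by decide +kernel) (by decide +kernel) p hp hodd h3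
    · rw [h.2] at h3 ⊢
      exact spor _ 3 (by decide +kernel) (by decide +kernel) (by decide +kernel) p hp hodd h3
    · rw [h.2] at h3 ⊢
      exact spor _ 7 (by decide +kernel) (by decide +kernel) (by decide +kernel) p hp hodd h3
    · rw [h.2] at h3 ⊢
      exact spor _ 7 (by decide +kernel) (by decide +kernel) (by decide +kernel) p hp hodd h3
    · rw [h.2] at h3 ⊢
      exact spor _ 21 (by decide +kernel) (by decide +kernel) (by decide +kernel) p hp hodd h3
    · rw [h.2] at h3 ⊢
      exact spor _ 21 (by decide +kernel) (by decide +kernel) (by decide +kernel) p hp hodd h3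
    · rw [h.2] at h3 ⊢
      exact spor _ 18 (by decide +kernel) (by decide +kernel) (by decide +kernel) p hp hodd h3
    · rw [h.2] at h3 ⊢
      exact spor _ 10 (by decide +kernel) (by decide +kernel) (by decide +kernel) p hp hodd h3
    · rw [h.2] at h3 ⊢
      exact spor _ 17 (by decide +kernel) (by decide +kernel) (by decide +kernel) p hp hodd h3
    · rw [h.2] at h3 ⊢
      exact spor _ 18 (by decide +kernel) (by decide +kernel) (by decide +kernel) p hp hodd h3
    · rw [h.2] at h3 ⊢
      exact spor _ 21 (by decide +kernel) (by decide +kernel) (by decide +kernel) p hp hodd h3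
    · rw [h.2] at h3 ⊢
      exact spor _ 9 (by decide +kernel) (by decide +kernel) (by decide +kernel) p hp hodd h3
    · rw [h.2] at h3 ⊢
      exact spor _ 7 (by decide +kernel) (by decide +kernel) (by decide +kernel) p hp hodd h3
    · rw [h.2] at h3 ⊢
      exact spor _ 10 (by decide +kernel) (by decide +kernel) (by decide +kernel) p hp hodd h3
    · rw [h.2] at h3 ⊢
      exact spor _ 14 (by decide +kernel) (by decide +kernel) (by decide +kernel) p hp hodd h3
    · rw [h.2] at h3 ⊢
      exact spor _ 13 (by decide +kernel) (by decide +kernel) (by decide +kernel) p hp hodd h3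
    · rw [h.2] at h3 ⊢
      exact spor _ 9 (by decide +kernel) (by decide +kernel) (by decide +kernel) p hp hodd h3
    · rw [h.2] at h3 ⊢
      exact spor _ 14 (by decide +kernel) (by decide +kernel) (by decide +kernel) p hp hodd h3
    · rw [h.2] at h3 ⊢
      exact spor _ 8 (by decide +kernel) (by decide +kernel) (by decide +kernel) p hp hodd h3
    · rw [h.2] at h3 ⊢
      exact spor _ 15 (by decide +kernel) (by decide +kernel) (by decide +kernel) p hp hodd h3
    · rw [h.2] at h3 ⊢
      exact spor _ 41 (by decide +kernel) (by decide +kernel) (by decide +kernel) p hp hodd h3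
    · rw [h.2] at h3 ⊢
      exact spor _ 46 (by decide +kernel) (by decide +kernel) (by decide +kernel) p hp hodd h3

end Cfsg.Agent.S2367
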