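import Cfsg.Statements.S2368
import Cfsg.Agent.H76.Classes

set_option autoImplicit false
open Cfsg

namespace Cfsg.Agent.S2368

/-- Let F be a finite field of characteristic p and m ≥ 1. Every element of GL(m, F) of p-power order has order less than p·m, and GL(m, F) has an element of p-power order at least m; so the largest order of a p-element of GL(m, F) is the least power of p that is at least m. -/
theorem result {F : Type*} [Field F] [Fintype F] (p : ℕ) [Fact p.Prime] [CharP F p] (m : ℕ) (hm : 1 ≤ m) :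
    (∀ g : Matrix.GeneralLinearGroup (Fin m) F, (∃ j : ℕ, orderOf g = p ^ j) → orderOf g < p * m) ∧
      ∃ g : Matrix.GeneralLinearGroup (Fin m) F, (∃ j : ℕ, orderOf g = p ^ j) ∧ m ≤ orderOf g := by
  have hp : p.Prime := Fact.out
  constructor
  · intro g hg
    have hu := (H76.orderOf_eq_pow_iff_isNilpotent p g).1 hg
    have h1 : g ^ p ^ Nat.clog p m = 1 :=
      H76.pow_char_pow_eq_one_of_isNilpotent p g hu
        (by simpa using Nat.le_pow_clog hp.one_lt m)
    refine (Nat.le_of_dvd (pow_pos hp.pos _) (orderOf_dvd_of_pow_eq_one h1)).trans_lt ?_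
    rcases hm.eq_or_lt with rfl | hm
    · simpa using hp.one_lt
    · have h2 := Nat.pow_pred_clog_lt_self hp.one_lt hm
      have h3 := Nat.clog_pos hp.one_lt hm
      obtain ⟨c, hc⟩ : ∃ c, Nat.clog p m = c + 1 := ⟨Nat.clog p m - 1, by omega⟩
      rw [hc] at h2 ⊢
      rw [pow_succ']
      exact Nat.mul_lt_mul_of_pos_left h2 hp.pos
  · have hv : H76.Valid ({(Polynomial.X - 1, m)} : Multiset (Polynomial F × ℕ)) := by
      intro x hx
      rw [Multiset.mem_singleton.1 hx]
      exact ⟨H76.monic_X_sub_one, H76.irreducible_X_sub_one, hm⟩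
    obtain ⟨A, hA⟩ := H76.exists_med_eq (n := Fin m) hv (by simp [H76.natDegree_X_sub_one])
    have hu : IsUnit A := by
      rw [H76.isUnit_iff_med, hA]
      simp
    have hn : IsNilpotent (A - 1) := by
      rw [H76.isNilpotent_sub_one_iff, hA]
      simp
    obtain ⟨j, hj⟩ := (H76.orderOf_eq_pow_iff_isNilpotent p hu.unit).2 hn
    refine ⟨hu.unit, ⟨j, hj⟩, ?_⟩
    have h3 : (A - 1) ^ p ^ j = 0 := by
      have := (H76.pow_char_pow_eq_one_iff p hu.unit j).1 (by rw [← hj, pow_orderOf_eq_one])
      exact this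
    rw [H76.sub_one_pow_eq_zero_iff, hA] at h3
    rw [hj]
    exact (h3 _ (Multiset.mem_singleton_self _)).2

end Cfsg.Agent.S2368
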