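import Cfsg.Statements.S2369
import Cfsg.Agent.H34.TwF4
import Cfsg.Agent.H34.Loc1
import Cfsg.Agent.H75.ChevLin

set_option autoImplicit false
open Cfsg

namespace Cfsg.Agent.S2369

open Cfsg.Agent.H34 Cfsg.Lie Cfsg.Agent.H75

theorem stable_cases : ∀ f : Fin 4 → Bool, (∀ i j : Fin 4, (j : ℕ) = symF4.getD i 0 → f j = f i) →
    (∀ i, f i = true) ∨ ∃ k : Fin 4, ∀ i, f i = true → (i : ℕ) = k ∨ (i : ℕ) = symF4.getD k 0 := by
  decide +kernel

theorem compat_aux : ∀ k j k' j' : Fin chevF4.rank, (k' : ℕ) = symF4.getD k 0 →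
    (j' : ℕ) = symF4.getD j 0 → chevF4.cartan k' (chevF4.simple j') * chevF4.cartan j' (chevF4.simple k') =
      chevF4.cartan k (chevF4.simple j) * chevF4.cartan j (chevF4.simple k) := by
  decide +kernel


/-- Let q = 2^(2m+1) with m ≥ 1 and let a, b be commuting elements of the large Ree group ²F₄(q) with a an involution. Then every prime divisor of the order of b divides q(q⁴ − 1). -/
theorem result {K : Type*} [Field K] [Fintype K] (m : ℕ) (hm : 1 ≤ m) (hK : Fintype.card K = 2 ^ (2 * m + 1))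
    (a b : ↥(Cfsg.Lie.twistedF4 K (2 ^ m))) (ha : orderOf a = 2) (hab : Commute a b) :
    (orderOf b).primeFactors ⊆ (2 ^ (2 * m + 1) * ((2 ^ (2 * m + 1)) ^ 4 - 1)).primeFactors := by
  classical
  obtain ⟨_, θ, hθ, h2⟩ := exists_theta hK
  let X := twF4 θ h2 hθ
  have h1 := X.j_range.ge
  have h3 := X.j_range.le.trans X.τ.G1_le_fix
  let M : Model 2 (twistedF4 K (2 ^ m)) := chevModel (by simp) cF4 K 2 (chevLinN cF4 K 2 dualOK_F4)
    (rsCoord_conn cF4.R (fun a => √a) (fun _ ha => Real.sqrt_pos.2 (Int.cast_pos.2 ha))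
      (chev_conn (by simp) _)) X.τ (rsCoordN_compat cF4.R _ fun k j => by
      simp only [cF4.A_eq]
      exact compat_aux _ _ _ _ (F4_π θ h2 k) (F4_π θ h2 j)) X.j X.j_inj h1 h3
  obtain ⟨g, J, hJ, hJ', -, hg⟩ := M.borelTits (D := Subgroup.zpowers a)
    (IsPGroup.of_card (n := 1) (by rw [Nat.card_zpowers, ha, pow_one]))
    (by rw [Ne, Subgroup.zpowers_eq_bot]; rintro rfl; simp at ha)
  have hb := hg b (Subgroup.centralizer_le_normalizer _ (by
    rintro _ ⟨n, rfl⟩; exact (hab.zpow_left n).eq))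
  obtain ⟨i, hi⟩ : ∃ i, J ⊆ X.τ.T.orb i := by
    rcases stable_cases (fun i => decide (i ∈ J)) (fun i j h => by
      rw [show j = X.τ.T.π i from Fin.ext (h.trans (F4_π θ h2 i).symm)]
      exact decide_eq_decide.2 (hJ i)) with h | ⟨k, h⟩
    · exact absurd (Set.eq_univ_of_forall fun i => of_decide_eq_true (h i)) hJ'
    · exact ⟨k, fun i hi => ((sF4 θ h2).mem_orb_iff twDataF4 k i).2
        ((h i (decide_eq_true hi)).imp_right Or.inl)⟩
  have h4 : M.par J ≤ (H40.Par (cF4.split K) (X.τ.T.orb i)).comap X.j :=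
    sup_le (fun x hx => H40.B_le_Par _ hx) ((Subgroup.closure_le _).2 fun n hn =>
      H40.Par_mono hi (H40.mem_Par_of_ν hn.1 hn.2))
  have h5 : orderOf b ∣ Nat.card ↥(H40.Par (cF4.split K) (X.τ.T.orb i) ⊓ X.j.range) := by
    have := Subgroup.orderOf_dvd_natCard (H40.Par (cF4.split K) (X.τ.T.orb i) ⊓ X.j.range)
      (x := X.j (g⁻¹ * b * g)) ⟨h4 hb, _, rfl⟩
    rwa [orderOf_injective _ X.j_inj, show g⁻¹ * b * g = g⁻¹ * b * g⁻¹⁻¹ by simp,
      ← MulAut.conj_apply, MulEquiv.orderOf_eq] at this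
  have h6 : Nat.card (X.τ.UJ i) = Nat.card K ∨ Nat.card (X.τ.UJ i) = Nat.card K ^ 2 := by
    have := F4_card_UJ θ h2 i
    rcases orbF4 i with h | h
    · rw [show cF4.S.len (cF4.S.wJ ((tF4 θ h2).T.orb i)) = 2 from (sF4 θ h2).len_wJ twDataF4 h,
        Real.sq_sqrt (Nat.cast_nonneg _)] at this
      exact Or.inl (by exact_mod_cast this)
    · rw [show cF4.S.len (cF4.S.wJ ((tF4 θ h2).T.orb i)) = 2 * 2 from (sF4 θ h2).len_wJ twDataF4 h,
        pow_mul, Real.sq_sqrt (Nat.cast_nonneg _)] at this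
      exact Or.inr (by exact_mod_cast this)
  rw [X.τ.card_Par_orb h1 h3, ← X.τ.Up_inf le_rfl X.τ.G1_le_fix, X.j_range,
    ← X.card_inf _ fun _ => Cert.mem_Up, ← X.card_inf _ fun _ => Cert.mem_H (C := cF4),
    F4_card_U θ h2 hθ, F4_card_H θ h2 hθ] at h5
  rw [Nat.card_eq_fintype_card (α := K)] at h5 h6
  rw [← hK]
  have h7 : 2 ≤ Fintype.card K := Fintype.one_lt_card
  generalize Fintype.card K = q at h5 h6 h7
  obtain ⟨s, rfl⟩ : ∃ s, q = s + 1 := ⟨q - 1, by omega⟩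
  rw [show (s + 1) ^ 4 - 1 = s * ((1 + (s + 1)) * (1 + (s + 1) ^ 2)) from
    Nat.sub_eq_of_eq_add (by ring)]
  have h8 : 0 < s := by omega
  intro r hr
  have hp := Nat.prime_of_mem_primeFactors hr
  refine Nat.mem_primeFactors.2 ⟨hp, ?_, by positivity⟩
  have h9 := (Nat.dvd_of_mem_primeFactors hr).trans h5
  rw [hp.dvd_mul, hp.dvd_mul, Nat.add_sub_cancel] at h9
  rcases h9 with (h | h) | h
  · exact (hp.dvd_of_dvd_pow h).mul_right _
  · exact ((hp.dvd_of_dvd_pow h).mul_right _).mul_left _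
  · rcases h6 with h6 | h6 <;> rw [h6] at h
    · exact ((h.mul_right _).mul_left _).mul_left _
    · exact ((h.mul_left _).mul_left _).mul_left _

end Cfsg.Agent.S2369
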