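import Cfsg.Statements.S2370
import Cfsg.Agent.H34.TwF4
import Cfsg.Agent.H75.ChevLin

set_option autoImplicit false
open Cfsg

namespace Cfsg.Agent.S2370

open Cfsg.Agent.H34 Cfsg.Lie Cfsg.Agent.H37 Cfsg.Agent.H75

theorem pow_apply_eq_zero {n F : Type*} [Fintype n] [DecidableEq n] [Field F] {lv : n → ℤ}
    {M : Matrix n n F} (hM : ∀ i j, lv i < lv j + 2 → M i j = 0) (k : ℕ) :
    ∀ i j, lv i < lv j + 2 * k → (M ^ k) i j = 0 := by
  induction k with
  | zero => exact fun i j h => Matrix.one_apply_ne (by rintro rfl; simp at h)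
  | succ k ih =>
    intro i j h
    rw [pow_succ, Matrix.mul_apply]
    refine Finset.sum_eq_zero fun l _ => ?_
    by_cases h1 : lv l < lv j + 2
    · rw [hM l j h1, mul_zero]
    · rw [ih i l (by push_cast at h; omega), zero_mul]

theorem ht_spec : ∀ r < chevF4.nroots, 2 ∣ htc chevF4 [16, 30, 42, 22] r ∧
    -22 ≤ htc chevF4 [16, 30, 42, 22] r ∧ htc chevF4 [16, 30, 42, 22] r ≤ 22 := by decide +kernel

theorem pow_eq_one {K : Type*} [Field K] [CharP K 2] {u : GL chevF4.Idx K}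
    (hu : u ∈ chevF4.posUnipotent K) : u ^ 32 = 1 := by
  have h1 := uTri_iff.1 (mem_utGrp.1 (cF4.V.pos_le_utGrp (checkHt_sound cF4.V htF4) hu))
  have h2 : ∀ i, 2 ∣ lvl chevF4 (htc chevF4 [16, 30, 42, 22]) i ∧
      -22 ≤ lvl chevF4 (htc chevF4 [16, 30, 42, 22]) i ∧
      lvl chevF4 (htc chevF4 [16, 30, 42, 22]) i ≤ 22 := by
    rintro (i | r)
    · simp [lvl_inl]
    · exact ht_spec r r.2
  have h3 : ((u : Matrix chevF4.Idx chevF4.Idx K) - 1) ^ 2 ^ 5 = 0 := by
    ext i j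
    refine pow_apply_eq_zero (lv := lvl chevF4 (htc chevF4 [16, 30, 42, 22])) (fun i j h => h1 i j ?_) _ i j ?_
    · have := h2 i; have := h2 j; omega
    · have := h2 i; have := h2 j; push_cast; omega
  have : Nonempty chevF4.Idx := ⟨Sum.inl ⟨0, by decide⟩⟩
  rw [sub_pow_char_pow_of_commute _ _ (Commute.one_right _), one_pow, sub_eq_zero] at h3
  exact Units.ext h3


/-- Let q = 2^(2m+1) with m ≥ 1. Every element of 2-power order of the large Ree group ²F₄(q) has order at most 32. -/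
theorem result {K : Type*} [Field K] [Fintype K] (m : ℕ) (hm : 1 ≤ m) (hK : Fintype.card K = 2 ^ (2 * m + 1))
    (x : ↥(Cfsg.Lie.twistedF4 K (2 ^ m))) (hx : ∃ j : ℕ, orderOf x = 2 ^ j) : orderOf x ≤ 32 := by
  obtain ⟨_, θ, hθ, h2⟩ := exists_theta hK
  let j := (twF4 θ h2 hθ).j
  have hj : Function.Injective j := (twF4 θ h2 hθ).j_inj
  obtain ⟨n, hn⟩ := hx
  obtain ⟨g, hg⟩ := (chevModel1 (D := chevF4) (by simp) K 2).exists_conj_le_U
    (D := Subgroup.zpowers (j x)) (IsPGroup.of_card (n := n) (by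
      rw [Nat.card_zpowers, orderOf_injective j hj, hn]))
  have h3 : (g⁻¹ * j x * g) ^ 32 = 1 :=
    Subtype.ext (pow_eq_one (Cert.mem_Up.1 (hg _ (Subgroup.mem_zpowers _))))
  rw [show g⁻¹ * j x * g = g⁻¹ * j x * g⁻¹⁻¹ by simp, conj_pow, conj_eq_one_iff, ← map_pow,
    map_eq_one_iff _ hj] at h3
  exact orderOf_le_of_pow_eq_one (by decide) h3

end Cfsg.Agent.S2370
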