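import Cfsg.Statements.S2371
import Cfsg.Agent.H34.Tori3

set_option autoImplicit false
open Cfsg

namespace Cfsg.Agent.S2371

open Cfsg.Agent.H34 Cfsg.Lie Cfsg.Agent.H40

/-- Data of the certificate. -/
def dCt : List (List ℤ) := [[2, -1], [-3, 2]]

/-- Data of the certificate. -/
def dA : List (List ℤ) := [[-2, -3], [1, 1]]

/-- Data of the certificate. -/
def dL : List (List ℤ) := [[1, 0], [-2, 1], [1, -1]]

/-- Data of the certificate. -/
def dp : List (List ℤ) := [[1, 0], [2, 1]]

/-- Data of the certificate. -/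
def dchi : List ℤ := [1, 1, 1]

/-- Data of the certificate. -/
def dF : List (List ℤ) := [[-2, -1], [-1, 1], [-1, 0], [-1, -1], [0, 1], [-1, -2], [1, 2], [0, -1], [1, 1], [1, 0], [1, -1], [2, 1]]

/-- Data of the certificate. -/
def dpp : List (List ℤ) := [[-1, 1], [2, -3]]

/-- Data of the certificate. -/
def dbeta : List ℕ := [1, 2]

/-- Data of the certificate. -/
def dw : List ℕ := [0, 1, 0, 1]

theorem wm : WordMat chevG2 dCt dw dA := by decide +kernel
theorem cyc : CycCert chevG2.rank dA dL dp dchi := by decide +kernel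
theorem reg : RegCert chevG2 dp dF dbeta 1 dpp := by decide +kernel
theorem bnd : BndCond chevG2.rank chevG2.nroots dF dbeta 1 (4 : ℕ) := by decide +kernel
theorem num : ∀ q < 4, 3 ≤ q → NumCond chevG2.rank chevG2.nroots dF dbeta (fun _ => 0) (q : ℕ)
    (pv (q : ℕ) (chevG2.rank + 1) (dchi.getD · 0)) := by decide +kernel
theorem comb0 : ∀ k < chevG2.rank, ∑ j ∈ Finset.range chevG2.rank,
    ([2, 1] : List ℤ).getD j 0 * gt dF (chevG2.simple j) k = ([1] : List ℤ).getD k 0 := by decide +kernel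
theorem pvchi (q : ℤ) : pv q (chevG2.rank + 1) (dchi.getD · 0) = (1) * q ^ 0 + (1) * q ^ 1 + (1) * q ^ 2 := by
  show pv q (2 + 1) _ = _
  simp [pv, Finset.sum_range_succ, dchi]
  try ring
theorem pvh0 (q : ℤ) : pv q chevG2.rank (([1] : List ℤ).getD · 0) = (1) * q ^ 0 := by
  show pv q 2 _ = _
  simp [pv, Finset.sum_range_succ]


/-- The group G₂(q), q ≥ 3, contains a cyclic subgroup of order q² + q + 1 which is its own centralizer. -/
theorem result {F : Type*} [Field F] [Fintype F] (q : ℕ) (hF : Fintype.card F = q) (hq : 3 ≤ q) :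
    ∃ H : Subgroup ↥(Cfsg.Lie.chevG2.group F), IsCyclic ↥H ∧ Nat.card ↥H = q ^ 2 + q + 1 ∧
      Subgroup.centralizer (H : Set ↥(Cfsg.Lie.chevG2.group F)) = H := by
  let C : Cert chevG2 := cert (by simp)
  let k := AlgebraicClosure F
  have hq2 : 2 ≤ q := hF ▸ Fintype.one_lt_card
  obtain ⟨l, -, hA⟩ := C.rep_of_wordMat wm
  obtain ⟨j, hj, hS⟩ := C.exists_emb_of_inj (algebraMap F k) hF (C.S.word_mem_W l) hA
    (C.tg_injective_of kerG2)
  have h0 := (exists_frob_ext (algebraMap F k) (q := q) (m := 1)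
    (hF ▸ FiniteField.isPrimePow_card F) (by rw [hF, pow_one])).1
  have hz : (2 : ℤ) ≤ q := by exact_mod_cast hq2
  refine C.exists_selfcent_of_cert j hj hS cyc reg (fun _ _ _ _ => rfl)
    (numCond_of bnd one_pos num hq ?_) h0 (by decide +kernel) (g := 1) one_pos ?_
    (fun _ _ => by simp) fun a ha => ?_
  · rw [pvchi]
    show (q : ℤ) ^ 2 ≤ _
    nlinarith
  · rw [pvchi]
    push_cast; ring
  · have := dvd_mul_pv_of_comb (F := fun j => gt dF (chevG2.simple j)) comb0 ha
    rwa [pvh0] at this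

end Cfsg.Agent.S2371
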