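import Cfsg.Statements.S2376
import Cfsg.Agent.H34.Tori3

set_option autoImplicit false
open Cfsg

namespace Cfsg.Agent.S2376

open Cfsg.Agent.H34 Cfsg.Lie Cfsg.Agent.H40

/-- Data of the certificate. -/
def dCt : List (List ℤ) := [[2, -1, 0, 0], [-1, 2, -1, -1], [0, -1, 2, 0], [0, -1, 0, 2]]

/-- Data of the certificate. -/
def dA : List (List ℤ) := [[0, 1, 0, 1], [0, -1, 0, 0], [1, 1, 0, 0], [0, 1, 1, 0]]

/-- Data of the certificate. -/
def dL : List (List ℤ) := [[0, 1, -1, 0], [1, -1, 1, 0], [-1, 1, 0, 0], [1, -1, 0, 1], [0, 1, 0, -1]]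

/-- Data of the certificate. -/
def dp : List (List ℤ) := [[1, 1, 0, 0], [1, 1, 1, 0], [0, 1, 1, 0], [0, 0, 1, 1]]

/-- Data of the certificate. -/
def dchi : List ℤ := [-1, -1, 0, 1, 1]

/-- Data of the certificate. -/
def dF : List (List ℤ) := [[-1, -1, -1, 0], [0, -1, -1, -1], [-1, -2, 0, 1], [-1, 0, 0, -1], [-2, -1, 1, 1], [-1, -1, 1, 0], [1, 0, -2, -1], [0, -1, -1, 1], [0, 1, -1, -1], [-1, 0, 0, 1], [1, -1, -1, 0], [1, 1, -1, -2], [-1, -1, 1, 2], [-1, 1, 1, 0], [1, 0, 0, -1], [0, -1, 1, 1], [0, 1, 1, -1], [-1, 0, 2, 1], [1, 1, -1, 0], [2, 1, -1, -1], [1, 0, 0, 1], [1, 2, 0, -1], [0, 1, 1, 1], [1, 1, 1, 0]]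

/-- Data of the certificate. -/
def dpp : List (List ℤ) := [[0, -1, 0, 0], [0, 0, -1, 1], [0, 0, 0, -1], [-1, 1, 1, -1]]

/-- Data of the certificate. -/
def dbeta : List ℕ := [3, 5, 7, 10]

/-- Data of the certificate. -/
def dw : List ℕ := [1]

/-- Data of the certificate. -/
def dAw : List (List ℤ) := [[1, 1, 0, 0], [0, -1, 0, 0], [0, 1, 1, 0], [0, 1, 0, 1]]

theorem wm : WordMat chevD4 dCt dw dAw := by decide +kernel
theorem cyc : CycCert chevD4.rank dA dL dp dchi := by decide +kernel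
theorem reg : RegCert chevD4 dp dF dbeta 1 dpp := by decide +kernel
theorem bnd : BndCond chevD4.rank chevD4.nroots dF dbeta 1 (4 : ℕ) := by decide +kernel
theorem num : ∀ q < 4, 2 ≤ q → NumCond chevD4.rank chevD4.nroots dF dbeta (fun _ => 0) (q : ℕ)
    (pv (q : ℕ) (chevD4.rank + 1) (dchi.getD · 0)) := by decide +kernel
theorem comb0 : ∀ k < chevD4.rank, ∑ j ∈ Finset.range chevD4.rank,
    ([1, 2, 0, 1] : List ℤ).getD j 0 * gt dF (chevD4.simple j) k = ([2] : List ℤ).getD k 0 := by decide +kernel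
theorem comb1 : ∀ k < chevD4.rank, ∑ j ∈ Finset.range chevD4.rank,
    ([1, 2, 1, 1] : List ℤ).getD j 0 * gt dF (chevD4.simple j) k = ([1, 1, 1] : List ℤ).getD k 0 := by decide +kernel
theorem pvchi (q : ℤ) : pv q (chevD4.rank + 1) (dchi.getD · 0) = (-1) * q ^ 0 + (-1) * q ^ 1 + (1) * q ^ 3 + (1) * q ^ 4 := by
  show pv q (4 + 1) _ = _
  simp [pv, Finset.sum_range_succ, dchi]
  try ring
theorem pvh0 (q : ℤ) : pv q chevD4.rank (([2] : List ℤ).getD · 0) = (2) * q ^ 0 := by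
  show pv q 4 _ = _
  simp [pv, Finset.sum_range_succ]
theorem pvh1 (q : ℤ) : pv q chevD4.rank (([1, 1, 1] : List ℤ).getD · 0) = (1) * q ^ 0 + (1) * q ^ 1 + (1) * q ^ 2 := by
  show pv q 4 _ = _
  simp [pv, Finset.sum_range_succ]


/-- The group ³D₄(q) contains a cyclic subgroup of order (q³ − 1)(q + 1) which is its own centralizer. -/
theorem result {K : Type*} [Field K] [Fintype K] (q : ℕ) (hq : IsPrimePow q) (hK : Fintype.card K = q ^ 3) :
    ∃ H : Subgroup ↥(Cfsg.Lie.twistedD4 K q), IsCyclic ↥H ∧ Nat.card ↥H = (q ^ 3 - 1) * (q + 1) ∧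
      Subgroup.centralizer (H : Set ↥(Cfsg.Lie.twistedD4 K q)) = H := by
  let k := AlgebraicClosure K
  have hq2 : 2 ≤ q := hq.two_le
  obtain ⟨l, -, hA⟩ := cD4.rep_of_wordMat wm
  have hA' : Rep chevD4 (toM _ dA) (cD4.S.word l * twDataD4.ρP) := by
    rw [show toM chevD4.rank dA = toM _ dAw * toM _ triM by decide +kernel]
    exact hA.mul rep_triM
  obtain ⟨j, hj, hS⟩ := exists_emb_D4 (algebraMap K k) hq hK (cD4.S.word_mem_W l) hA'
  have h0 := (exists_frob_ext (algebraMap K k) hq hK).1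
  have hz : (2 : ℤ) ≤ q := by exact_mod_cast hq2
  have key : ∀ {N a : ℤ}, (∀ i < chevD4.rank, N ∣ a * pv q chevD4.rank (gt dF (chevD4.simple i))) →
      N ∣ a := fun {N a} ha => by
    have h1 := dvd_mul_pv_of_comb (F := fun j => gt dF (chevD4.simple j)) comb0 ha
    have h2 := dvd_mul_pv_of_comb (F := fun j => gt dF (chevD4.simple j)) comb1 ha
    rw [pvh0] at h1
    rw [pvh1] at h2
    obtain ⟨b, hb⟩ := Int.even_mul_succ_self (q : ℤ)
    have := dvd_sub h2 (h1.mul_right b)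
    rwa [show a * (1 * (q : ℤ) ^ 0 + 1 * q ^ 1 + 1 * q ^ 2) - a * (2 * q ^ 0) * b = a by
      linear_combination a * hb] at this
  refine cD4.exists_selfcent_of_cert j hj (fun c => (hS c).trans ⟨fun h => ?_, fun ⟨c', e, h⟩ =>
      (hS c).1 (e ▸ (hS c').2 (by rw [h]))⟩)
    cyc reg (fun _ _ _ _ => rfl) (numCond_of bnd one_pos num hq2 ?_) h0 (by decide +kernel) (g := 1)
    one_pos ?_ (fun _ _ => by simp) fun a ha => by simpa using key ha
  · refine cD4.exists_fixed_rep hA' two_pos kerD4_sq (fun z hz h => ?_) h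
    obtain ⟨x, -, rfl⟩ := cyc.h2 h
    have : x = 1 := by
      rw [← orderOf_eq_one_iff, ← Nat.dvd_one, ← Int.natCast_dvd_natCast]
      refine key fun i hi => ?_
      rw [Nat.cast_one, one_mul, orderOf_dvd_iff_zpow_eq_one, ← reg.val q (cD4.V.basic.simple_lt i hi),
        ← evw_zpow]
      exact Cert.tg_eq_one_iff.1 hz ⟨i, hi⟩
    funext i; simp [this]
  · rw [pvchi]
    show (q : ℤ) ^ 4 ≤ _
    nlinarith [mul_pos (show (0 : ℤ) < q by omega) (show (0 : ℤ) < q by omega)]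
  · rw [pvchi, Nat.cast_mul, Nat.cast_sub (Nat.one_le_pow _ _ (by omega))]
    push_cast; ring

end Cfsg.Agent.S2376
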