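import Cfsg.Statements.S2379
import Cfsg.Agent.H76.Homocyc
import Cfsg.Agent.H32.InvCent
import Cfsg.Agent.H26.SLBasic

set_option autoImplicit false
open Cfsg

namespace Cfsg.Agent.S2379

/-- Sylow subgroups of `SL_n(q)` for large primes. Let `F` be a field with `q` elements and `r` a prime with `r > n` and `r ∤ q` (so `r` does not divide the order `n!` of the Weyl group). Let `d` be the multiplicative order of `q` modulo `r`, `a` the number of integers `i` with `2 ≤ i ≤ n` divisible by `d` (the degrees of the Weyl group are `2, …, n`), and `m` the `r`-part of the value at `q` of the `d`-th cyclotomic polynomial. Then every Sylow `r`-subgroup of `SL_n(q)` is a direct product of `a` cyclic groups of order `m`. -/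
theorem result {F : Type*} [Field F] [Fintype F] {q : ℕ} (hq : Fintype.card F = q) (n : ℕ)
    (r : ℕ) [Fact r.Prime] (hrn : n < r) (hrq : ¬ r ∣ q) (P : Sylow r (Matrix.SpecialLinearGroup (Fin n) F)) :
    Nonempty (↥(P : Subgroup (Matrix.SpecialLinearGroup (Fin n) F)) ≃*
      (Fin ((Finset.Icc 2 n).filter (fun i => orderOf (q : ZMod r) ∣ i)).card →
        Multiplicative (ZMod (r ^ padicValNat r ((Polynomial.cyclotomic (orderOf (q : ZMod r)) ℤ).eval (q : ℤ)).natAbs)))) := by
  subst hq
  have hr : r.Prime := Fact.out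
  have h0 := H76.orderOf_card_pos' hrq
  rw [H34.padicValNat_cyclotomic Fintype.one_lt_card rfl h0]
  rcases Nat.eq_zero_or_pos n with rfl | hn
  · have : Subsingleton (Matrix.SpecialLinearGroup (Fin 0) F) :=
      ⟨fun a b => Subtype.ext (Subsingleton.elim _ _)⟩
    rw [Finset.Icc_eq_empty (by omega), Finset.filter_empty, Finset.card_empty]
    exact H76.sylow_equiv_of_hom P 1 (Function.injective_of_subsingleton _) (by simp)
  have : Nonempty (Fin n) := ⟨⟨0, hn⟩⟩
  have h1 := H76.padicValNat_card_GL hrn hrq
  rw [← H26.card_units_mul_card_sl, padicValNat.mul Nat.card_pos.ne' Nat.card_pos.ne',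
    Nat.card_units, Nat.card_eq_fintype_card] at h1
  set d := orderOf (Fintype.card F : ZMod r) with hd
  set v := padicValNat r (Fintype.card F ^ d - 1) with hv
  by_cases h2 : d = 1
  · obtain ⟨n, rfl⟩ := Nat.exists_eq_succ_of_ne_zero hn.ne'
    have h3 : ((Finset.Icc 2 n.succ).filter fun i => d ∣ i).card = n := by simp [h2]
    obtain ⟨θ, hθ⟩ := H76.exists_hom_pi_gl (F := F) (m := r ^ v) (a := n) (n := n)
      pow_padicValNat_dvd h0 (by rw [h2, mul_one])
    rw [h3]
    refine H76.sylow_equiv_of_hom P ((H32.blkSL F n).comp θ) (H32.blkSL_injective.comp hθ) ?_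
    rw [h2, pow_one] at hv
    rw [h2, ← hv, Nat.div_one, Nat.succ_mul] at h1
    omega
  · have h3 : ¬ r ∣ Fintype.card F - 1 := by
      rwa [← pow_one (Fintype.card F), H34.dvd_pow_sub_one_iff Fintype.card_pos, Nat.dvd_one]
    have h4 : ((Finset.Icc 2 n).filter fun i => d ∣ i).card = n / d := by
      rw [← Nat.Ioc_filter_dvd_card_eq_div]
      congr 1
      ext i
      simp only [Finset.mem_filter, Finset.mem_Icc, Finset.mem_Ioc, and_congr_left_iff]
      intro hi
      have : i ≠ 1 := by rintro rfl; exact h2 (Nat.dvd_one.1 hi)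
      omega
    obtain ⟨θ, hθ⟩ := H76.exists_hom_pi_gl (F := F) (m := r ^ v) pow_padicValNat_dvd h0
      (Nat.div_mul_le_self n _)
    have h5 : ∀ x, θ x ∈ (Matrix.GeneralLinearGroup.det : GL (Fin n) F →* Fˣ).ker := fun x => by
      rw [MonoidHom.mem_ker, ← orderOf_eq_one_iff]
      refine Nat.eq_one_of_dvd_coprimes ((hr.coprime_iff_not_dvd.2 h3).pow_left v) ?_ ?_
      · refine orderOf_dvd_of_pow_eq_one ?_
        have : x ^ r ^ v = 1 := funext fun i => by
          simpa using pow_card_eq_one' (x := x i)
        rw [← map_pow, ← map_pow, this, map_one, map_one]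
      · simpa [Nat.card_units] using orderOf_dvd_natCard (Matrix.GeneralLinearGroup.det (θ x))
    rw [padicValNat.eq_zero_of_not_dvd h3, zero_add] at h1
    rw [h4]
    exact H76.sylow_equiv_of_hom P (H26.slEquivKerDet.symm.toMonoidHom.comp (θ.codRestrict _ h5))
      (H26.slEquivKerDet.symm.injective.comp fun a b h => hθ (congrArg Subtype.val h)) h1

end Cfsg.Agent.S2379
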