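import Cfsg.Statements.S2381
import Cfsg.Agent.H76.Homocyc
import Cfsg.Agent.H27.AltCard

set_option autoImplicit false
open Cfsg

namespace Cfsg.Agent.S2381

/-- Sylow subgroups of `Sp_{2n}(q)` for large primes. Let `F` be a field with `q` elements and `r` an odd prime with `r > n` and `r ∤ q` (so `r` does not divide the order `2^n n!` of the Weyl group). Let `d` be the multiplicative order of `q` modulo `r`, `a` the number of `i` with `1 ≤ i ≤ n` and `d ∣ 2i` (the degrees being `2, 4, …, 2n`), and `m` the `r`-part of the value at `q` of the `d`-th cyclotomic polynomial. Then every Sylow `r`-subgroup of the symplectic group `Sp_{2n}(q)` is a direct product of `a` cyclic groups of order `m`. -/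
theorem result {F : Type*} [Field F] [Fintype F] {q : ℕ} (hq : Fintype.card F = q) (n : ℕ)
    (r : ℕ) [Fact r.Prime] (hr2 : r ≠ 2) (hrn : n < r) (hrq : ¬ r ∣ q) (P : Sylow r ↥(Matrix.symplecticGroup (Fin n) F)) :
    Nonempty (↥(P : Subgroup ↥(Matrix.symplecticGroup (Fin n) F)) ≃*
      (Fin ((Finset.Icc 1 n).filter (fun i => orderOf (q : ZMod r) ∣ 2 * i)).card →
        Multiplicative (ZMod (r ^ padicValNat r ((Polynomial.cyclotomic (orderOf (q : ZMod r)) ℤ).eval (q : ℤ)).natAbs)))) := by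
  subst hq
  have hr : r.Prime := Fact.out
  have h0 := H76.orderOf_card_pos' hrq
  rw [H34.padicValNat_cyclotomic Fintype.one_lt_card rfl h0]
  set d := orderOf (Fintype.card F : ZMod r) with hd
  set v := padicValNat r (Fintype.card F ^ d - 1) with hv
  have h1 : r ^ v ∣ Fintype.card F ^ d - 1 := pow_padicValNat_dvd
  obtain ⟨c, hc, h2, h3⟩ : ∃ c, 0 < c ∧ (∀ i, d ∣ 2 * i ↔ c ∣ i) ∧
      (r ^ v ∣ Fintype.card F ^ c - 1 ∨ r ^ v ∣ Fintype.card F ^ c + 1) := by
    rcases Nat.even_or_odd d with ⟨c, hc⟩ | hc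
    · refine ⟨c, by omega, fun i => by rw [hc, ← two_mul, Nat.mul_dvd_mul_iff_left two_pos],
        Or.inr ?_⟩
      rw [hc, ← two_mul, mul_comm, pow_mul, show (Fintype.card F ^ c) ^ 2 - 1 = _ from
        Nat.sq_sub_sq _ 1] at h1
      refine Nat.Coprime.dvd_of_dvd_mul_right (Nat.Coprime.pow_left _ ?_) h1
      rw [hr.coprime_iff_not_dvd, H34.dvd_pow_sub_one_iff Fintype.card_pos, ← hd]
      exact Nat.not_dvd_of_pos_of_lt (by omega) (by omega)
    · exact ⟨d, h0, fun i => (Nat.coprime_two_right.2 hc).dvd_mul_left, Or.inl h1⟩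
  have h4 : ((Finset.Icc 1 n).filter fun i => d ∣ 2 * i).card = n / c := by
    simp only [h2]
    exact Nat.Ioc_filter_dvd_card_eq_div n c
  obtain ⟨g, hg⟩ := H76.exists_orderOf_sp ((hr.odd_of_ne_two hr2).pow) hc h3
  obtain ⟨φ, hφ⟩ := H76.exists_hom_zmod g
  obtain ⟨θ, hθ⟩ := H76.exists_hom_pi (G := fun n => Matrix.symplecticGroup (Fin n) F) (H76.blkSp F)
    H76.blkSp_injective φ hφ _ (Nat.div_mul_le_self n c)
  rw [h4]
  revert θ
  rw [hg]
  intro θ hθ
  refine H76.sylow_equiv_of_hom P θ hθ ?_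
  rw [H27.card_sp, H27.spOrder, Fintype.card_fin, H76.padicValNat_prod_pow Fintype.one_lt_card hrq _
    (fun i => 2 * (i + 1)) fun i hi => ⟨fun h => ?_, fun h => absurd h hr2⟩]
  · simp only [← hd, h2, Nat.card_multiples, hv]
  · have := Finset.mem_range.1 hi
    rcases (hr.dvd_mul).1 h with h | h
    · exact hr2 ((Nat.prime_dvd_prime_iff_eq hr Nat.prime_two).1 h)
    · exact Nat.not_dvd_of_pos_of_lt i.succ_pos (by omega) h

end Cfsg.Agent.S2381
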