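import Cfsg.Statements.S2384
import Cfsg.Agent.H76.Unip

set_option autoImplicit false
open Cfsg

namespace Cfsg.Agent.S2384

/-- In `SL_n(q)`, `q` a power of the prime `p`, the number of conjugacy classes of elements of order prime to `p` (the semisimple classes) is `q^(n-1)`. -/
theorem result {F : Type*} [Field F] [Fintype F] {q : ℕ} (hq : Fintype.card F = q) (p : ℕ) [Fact p.Prime] [CharP F p] (n : ℕ) (hn : 1 ≤ n) :
    Nat.card {c : ConjClasses (Matrix.SpecialLinearGroup (Fin n) F) //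
      ∃ g : Matrix.SpecialLinearGroup (Fin n) F, ConjClasses.mk g = c ∧ (orderOf g).Coprime p} = q ^ (n - 1) := by
  obtain ⟨d, rfl⟩ : ∃ d, n = d + 1 := ⟨n - 1, by omega⟩
  rw [H76.card_conjClasses_eq
    (fun g : Matrix.SpecialLinearGroup (Fin (d + 1)) F => (orderOf g).Coprime p)
    (fun g => (g : Matrix (Fin (d + 1)) (Fin (d + 1)) F).charpoly)
    fun g h hg hh => ⟨fun hc => by
      have := Matrix.SpecialLinearGroup.toGL.map_isConj hc
      rw [H76.isConj_gl_iff_med_eq] at this
      rw [H76.charpoly_eq_prod_med, H76.charpoly_eq_prod_med]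
      exact congrArg (fun s => (Multiset.map (fun x => x.1 ^ x.2) s).prod) this,
      fun hc => by
        obtain ⟨y, hy⟩ := Multiset.exists_mem_of_ne_zero
          (H76.med_ne_zero (g : Matrix (Fin (d + 1)) (Fin (d + 1)) F))
        rw [← H76.orderOf_toGL] at hg hh
        exact H76.isConj_sl_of_isConj_gl g h
          ((H76.isConj_units_iff _ _).1 (H76.isConj_gl_of_charpoly_eq p _ _ hg hh hc)) hy
          (H76.exp_eq_one_of_coprime p _ hg y hy)⟩]
  have h := H76.card_monic_coeff_zero (F := F) d ({(-1) ^ (d + 1)} : Set F)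
  rw [Nat.card_unique (α := ({(-1) ^ (d + 1)} : Set F)), one_mul,
    Nat.card_eq_fintype_card (α := F), hq] at h
  rw [Nat.add_sub_cancel, ← h]
  refine Nat.card_congr (Equiv.subtypeEquivRight fun f => ?_)
  have hsq : ((-1 : F) ^ (d + 1)) * (-1) ^ (d + 1) = 1 := by
    rw [← mul_pow]; simp
  constructor
  · rintro ⟨g, -, rfl⟩
    refine ⟨Matrix.charpoly_monic _, by simp, ?_⟩
    have := Matrix.det_eq_sign_charpoly_coeff (g : Matrix (Fin (d + 1)) (Fin (d + 1)) F)
    rw [g.det_coe, Fintype.card_fin] at this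
    rw [Set.mem_singleton_iff]
    calc _ = ((-1 : F) ^ (d + 1)) * (-1) ^ (d + 1) * _ := by rw [hsq, one_mul]
      _ = _ := by rw [mul_assoc, ← this, mul_one]
  · rintro ⟨h1, h2, h3⟩
    obtain ⟨A, hA, rfl⟩ := H76.exists_semisimple_charpoly_eq (n := Fin (d + 1)) h1 (by simpa using h2)
    have hu : A.det = 1 := by
      rw [Matrix.det_eq_sign_charpoly_coeff, Set.mem_singleton_iff.1 h3, Fintype.card_fin, hsq]
    let g : Matrix.SpecialLinearGroup (Fin (d + 1)) F := ⟨A, hu⟩
    refine ⟨g, ?_, rfl⟩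
    rw [← H76.orderOf_toGL]
    exact (H76.coprime_orderOf_iff p _ (isOfFinOrder_of_finite _)).2 hA

end Cfsg.Agent.S2384
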