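import Cfsg.Statements.S2387
import Cfsg.Agent.H76.Unip

set_option autoImplicit false
open scoped MatrixGroups
open Cfsg

namespace Cfsg.Agent.S2387

/-- In `GL_n(q)` with `n ≥ 1`, `q` a power of the prime `p`, the number of conjugacy classes of elements of order prime to `p` (diagonalisable over the algebraic closure; determined by the characteristic polynomial) is `(q - 1) q^(n-1)`. -/
theorem result {F : Type*} [Field F] [Fintype F] {q : ℕ} (hq : Fintype.card F = q) (p : ℕ) [Fact p.Prime] [CharP F p] (n : ℕ) (hn : 1 ≤ n) :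
    Nat.card {c : ConjClasses (GL (Fin n) F) // ∃ g : GL (Fin n) F, ConjClasses.mk g = c ∧ (orderOf g).Coprime p} = (q - 1) * q ^ (n - 1) := by
  obtain ⟨d, rfl⟩ : ∃ d, n = d + 1 := ⟨n - 1, by omega⟩
  rw [H76.card_conjClasses_eq (fun g : GL (Fin (d + 1)) F => (orderOf g).Coprime p)
    (fun g => (g : Matrix (Fin (d + 1)) (Fin (d + 1)) F).charpoly)
    fun g h hg hh => ⟨fun hc => by
      rw [H76.charpoly_eq_prod_med, H76.charpoly_eq_prod_med, (H76.isConj_gl_iff_med_eq g h).1 hc],
      H76.isConj_gl_of_charpoly_eq p g h hg hh⟩]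
  have h := H76.card_monic_coeff_zero (F := F) d ({0}ᶜ : Set F)
  have h2 : Nat.card ({0}ᶜ : Set F) = q - 1 := by
    classical
    rw [Nat.card_eq_fintype_card, Fintype.card_compl_set, hq]; simp
  rw [h2, Nat.card_eq_fintype_card (α := F), hq] at h
  rw [Nat.add_sub_cancel, ← h]
  refine Nat.card_congr (Equiv.subtypeEquivRight fun f => ?_)
  constructor
  · rintro ⟨g, -, rfl⟩
    refine ⟨Matrix.charpoly_monic _, by simp, ?_⟩
    intro h0
    have := Matrix.det_eq_sign_charpoly_coeff (g : Matrix (Fin (d + 1)) (Fin (d + 1)) F)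
    rw [Set.mem_singleton_iff.1 h0, mul_zero] at this
    exact g.det_ne_zero this
  · rintro ⟨h1, h2, h3⟩
    obtain ⟨A, hA, rfl⟩ := H76.exists_semisimple_charpoly_eq (n := Fin (d + 1)) h1 (by simpa using h2)
    have hu : IsUnit A := by
      rw [Matrix.isUnit_iff_isUnit_det, Matrix.det_eq_sign_charpoly_coeff, isUnit_iff_ne_zero]
      exact mul_ne_zero (pow_ne_zero _ (neg_ne_zero.2 one_ne_zero)) h3
    exact ⟨hu.unit, (H76.coprime_orderOf_iff p _ (isOfFinOrder_of_finite _)).2 hA, rfl⟩

end Cfsg.Agent.S2387
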