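import Cfsg.Statements.S2394
import Cfsg.Agent.H27.AltCard
import Cfsg.Agent.H82.Zsigmondy

set_option autoImplicit false
open scoped MatrixGroups
open Cfsg

namespace Cfsg.Agent.S2394

/-- The smallest degree of a faithful representation of the symplectic group `Sp_{2n}(q)` over its own field `F_q` is `2n`: every injective homomorphism from `Sp_{2n}(F)` to `GL_d(F)`, `F` the field with `q` elements, has `d ≥ 2n`. -/
theorem result {F : Type*} [Field F] [Fintype F] (n : ℕ) {d : ℕ}
    (ρ : ↥(Matrix.symplecticGroup (Fin n) F) →* GL (Fin d) F) (hρ : Function.Injective ρ) : 2 * n ≤ d := by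
  have hdvd := Subgroup.card_dvd_of_injective ρ hρ
  rw [Cfsg.Agent.H27.card_sp, Matrix.card_GL_field, Fintype.card_fin] at hdvd
  have hq : 1 < Fintype.card F := Fintype.one_lt_card
  set q := Fintype.card F with hqdef
  by_contra hlt
  push Not at hlt
  unfold Cfsg.Agent.H27.spOrder at hdvd
  rcases Nat.lt_or_ge n 2 with hn | hn
  · have hn1 : n = 1 := by omega
    subst hn1
    have h1 : q ∣ ∏ i : Fin d, (q ^ d - q ^ (i : ℕ)) := by
      refine Dvd.dvd.trans ?_ hdvd
      simp
    have hd : d = 0 ∨ d = 1 := by omega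
    rcases hd with rfl | rfl
    · simp at h1; omega
    · simp at h1
      omega
  · by_cases h23 : q = 2 ∧ n = 3
    · obtain ⟨h2, rfl⟩ := h23
      rw [h2] at hdvd
      have hd : d = 0 ∨ d = 1 ∨ d = 2 ∨ d = 3 ∨ d = 4 ∨ d = 5 := by omega
      rcases hd with rfl | rfl | rfl | rfl | rfl | rfl <;>
        simp [Finset.prod_range_succ, Fin.prod_univ_succ] at hdvd
    · obtain ⟨r, hr, hprim⟩ := Cfsg.Agent.H82.zsigmondy q (2 * n) hq (by omega)
        (by omega) (by omega)
      have : Fact r.Prime := ⟨hr⟩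
      have h1 : r ∣ q ^ (2 * n) - 1 := by
        rw [← ZMod.natCast_eq_zero_iff, Nat.cast_sub (Nat.one_le_pow _ _ (by omega))]
        push_cast
        rw [hprim.pow_eq_one, sub_self]
      have h2 : r ∣ ∏ i : Fin d, (q ^ d - q ^ (i : ℕ)) := by
        refine Dvd.dvd.trans ?_ hdvd
        refine Dvd.dvd.mul_left (h1.trans ?_) _
        have := Finset.dvd_prod_of_mem (fun i => q ^ (2 * (i + 1)) - 1)
          (show n - 1 ∈ Finset.range n by simp; omega)
        simpa [show n - 1 + 1 = n by omega] using this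
      obtain ⟨i, -, hi⟩ := (Prime.dvd_finset_prod_iff hr.prime _).1 h2
      have hi' : (i : ℕ) < d := i.2
      rw [← ZMod.natCast_eq_zero_iff, Nat.cast_sub (Nat.pow_le_pow_right (by omega) hi'.le)] at hi
      push_cast at hi
      have hq0 : (q : ZMod r) ≠ 0 := hprim.ne_zero (by omega)
      have h3 : (q : ZMod r) ^ (d - i) = 1 := by
        have : (q : ZMod r) ^ d = (q : ZMod r) ^ (i : ℕ) * (q : ZMod r) ^ (d - i) := by
          rw [← pow_add]; congr 1; omega
        rw [this, sub_eq_zero] at hi
        exact mul_left_cancel₀ (pow_ne_zero (i : ℕ) hq0) (by rw [hi, mul_one])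
      have := Nat.le_of_dvd (by omega) ((hprim.pow_eq_one_iff_dvd _).1 h3)
      omega

end Cfsg.Agent.S2394
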