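import Cfsg.Statements.S2399
import Cfsg.Agent.H35.StPerf

set_option autoImplicit false
open scoped MatrixGroups
open Cfsg

namespace Cfsg.Agent.S2399

/-- Projective representations in the natural characteristic lift: for each of the types G₂, B₂, D₄, F₄, E₆, E₇, E₈ over any field `K` (for types B₂ and G₂ the field must have more than two elements — the cases where the Chevalley group is not simple are set aside), every homomorphism from the Chevalley group to `PGL_n(L) = GL_n(L)/Z`, `L` a field of the same characteristic as `K`, lifts uniquely to a homomorphism from the group Δ presented by (R1), (R2) to `GL_n(L)`, compatibly with the projection Δ → Chevalley group sending x̄_r(t) to x_r(t). -/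
theorem result {K : Type*} [Field K] (D : Cfsg.Lie.ChevalleyDatum) (hD : D ∈ [Cfsg.Lie.chevG2, Cfsg.Lie.chevB2, Cfsg.Lie.chevD4, Cfsg.Lie.chevF4, Cfsg.Lie.chevE6, Cfsg.Lie.chevE7, Cfsg.Lie.chevE8]) (hK : D ∈ [Cfsg.Lie.chevB2, Cfsg.Lie.chevG2] → ∃ x : K, x ≠ 0 ∧ x ≠ 1)
    (θ : D.SteinbergCover K →* ↥(D.group K))
    (hθ : ∀ (r : ℕ) (t : K), r < D.nroots → ((θ (D.scGen K r t) : GL D.Idx K) : Matrix D.Idx D.Idx K) = D.x K r t)
    {L : Type*} [Field L] (hL : ringChar L = ringChar K) {n : ℕ}
    (φ : ↥(D.group K) →* GL (Fin n) L ⧸ Subgroup.center (GL (Fin n) L)) :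
    ∃! ψ : D.SteinbergCover K →* GL (Fin n) L, (QuotientGroup.mk' (Subgroup.center (GL (Fin n) L))).comp ψ = φ.comp θ := by
  have C := H34.cert hD
  have hadj := H35.adj_of_mem hD C
  have hperf := (H35.sc_parG hadj fun r hr t => H35.eq_xg_iff.1 (hθ r t hr)).perfect hD hK
  obtain ⟨m, hm0, hm⟩ : ∃ m : ℕ, (m : K) ≠ 0 ∧ ∀ a : L, n ≠ 0 → a ^ n = 1 → a ^ m = 1 := by
    rcases eq_or_ne n 0 with rfl | hn
    · exact ⟨1, by simp, fun _ h => absurd rfl h⟩
    rcases CharP.char_is_prime_or_zero K (ringChar K) with hp | hp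
    · obtain ⟨k, m, hm, rfl⟩ := Nat.exists_eq_pow_mul_and_not_dvd hn _ hp.ne_one
      refine ⟨m, by rwa [Ne, ringChar.spec], fun a _ ha => ?_⟩
      have : CharP L (ringChar K) := hL ▸ ringChar.charP L
      have : Fact (ringChar K).Prime := ⟨hp⟩
      have h1 : (a ^ m - 1) ^ ringChar K ^ k = 0 := by
        rw [sub_pow_char_pow, one_pow, ← pow_mul, mul_comm, ha, sub_self]
      exact sub_eq_zero.1 (pow_eq_zero_iff (pow_pos hp.pos k).ne' |>.1 h1)
    · exact ⟨n, by rwa [Ne, ringChar.spec, hp, zero_dvd_iff], fun _ _ h => h⟩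
  let π : Matrix.SpecialLinearGroup (Fin n) L →* GL (Fin n) L ⧸ Subgroup.center (GL (Fin n) L) :=
    (QuotientGroup.mk' _).comp Matrix.SpecialLinearGroup.toGL
  have hc : ∀ z, π z = 1 → z ∈ Subgroup.center _ := fun z hz =>
    (Matrix.SpecialLinearGroup.toGL_mem_center_iff z).1 ((QuotientGroup.eq_one_iff _).1 hz)
  obtain ⟨τ, hτ⟩ := H35.exists_sc_lift_of_exponent hadj π (fun z hz => hc z hz) (m := m)
    (fun z hz => by
      obtain ⟨a, ha, e⟩ := Matrix.SpecialLinearGroup.mem_center_iff.1 (hc z hz)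
      rcases eq_or_ne n 0 with rfl | hn
      · exact Subsingleton.elim _ _
      · apply Subtype.ext
        rw [Matrix.SpecialLinearGroup.coe_pow, ← e, ← map_pow, hm a hn (by simpa using ha), map_one]
        rfl) hm0 (φ.comp θ) (fun g => by
      have h1 : commutator (D.SteinbergCover K) ≤ π.range.comap (φ.comp θ) := by
        rw [commutator_def, Subgroup.commutator_le]
        intro a _ b _
        obtain ⟨A, hA⟩ := QuotientGroup.mk'_surjective _ (φ.comp θ a)
        obtain ⟨B, hB⟩ := QuotientGroup.mk'_surjective _ (φ.comp θ b)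
        refine ⟨⟨((A * B * A⁻¹ * B⁻¹ : GL (Fin n) L) : Matrix _ _ L), ?_⟩, ?_⟩
        · rw [← Matrix.GeneralLinearGroup.val_det_apply]
          simp only [map_mul, map_inv]
          rw [mul_inv_cancel_comm, mul_inv_cancel, Units.val_one]
        · rw [map_commutatorElement, ← hA, ← hB, ← map_commutatorElement]
          exact congrArg (QuotientGroup.mk' (Subgroup.center (GL (Fin n) L))) (Units.ext rfl)
      exact h1 (hperf ▸ Subgroup.mem_top g))
  refine ⟨Matrix.SpecialLinearGroup.toGL.comp τ, hτ, fun ψ hψ => ?_⟩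
  exact H35.lift_unique_of_perfect hperf _ (by rw [QuotientGroup.ker_mk']) (hψ.trans hτ.symm)

end Cfsg.Agent.S2399
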