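import Cfsg.Statements.S2401
import Cfsg.Agent.H80.SLn

set_option autoImplicit false
open Cfsg

namespace Cfsg.Agent.S2401

open Cfsg.Agent.H80
open scoped commutatorElement

/-- The Steinberg presentation of `SL_n` over a finite field for `n ≥ 3`: the group generated by symbols `x_ij(t)` (`i ≠ j`, `t` in the field) subject to `x_ij(t) x_ij(u) = x_ij(t + u)` and, for `i ≠ l`, `x_ij(t) x_kl(u) x_ij(t)⁻¹ x_kl(u)⁻¹ = x_il(tu)` if `j = k` and `= 1` if `j ≠ k`, is isomorphic to `SL_n` by an isomorphism sending `x_ij(t)` to the elementary matrix `1 + t E_ij`. -/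
theorem result {K : Type*} [Field K] [Finite K] (n : ℕ) (hn : 3 ≤ n) :
    ∃ e : PresentedGroup
        ({g : FreeGroup ({ij : Fin n × Fin n // ij.1 ≠ ij.2} × K) | ∃ (a : {ij : Fin n × Fin n // ij.1 ≠ ij.2}) (t u : K),
            g = FreeGroup.of (a, t) * FreeGroup.of (a, u) * (FreeGroup.of (a, t + u))⁻¹} ∪
          {g | ∃ (a b : {ij : Fin n × Fin n // ij.1 ≠ ij.2}) (t u : K), a.1.1 ≠ b.1.2 ∧ a.1.2 ≠ b.1.1 ∧
            g = FreeGroup.of (a, t) * FreeGroup.of (b, u) * (FreeGroup.of (a, t))⁻¹ * (FreeGroup.of (b, u))⁻¹} ∪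
          {g | ∃ (a b : {ij : Fin n × Fin n // ij.1 ≠ ij.2}) (h : a.1.1 ≠ b.1.2) (t u : K), a.1.2 = b.1.1 ∧
            g = FreeGroup.of (a, t) * FreeGroup.of (b, u) * (FreeGroup.of (a, t))⁻¹ * (FreeGroup.of (b, u))⁻¹ *
              (FreeGroup.of (⟨(a.1.1, b.1.2), h⟩, t * u))⁻¹}) ≃* Matrix.SpecialLinearGroup (Fin n) K,
      ∀ (a : {ij : Fin n × Fin n // ij.1 ≠ ij.2}) (t : K), ((e (PresentedGroup.of (a, t)) : Matrix (Fin n) (Fin n) K)) = Matrix.transvection a.1.1 a.1.2 t := by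
  obtain ⟨m, rfl⟩ : ∃ m, n = m + 1 := ⟨n - 1, by omega⟩
  generalize hR : ({g : FreeGroup (RA (m + 1) × K) | ∃ (a : RA (m + 1)) (t u : K),
            g = FreeGroup.of (a, t) * FreeGroup.of (a, u) * (FreeGroup.of (a, t + u))⁻¹} ∪
          {g | ∃ (a b : RA (m + 1)) (t u : K), a.1.1 ≠ b.1.2 ∧ a.1.2 ≠ b.1.1 ∧
            g = FreeGroup.of (a, t) * FreeGroup.of (b, u) * (FreeGroup.of (a, t))⁻¹ * (FreeGroup.of (b, u))⁻¹} ∪
          {g | ∃ (a b : RA (m + 1)) (h : a.1.1 ≠ b.1.2) (t u : K), a.1.2 = b.1.1 ∧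
            g = FreeGroup.of (a, t) * FreeGroup.of (b, u) * (FreeGroup.of (a, t))⁻¹ * (FreeGroup.of (b, u))⁻¹ *
              (FreeGroup.of (⟨(a.1.1, b.1.2), h⟩, t * u))⁻¹}) = R
  have hf : ∀ r ∈ R, FreeGroup.lift (fun p : RA (m + 1) × K => xA p.1 p.2) r = 1 := by
    subst hR
    rintro r ((⟨a, t, u, rfl⟩ | ⟨a, b, t, u, h1, h2, rfl⟩) | ⟨⟨⟨i, j⟩, h1⟩, ⟨⟨k, l⟩, h2⟩, h, t, u, rfl, rfl⟩)
    · simp [xA_add]
    · simpa [← commutatorElement_def, commutatorElement_eq_one_iff_commute] using xA_commute h2 h1 t u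
    · simpa [← commutatorElement_def, mul_inv_eq_one] using xA_comm h1 h2 h t u
  have hrel : ∀ r ∈ R, PresentedGroup.mk R r = 1 := fun r hr => PresentedGroup.one_of_mem hr
  have hb := injective_of_steinberg (K := K) (by omega)
    (x := fun r t => (PresentedGroup.of (r, t) : PresentedGroup R))
    (fun r t u => by
      have := hrel _ (hR.subset <| Or.inl (Or.inl ⟨r, t, u, rfl⟩))
      simp only [map_mul, map_inv, mul_inv_eq_one] at this
      exact this.symm)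
    (fun r s h1 h2 t u => by
      have := hrel _ (hR.subset <| Or.inl (Or.inr ⟨r, s, t, u, h1, h2, rfl⟩))
      simp only [map_mul, map_inv] at this
      exact commutatorElement_eq_one_iff_commute.1 this)
    (fun i j k h1 h2 h3 t u => by
      have := hrel _ (hR.subset <| Or.inr ⟨⟨(i, j), h1⟩, ⟨(j, k), h2⟩, h3, t, u, rfl, rfl⟩)
      simp only [map_mul, map_inv] at this
      exact mul_inv_eq_one.1 this)
    (by
      rw [eq_top_iff, ← PresentedGroup.closure_range_of]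
      apply Subgroup.closure_mono
      rintro _ ⟨p, rfl⟩
      exact ⟨p.1, p.2, rfl⟩)
    (PresentedGroup.toGroup hf) fun _ _ => PresentedGroup.toGroup.of hf
  refine ⟨MulEquiv.ofBijective _ hb, fun a t => ?_⟩
  rw [MulEquiv.ofBijective_apply, PresentedGroup.toGroup.of]
  rfl

end Cfsg.Agent.S2401
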