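import Cfsg.Statements.S2405
import Cfsg.Agent.H40.TwoGenB
-- import your own Cfsg.Agent.* helpers here

set_option autoImplicit false
open Cfsg

namespace Cfsg.Agent.S2405

/-- Each Chevalley group of type G₂, B₂, D₄, F₄, E₆, E₇ or E₈ over a finite field is generated by two of its elements (types B₂ and G₂ over the field with two elements, where the group is not simple, excepted). -/
theorem result {F : Type*} [Field F] [Finite F] (D : Cfsg.Lie.ChevalleyDatum) (hD : D ∈ [Cfsg.Lie.chevG2, Cfsg.Lie.chevB2, Cfsg.Lie.chevD4, Cfsg.Lie.chevF4, Cfsg.Lie.chevE6, Cfsg.Lie.chevE7, Cfsg.Lie.chevE8])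
    (hF : D ∈ [Cfsg.Lie.chevB2, Cfsg.Lie.chevG2] → ∃ x : F, x ≠ 0 ∧ x ≠ 1) :
    ∃ a b : ↥(D.group F), Subgroup.closure ({a, b} : Set ↥(D.group F)) = ⊤ := by
  have := Fintype.ofFinite F
  have C := H34.cert hD
  have hun : ∀ c : ℤ, (c.natAbs == 1) = true → (c : F) ≠ 0 := fun c hc => by
    rcases Int.natAbs_eq_iff.1 (beq_iff_eq.1 hc) with rfl | rfl <;> simp
  have h3 : D ∈ [Cfsg.Lie.chevB2, Cfsg.Lie.chevG2] → 2 < Fintype.card F := fun h => by
    obtain ⟨x, h0, h1⟩ := hF h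
    exact Fintype.two_lt_card_iff.2 ⟨x, 0, 1, h0, h1, zero_ne_one⟩
  simp only [List.mem_cons, List.not_mem_nil, or_false] at hD
  rcases hD with rfl | rfl | rfl | rfl | rfl | rfl | rfl
  · exact H40.two_gen_two (C := C) [1, 0] 1 2 [0, 1]
      [.img 2, .imgi 1, .imgi 0, .img 1, .imgi 2, .imgi 3] 1 (h3 (by simp)) (by decide +kernel)
  · rcases (Nat.succ_le_of_lt (h3 (by simp))).eq_or_lt with h | h
    · refine H40.two_gen_one (C := C) [1, 0] 5 7 [0, 1]
        [.bwd 5 0, .bwd 6 0, .com 5 6 0, .img 7, .imgi 7]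
        (un := fun c => c.natAbs == 1 || c.natAbs == 2) (fun c hc => ?_) (by decide +kernel)
      have h2 : (2 : F) ≠ 0 := fun h2 => by
        have h0 := FiniteField.cast_card_eq_zero F
        rw [← h] at h0
        exact one_ne_zero (α := F) (by push_cast at h0; linear_combination h0 - h2)
      rcases Bool.or_eq_true_iff.1 hc with hc | hc
      · exact hun c hc
      · rcases Int.natAbs_eq_iff.1 (beq_iff_eq.1 hc) with rfl | rfl <;> simpa using h2
    · exact H40.two_gen_two (C := C) [1, 0] 1 0 [0, 1]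
        [.img 1, .imgi 0, .img 0, .imgi 1] 2 h (by decide +kernel)
  · exact H40.two_gen_one (C := C) [0, 1, 3, 1, 2, 0, 1, 0] 14 1 [0, 1, 0, 1]
      [.bwd 14 0, .com 14 13 0, .fwd 14 0, .com 14 8 0, .fwd 11 0, .fwd 6 0, .bwd 16 0, .ref 16 17 12,
        .fwd 12 1, .fwd 8 0, .ref 13 17 15, .bwd 15 0, .bwd 12 1] hun (by decide +kernel)
  · exact H40.two_gen_one (C := C) [3, 2, 1, 0] 25 3 [0, 0, 1, 1]
      [.fwd 25 0, .bwd 25 0, .bwd 24 0, .bwd 5 0, .bwd 17 0, .bwd 4 0, .bwd 16 0, .bwd 22 0,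
        .ref 31 23 30, .bwd 30 0, .com 25 24 0, .bwd 26 0, .bwd 6 0, .fwd 31 1, .bwd 23 0, .bwd 2 0,
        .fwd 30 1, .ref 5 19 3, .img 20, .ref 17 19 27, .bwd 1 0, .bwd 42 1, .bwd 11 0] hun
      (by decide +kernel)
  · exact H40.two_gen_one (C := C) [0, 1, 2, 3, 4, 5] 42 42 [0, 0, 1, 1, 0, 0]
      [.img 42, .img 47, .img 59, .img 52, .imgi 42, .imgi 56, .imgi 11, .imgi 23, .com 39 28 0,
        .imgi 29, .ref 42 52 49, .img 49, .com 59 11 0, .imgi 35, .imgi 34, .img 39, .img 37,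
        .com 42 56 0, .imgi 57, .com 52 26 0] hun (by decide +kernel)
  · exact H40.two_gen_one (C := C) [0, 1, 2, 3, 4, 5, 6] 66 66 [0, 0, 0, 0, 1, 1, 0]
      [.imgi 66, .imgi 69, .img 66, .img 64, .img 63, .com 86 23 0, .imgi 86, .com 63 97 0,
        .com 23 98 0, .img 32, .img 23, .img 51, .img 45, .img 28, .img 39, .img 56, .imgi 97,
        .imgi 80, .imgi 74, .imgi 102, .imgi 62, .ref 86 102 93, .img 93, .com 66 69 0, .imgi 70,
        .imgi 89, .imgi 114, .imgi 106, .imgi 87, .ref 86 111 95, .imgi 95] hun (by decide +kernel)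
  · exact H40.two_gen_one (C := C) [0, 1, 2, 3, 4, 5, 6, 7] 162 162 [0, 0, 1, 0, 0, 0, 0, 1]
      [.img 162, .img 135, .img 142, .img 165, .img 149, .imgi 162, .imgi 71, .imgi 94, .imgi 101,
        .imgi 59, .imgi 85, .imgi 47, .imgi 60, .imgi 86, .imgi 49, .img 176, .img 190, .img 153,
        .img 179, .img 192, .ref 176 154 77, .imgi 77, .com 190 47 0, .imgi 116, .imgi 113,
        .imgi 109, .ref 162 88 66, .ref 71 66 98, .img 77, .img 116, .img 118, .ref 190 192 123,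
        .img 123, .img 121, .imgi 123, .imgi 126, .com 101 149 0] hun (by decide +kernel)

end Cfsg.Agent.S2405
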