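import Cfsg.Statements.S2406
import Cfsg.Agent.H40.TwoGenC
import Cfsg.Agent.H34.TwE6
-- import your own Cfsg.Agent.* helpers here

set_option autoImplicit false
open Cfsg

namespace Cfsg.Agent.S2406

open Cfsg.Lie H34 H40

/-- The twisted group ²E₆(q) (realised inside E₆ over the field with `q²` elements) is generated by two of its elements. -/
theorem result {K : Type*} [Field K] [Fintype K] {q : ℕ} (hq : IsPrimePow q) (hK : Fintype.card K = q ^ 2) :
    ∃ a b : ↥(Cfsg.Lie.twistedE6 K q), Subgroup.closure ({a, b} : Set ↥(Cfsg.Lie.twistedE6 K q)) = ⊤ := by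
  obtain ⟨φ, hφ, h3, hK3⟩ := exists_frob2 hq hK
  have ho : OrbList chevE6 symE6 (0 : Fin 6) [56, 36] := by decide +kernel
  have hY : ∀ y, y ∈ YL (tE6 φ h3) [56, 36] ↔ ∃ t, y = cE6.wg K [(56, t), (36, φ t)] := fun y => by
    rw [← E6_UJ2 φ h3 (p := (56, 36)) (by simp) ho]
    exact (SetLike.ext_iff.1 (UJ_eq_YL _ _ _ ho) y).symm
  have hW := isOrbWords_E6 (isCartan_E6 cE6) _ (E6_π φ h3)
  obtain ⟨a, ha⟩ := IsCyclic.exists_generator (α := Kˣ)
  have ha2 : a ^ (2 : ℤ) ≠ 1 := zpow_ne_one_of_card ha two_ne_zero hK3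
  refine two_gen_tw1 (twE6 φ h3 hφ) (r := ⟨56, by decide +kernel⟩)
    (rp_of_add _ ho.1 ho.pos (fun _ => rfl) (fun _ => by simp) hY fun t u => ?_)
    ho.pos (LW.G1 hW rfl [0, 2, 3, 1]) _
    (E6_par_mem φ h3 (a, 1, 1, 1)) ?_ ?_ fun M hM h1 h2 => ?_
  · simp only [Cert.wg_cons, Cert.wg_nil, mul_one, map_add, Cert.xg_add]
    rw [(Cert.commute_xg (C := cE6) (r := 36) (s := 56) (by decide +kernel) _ _).mul_mul_mul_comm]
  · rw [torE6 _ (a0 := 2) (a1 := 0) (a2 := -1) (a3 := 0) (a4 := 0) (a5 := 0) (by decide +kernel)]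
    simpa [parE6] using good_zpow ha dvd_rfl ha2
  · rw [torE6 _ (a0 := -1) (a1 := -1) (a2 := 0) (a3 := 0) (a4 := 1) (a5 := 0) (by decide +kernel)]
    intro h
    exact ha2 (by rw [show a = 1 by simpa [parE6] using h, one_zpow])
  change (tE6 φ h3).G1 ≤ M
  have hg0 : ∀ g ∈ [[0, 5, 2, 4, 3, 1]], LW (tE6 φ h3) M g := List.forall_mem_singleton.2 h2
  have hg : ∀ g ∈ [[0, 5, 2, 4, 3, 1], [0, 5]], LW (tE6 φ h3) M g :=
    List.forall_mem_cons.2 ⟨h2, List.forall_mem_singleton.2 (LW.orb hW (0 : Fin 6)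
      ((UJ_eq_YL _ _ _ ho).le.trans h1) ((VJ_le_YL _ _ _ ho).trans
        (YL_le_word hg0 h1 [0, 0, 0, 0, 0, 0] _ (by decide +kernel))))⟩
  obtain ⟨u, hu, H⟩ := (LW.flat hg0 [0, 0, 0]).exists_long (δ := 63) (L := [56, 36])
    (by decide +kernel) (h1 ((hY _).2 ⟨1, by simp⟩))
  have h9 : YL (tE6 φ h3) [63] ≤ M := by
    refine YL_single _ _ _ hM (by decide +kernel) (by decide +kernel) φ
      (sE6_f φ (by decide +kernel)) _ (fun t => H _ (by simp) (h1 ((hY _).2 ⟨t, rfl⟩)))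
      (fun b t hb => by simp [hb]; ring) ?_
    by_contra! h
    have hs : φ a ≠ a := fun e => by
      have hq2 := hq.two_le
      refine zpow_ne_one_of_card ha (e := (q - 1 : ℕ)) (by omega) ?_ (Units.ext ?_)
      · rw [hK, Int.natAbs_natCast, Nat.sub_add_cancel (by omega)]
        nlinarith
      · rw [hφ, ← Nat.sub_add_cancel (show 1 ≤ q by omega), pow_succ, mul_eq_right₀ a.ne_zero] at e
        simpa using e
    have e1 := h 1
    have e2 := h a
    generalize hl : [0, 0, 0].flatMap (fun i => [[0, 5, 2, 4, 3, 1]].getD i []) = l at e1 e2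
    obtain ⟨c1, c2⟩ : cc chevE6 56 (l.foldr chevE6.reflectRoot 56) = 0 ∧
      cc chevE6 56 (l.foldr chevE6.reflectRoot 36) = -1 := by subst hl; decide +kernel
    simp only [List.map_cons, List.map_nil, List.sum_cons, List.sum_nil, map_one, c1, c2,
      Int.cast_one, Int.cast_zero, Int.cast_neg] at e1 e2
    exact mul_ne_zero (hu 36) (sub_ne_zero.2 hs) (by linear_combination -e2 + φ a * e1)
  refine G1_le_of_YL (sE6 φ) twDataE6 _ [[46], [39], [56, 36], [42, 37]] (by decide +kernel) ?_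
  simp only [List.forall_mem_cons, List.not_mem_nil, IsEmpty.forall_iff, implies_true, and_true]
  exact ⟨⟨YL_le_word hg h9 [0, 0, 1] _ (by decide +kernel),
      YL_le_word hg h9 [0, 0, 1, 0, 0, 0, 1] _ (by decide +kernel)⟩,
    ⟨YL_le_word hg h9 [0, 1] _ (by decide +kernel),
      YL_le_word hg h9 [0, 1, 0, 0, 0, 1] _ (by decide +kernel)⟩,
    ⟨h1, YL_le_word hg h1 [1] _ (by decide +kernel)⟩,
    YL_le_word hg h1 [0] _ (by decide +kernel), YL_le_word hg h1 [0, 1] _ (by decide +kernel)⟩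

end Cfsg.Agent.S2406
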