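import Cfsg.Statements.S2407
import Cfsg.Agent.H40.TwoGenC
import Cfsg.Agent.H34.TwD4
-- import your own Cfsg.Agent.* helpers here

set_option autoImplicit false
open Cfsg

namespace Cfsg.Agent.S2407

open Cfsg.Lie H34 H40

/-- The twisted group ³D₄(q) (realised inside D₄ over the field with `q³` elements) is generated by two of its elements. -/
theorem result {K : Type*} [Field K] [Fintype K] {q : ℕ} (hq : IsPrimePow q) (hK : Fintype.card K = q ^ 3) :
    ∃ a b : ↥(Cfsg.Lie.twistedD4 K q), Subgroup.closure ({a, b} : Set ↥(Cfsg.Lie.twistedD4 K q)) = ⊤ := by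
  obtain ⟨φ, hφ, h3, hK3⟩ := exists_frob3 hq hK
  have hY : ∀ y, y ∈ YL (tD4 φ h3) [18, 13, 12] ↔
      ∃ t, y = cD4.wg K [(18, t), (13, φ t), (12, φ (φ t))] := fun y => by
    rw [← D4_UJ3 φ h3 orbD4_3]
    exact (SetLike.ext_iff.1 (UJ_eq_YL _ _ _ orbD4_3) y).symm
  have hc : ∀ {r s : ℕ}, Cert.Orth chevD4 r s → ∀ t u, Commute (cD4.xg K r t) (cD4.xg K s u) :=
    fun h => Cert.commute_xg (h _ (by simp) _ (by simp))
  obtain ⟨a, ha⟩ := IsCyclic.exists_generator (α := Kˣ)
  have ha2 : a ^ (2 : ℤ) ≠ 1 := zpow_ne_one_of_card ha two_ne_zero hK3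
  refine two_gen_tw1 (twD4 φ h3 hφ) (r := ⟨18, by decide +kernel⟩)
    (rp_of_add _ orbD4_3.1 orbD4_3.pos (fun _ => rfl) (fun _ => by simp) hY fun t u => ?_)
    orbD4_3.pos (LW.G1 (isOrbWords_D4 (isCartan_D4 cD4) _ (D4_π φ h3)) rfl [1, 0]) _
    (D4_par_mem φ h3 (a, 1)) ?_ ?_ fun M hM h1 h2 => ?_
  · simp only [Cert.wg_cons, Cert.wg_nil, mul_one, map_add, Cert.xg_add]
    rw [((hc orthD4.1 _ _).mul_right (hc orthD4.2.1 _ _)).symm.mul_mul_mul_comm,
      (hc orthD4.2.2 _ _).symm.mul_mul_mul_comm]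
  · rw [torD4 _ (a0 := 2) (a1 := -1) (a2 := 0) (a3 := 0) (by decide +kernel)]
    simpa [parD4] using good_zpow ha dvd_rfl ha2
  · rw [torD4 _ (a0 := -1) (a1 := 0) (a2 := 1) (a3 := 1) (by decide +kernel)]
    intro h
    have e : φ a * φ (φ a) = a := by
      have : (a : K) = φ a * φ (φ a) := by
        simpa [parD4, mul_assoc, inv_mul_eq_one₀] using congrArg Units.val h
      exact this.symm
    have e' := congrArg φ e
    rw [map_mul, h3] at e'
    have e2 : φ (φ ((a : K) ^ 2)) = φ (φ 1) := mul_right_cancel₀ a.ne_zero (by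
      simp only [map_pow, map_one]
      linear_combination e + φ (φ a) * e')
    exact ha2 (Units.ext (by simpa [zpow_ofNat] using φ.injective (φ.injective e2)))
  have hg : ∀ g ∈ [[1, 0, 2, 3]], LW (tD4 φ h3) M g := List.forall_mem_singleton.2 h2
  obtain ⟨u, hu, H⟩ := h2.exists_long (δ := 9) (L := [18, 13, 12]) (by decide +kernel)
    (h1 ((hY _).2 ⟨1, by simp⟩))
  have h9 : YL (tD4 φ h3) [9] ≤ M := by
    refine YL_single _ _ _ hM (by decide +kernel) (by decide +kernel) φ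
      (sD4_f φ (by decide +kernel)) _ (fun t => H _ (by simp) (h1 ((hY _).2 ⟨t, rfl⟩)))
      (fun b t hb => by simp [hb]; ring) ?_
    by_contra! h
    have hs : φ a ≠ a := fun e => by
      have hq2 := hq.two_le
      refine zpow_ne_one_of_card ha (e := (q - 1 : ℕ)) (by omega) ?_ (Units.ext ?_)
      · rw [hK, Int.natAbs_natCast, Nat.sub_add_cancel (by omega)]
        nlinarith [Nat.pow_le_pow_left hq2 2]
      · rw [hφ, ← Nat.sub_add_cancel (show 1 ≤ q by omega), pow_succ, mul_eq_right₀ a.ne_zero] at e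
        simpa using e
    have hs' : φ (φ a) ≠ a := fun e => hs ((congrArg φ e).symm.trans (h3 a))
    have e1 := h 1
    have e2 := h a
    have e3 := h (a * a)
    obtain ⟨c1, c2, c3⟩ : cc chevD4 18 ([1, 0, 2, 3].foldr chevD4.reflectRoot 18) = 1 ∧
      cc chevD4 18 ([1, 0, 2, 3].foldr chevD4.reflectRoot 13) = 0 ∧
      cc chevD4 18 ([1, 0, 2, 3].foldr chevD4.reflectRoot 12) = 0 := by decide +kernel
    simp only [List.map_cons, List.map_nil, List.sum_cons, List.sum_nil, map_one, map_mul,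
      show [1, 0].flatMap (fun i => orbwD4.getD i []) = [1, 0, 2, 3] from rfl, c1, c2, c3,
      Int.cast_one, Int.cast_zero] at e1 e2 e3
    exact mul_ne_zero (mul_ne_zero (hu 18) (sub_ne_zero.2 hs)) (sub_ne_zero.2 hs') (by
      linear_combination -e3 + (φ a + φ (φ a)) * e2 - φ a * φ (φ a) * e1)
  change (tD4 φ h3).G1 ≤ M
  refine G1_le_of_YL (sD4 φ) twDataD4 _ [[14], [18, 13, 12]] (fun i => by simpa using orbD4 i) ?_
  simp only [List.forall_mem_cons, List.not_mem_nil, IsEmpty.forall_iff, implies_true, and_true]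
  exact ⟨⟨YL_le_word hg h9 [0, 0, 0] _ (by decide +kernel), YL_le_word hg h9 [] _ (by decide +kernel)⟩,
    h1, YL_le_word hg h1 [0, 0, 0] _ (by decide +kernel)⟩

end Cfsg.Agent.S2407
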