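import Cfsg.Statements.S2408
import Cfsg.Agent.H40.TwoGenC
import Cfsg.Agent.H34.TwF4
-- import your own Cfsg.Agent.* helpers here

set_option autoImplicit false
open Cfsg

namespace Cfsg.Agent.S2408

open Cfsg.Lie H34 H40

section

variable {K : Type*} [Field K] (θ : K →+* K)

/-- `x ↦ x^m θ(x)^n` -/
def fm (m n : ℤ) : Kˣ →* Kˣ := zpowGroupHom m * (zpowGroupHom n).comp (Units.map (θ : K →* K))

theorem fm_apply (m n : ℤ) (x : Kˣ) : fm θ m n x = x ^ m * Units.map (θ : K →* K) x ^ n := rfl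

variable [CharP K 2] (h2 : ∀ t, θ (θ t) ^ 2 = t)

include h2 in
theorem fm_inj {m n : ℤ} (h : (2 * m ^ 2 - n ^ 2).natAbs ∣ 4) :
    Function.Injective (fm θ m n) := by
  refine (injective_iff_map_eq_one _).2 fun x hx => ?_
  rw [fm_apply] at hx
  have e : Units.map (θ : K →* K) (Units.map (θ : K →* K) x) ^ (2 : ℤ) = x :=
    Units.ext (by simpa [zpow_ofNat] using h2 x)
  have h1 := congrArg (fun y => Units.map (θ : K →* K) y ^ (2 : ℤ)) hx
  simp only [map_mul, map_zpow, map_one, one_zpow, mul_zpow, ← zpow_mul] at h1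
  rw [mul_comm n, zpow_mul _ 2, e] at h1
  have h3 := congrArg (· ^ n) h1
  simp only [mul_zpow, one_zpow, ← zpow_mul] at h3
  rw [mul_comm (m * 2) n, zpow_mul, eq_inv_of_mul_eq_one_right hx, ← zpow_neg, ← zpow_mul, ← zpow_add,
    ← orderOf_dvd_iff_zpow_eq_one, show -m * (m * 2) + n * n = -(2 * m ^ 2 - n ^ 2) by ring,
    dvd_neg, Int.natCast_dvd] at h3
  have hs : ∀ y : Kˣ, y ^ 2 = 1 → y = 1 := fun y hy =>
    Units.ext ((frobenius K 2).injective ((congrArg Units.val hy).trans (map_one _).symm))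
  exact hs _ (hs _ (by rw [← pow_mul]; exact orderOf_dvd_iff_pow_eq_one.1 (h3.trans h)))

omit θ in
theorem prodb (A T Z Y A' T' Z' Y' : K) :
    cF4.wg K [(27, A), (25, T), (28, Z), (30, Y)] * cF4.wg K [(27, A'), (25, T'), (28, Z'), (30, Y')] =
      cF4.wg K [(27, A + A'), (25, T + T'), (28, A' * T + Z + Z'), (30, A' ^ 2 * T + Y + Y')] := by
  obtain ⟨μ, hμ⟩ := exists_mu6 A' T Z Y T' Z'
  have := F4_wg_eq μ (L := [(25, 1, mon 0 1 0 0 0 0), (28, 1, mon 0 0 1 0 0 0),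
    (30, 1, mon 0 0 0 1 0 0), (27, 1, mon 1 0 0 0 0 0), (25, 1, mon 0 0 0 0 1 0),
    (28, 1, mon 0 0 0 0 0 1)]) (R := [(27, 1, mon 1 0 0 0 0 0),
    (25, 1, mon 0 1 0 0 0 0), (25, 1, mon 0 0 0 0 1 0), (28, 1, mon 1 1 0 0 0 0),
    (28, 1, mon 0 0 1 0 0 0), (28, 1, mon 0 0 0 0 0 1),
    (30, 1, mon 2 1 0 0 0 0), (30, 1, mon 0 0 0 1 0 0)]) (by decide +kernel)
  simpa [H37.wordOf, hμ, Cert.xg_add, mul_assoc] using
    congrArg (fun g => cF4.xg K 27 A * g * cF4.xg K 30 Y') this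

theorem rpa : RP (tF4 θ h2) [33, 24] ⟨24, by decide +kernel⟩ :=
  rp_of_add (wF4a θ) orbF4_0.1 orbF4_0.pos (fun _ => rfl) (fun _ => by simp [wF4a])
    (fun y => (SetLike.ext_iff.1 (UJ_eq_YL _ _ _ orbF4_0) y).symm.trans (F4_UJa θ h2 orbF4_0))
    fun t u => by
      simp only [wF4a, Cert.wg_cons, Cert.wg_nil, mul_one, map_add, Cert.xg_add]
      rw [(Cert.commute_xg (C := cF4) (r := 24) (s := 33) (by decide +kernel) _ _).mul_mul_mul_comm]

theorem rpb [Finite K] : RP (tF4 θ h2) [27, 25, 28, 30] ⟨25, by decide +kernel⟩ := by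
  have hY : ∀ y, y ∈ YL (tF4 θ h2) [27, 25, 28, 30] ↔ ∃ p : K × K, y = cF4.wg K (wF4b θ p.1 p.2) :=
    fun y => (SetLike.ext_iff.1 (UJ_eq_YL _ _ _ orbF4_1) y).symm.trans
      ((F4_UJb θ h2 orbF4_1).trans (by simp))
  have hm : ∀ t a t' a', cF4.wg K (wF4b θ t a) * cF4.wg K (wF4b θ t' a') =
      cF4.wg K (wF4b θ (t + t') (a + a' + θ t * t')) := fun t a t' a' => by
    obtain ⟨⟨s, b⟩, e⟩ := (hY _).1 (mul_mem ((hY _).2 ⟨(t, a), rfl⟩) ((hY _).2 ⟨(t', a'), rfl⟩))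
    have e' := Cert.wg_inj (by rfl) (by exact orbF4_1.1) (by exact orbF4_1.pos)
      ((prodb ..).symm.trans e)
    simp only [wF4b, List.cons.injEq, Prod.mk.injEq, true_and, and_true] at e'
    obtain ⟨-, rfl, e2, -⟩ := e'
    rw [e, show b = a + a' + θ t * t' by
      rw [map_add] at e2
      linear_combination -e2 - (θ t * t') * CharTwo.two_eq_zero (R := K)]
  refine rp_of_param (fun p : K × K => wF4b θ p.1 p.2) Prod.fst orbF4_1.1 orbF4_1.pos
    (fun _ => rfl) (fun _ => by simp [wF4b]) hY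
    (fun p p' => ⟨_, rfl, hm .., by simp [wF4b]⟩) (fun M h => ?_) ⟨(1, 0), one_ne_zero⟩
  have h0 : ∀ a, cF4.wg K (wF4b θ 0 a) ∈ M := fun a => by
    by_cases ha : a = 0
    · simp [ha, wF4b, Cert.xg_zero]
    obtain ⟨y, hy⟩ := Finite.surjective_of_injective (fm_inj θ h2 (m := 1) (n := 1) (by decide))
      (Units.mk0 a ha)
    obtain ⟨⟨t, b⟩, h1, rfl⟩ := h y
    have e : (y : K) * θ y = a := by simpa [fm_apply] using congrArg Units.val hy
    simpa [hm, CharTwo.add_self_eq_zero, mul_comm, e] using mul_mem h1 h1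
  rintro ⟨t, a⟩
  obtain ⟨⟨t, b⟩, h1, rfl⟩ := h t
  simpa [hm] using mul_mem h1 (h0 (a - b))

end

/-- The large Ree group ²F₄(2^(2m+1)) with `m ≥ 1` is generated by two of its elements. -/
theorem result {K : Type*} [Field K] [Fintype K] {m : ℕ} (hm : 1 ≤ m) (hK : Fintype.card K = 2 ^ (2 * m + 1)) :
    ∃ a b : ↥(Cfsg.Lie.twistedF4 K (2 ^ m)), Subgroup.closure ({a, b} : Set ↥(Cfsg.Lie.twistedF4 K (2 ^ m))) = ⊤ := by
  have : Fact (Nat.Prime 2) := ⟨Nat.prime_two⟩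
  obtain ⟨_, θ, hθ, h2⟩ := exists_theta hK
  have hW := isOrbWords_F4 (isCartan_F4 cF4) _ (F4_π θ h2)
  obtain ⟨a, ha⟩ := IsCyclic.exists_generator (α := Kˣ)
  have ha1 : a ≠ 1 := by
    have : 2 ^ 3 ≤ 2 ^ (2 * m + 1) := Nat.pow_le_pow_right two_pos (by omega)
    simpa using zpow_ne_one_of_card ha one_ne_zero (by rw [hK]; exact lt_of_lt_of_le (by norm_num) this)
  have hc : ∀ k, torChar chevF4 (parF4 θ (a ^ 2, a)) k =
      fm θ (lex chevF4 [0, 0, 2, 1] k) (lex chevF4 [1, 2, 0, 0] k) a := fun k => by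
    rw [fm_apply, ← torChar_lex, ← torChar_lex, ← Cert.torChar_mul]
    congr 1
    funext (i : Fin 4)
    change _ = a ^ [0, 0, 2, 1].getD i (0 : ℤ) * Units.map (θ : K →* K) a ^ [1, 2, 0, 0].getD i (0 : ℤ)
    fin_cases i <;> simp [parF4, zpow_ofNat]
  have hg : ∀ k, (2 * lex chevF4 [0, 0, 2, 1] k ^ 2 - lex chevF4 [1, 2, 0, 0] k ^ 2).natAbs ∣ 4 →
      Good (torChar chevF4 (parF4 θ (a ^ 2, a)) k : K) := fun k hk => by
    have hi := fm_inj θ h2 hk
    rw [hc]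
    refine good_of_sq (fun e => ha1 (hi (e.trans (map_one _).symm))) fun x => ?_
    obtain ⟨y, hy⟩ := Finite.surjective_of_injective hi (x ^ 2)
    rw [← hy, ← MonoidHom.map_zpowers]
    exact Subgroup.mem_map_of_mem _ (ha y)
  refine two_gen_tw2 (twF4 θ h2 hθ) (r := ⟨26, by decide +kernel⟩) (s := ⟨24, by decide +kernel⟩)
    (L := [34, 26, 36, 42])
    ((rpb θ h2).word (LW.G1 hW rfl [0]) (by decide +kernel) (by decide +kernel)) (rpa θ h2)
    (by decide +kernel) orbF4_0.pos (by decide +kernel) (LW.G1 hW rfl [1, 0]) _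
    (F4_par_mem θ h2 (a ^ 2, a)) (fun k hk => ?_) (hg _ (by decide +kernel))
    (fun e => (hg _ (by decide +kernel)).1 (congrArg Units.val e)) (hg _ (by decide +kernel))
    (fun e => (hg _ (by decide +kernel)).1 (congrArg Units.val e)) fun M h1 h3 h4 => ?_
  · have : lex chevF4 [0, 0, 2, 1] k = 0 ∧ lex chevF4 [1, 2, 0, 0] k = 0 := by
      revert k; decide +kernel
    rw [hc, this.1, this.2, fm_apply, zpow_zero, zpow_zero, mul_one]
  change (tF4 θ h2).G1 ≤ M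
  have hg : ∀ g ∈ [[1, 2, 1, 2, 0, 3]], LW (tF4 θ h2) M g := List.forall_mem_singleton.2 h4
  refine G1_le_of_YL (sF4 θ h2) twDataF4 _ [[33, 24], [27, 25, 28, 30]] (by decide +kernel) ?_
  simp only [List.forall_mem_cons, List.not_mem_nil, IsEmpty.forall_iff, implies_true, and_true]
  exact ⟨⟨h3, YL_le_word hg h3 [0, 0, 0, 0] _ (by decide +kernel)⟩,
    YL_le_word hg h1 [0, 0, 0, 0, 0] _ (by decide +kernel),
    YL_le_word hg h1 [0] _ (by decide +kernel)⟩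

end Cfsg.Agent.S2408
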