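import Cfsg.Statements.S2413
import Cfsg.Agent.H79.OTwoGen
import Cfsg.Agent.S0301

set_option autoImplicit false
open Cfsg

namespace Cfsg.Agent.S2413

/-- The simple orthogonal group `PΩ_{2m+1}(q)` (commutator subgroup of the orthogonal group of `x₀² + Σ x_i y_i` modulo its centre) with `m ≥ 2` and `q` odd is generated by two of its elements. -/
theorem result {F : Type*} [Field F] [Fintype F] (hodd : Odd (Fintype.card F)) (m : ℕ) (hm : 2 ≤ m) :
    ∃ a b : Cfsg.POmega F (Cfsg.quadFormOdd m F), Subgroup.closure ({a, b} : Set (Cfsg.POmega F (Cfsg.quadFormOdd m F))) = ⊤ := by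
  by_cases h2 : m = 2
  · subst h2
    obtain ⟨e⟩ := Cfsg.Agent.S0301.result hodd
    obtain ⟨a, b, h⟩ := H78.psp_two_gen (F := F) (n := 2) le_rfl fun _ => by
      have h1 : 1 < Fintype.card F := Fintype.one_lt_card
      obtain ⟨k, hk⟩ := hodd
      omega
    refine ⟨e.symm a, e.symm b, ?_⟩
    have := congrArg (Subgroup.map e.symm.toMonoidHom) h
    rwa [MonoidHom.map_closure, Set.image_pair,
      Subgroup.map_top_of_surjective _ e.symm.surjective] at this
  have h2' : (2 : F) ≠ 0 := by
    intro h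
    have hc : ringChar F = 2 := CharP.ringChar_of_prime_eq_zero Nat.prime_two (by simpa using h)
    have := FiniteField.even_card_of_char_two hc
    obtain ⟨k, hk⟩ := hodd
    omega
  refine H79.pomega_two_gen_of_frame (Q := H30.qOdd F m) (H30.qOdd_nondegenerate h2' m)
    (n := m) (by omega) (e := fun i => Pi.single (.inr (.inl i)) 1)
    (f := fun i => Pi.single (.inr (.inr i)) 1) ⟨?_, ?_, ?_, ?_, ?_⟩
    (u := Pi.single (.inl ()) 1) (y := Pi.single (.inl ()) 1) ?_ ?_ ?_ ?_ ?_
  · intro i; simp [H30.qOdd_apply]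
  · intro i; simp [H30.qOdd_apply]
  · intro i j; simp [H30.polar_qOdd, Pi.single_apply, eq_comm]
  · intro i j; simp [H30.polar_qOdd]
  · intro i j; simp [H30.polar_qOdd]
  · intro i; simp [H30.polar_qOdd]
  · intro i; simp [H30.polar_qOdd]
  · simp [H30.qOdd_apply]
  · simpa [H30.qOdd_apply] using h2'
  · intro x hx
    refine Submodule.mem_span_pair.2 ⟨x (.inl ()), 0, ?_⟩
    ext (_ | j | j)
    · simp
    · simpa [H30.polar_qOdd, Pi.single_apply, eq_comm] using (hx j).2
    · simpa [H30.polar_qOdd, Pi.single_apply, eq_comm] using (hx j).1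

end Cfsg.Agent.S2413
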