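import Cfsg.Statements.S2414
import Cfsg.Agent.H79.OTwoGen

set_option autoImplicit false
open Cfsg

namespace Cfsg.Agent.S2414

/-- The simple orthogonal group `PΩ⁺_{2m}(q)` (commutator subgroup of the orthogonal group of `Σ x_i y_i` modulo its centre) with `m ≥ 4` is generated by two of its elements. -/
theorem result {F : Type*} [Field F] [Fintype F] (m : ℕ) (hm : 4 ≤ m) :
    ∃ a b : Cfsg.POmega F (Cfsg.quadFormPlus m F), Subgroup.closure ({a, b} : Set (Cfsg.POmega F (Cfsg.quadFormPlus m F))) = ⊤ := by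
  obtain ⟨n, rfl⟩ : ∃ n, m = n + 1 := ⟨m - 1, by omega⟩
  refine H79.pomega_two_gen_of_frame (Q := H30.qPlus F (n + 1)) (H30.qPlus_nondegenerate _)
    (n := n) (by omega) (e := fun i => Pi.single (.inl i.castSucc) 1)
    (f := fun i => Pi.single (.inr i.castSucc) 1) ⟨?_, ?_, ?_, ?_, ?_⟩
    (u := Pi.single (.inl (Fin.last n)) 1 + Pi.single (.inr (Fin.last n)) 1)
    (y := Pi.single (.inl (Fin.last n)) 1) ?_ ?_ ?_ ?_ ?_
  · intro i; simp [H30.qPlus_apply]
  · intro i; simp [H30.qPlus_apply]
  · intro i j; simp [H30.polar_qPlus, Pi.single_apply, eq_comm]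
  · intro i j; simp [H30.polar_qPlus]
  · intro i j; simp [H30.polar_qPlus]
  · intro i; simp [H30.polar_qPlus, Pi.single_apply, Fin.castSucc_ne_last]
  · intro i; simp [H30.polar_qPlus, Pi.single_apply, Fin.castSucc_ne_last]
  · simp [H30.qPlus_apply, Pi.single_apply]
  · simp [H30.polar_qPlus, H30.qPlus_apply, Pi.single_apply]
  · intro x hx
    refine Submodule.mem_span_pair.2
      ⟨x (.inl (Fin.last n)) - x (.inr (Fin.last n)), x (.inr (Fin.last n)), ?_⟩
    ext (j | j)
    · refine Fin.lastCases ?_ (fun j => ?_) j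
      · simp
      · simpa [H30.polar_qPlus, Pi.single_apply, eq_comm, Fin.castSucc_ne_last,
          (Fin.castSucc_ne_last _).symm] using (hx j).2
    · refine Fin.lastCases ?_ (fun j => ?_) j
      · simp
      · simpa [H30.polar_qPlus, Pi.single_apply, eq_comm, Fin.castSucc_ne_last,
          (Fin.castSucc_ne_last _).symm] using (hx j).1

end Cfsg.Agent.S2414
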