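import Cfsg.Statements.S2415
import Cfsg.Agent.H79.OTwoGen

set_option autoImplicit false
open Cfsg

namespace Cfsg.Agent.S2415

/-- The simple orthogonal group `PΩ⁻_{2m}(q)` with `m ≥ 4` (commutator subgroup, modulo its centre, of the orthogonal group of `Σ_{i<m−1} x_i y_i + z₁² + a z₁z₂ + b z₂²` with the binary part anisotropic) is generated by two of its elements. -/
theorem result {F : Type*} [Field F] [Fintype F] (m : ℕ) (hm : 4 ≤ m) (a b : F)
    (hab : ∀ z₁ z₂ : F, z₁ ^ 2 + a * z₁ * z₂ + b * z₂ ^ 2 = 0 → z₁ = 0 ∧ z₂ = 0) :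
    ∃ g h : Cfsg.POmega F (Cfsg.quadFormMinus (m - 1) F a b),
      Subgroup.closure ({g, h} : Set (Cfsg.POmega F (Cfsg.quadFormMinus (m - 1) F a b))) = ⊤ := by
  have hd := H30.disc_ne_zero_of_anisotropic hab
  obtain ⟨l, hl⟩ : ∃ l : F, a + 2 * l ≠ 0 := by
    by_cases ha : a = 0
    · refine ⟨1, fun h => hd ?_⟩
      rw [ha] at h ⊢
      linear_combination (-2 * b) * h
    · exact ⟨0, by simpa using ha⟩
  refine H79.pomega_two_gen_of_frame (Q := H30.qMinus F (m - 1) a b)
    (H30.qMinus_nondegenerate' _ hd)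
    (n := m - 1) (by omega) (e := fun i => Pi.single (.inl (.inl i)) 1)
    (f := fun i => Pi.single (.inl (.inr i)) 1) ⟨?_, ?_, ?_, ?_, ?_⟩
    (u := Pi.single (.inr 0) 1) (y := Pi.single (.inr 1) 1 + Pi.single (.inr 0) l) ?_ ?_ ?_ ?_ ?_
  · intro i; simp [H30.qMinus_apply]
  · intro i; simp [H30.qMinus_apply]
  · intro i j; simp [H30.polar_qMinus, Pi.single_apply, eq_comm]
  · intro i j; simp [H30.polar_qMinus]
  · intro i j; simp [H30.polar_qMinus]
  · intro i; simp [H30.polar_qMinus]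
  · intro i; simp [H30.polar_qMinus]
  · simp [H30.qMinus_apply]
  · simpa [H30.polar_qMinus, add_comm] using hl
  · intro x hx
    refine Submodule.mem_span_pair.2 ⟨x (.inr 1), x (.inr 0) - x (.inr 1) * l, ?_⟩
    ext ((j | j) | j)
    · simpa [H30.polar_qMinus, Pi.single_apply, eq_comm] using (hx j).2
    · simpa [H30.polar_qMinus, Pi.single_apply, eq_comm] using (hx j).1
    · fin_cases j <;> simp

end Cfsg.Agent.S2415
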