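import Cfsg.Statements.S2416
import Cfsg.Agent.H40.Cent2
-- import your own Cfsg.Agent.* helpers here

set_option autoImplicit false
open scoped MatrixGroups
open Cfsg

namespace Cfsg.Agent.S2416

/-- A Chevalley group of type G₂, B₂, D₄, F₄, E₆, E₇ or E₈ over a finite field lies in (indeed equals) the subgroup generated by its monomial subgroup `N` and a single fundamental root subgroup `X_p`, where `p` is a short fundamental root if there are two root lengths (any fundamental root otherwise), provided the characteristic is not 2 for types B₂, F₄ and not 3 for type G₂ (and the field has more than two elements for B₂, G₂). -/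
theorem result {K : Type*} [Field K] [Finite K] (D : Cfsg.Lie.ChevalleyDatum) (hD : D ∈ [Cfsg.Lie.chevG2, Cfsg.Lie.chevB2, Cfsg.Lie.chevD4, Cfsg.Lie.chevF4, Cfsg.Lie.chevE6, Cfsg.Lie.chevE7, Cfsg.Lie.chevE8])
    (hK : D ∈ [Cfsg.Lie.chevB2, Cfsg.Lie.chevG2] → ∃ x : K, x ≠ 0 ∧ x ≠ 1)
    (h2 : D ∈ [Cfsg.Lie.chevB2, Cfsg.Lie.chevF4] → ringChar K ≠ 2) (h3 : D = Cfsg.Lie.chevG2 → ringChar K ≠ 3)
    (i : ℕ) (hi : i < D.rank) (hshort : D.isLong (D.simple i) = false) :
    D.group K ≤ D.monomialSubgroup K ⊔ D.rootSubgroup K (D.simple i) := by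
  have C := H34.cert hD
  obtain ⟨d, hd⟩ := H40.exists_connCert hD
  refine H40.group_le_of_simple C le_sup_left fun hN => ?_
  have h0 : ∀ t, C.xg K (D.simple i) t ∈ (D.monomialSubgroup K ⊔ D.rootSubgroup K (D.simple i)).subgroupOf
      (D.group K) := fun t => Subgroup.mem_sup_right (C.V.mem_rootSubgroup_iff.2 ⟨t, rfl⟩)
  have hc : ∀ p : ℕ, p.Prime → ringChar K ≠ p → (((p : ℕ) : ℤ) : K) ≠ 0 := fun p hp h e =>
    h (CharP.ringChar_of_prime_eq_zero hp (by simpa using e))
  generalize (D.monomialSubgroup K ⊔ D.rootSubgroup K (D.simple i)).subgroupOf (D.group K) = M at hN h0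
  simp only [List.mem_cons, List.not_mem_nil, or_false] at hD
  rcases hD with rfl | rfl | rfl | rfl | rfl | rfl | rfl
  · obtain rfl : i = 0 := by clear h0; revert i; decide +kernel
    have a1 : ∀ t, C.xg K 9 t ∈ M := H40.X_refl_le hN (i := 0) (r := 8) (by decide) (by decide)
      (H40.X_refl_le hN (i := 1) (r := 7) (by decide) (by decide) h0)
    have a2 : ∀ t, C.xg K 6 t ∈ M := H40.X_refl_le hN (i := 0) (r := 10) (by decide) (by decide)
      (H40.xg_mem_of_comm (r := 7) (s := 9) (by decide +kernel) (hc 3 (by norm_num) (h3 rfl)) h0 a1)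
    intro j hj
    change j < 2 at hj
    interval_cases j
    exacts [h0, a2]
  · obtain rfl : i = 0 := by clear h0; revert i; decide +kernel
    have a1 : ∀ t, C.xg K 6 t ∈ M := H40.X_refl_le hN (i := 1) (r := 5) (by decide) (by decide) h0
    have a2 : ∀ t, C.xg K 4 t ∈ M := H40.X_refl_le hN (i := 0) (r := 7) (by decide) (by decide)
      (H40.xg_mem_of_comm (r := 5) (s := 6) (by decide +kernel) (hc 2 (by norm_num) (h2 (by simp))) h0 a1)
    intro j hj
    change j < 2 at hj
    interval_cases j
    exacts [h0, a2]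
  · exact H40.SimplyLaced.xg_mem (by decide +kernel) hd hN hi h0
  · have a0 : (∀ t, C.xg K 33 t ∈ M) ∧ ∀ t, C.xg K 27 t ∈ M := by
      obtain rfl | rfl : i = 0 ∨ i = 1 := by clear h0; revert i; decide +kernel
      · exact ⟨h0, H40.X_refl_le hN (i := 0) (r := 34) (by decide) (by decide)
          (H40.X_refl_le hN (i := 1) (r := 33) (by decide) (by decide) h0)⟩
      · exact ⟨H40.X_refl_le hN (i := 1) (r := 34) (by decide) (by decide)
          (H40.X_refl_le hN (i := 0) (r := 27) (by decide) (by decide) h0), h0⟩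
    have a1 : ∀ t, C.xg K 28 t ∈ M := H40.X_refl_le hN (i := 2) (r := 27) (by decide) (by decide) a0.2
    have a2 : ∀ t, C.xg K 25 t ∈ M := H40.X_refl_le hN (i := 1) (r := 30) (by decide) (by decide)
      (H40.xg_mem_of_comm (r := 27) (s := 28) (by decide +kernel) (hc 2 (by norm_num) (h2 (by simp))) a0.2 a1)
    have a3 : ∀ t, C.xg K 24 t ∈ M := H40.X_refl_le hN (i := 2) (r := 26) (by decide) (by decide)
      (H40.X_refl_le hN (i := 3) (r := 25) (by decide) (by decide) a2)
    intro j hj
    change j < 4 at hj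
    interval_cases j
    exacts [a0.1, a0.2, a2, a3]
  all_goals exact H40.SimplyLaced.xg_mem (by decide +kernel) hd hN hi h0

end Cfsg.Agent.S2416
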