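import Cfsg.Statements.S2417
import Cfsg.Agent.H40.Cent2
-- import your own Cfsg.Agent.* helpers here

set_option autoImplicit false
open scoped MatrixGroups
open Cfsg

namespace Cfsg.Agent.S2417

/-- In the characteristics with an exceptional graph symmetry — type B₂ or F₄ in characteristic 2 (field of more than two elements for B₂) and type G₂ in characteristic 3 — the Chevalley group lies in the subgroup generated by its monomial subgroup `N` and the two fundamental root subgroups `X_a`, `X_b` of a short root `a` and a long root `b` joined in the Dynkin diagram. -/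
theorem result {K : Type*} [Field K] [Finite K] (e : Cfsg.Lie.ChevalleyDatum × ℕ)
    (he : e ∈ [(Cfsg.Lie.chevB2, 2), (Cfsg.Lie.chevF4, 2), (Cfsg.Lie.chevG2, 3)]) [CharP K e.2]
    (hK : e.1 = Cfsg.Lie.chevB2 → ∃ x : K, x ≠ 0 ∧ x ≠ 1)
    (i j : ℕ) (hi : i < e.1.rank) (hj : j < e.1.rank) (hshort : e.1.isLong (e.1.simple i) = false)
    (hlong : e.1.isLong (e.1.simple j) = true) (hbond : e.1.bonds i j ≠ 0) :
    e.1.group K ≤ e.1.monomialSubgroup K ⊔ e.1.rootSubgroup K (e.1.simple i) ⊔ e.1.rootSubgroup K (e.1.simple j) := by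
  have C : H34.Cert e.1 := H34.cert (by
    simp only [List.mem_cons, List.not_mem_nil, or_false] at he
    rcases he with rfl | rfl | rfl <;> simp)
  refine H40.group_le_of_simple C (le_sup_of_le_left le_sup_left) fun hN => ?_
  have h0 : ∀ t, C.xg K (e.1.simple i) t ∈ (e.1.monomialSubgroup K ⊔ e.1.rootSubgroup K (e.1.simple i) ⊔
      e.1.rootSubgroup K (e.1.simple j)).subgroupOf (e.1.group K) := fun t =>
    Subgroup.mem_sup_left (Subgroup.mem_sup_right (C.V.mem_rootSubgroup_iff.2 ⟨t, rfl⟩))
  have h1 : ∀ t, C.xg K (e.1.simple j) t ∈ (e.1.monomialSubgroup K ⊔ e.1.rootSubgroup K (e.1.simple i) ⊔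
      e.1.rootSubgroup K (e.1.simple j)).subgroupOf (e.1.group K) := fun t =>
    Subgroup.mem_sup_right (C.V.mem_rootSubgroup_iff.2 ⟨t, rfl⟩)
  generalize (e.1.monomialSubgroup K ⊔ e.1.rootSubgroup K (e.1.simple i) ⊔
      e.1.rootSubgroup K (e.1.simple j)).subgroupOf (e.1.group K) = M at hN h0 h1
  simp only [List.mem_cons, List.not_mem_nil, or_false] at he
  rcases he with rfl | rfl | rfl
  · obtain ⟨rfl, rfl⟩ : i = 0 ∧ j = 1 := by
      have h := And.intro hshort (And.intro hlong hbond)
      clear h0 h1 hshort hlong hbond; revert h; revert j; revert i; decide +kernel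
    intro j hj
    change j < 2 at hj
    interval_cases j
    exacts [h0, h1]
  · obtain ⟨rfl, rfl⟩ : i = 1 ∧ j = 2 := by
      have h := And.intro hshort (And.intro hlong hbond)
      clear h0 h1 hshort hlong hbond; revert h; revert j; revert i; decide +kernel
    have a0 : ∀ t, C.xg K 33 t ∈ M := H40.X_refl_le hN (i := 1) (r := 34) (by decide) (by decide)
      (H40.X_refl_le hN (i := 0) (r := 27) (by decide) (by decide) h0)
    have a3 : ∀ t, C.xg K 24 t ∈ M := H40.X_refl_le hN (i := 2) (r := 26) (by decide) (by decide)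
      (H40.X_refl_le hN (i := 3) (r := 25) (by decide) (by decide) h1)
    intro j hj
    change j < 4 at hj
    interval_cases j
    exacts [a0, h0, h1, a3]
  · obtain ⟨rfl, rfl⟩ : i = 0 ∧ j = 1 := by
      have h := And.intro hshort (And.intro hlong hbond)
      clear h0 h1 hshort hlong hbond; revert h; revert j; revert i; decide +kernel
    intro j hj
    change j < 2 at hj
    interval_cases j
    exacts [h0, h1]

end Cfsg.Agent.S2417
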