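import Cfsg.Statements.S2418
import Cfsg.Agent.H40.CoxGen
-- import your own Cfsg.Agent.* helpers here

set_option autoImplicit false
open Cfsg

namespace Cfsg.Agent.S2418

/-- For the Coxeter groups of types B₂, G₂, D₄, F₄, E₇, E₈ the centre has order 2 (the element acting as −1 on the root system) and is generated by a power of the Coxeter element `s₁ s₂ ⋯ s_l`; the Coxeter group of type E₆ has trivial centre. -/
theorem result (c : (Σ n : ℕ, CoxeterMatrix (Fin n)) × ℕ)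
    (hc : c ∈ [(⟨2, CoxeterMatrix.B 2⟩, 2), (⟨2, CoxeterMatrix.G₂⟩, 2), (⟨4, Cfsg.Lie.coxeterD4⟩, 2), (⟨4, CoxeterMatrix.F₄⟩, 2),
      (⟨6, CoxeterMatrix.E₆⟩, 1), (⟨7, CoxeterMatrix.E₇⟩, 2), (⟨8, CoxeterMatrix.E₈⟩, 2)]) :
    Nat.card (Subgroup.center c.1.2.Group) = c.2 ∧
      Subgroup.center c.1.2.Group ≤ Subgroup.zpowers ((List.finRange c.1.1).map c.1.2.simple).prod := by
  simp only [List.mem_cons, List.not_mem_nil, or_false] at hc
  rcases hc with rfl | rfl | rfl | rfl | rfl | rfl | rfl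
  · have hC := H34.isCartan_B2 (H34.cert (D := Cfsg.Lie.chevB2) (by simp))
    obtain ⟨e, he⟩ := H34.exists_mulEquiv_B2 hC
    exact H40.center_two hC e he 0 ![0, 0] ![0, 1] (by decide +kernel) 2 (by decide +kernel) (by decide +kernel)
  · have hC := H34.isCartan_G2 (H34.cert (D := Cfsg.Lie.chevG2) (by simp))
    obtain ⟨e, he⟩ := H34.exists_mulEquiv_G2 hC
    exact H40.center_two hC e he 0 ![0, 0] ![0, 1] (by decide +kernel) 3 (by decide +kernel) (by decide +kernel)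
  · have hC := H34.isCartan_D4 (H34.cert (D := Cfsg.Lie.chevD4) (by simp))
    obtain ⟨e, he⟩ := H34.exists_mulEquiv_D4 hC
    exact H40.center_two hC e he 0 ![0, 0, 1, 1] ![0, 1, 2, 2] (by decide +kernel) 3 (by decide +kernel) (by decide +kernel)
  · have hC := H34.isCartan_F4 (H34.cert (D := Cfsg.Lie.chevF4) (by simp))
    obtain ⟨e, he⟩ := H34.exists_mulEquiv_F4 hC
    exact H40.center_two hC e he 0 ![0, 0, 1, 2] ![0, 1, 2, 3] (by decide +kernel) 6 (by decide +kernel) (by decide +kernel)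
  · have hC := H34.isCartan_E6 (H34.cert (D := Cfsg.Lie.chevE6) (by simp))
    obtain ⟨e, he⟩ := H34.exists_mulEquiv_E6 hC
    have h := H40.center_one hC e he 0 ![0, 3, 0, 2, 3, 4] ![0, 3, 1, 2, 3, 4] (by decide +kernel)
      [0, 2, 3, 4, 5, 1, 3, 4, 2, 3, 0, 2, 1, 3, 4, 5, 1, 3, 4, 2, 3, 0, 2, 1, 3, 4, 2, 3, 0, 2, 1, 3, 0, 2, 1, 0] (by decide +kernel) (by decide +kernel)
    change Nat.card (Subgroup.center CoxeterMatrix.E₆.Group) = 1 ∧ Subgroup.center CoxeterMatrix.E₆.Group ≤ _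
    rw [h]
    exact ⟨Subgroup.card_bot, bot_le⟩
  · have hC := H34.isCartan_E7 (H34.cert (D := Cfsg.Lie.chevE7) (by simp))
    obtain ⟨e, he⟩ := H34.exists_mulEquiv_E7 hC
    exact H40.center_two hC e he 0 ![0, 3, 0, 2, 3, 4, 5] ![0, 3, 1, 2, 3, 4, 5] (by decide +kernel) 9 (by decide +kernel) (by decide +kernel)
  · have hC := H34.isCartan_E8 (H34.cert (D := Cfsg.Lie.chevE8) (by simp))
    obtain ⟨e, he⟩ := H34.exists_mulEquiv_E8 hC
    exact H40.center_two hC e he 0 ![0, 3, 0, 2, 3, 4, 5, 6] ![0, 3, 1, 2, 3, 4, 5, 6] (by decide +kernel) 15 (by decide +kernel) (by decide +kernel)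

end Cfsg.Agent.S2418
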