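import Cfsg.Statements.S2419
import Cfsg.Agent.H40.CoxGen
-- import your own Cfsg.Agent.* helpers here

set_option autoImplicit false
open Cfsg

namespace Cfsg.Agent.S2419

/-- The Coxeter groups of types B₂, G₂, E₆, E₇, E₈ are generated by the Coxeter element `s₁ s₂ ⋯ s_l` together with one suitable reflection (a conjugate of a simple reflection); for types D₄ and F₄ the Coxeter element together with two suitable reflections suffices. -/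
theorem result (c : (Σ n : ℕ, CoxeterMatrix (Fin n)) × ℕ)
    (hc : c ∈ [(⟨2, CoxeterMatrix.B 2⟩, 1), (⟨2, CoxeterMatrix.G₂⟩, 1), (⟨4, Cfsg.Lie.coxeterD4⟩, 2), (⟨4, CoxeterMatrix.F₄⟩, 2),
      (⟨6, CoxeterMatrix.E₆⟩, 1), (⟨7, CoxeterMatrix.E₇⟩, 1), (⟨8, CoxeterMatrix.E₈⟩, 1)]) :
    ∃ T : Finset c.1.2.Group, T.card = c.2 ∧ (∀ t ∈ T, ∃ (g : c.1.2.Group) (i : Fin c.1.1), t = g * c.1.2.simple i * g⁻¹) ∧
      Subgroup.closure (({((List.finRange c.1.1).map c.1.2.simple).prod} : Set c.1.2.Group) ∪ ↑T) = ⊤ := by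
  simp only [List.mem_cons, List.not_mem_nil, or_false] at hc
  rcases hc with rfl | rfl | rfl | rfl | rfl | rfl | rfl
  · have hC := H34.isCartan_B2 (H34.cert (D := Cfsg.Lie.chevB2) (by simp))
    obtain ⟨e, he⟩ := H34.exists_mulEquiv_B2 hC
    exact H40.exists_gen_refl hC e he [0] (by decide) [[2], [2, 0]] (by decide +kernel)
  · have hC := H34.isCartan_G2 (H34.cert (D := Cfsg.Lie.chevG2) (by simp))
    obtain ⟨e, he⟩ := H34.exists_mulEquiv_G2 hC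
    exact H40.exists_gen_refl hC e he [0] (by decide) [[2], [2, 0]] (by decide +kernel)
  · have hC := H34.isCartan_D4 (H34.cert (D := Cfsg.Lie.chevD4) (by simp))
    obtain ⟨e, he⟩ := H34.exists_mulEquiv_D4 hC
    exact H40.exists_gen_refl hC e he [0, 2] (by decide) [[2], [0, 2, 1], [3], [0, 3, 0, 2, 1, 3, 1]] (by decide +kernel)
  · have hC := H34.isCartan_F4 (H34.cert (D := Cfsg.Lie.chevF4) (by simp))
    obtain ⟨e, he⟩ := H34.exists_mulEquiv_F4 hC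
    exact H40.exists_gen_refl hC e he [0, 2] (by decide) [[2], [0, 2, 1], [3], [0, 3, 1]] (by decide +kernel)
  · have hC := H34.isCartan_E6 (H34.cert (D := Cfsg.Lie.chevE6) (by simp))
    obtain ⟨e, he⟩ := H34.exists_mulEquiv_E6 hC
    exact H40.exists_gen_refl hC e he [0] (by decide) [[2], [1, 2, 1, 1, 1, 2, 0, 0, 0, 2, 0], [0, 2, 1], [0, 0, 0, 0, 0, 2, 1, 1, 1, 1, 1], [0, 0, 0, 0, 0, 0, 2, 1, 1, 1, 1, 1, 1], [1, 1, 1, 1, 1, 2, 0, 0, 0, 0, 0]] (by decide +kernel)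
  · have hC := H34.isCartan_E7 (H34.cert (D := Cfsg.Lie.chevE7) (by simp))
    obtain ⟨e, he⟩ := H34.exists_mulEquiv_E7 hC
    exact H40.exists_gen_refl hC e he [1] (by decide) [[0, 0, 0, 2, 0, 0, 2, 1, 1, 2, 1, 1, 1], [2], [1, 1, 1, 2, 1, 1, 2, 0, 0, 2, 0, 0, 0], [2, 1, 1, 2, 1, 1, 2, 0, 0, 2, 0, 0, 2], [0, 2, 1, 1, 2, 1, 1, 2, 0, 0, 2, 0, 0, 2, 1], [1, 1, 2, 0, 0, 2, 0, 0, 2, 1, 1, 2, 1, 1, 2, 0, 0], [1, 2, 0, 0, 2, 0, 0, 2, 1, 1, 2, 1, 1, 2, 0]] (by decide +kernel)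
  · have hC := H34.isCartan_E8 (H34.cert (D := Cfsg.Lie.chevE8) (by simp))
    obtain ⟨e, he⟩ := H34.exists_mulEquiv_E8 hC
    exact H40.exists_gen_refl hC e he [0] (by decide) [[2], [1, 2, 1, 1, 2, 1, 1, 1, 2, 0, 0, 0, 2, 0, 0, 2, 0], [0, 2, 1], [0, 0, 0, 0, 2, 0, 0, 0, 2, 1, 1, 1, 2, 1, 1, 1, 1], [0, 0, 0, 0, 0, 2, 0, 0, 0, 2, 1, 1, 1, 2, 1, 1, 1, 1, 1], [1, 1, 1, 1, 1, 1, 2, 1, 1, 1, 2, 0, 0, 0, 2, 0, 0, 0, 0, 0, 0], [1, 1, 1, 1, 1, 2, 1, 1, 1, 2, 0, 0, 0, 2, 0, 0, 0, 0, 0], [1, 1, 1, 1, 2, 1, 1, 1, 2, 0, 0, 0, 2, 0, 0, 0, 0]] (by decide +kernel)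

end Cfsg.Agent.S2419
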