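import Cfsg.Statements.S2426
import Cfsg.Agent.H36.SL2Pres

set_option autoImplicit false
open Cfsg

namespace Cfsg.Agent.S2426

open Cfsg.Agent.H36

/-- The rank-one Steinberg presentation of `SL₂` over a finite field `K`: generators `x(t)`, `y(t)` (`t ∈ K`; the two opposite root subgroups) subject to additivity `x(t)x(u) = x(t+u)`, `y(t)y(u) = y(t+u)` and, with `w(t) = x(t) y(−t⁻¹) x(t)` and `w'(t) = y(t) x(−t⁻¹) y(t)` for `t ≠ 0`, the relations `w(t) x(u) w(t)⁻¹ = y(−t⁻² u)` and `w'(t) y(u) w'(t)⁻¹ = x(−t⁻² u)`, present `SL₂(K)`, with `x(t) ↦ (1 t; 0 1)` and `y(t) ↦ (1 0; t 1)`. -/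
theorem result {K : Type*} [Field K] [Finite K] :
    ∃ e : PresentedGroup
        ({g : FreeGroup (Bool × K) | ∃ (b : Bool) (t u : K), g = FreeGroup.of (b, t) * FreeGroup.of (b, u) * (FreeGroup.of (b, t + u))⁻¹} ∪
          {g | ∃ (b : Bool) (t u : K), t ≠ 0 ∧
            g = (FreeGroup.of (b, t) * FreeGroup.of (!b, -t⁻¹) * FreeGroup.of (b, t)) * FreeGroup.of (b, u) *
                  (FreeGroup.of (b, t) * FreeGroup.of (!b, -t⁻¹) * FreeGroup.of (b, t))⁻¹ * (FreeGroup.of (!b, -(t⁻¹ ^ 2 * u)))⁻¹})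
        ≃* Matrix.SpecialLinearGroup (Fin 2) K,
      (∀ t : K, ((e (PresentedGroup.of (true, t)) : Matrix (Fin 2) (Fin 2) K)) = !![1, t; 0, 1]) ∧
      (∀ t : K, ((e (PresentedGroup.of (false, t)) : Matrix (Fin 2) (Fin 2) K)) = !![1, 0; t, 1]) := by
  set R : Set (FreeGroup (Bool × K)) := ({g : FreeGroup (Bool × K) | ∃ (b : Bool) (t u : K), g = FreeGroup.of (b, t) * FreeGroup.of (b, u) * (FreeGroup.of (b, t + u))⁻¹} ∪
          {g | ∃ (b : Bool) (t u : K), t ≠ 0 ∧
            g = (FreeGroup.of (b, t) * FreeGroup.of (!b, -t⁻¹) * FreeGroup.of (b, t)) * FreeGroup.of (b, u) *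
                  (FreeGroup.of (b, t) * FreeGroup.of (!b, -t⁻¹) * FreeGroup.of (b, t))⁻¹ * (FreeGroup.of (!b, -(t⁻¹ ^ 2 * u)))⁻¹}) with hR
  let f : Bool × K → Matrix.SpecialLinearGroup (Fin 2) K := fun p => cond p.1 (sl2U p.2) (sl2L p.2)
  have hf : ∀ r ∈ R, FreeGroup.lift f r = 1 := by
    rintro r (⟨b, t, u, rfl⟩ | ⟨b, t, u, ht, rfl⟩)
    · cases b
      · simp [f, stRel_sl2.y_add]
      · simp [f, stRel_sl2.x_add]
    · simp only [map_mul, map_inv, FreeGroup.lift_apply_of, mul_inv_eq_one]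
      rw [mul_inv_eq_iff_eq_mul]
      cases b
      · simp only [f, cond_false, cond_true, Bool.not_false]
        have h1 := stRel_sl2.w_eq (K := K) (t := -t⁻¹) (by simp [ht])
        have h2 := stRel_sl2.w_y (K := K) (t := -t⁻¹) (by simp [ht]) u
        rw [show -(-t⁻¹)⁻¹ = t by field_simp] at h1
        rw [← h1, h2, neg_sq]
      · simp only [f, cond_false, cond_true, Bool.not_true]
        exact stRel_sl2.conj t u ht
  let x : K → PresentedGroup R := fun t => PresentedGroup.of (true, t)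
  let y : K → PresentedGroup R := fun t => PresentedGroup.of (false, t)
  have hrel : ∀ r ∈ R, PresentedGroup.mk R r = 1 := fun r hr => PresentedGroup.one_of_mem hr
  have hst : StRel x y := by
    refine ⟨fun t u => ?_, fun t u => ?_, fun t u ht => ?_⟩
    · have := hrel _ (Or.inl ⟨true, t, u, rfl⟩)
      simp only [map_mul, map_inv, mul_inv_eq_one] at this
      exact this.symm
    · have := hrel _ (Or.inl ⟨false, t, u, rfl⟩)
      simp only [map_mul, map_inv, mul_inv_eq_one] at this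
      exact this.symm
    · have := hrel _ (Or.inr ⟨true, t, u, ht, rfl⟩)
      simp only [map_mul, map_inv, mul_inv_eq_one] at this
      rw [mul_inv_eq_iff_eq_mul] at this
      exact this
  obtain ⟨φ, hU, hL⟩ := exists_hom_SL2_finite hst
  let ψ : PresentedGroup R →* Matrix.SpecialLinearGroup (Fin 2) K := PresentedGroup.toGroup hf
  have hψ : ∀ p, ψ (PresentedGroup.of p) = f p := fun p => PresentedGroup.toGroup.of hf
  have h1 : φ.comp ψ = MonoidHom.id _ := by
    apply PresentedGroup.ext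
    rintro ⟨b, t⟩
    cases b
    · simp [hψ, f, hL, y]
    · simp [hψ, f, hU, x]
  have h2 : ψ.comp φ = MonoidHom.id _ := by
    apply MonoidHom.eq_of_eqOn_dense closure_sl2U_sl2L
    rintro _ (⟨t, rfl⟩ | ⟨t, rfl⟩)
    · simp [hU, x, hψ, f]
    · simp [hL, y, hψ, f]
  refine ⟨MonoidHom.toMulEquiv ψ φ h1 h2, fun t => ?_, fun t => ?_⟩
  · change ((ψ (PresentedGroup.of (true, t)) : Matrix.SpecialLinearGroup (Fin 2) K) : Matrix (Fin 2) (Fin 2) K) = _
    rw [hψ]; rfl
  · change ((ψ (PresentedGroup.of (false, t)) : Matrix.SpecialLinearGroup (Fin 2) K) : Matrix (Fin 2) (Fin 2) K) = _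
    rw [hψ]; rfl

end Cfsg.Agent.S2426
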