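import Cfsg.Statements.S2428
import Cfsg.Agent.H77.TorusNormalizer

set_option autoImplicit false
open Cfsg

namespace Cfsg.Agent.S2428

open Cfsg.Agent.H77

/-- Let F be a finite field with q elements, q odd, and let d be a diagonal element of SL₂ over F whose diagonal entry a has a² ≠ 1 (such d exist exactly when q > 3). Then the centraliser of d is precisely the diagonal subgroup T; the normaliser of T has order 2(q − 1) and exactly (q + 5)/2 conjugacy classes; and every element of that normaliser outside T has square equal to −1. -/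
theorem result {F : Type*} [Field F] [Fintype F] (hodd : Odd (Fintype.card F))
    (d : Matrix.SpecialLinearGroup (Fin 2) F) (hd01 : (d : Matrix (Fin 2) (Fin 2) F) 0 1 = 0) (hd10 : (d : Matrix (Fin 2) (Fin 2) F) 1 0 = 0) (hda : (d : Matrix (Fin 2) (Fin 2) F) 0 0 ^ 2 ≠ 1) :
    (∀ g : Matrix.SpecialLinearGroup (Fin 2) F, g ∈ Subgroup.centralizer ({d} : Set (Matrix.SpecialLinearGroup (Fin 2) F)) ↔ ((g : Matrix (Fin 2) (Fin 2) F) 0 1 = 0 ∧ (g : Matrix (Fin 2) (Fin 2) F) 1 0 = 0)) ∧
    Nat.card (Subgroup.normalizer ((Subgroup.centralizer ({d} : Set (Matrix.SpecialLinearGroup (Fin 2) F))) : Set (Matrix.SpecialLinearGroup (Fin 2) F))) = 2 * (Fintype.card F - 1) ∧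
    Nat.card (ConjClasses (Subgroup.normalizer ((Subgroup.centralizer ({d} : Set (Matrix.SpecialLinearGroup (Fin 2) F))) : Set (Matrix.SpecialLinearGroup (Fin 2) F)))) = (Fintype.card F + 5) / 2 ∧
    ∀ g : Matrix.SpecialLinearGroup (Fin 2) F, g ∈ Subgroup.normalizer ((Subgroup.centralizer ({d} : Set (Matrix.SpecialLinearGroup (Fin 2) F))) : Set (Matrix.SpecialLinearGroup (Fin 2) F)) →
      g ∉ Subgroup.centralizer ({d} : Set (Matrix.SpecialLinearGroup (Fin 2) F)) → ((g * g) : Matrix (Fin 2) (Fin 2) F) = -1 := by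
  classical
  obtain ⟨a, b, rfl⟩ := exists_eq_uts hd10
  obtain rfl : b = 0 := hd01
  have ha : a ^ 2 ≠ 1 := fun e => hda (units_sq_eq_one_iff.mp e)
  have hs := isSplit_uts ha (0 : F)
  have hr := isReg_of_isSplit hs
  have hq : 1 < Fintype.card F := Fintype.one_lt_card
  refine ⟨fun g => ?_, ?_, ?_, fun g h1 h2 => ?_⟩
  · have hne : (a : F) - (a⁻¹ : Fˣ) ≠ 0 :=
      sub_ne_zero.mpr fun e => ha (units_eq_inv_iff.mp (Units.ext e))
    rw [sl_mem_cent, m2_ext_iff]
    simp only [m2_mul_apply, uts00, uts01, uts10, uts11]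
    constructor
    · rintro ⟨-, e1, e2, -⟩
      constructor
      · apply mul_left_cancel₀ hne
        linear_combination -e1
      · apply mul_left_cancel₀ hne
        linear_combination e2
    · rintro ⟨e1, e2⟩
      rw [e1, e2]
      refine ⟨?_, ?_, ?_, ?_⟩ <;> ring
  · rw [hr.card_normalizer, sl_card_cent_isSplit hs, Nat.card_eq_fintype_card]
  · have := hr.card_conjClasses_normalizer
    rw [sl_card_cent_isSplit hs, card_sq_eq_one_of_two_ne (two_ne_zero_of_odd hodd),
      Nat.card_eq_fintype_card (α := F)] at this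
    refine Nat.eq_div_of_mul_eq_right two_ne_zero (this.trans ?_)
    omega
  · exact hr.mul_self_of_inverts (hr.inverts_of_not_mem h1 h2)

end Cfsg.Agent.S2428
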