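import Cfsg.Statements.S2429
import Cfsg.Agent.H77.SylowSL2

set_option autoImplicit false
open Cfsg

namespace Cfsg.Agent.S2429

open Cfsg.Agent.H77

/-- Let F be a finite field with q elements, q odd. Then SL₂ over F contains a cyclic subgroup T′ of order q + 1 (a non-split torus) with the following properties: T′ is its own centraliser, and indeed the centraliser of each element of T′ other than 1 and −1 is exactly T′; every element of SL₂ having no eigenvector in F² is conjugate to an element of T′; the normaliser of T′ has order 2(q + 1) and exactly (q + 7)/2 conjugacy classes; and every element of that normaliser outside T′ has square −1. -/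
theorem result {F : Type*} [Field F] [Fintype F] (hodd : Odd (Fintype.card F)) :
    ∃ T' : Subgroup (Matrix.SpecialLinearGroup (Fin 2) F), IsCyclic T' ∧ Nat.card T' = Fintype.card F + 1 ∧
      Subgroup.centralizer ((T' : Set (Matrix.SpecialLinearGroup (Fin 2) F))) = T' ∧
      (∀ g : Matrix.SpecialLinearGroup (Fin 2) F, g ∈ T' → (g : Matrix (Fin 2) (Fin 2) F) ≠ 1 → (g : Matrix (Fin 2) (Fin 2) F) ≠ -1 → Subgroup.centralizer ({g} : Set (Matrix.SpecialLinearGroup (Fin 2) F)) = T') ∧
      (∀ g : Matrix.SpecialLinearGroup (Fin 2) F, (∀ (c : F) (v : Fin 2 → F), v ≠ 0 → (g : Matrix (Fin 2) (Fin 2) F).mulVec v ≠ c • v) → ∃ h : Matrix.SpecialLinearGroup (Fin 2) F, h * g * h⁻¹ ∈ T') ∧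
      Nat.card (Subgroup.normalizer (T' : Set (Matrix.SpecialLinearGroup (Fin 2) F))) = 2 * (Fintype.card F + 1) ∧
      Nat.card (ConjClasses (Subgroup.normalizer (T' : Set (Matrix.SpecialLinearGroup (Fin 2) F)))) = (Fintype.card F + 7) / 2 ∧
      ∀ g : Matrix.SpecialLinearGroup (Fin 2) F, g ∈ Subgroup.normalizer (T' : Set (Matrix.SpecialLinearGroup (Fin 2) F)) → g ∉ T' → ((g * g) : Matrix (Fin 2) (Fin 2) F) = -1 := by
  classical
  have hq : 1 < Fintype.card F := Fintype.one_lt_card
  obtain ⟨t, ht⟩ : ∃ t : normOne F (QExt F), t ^ 2 ≠ 1 := by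
    obtain ⟨t, ht⟩ := isCyclic_iff_exists_orderOf_eq_natCard.mp
      (inferInstance : IsCyclic (normOne F (QExt F)))
    refine ⟨t, fun e => ?_⟩
    have := Nat.le_of_dvd two_pos (orderOf_dvd_of_pow_eq_one e)
    rw [ht, card_normOne] at this
    omega
  have hn := noEig_torS ht
  have hr := isReg_of_noEig hn
  refine ⟨Subgroup.centralizer {torS F (QExt F) t}, hr.isCyclic_cent, sl_card_cent_noEig hn,
    hr.centralizer_eq (mem_cent_iff.mpr rfl) le_rfl, fun g hg h1 h2 => ?_, fun g hg => ?_, ?_, ?_,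
    fun g h1 h2 => hr.mul_self_of_inverts (hr.inverts_of_not_mem h1 h2)⟩
  · exact sl_cent_eq_of_mem hr.not_isScal (fun h => (sl_isScal_iff.mp h).elim h1 h2) hg
  · obtain ⟨s, -, hc⟩ := exists_isConj_torS (QExt F) hg
    obtain ⟨c, hc⟩ := isConj_iff.mp hc.symm
    refine ⟨c, ?_⟩
    rw [hc, cent_torS ht]
    exact ⟨s, rfl⟩
  · rw [hr.card_normalizer, sl_card_cent_noEig hn]
  · have := hr.card_conjClasses_normalizer
    rw [sl_card_cent_noEig hn, card_sq_eq_one_of_two_ne (two_ne_zero_of_odd hodd)] at this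
    exact Nat.eq_div_of_mul_eq_right two_ne_zero (this.trans (by omega))

end Cfsg.Agent.S2429
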