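import Cfsg.Statements.S2430
import Cfsg.Agent.H77.SylowSL2

set_option autoImplicit false
open Cfsg

namespace Cfsg.Agent.S2430

open Cfsg.Agent.H77

/-- Let F be a finite field with q elements, q odd, ℓ an odd prime, and P a Sylow ℓ-subgroup of SL₂ over F. If ℓ divides q − 1, the centraliser of P is cyclic of order q − 1 (a split torus) and the normaliser of P has order 2(q − 1); if ℓ divides q + 1, the centraliser of P is cyclic of order q + 1 (a non-split torus) and the normaliser of P has order 2(q + 1). -/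
theorem result {F : Type*} [Field F] [Fintype F] (hodd : Odd (Fintype.card F)) (ℓ : ℕ) [Fact ℓ.Prime] (hℓ : ℓ ≠ 2)
    (P : Sylow ℓ (Matrix.SpecialLinearGroup (Fin 2) F)) :
    (ℓ ∣ Fintype.card F - 1 →
      Nat.card (Subgroup.centralizer ((P : Subgroup (Matrix.SpecialLinearGroup (Fin 2) F)) : Set (Matrix.SpecialLinearGroup (Fin 2) F))) = Fintype.card F - 1 ∧
      IsCyclic (Subgroup.centralizer ((P : Subgroup (Matrix.SpecialLinearGroup (Fin 2) F)) : Set (Matrix.SpecialLinearGroup (Fin 2) F))) ∧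
      Nat.card (Subgroup.normalizer ((P : Subgroup (Matrix.SpecialLinearGroup (Fin 2) F)) : Set (Matrix.SpecialLinearGroup (Fin 2) F))) = 2 * (Fintype.card F - 1)) ∧
    (ℓ ∣ Fintype.card F + 1 →
      Nat.card (Subgroup.centralizer ((P : Subgroup (Matrix.SpecialLinearGroup (Fin 2) F)) : Set (Matrix.SpecialLinearGroup (Fin 2) F))) = Fintype.card F + 1 ∧
      IsCyclic (Subgroup.centralizer ((P : Subgroup (Matrix.SpecialLinearGroup (Fin 2) F)) : Set (Matrix.SpecialLinearGroup (Fin 2) F))) ∧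
      Nat.card (Subgroup.normalizer ((P : Subgroup (Matrix.SpecialLinearGroup (Fin 2) F)) : Set (Matrix.SpecialLinearGroup (Fin 2) F))) = 2 * (Fintype.card F + 1)) := by
  rw [← Nat.card_eq_fintype_card] at hodd ⊢
  have hq : 1 < Nat.card F := Finite.one_lt_card
  have hp : ℓ.Prime := Fact.out
  have h12 : ¬ (ℓ ∣ Nat.card F - 1 ∧ ℓ ∣ Nat.card F + 1) := by
    rintro ⟨h1, h2⟩
    have := Nat.dvd_sub h2 h1
    rw [show Nat.card F + 1 - (Nat.card F - 1) = 2 by omega] at this
    exact hℓ ((Nat.prime_dvd_prime_iff_eq hp Nat.prime_two).mp this)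
  have key : ℓ ∣ (Nat.card F - 1) * (Nat.card F + 1) → ∃ s : SL2 F, IsReg s ∧
      ℓ ∣ Nat.card (Subgroup.centralizer ({s} : Set (SL2 F))) ∧
      Subgroup.centralizer ((P : Subgroup (SL2 F)) : Set (SL2 F)) = Subgroup.centralizer {s} ∧
      Nat.card (Subgroup.normalizer ((P : Subgroup (SL2 F)) : Set (SL2 F))) =
        2 * Nat.card (Subgroup.centralizer ({s} : Set (SL2 F))) := by
    intro h
    obtain ⟨s, hs, ho, h1, h2⟩ := exists_isReg_of_sylow hℓ (by
      intro h'
      rcases hp.dvd_mul.mp h with h | h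
      · have := Nat.dvd_sub h' h
        rw [show Nat.card F - (Nat.card F - 1) = 1 by omega] at this
        exact hp.not_dvd_one this
      · exact hp.not_dvd_one ((Nat.dvd_add_right h').mp h)) (by
      rw [card_SL2']
      exact h.mul_left _) P
    refine ⟨s, hs, ho ▸ Subgroup.orderOf_dvd_natCard _ (mem_cent_iff.mpr rfl),
      hs.centralizer_eq h1 h2, ?_⟩
    rw [hs.normalizer_eq h1 h2, hs.card_normalizer]
  constructor
  · intro h
    obtain ⟨s, hs, h1, h2, h3⟩ := key (h.mul_right _)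
    have e : Nat.card (Subgroup.centralizer ({s} : Set (SL2 F))) = Nat.card F - 1 :=
      hs.card_cent.resolve_right fun e => h12 ⟨h, e ▸ h1⟩
    rw [h3, h2, e]
    exact ⟨rfl, hs.isCyclic_cent, rfl⟩
  · intro h
    obtain ⟨s, hs, h1, h2, h3⟩ := key (h.mul_left _)
    have e : Nat.card (Subgroup.centralizer ({s} : Set (SL2 F))) = Nat.card F + 1 :=
      hs.card_cent.resolve_left fun e => h12 ⟨e ▸ h1, h⟩
    rw [h3, h2, e]
    exact ⟨rfl, hs.isCyclic_cent, rfl⟩

end Cfsg.Agent.S2430
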