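import Cfsg.Statements.S2434
import Cfsg.Agent.H77.SL2Table

set_option autoImplicit false
open Cfsg

namespace Cfsg.Agent.S2434

open Cfsg.Agent.H77

/-- Let F be a finite field with q elements, q odd, and C a cyclic subgroup of order q + 1 of SL₂ over F (a non-split torus; it contains the centre). For every homomorphism θ from C to the non-zero complex numbers with θ² ≠ 1 there is an irreducible complex character χ of degree q − 1 such that χ(c) = −θ(c) − θ(c)⁻¹ for every non-central c in C, χ(zg) = θ(z)χ(g) for central z in C, χ vanishes at diagonal elements with entry a, a² ≠ 1, and χ takes the value −1 at every upper unitriangular element other than 1. Conversely every irreducible character of degree q − 1 has, for some such θ, the values −θ(c) − θ(c)⁻¹ at the non-central elements c of C (for q ≥ 5 these are exactly the cuspidal characters of degree q − 1). -/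
theorem result {F : Type*} [Field F] [Fintype F] (hodd : Odd (Fintype.card F))
    (C : Subgroup (Matrix.SpecialLinearGroup (Fin 2) F)) (hC : IsCyclic C) (hcard : Nat.card C = Fintype.card F + 1) :
    (∀ θ : C →* ℂˣ, (∃ c : C, θ c ^ 2 ≠ 1) →
      ∃ χ : Matrix.SpecialLinearGroup (Fin 2) F → ℂ, Cfsg.IsIrrCharacter (Matrix.SpecialLinearGroup (Fin 2) F) χ ∧ χ 1 = (Fintype.card F : ℂ) - 1 ∧
        (∀ c : C, (c : Matrix.SpecialLinearGroup (Fin 2) F) ∉ Subgroup.center (Matrix.SpecialLinearGroup (Fin 2) F) → χ c = -((θ c).val + (θ c)⁻¹.val)) ∧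
        (∀ c : C, (c : Matrix.SpecialLinearGroup (Fin 2) F) ∈ Subgroup.center (Matrix.SpecialLinearGroup (Fin 2) F) → ∀ g : Matrix.SpecialLinearGroup (Fin 2) F, χ ((c : Matrix.SpecialLinearGroup (Fin 2) F) * g) = (θ c).val * χ g) ∧
        (∀ g : Matrix.SpecialLinearGroup (Fin 2) F, (g : Matrix (Fin 2) (Fin 2) F) 0 1 = 0 → (g : Matrix (Fin 2) (Fin 2) F) 1 0 = 0 → (g : Matrix (Fin 2) (Fin 2) F) 0 0 ^ 2 ≠ 1 → χ g = 0) ∧
        (∀ g : Matrix.SpecialLinearGroup (Fin 2) F, (g : Matrix (Fin 2) (Fin 2) F) 1 0 = 0 → (g : Matrix (Fin 2) (Fin 2) F) 0 0 = 1 → (g : Matrix (Fin 2) (Fin 2) F) 1 1 = 1 → (g : Matrix (Fin 2) (Fin 2) F) 0 1 ≠ 0 → χ g = -1)) ∧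
    (∀ χ : Matrix.SpecialLinearGroup (Fin 2) F → ℂ, Cfsg.IsIrrCharacter (Matrix.SpecialLinearGroup (Fin 2) F) χ → χ 1 = (Fintype.card F : ℂ) - 1 →
      ∃ θ : C →* ℂˣ, (∃ c : C, θ c ^ 2 ≠ 1) ∧
        ∀ c : C, (c : Matrix.SpecialLinearGroup (Fin 2) F) ∉ Subgroup.center (Matrix.SpecialLinearGroup (Fin 2) F) → χ c = -((θ c).val + (θ c)⁻¹.val)) := by
  classical
  have ho := Nat.odd_iff.mp hodd
  have hq : 1 < Fintype.card F := Fintype.one_lt_card
  obtain ⟨e, he⟩ := exists_torus_equiv (QExt F) C hC hcard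
  have hcen : ∀ t, (e t : SL2 F) ∈ Subgroup.center (SL2 F) ↔ t ^ 2 = 1 := fun t => by
    rw [sl_mem_center_iff, ← sl_isScal_of_isConj (he t), ← normOne_frob_eq_iff]
    exact isScal_iota_iff
  have hval : ∀ (θ : normOne F (QExt F) →* ℂˣ) (t : normOne F (QExt F)),
      (e t : SL2 F) ∉ Subgroup.center (SL2 F) → sD θ (e t) = -((θ t).val + (θ t)⁻¹.val) := by
    intro θ t ht
    rw [← classFun_isConj (classFun_sD θ) (he t), sD_torS _ (fun h => ht ((hcen t).mpr h))]
    rfl
  have hex : ∀ θ : normOne F (QExt F) →* ℂˣ, θ ^ 2 ≠ 1 →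
      ∃ c : C, (θ.comp e.symm.toMonoidHom) c ^ 2 ≠ 1 := by
    intro θ hθ
    by_contra h
    apply hθ
    ext t
    have := not_not.mp (not_exists.mp h (e t))
    simpa using congrArg Units.val this
  constructor
  · rintro θ ⟨c, hc⟩
    have hθ : (θ.comp e.toMonoidHom) ^ 2 ≠ 1 := by
      intro h
      apply hc
      simpa using DFunLike.congr_fun h (e.symm c)
    refine ⟨sD (θ.comp e.toMonoidHom), isIrr_sD hθ, sD_one _, fun c hc => ?_, fun c hc g => ?_,
      fun g h1 h2 h3 => ?_, fun g h1 h2 h3 h4 => ?_⟩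
    · obtain ⟨t, rfl⟩ := e.surjective c
      exact hval _ t hc
    · obtain ⟨t, rfl⟩ := e.surjective c
      have := irr_center_mul (isIrr_sD hθ) hc g
      rw [sD_one, ← classFun_isConj (classFun_sD _) (he t), sD_torS_of_sq _ ((hcen t).mp hc)] at this
      apply mul_right_cancel₀ (q_sub_one_ne_zero (F := F))
      rw [this]
      change _ = (θ.comp e.toMonoidHom t : ℂ) * _ * _
      ring
    · obtain ⟨a, ha, rfl⟩ := uts_of_diag h1 h2 h3
      exact sD_split _ (isSplit_uts ha 0)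
    · obtain ⟨a, b, rfl⟩ := exists_eq_uts h1
      obtain rfl : a = 1 := Units.ext h2
      exact sD_unip _ h4
  · intro χ hχ hd
    rw [← cast_q_sub_one] at hd
    rcases sl_irr_deg_cases (QExt F) hχ with ⟨d, -⟩ | ⟨d, -⟩ | ⟨d, -⟩ | ⟨-, θ, hθ, rfl⟩ |
      ⟨d, -, α, χ', -, -, h⟩ | ⟨d, -⟩
    pick_goal 4
    · refine ⟨θ.comp e.symm.toMonoidHom, hex θ hθ, fun c hc => ?_⟩
      obtain ⟨t, rfl⟩ := e.surjective c
      simpa using hval θ t hc
    pick_goal 4
    · have hq3 : Fintype.card F = 3 := by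
        rw [d] at hd
        norm_cast at hd
        omega
      obtain ⟨θ, hθ⟩ : ∃ θ : normOne F (QExt F) →* ℂˣ, θ ^ 2 ≠ 1 := by
        obtain ⟨θ, hθ⟩ := (isCyclic_iff_exists_orderOf_eq_natCard
          (α := normOne F (QExt F) →* ℂˣ)).mp isCyclic_monoidHom
        refine ⟨θ, fun h => ?_⟩
        have := orderOf_dvd_of_pow_eq_one h
        rw [hθ, card_monoidHom, card_normOne, hq3] at this
        omega
      refine ⟨θ.comp e.symm.toMonoidHom, hex θ hθ, fun c hc => ?_⟩
      obtain ⟨t, rfl⟩ := e.surjective c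
      have hn : NoEig ((e t : SL2 F) : M2 F) :=
        (sl_noEig_of_isConj (he t)).mp (noEig_torS fun h => hc ((hcen t).mpr h))
      have h1 := h.two_mul_of_isReg (isReg_of_noEig hn)
      rw [sR_noEig _ hn] at h1
      have h3 := hval θ t hc
      rw [sD_noEig_three hq3 hθ hn] at h3
      have h4 : χ (e t) = 0 := by linear_combination h1 / 2
      simpa [h4] using h3
    all_goals
      exfalso
      rw [d] at hd
      norm_cast at hd
      omega

end Cfsg.Agent.S2434
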