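import Cfsg.Statements.S2435
import Cfsg.Agent.H77.SL2Table

set_option autoImplicit false
open Cfsg

namespace Cfsg.Agent.S2435

open Cfsg.Agent.H77

/-- Let F be a finite field with q elements, q odd and q ≥ 5, and χ an irreducible complex character of SL₂ over F. If χ has degree (q + 1)/2, then at a diagonal element with entry a, a² ≠ 1, χ takes the value 1 when a is a square in F and −1 otherwise. If χ has degree (q − 1)/2, then at an element g with no eigenvector in F² (so g has order dividing q + 1), χ takes the value −1 when g raised to the power (q + 1)/2 is the identity and the value 1 otherwise. -/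
theorem result {F : Type*} [Field F] [Fintype F] (hodd : Odd (Fintype.card F)) (hq : 5 ≤ Fintype.card F)
    (χ : Matrix.SpecialLinearGroup (Fin 2) F → ℂ) (hχ : Cfsg.IsIrrCharacter (Matrix.SpecialLinearGroup (Fin 2) F) χ) (g : Matrix.SpecialLinearGroup (Fin 2) F) :
    (χ 1 = (((Fintype.card F + 1) / 2 : ℕ) : ℂ) → (g : Matrix (Fin 2) (Fin 2) F) 0 1 = 0 → (g : Matrix (Fin 2) (Fin 2) F) 1 0 = 0 → (g : Matrix (Fin 2) (Fin 2) F) 0 0 ^ 2 ≠ 1 →
      (IsSquare ((g : Matrix (Fin 2) (Fin 2) F) 0 0) → χ g = 1) ∧ (¬ IsSquare ((g : Matrix (Fin 2) (Fin 2) F) 0 0) → χ g = -1)) ∧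
    (χ 1 = (((Fintype.card F - 1) / 2 : ℕ) : ℂ) → (∀ (c : F) (v : Fin 2 → F), v ≠ 0 → (g : Matrix (Fin 2) (Fin 2) F).mulVec v ≠ c • v) →
      (((g ^ ((Fintype.card F + 1) / 2)) : Matrix (Fin 2) (Fin 2) F) = 1 → χ g = -1) ∧ (((g ^ ((Fintype.card F + 1) / 2)) : Matrix (Fin 2) (Fin 2) F) ≠ 1 → χ g = 1)) := by
  classical
  have ho := Nat.odd_iff.mp hodd
  constructor
  · intro e h1 h2 h3
    obtain ⟨a, ha, rfl⟩ := uts_of_diag h1 h2 h3
    rcases sl_irr_deg_cases (QExt F) hχ with ⟨d, -⟩ | ⟨d, -⟩ | ⟨d, -⟩ | ⟨d, -⟩ |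
      ⟨-, -, α, χ', a1, a2, h⟩ | ⟨d, -⟩
    pick_goal 5
    · have := h.two_mul_of_isReg (isReg_of_isSplit (isSplit_uts ha 0))
      rw [sR_split _ ha, ← eq_inv_iff_sq.mpr a1] at this
      refine ⟨fun hs => ?_, fun hs => ?_⟩
      · rw [(mulChar_order_two a1 a2 a).1 hs] at this
        linear_combination this / 2
      · rw [(mulChar_order_two a1 a2 a).2 hs] at this
        linear_combination this / 2
    all_goals
      exfalso
      rw [d] at e
      norm_cast at e
      omega
  · intro e hg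
    rcases sl_irr_deg_cases (QExt F) hχ with ⟨d, -⟩ | ⟨d, -⟩ | ⟨d, -⟩ | ⟨d, -⟩ | ⟨d, -⟩ |
      ⟨-, -, θ, χ', a1, a2, h⟩
    pick_goal 6
    · have := h.two_mul_of_isReg (isReg_of_noEig hg)
      obtain ⟨t, ht, hc⟩ := exists_isConj_torS (QExt F) hg
      rw [← classFun_isConj (classFun_sD θ) hc, sD_torS _ ht,
        ← show θ = θ⁻¹ from eq_inv_iff_sq.mpr a1] at this
      have key : (g : M2 F) ^ ((Fintype.card F + 1) / 2) = 1 ↔
          t ^ (Nat.card (normOne F (QExt F)) / 2) = 1 := by
        rw [card_normOne, ← orderOf_dvd_iff_pow_eq_one (x := t),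
          ← orderOf_injective _ torS_injective t, orderOf_isConj hc, orderOf_dvd_iff_pow_eq_one,
          sl_ext_iff]
        rfl
      refine ⟨fun hs => ?_, fun hs => ?_⟩
      · rw [(monoidHom_order_two a1 a2 t).1 (key.mp hs), Units.val_one] at this
        linear_combination this / 2
      · rw [(monoidHom_order_two a1 a2 t).2 (fun e => hs (key.mpr e)), Units.val_neg,
          Units.val_one] at this
        linear_combination this / 2
    all_goals
      exfalso
      rw [d] at e
      norm_cast at e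
      omega

end Cfsg.Agent.S2435
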