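import Cfsg.Statements.S2436
import Cfsg.Agent.H77.PSL2Chars
import Cfsg.Agent.H77.Redundant
import Cfsg.Agent.S2299

set_option autoImplicit false
open Cfsg

namespace Cfsg.Agent.S2436

open Cfsg.Agent.H77

open Cfsg.Agent.H11 Cfsg.Agent.H24
open scoped commutatorElement

section General
variable {G : Type*} [Group G]

/-- the number of irreducible characters of degree prime to `ℓ` -/
noncomputable def mk (ℓ : ℕ) (G : Type*) [Group G] : ℕ :=
  Nat.card {χ : IrrCharacter G // ¬ ℓ ∣ charDegree (χ : G → ℂ)}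

lemma mk_congr (ℓ : ℕ) {H : Type*} [Group H] (e : G ≃* H) : mk ℓ H = mk ℓ G :=
  Nat.card_congr ((irrEquivOfMulEquiv e).subtypeEquiv fun ψ => by
    rw [deg_congr (χ := (irrEquivOfMulEquiv e ψ : G → ℂ)) (ψ := (ψ : H → ℂ))
      (congrArg ψ.1 (map_one e))])

lemma mk_top (ℓ : ℕ) {N : Subgroup G} (h : N = ⊤) : mk ℓ G = mk ℓ N := by
  subst h; exact mk_congr ℓ Subgroup.topEquiv

lemma mk_of_forall [Finite G] {ℓ : ℕ} (h : ∀ χ : IrrCharacter G, ¬ ℓ ∣ charDegree χ.1) :
    mk ℓ G = Nat.card (ConjClasses G) := by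
  rw [← card_irr_eq_card_conjClasses]
  exact Nat.card_congr (Equiv.subtypeUnivEquiv h)

lemma mk_eq_filter [Fintype (IrrCharacter G)] (ℓ : ℕ) :
    mk ℓ G = (Finset.univ.filter fun χ : IrrCharacter G => ¬ ℓ ∣ charDegree χ.1).card := by
  rw [mk, Nat.card_eq_fintype_card, Fintype.card_subtype]

lemma mk_two_of_inverted [Finite G] (A : Subgroup G) (hA : A.index = 2)
    (hcomm : ∀ a ∈ A, ∀ b ∈ A, a * b = b * a)
    (hinv : ∀ n, n ∉ A → ∀ a ∈ A, n * a * n⁻¹ = a⁻¹) (h2 : Nat.card {a : A // a ^ 2 = 1} = 2) :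
    mk 2 G = 4 := by
  have := Fintype.ofFinite (IrrCharacter G)
  have h1 := card_conjClasses_of_inverted A hA hcomm hinv
  rw [← card_irr_eq_card_conjClasses, Nat.card_eq_fintype_card, h2] at h1
  have h3 := sum_deg_sq (G := G)
  have h4 := A.card_mul_index
  have h5 : ∑ χ : IrrCharacter G, (charDegree χ.1 ^ 2 + 3 * if ¬ 2 ∣ charDegree χ.1 then 1 else 0)
      = ∑ χ : IrrCharacter G, 4 := by
    refine Finset.sum_congr rfl fun χ _ => ?_
    have a := deg_le_index_of_comm χ.2 A hcomm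
    have b := deg_pos χ.2
    rw [hA] at a
    generalize charDegree χ.1 = d at *
    interval_cases d <;> simp
  rw [Finset.sum_add_distrib, ← Finset.mul_sum, ← Finset.card_filter, ← mk_eq_filter, h3,
    Finset.sum_const, Finset.card_univ, smul_eq_mul] at h5
  rw [hA] at h4
  omega

lemma mk_two_of_24 [Finite G] (h : Nat.card G = 24) (h8 : 8 ≤ Nat.card (commutator G)) :
    mk 2 G = 4 := by
  have := Fintype.ofFinite (IrrCharacter G)
  classical
  have h3 := sum_deg_sq (G := G)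
  have hl := card_linear_eq_index_commutator (G := G)
  have h4 := (commutator G).card_mul_index
  have hl3 : (commutator G).index ≤ 3 := by nlinarith
  have hl1 : (commutator G).index ≠ 0 := Subgroup.index_ne_zero_of_finite
  rw [Nat.card_eq_fintype_card, Fintype.card_subtype] at hl
  have h5 : ∑ χ : IrrCharacter G, (9 * if ¬ 2 ∣ charDegree χ.1 then 1 else 0) ≤
      ∑ χ : IrrCharacter G, (charDegree χ.1 ^ 2 + 8 * if χ.1 1 = 1 then 1 else 0) := by
    refine Finset.sum_le_sum fun χ _ => ?_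
    simp only [← deg_eq_one_iff (isCharacter_of_irr χ.2)]
    split_ifs with h1 h2 h2
    · omega
    · omega
    · rw [h2]; norm_num
    · have : 3 ≤ charDegree χ.1 := by omega
      nlinarith
  have h6 : (∑ χ : IrrCharacter G, charDegree χ.1 ^ 2) % 4 =
      (∑ χ : IrrCharacter G, if ¬ 2 ∣ charDegree χ.1 then 1 else 0) % 4 := by
    rw [Finset.sum_nat_mod, Finset.sum_nat_mod _ _ (fun χ : IrrCharacter G => ite _ _ _)]
    congr 1
    refine Finset.sum_congr rfl fun χ _ => ?_
    generalize charDegree χ.1 = d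
    obtain ⟨k, rfl | rfl⟩ := Nat.even_or_odd' d
    · rw [if_neg (by omega), show (2 * k) ^ 2 = 4 * k ^ 2 by ring]; omega
    · rw [if_pos (by omega), show (2 * k + 1) ^ 2 = 4 * (k ^ 2 + k) + 1 by ring]; omega
  have h7 : (Finset.univ.filter fun χ : IrrCharacter G => χ.1 1 = 1).card ≤
      (Finset.univ.filter fun χ : IrrCharacter G => ¬ 2 ∣ charDegree χ.1).card := by
    refine Finset.card_le_card fun χ => ?_
    simp only [Finset.mem_filter, Finset.mem_univ, true_and,
      ← deg_eq_one_iff (isCharacter_of_irr χ.2)]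
    omega
  rw [Finset.sum_add_distrib, ← Finset.mul_sum, ← Finset.mul_sum, ← Finset.card_filter,
    ← Finset.card_filter, h3] at h5
  rw [← Finset.card_filter, h3] at h6
  rw [mk_eq_filter]
  omega

end General

variable {F : Type*} [Field F] [Fintype F]

lemma mk_SL2 (hodd : Odd (Fintype.card F)) (h5 : 5 ≤ Fintype.card F) (ℓ : ℕ) :
    mk ℓ (SL2 F) = (if ℓ ∣ 1 then 0 else 1) + ((if ℓ ∣ Fintype.card F then 0 else 1) +
      ((if ℓ ∣ Fintype.card F + 1 then 0 else (Fintype.card F - 3) / 2) +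
      ((if ℓ ∣ Fintype.card F - 1 then 0 else (Fintype.card F - 1) / 2) +
      ((if ℓ ∣ (Fintype.card F + 1) / 2 then 0 else 2) +
      (if ℓ ∣ (Fintype.card F - 1) / 2 then 0 else 2))))) := by
  classical
  have := Fintype.ofFinite (IrrCharacter (SL2 F))
  have ho := Nat.odd_iff.mp hodd
  obtain ⟨c1, c2, c3, c4, c5, c6⟩ := (Cfsg.Agent.S2299.result hodd).2 h5
  rw [← cast_q_add_one] at c3
  rw [← cast_q_sub_one] at c4
  rw [← Nat.cast_one] at c1
  have key : ∀ d c : ℕ, Nat.card {χ : IrrCharacter (SL2 F) // χ.1 1 = (d : ℂ)} = c →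
      ((Finset.univ.filter fun χ : IrrCharacter (SL2 F) => ¬ ℓ ∣ charDegree χ.1).filter
        fun χ => charDegree χ.1 = d).card = if ℓ ∣ d then 0 else c := by
    intro d c h
    rw [Nat.card_eq_fintype_card, Fintype.card_subtype] at h
    split_ifs with hd
    · rw [Finset.card_eq_zero, Finset.filter_eq_empty_iff]
      intro χ hχ e
      exact (Finset.mem_filter.mp hχ).2 (e ▸ hd)
    · rw [← h]
      congr 1
      ext χ
      simp only [Finset.mem_filter, Finset.mem_univ, true_and,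
        ← deg_eq_iff (isCharacter_of_irr χ.2)]
      exact ⟨fun h => h.2, fun h => ⟨h ▸ hd, h⟩⟩
  rw [mk_eq_filter, Finset.card_eq_sum_card_fiberwise (f := fun χ => charDegree χ.1)
    (t := {1, Fintype.card F, Fintype.card F + 1, Fintype.card F - 1, (Fintype.card F + 1) / 2,
      (Fintype.card F - 1) / 2}) (fun χ _ => by
        have := sl_cd_cases (deg_mem_cd χ.2)
        simp only [Finset.coe_insert, Finset.coe_singleton, Set.mem_insert_iff,
          Set.mem_singleton_iff]
        omega),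
    Finset.sum_insert, Finset.sum_insert, Finset.sum_insert, Finset.sum_insert,
    Finset.sum_insert, Finset.sum_singleton, key _ _ c1, key _ _ c2, key _ _ c3, key _ _ c4,
    key _ _ c5, key _ _ c6]
  all_goals
    simp only [Finset.mem_insert, Finset.mem_singleton]
    omega

lemma mk_char (hodd : Odd (Fintype.card F)) (p : ℕ) [Fact p.Prime] [CharP F p]
    (S : Sylow p (SL2 F)) :
    mk p (SL2 F) = mk p (Subgroup.normalizer ((S : Subgroup (SL2 F)) : Set (SL2 F))) := by
  classical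
  have h2 := two_ne_zero_of_odd hodd
  have hc := Cfsg.Agent.H29.isCover_slp (F := F) (p := p)
  obtain ⟨S₀, hS₀⟩ := hc.exists_sylow Cfsg.Agent.H29.inf
  have hB : Subgroup.normalizer ((S₀ : Subgroup (SL2 F)) : Set (SL2 F)) = borelS F := by
    rw [hc.normalizer_sylow hS₀]
    ext g
    rw [Subgroup.mem_comap, MulAction.mem_stabilizer_iff, Cfsg.Agent.H29.slp_apply,
      Cfsg.Agent.H29.pmk_smul_inf_eq_inf, mem_borelS]
    rfl
  obtain ⟨g, rfl⟩ := MulAction.exists_smul_eq (SL2 F) S₀ S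
  have e : Subgroup.normalizer ((S₀ : Subgroup (SL2 F)) : Set (SL2 F)) ≃*
      Subgroup.normalizer (((g • S₀ : Sylow p (SL2 F)) : Subgroup (SL2 F)) : Set (SL2 F)) :=
    ((MulAut.conj g).subgroupMap _).trans
      (MulEquiv.subgroupCongr (Subgroup.map_equiv_normalizer_eq _ (MulAut.conj g)))
  rw [mk_congr p e, mk_of_forall (G := Subgroup.normalizer _)]
  · have h1 := card_conjClasses_borelS (F := F)
    rw [card_sq_eq_one_of_two_ne h2, Nat.card_eq_fintype_card (α := F), ← hB] at h1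
    have := Fintype.ofFinite (IrrCharacter (SL2 F))
    have h3 := card_conjClasses_SL2_odd h2
    rw [← card_irr_eq_card_conjClasses, Nat.card_eq_fintype_card] at h3
    have h4 : (Finset.univ.filter fun χ : IrrCharacter (SL2 F) => p ∣ charDegree χ.1) =
        {⟨sSt F, isIrr_sSt⟩} := by
      ext χ
      simp only [Finset.mem_filter, Finset.mem_univ, true_and, Finset.mem_singleton]
      refine ⟨fun h => Subtype.ext (eq_sSt_of_char_dvd p χ.2 h), ?_⟩
      rintro rfl
      obtain ⟨n, -, hn⟩ := FiniteField.card F p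
      rw [deg_eq sSt_one, hn]
      exact dvd_pow_self p n.ne_zero
    have h5 := Finset.card_filter_add_card_filter_not (s := Finset.univ)
      fun χ : IrrCharacter (SL2 F) => p ∣ charDegree χ.1
    rw [h4, ← mk_eq_filter, Finset.card_singleton, Finset.card_univ] at h5
    omega
  · intro χ h
    have hn := Subgroup.normal_in_normalizer (H := (S₀ : Subgroup (SL2 F)))
    refine (S₀.subtype Subgroup.le_normalizer).not_dvd_index
      (h.trans (deg_dvd_index_of_comm χ.2 ((S₀ : Subgroup (SL2 F)).subgroupOf _)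
        fun a ha b hb => Subtype.ext ?_))
    by_cases ha1 : (a : SL2 F) = 1
    · simp [ha1]
    · have := (hc.centralizer_eq hS₀ ha ha1).ge (hS₀.le ⟨b, hb, rfl⟩)
      exact (Subgroup.mem_centralizer_singleton_iff.mp this).symm

lemma eight_le_commutator (h2 : (2 : F) ≠ 0) (S : Sylow 2 (SL2 F)) (h8 : Nat.card S = 8) :
    8 ≤ Nat.card (commutator (Subgroup.normalizer ((S : Subgroup (SL2 F)) : Set (SL2 F)))) := by
  obtain ⟨i, hi, hS⟩ := exists_sylow_two_le h2 S
  have hr := isReg_of_trace_eq_zero h2 hi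
  obtain ⟨j, hj, hj1, hj2⟩ := sylow_two_exists_not_mem h2 S hi hS
  have hiS := sylow_two_mem_self h2 S hi hS
  have ho := orderOf_of_mul_self h2 (mul_self_of_trace_eq_zero hi)
  have hz : (S : Subgroup (SL2 F)) ⊓ Subgroup.centralizer {i} = Subgroup.zpowers i := by
    symm
    apply Subgroup.eq_of_le_of_card_ge
    · exact Subgroup.zpowers_le.mpr ⟨hiS, mem_cent_iff.mpr rfl⟩
    · rw [Nat.card_zpowers, ho]
      have h1 := Subgroup.card_dvd_of_le (inf_le_left :
        (S : Subgroup (SL2 F)) ⊓ Subgroup.centralizer {i} ≤ _)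
      have h3 : Nat.card ((S : Subgroup (SL2 F)) ⊓ Subgroup.centralizer {i} : Subgroup _) ≠ 8 := by
        intro e
        have := Subgroup.eq_of_le_of_card_ge (inf_le_left :
          (S : Subgroup (SL2 F)) ⊓ Subgroup.centralizer {i} ≤ _) (by rw [e]; exact h8.le)
        exact hj2 (this.ge hj).2
      have h8' : Nat.card (S : Subgroup (SL2 F)) = 8 := h8
      rw [h8'] at h1
      have := Nat.le_of_dvd (by norm_num) h1
      generalize Nat.card ((S : Subgroup (SL2 F)) ⊓ Subgroup.centralizer {i} : Subgroup _) = m at *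
      interval_cases m <;> omega
  set N := Subgroup.normalizer ((S : Subgroup (SL2 F)) : Set (SL2 F)) with hN
  obtain ⟨w, hw, hw1, hw2⟩ := exists_order_three h2 hi hj1
  have hwi : ∀ x ∈ Subgroup.zpowers i, w * x * w⁻¹ ∈ (S : Subgroup (SL2 F)) := by
    rintro _ ⟨m, rfl⟩
    simp only
    rw [← conj_zpow, hw1]
    exact Subgroup.zpow_mem _ (Subgroup.mul_mem _ hiS hj) m
  have hwN : w ∈ N := by
    refine Subgroup.mem_normalizer_fintype fun x hx => ?_
    by_cases h : x ∈ Subgroup.centralizer ({i} : Set (SL2 F))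
    · exact hwi x (hz ▸ ⟨hx, h⟩)
    · have h3 := hr.inverts_of_not_mem (hS hx) h
      have h4 : x * j⁻¹ ∈ Subgroup.centralizer ({i} : Set (SL2 F)) := by
        rw [mem_cent_iff, ← mul_inv_eq_iff_eq_mul]
        have e : j⁻¹ * i * j = i⁻¹ := by
          rw [← _root_.inv_inj, inv_inv]
          calc (j⁻¹ * i * j)⁻¹ = j⁻¹ * i⁻¹ * j := by group
            _ = i := by rw [← hj1]; group
        calc x * j⁻¹ * i * (x * j⁻¹)⁻¹ = x * (j⁻¹ * i * j) * x⁻¹ := by group
          _ = (x * i * x⁻¹)⁻¹ := by rw [e]; group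
          _ = i := by rw [h3, inv_inv]
      have h5 := hwi _ (hz.le ⟨Subgroup.mul_mem _ hx (Subgroup.inv_mem _ hj), h4⟩)
      have h6 := Subgroup.mul_mem _ h5 (hw2 ▸ hiS : w * j * w⁻¹ ∈ (S : Subgroup (SL2 F)))
      change w * x * w⁻¹ ∈ (S : Subgroup (SL2 F))
      convert h6 using 1
      group
  obtain ⟨i', hi'⟩ : ∃ i' : N, (i' : SL2 F) = i := ⟨⟨i, Subgroup.le_normalizer hiS⟩, rfl⟩
  obtain ⟨j', hj'⟩ : ∃ j' : N, (j' : SL2 F) = j := ⟨⟨j, Subgroup.le_normalizer hj⟩, rfl⟩
  obtain ⟨w', hw'⟩ : ∃ w' : N, (w' : SL2 F) = w := ⟨⟨w, hwN⟩, rfl⟩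
  have e1 : w' * i' * w'⁻¹ = i' * j' := Subtype.ext (by
    simp only [Subgroup.coe_mul, Subgroup.coe_inv, hi', hj', hw', hw1])
  have e2 : w' * j' * w'⁻¹ = i' := Subtype.ext (by
    simp only [Subgroup.coe_mul, Subgroup.coe_inv, hi', hj', hw', hw2])
  have m1 : j' ∈ commutator N := by
    have : ⁅w', i'⁆ ∈ commutator N :=
      Subgroup.commutator_mem_commutator (Subgroup.mem_top _) (Subgroup.mem_top _)
    have := (inferInstance : (commutator N).Normal).conj_mem _ this i'⁻¹
    rwa [commutatorElement_def, e1, show i'⁻¹ * (i' * j' * i'⁻¹) * i'⁻¹⁻¹ = j' by group] at this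
  have m2 : i' ∈ commutator N := e2 ▸ (inferInstance : (commutator N).Normal).conj_mem _ m1 w'
  have hlt : Subgroup.zpowers i' < commutator N := by
    refine lt_of_le_of_ne (Subgroup.zpowers_le.mpr m2) fun e => hj2 ?_
    obtain ⟨n, hn⟩ := e.ge m1
    rw [← hj', ← hn, ← hi']
    exact zpow_mem (mem_cent_iff.mpr rfl) n
  have d1 := Subgroup.card_dvd_of_le hlt.le
  have d2 : Nat.card (Subgroup.zpowers i') ≠ Nat.card (commutator N) := fun e =>
    hlt.ne (Subgroup.eq_of_le_of_card_ge hlt.le e.ge)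
  rw [Nat.card_zpowers, ← Subgroup.orderOf_coe, hi', ho] at d1 d2
  have : 0 < Nat.card (commutator N) := Nat.card_pos
  omega

lemma mk_two_normalizer (hodd : Odd (Fintype.card F)) (S : Sylow 2 (SL2 F)) :
    mk 2 (Subgroup.normalizer ((S : Subgroup (SL2 F)) : Set (SL2 F))) = 4 := by
  have h2 := two_ne_zero_of_odd hodd
  have ho := Nat.odd_iff.mp hodd
  by_cases h : Fintype.card F % 8 = 3 ∨ Fintype.card F % 8 = 5
  · have h8 := sylow_two_card_eq_eight S (by rwa [Nat.card_eq_fintype_card])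
    exact mk_two_of_24 (sylow_two_card_normalizer h2 S h8) (eight_le_commutator h2 S h8)
  obtain ⟨i, hi, hS⟩ := exists_sylow_two_le h2 S
  have hr := isReg_of_trace_eq_zero h2 hi
  rw [sylow_two_normalizer_of_eight_dvd h2 S hi hS (by
    rcases card_cent_trace_zero h2 hi with e | e <;> omega)]
  obtain ⟨j, hj, hj1, hj2⟩ := sylow_two_exists_not_mem h2 S hi hS
  refine mk_two_of_inverted ((Subgroup.centralizer {i}).subgroupOf S) ?_
    (fun a ha b hb => Subtype.ext (sl_cent_comm hr.not_isScal ha hb))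
    (fun n hn a ha => Subtype.ext
      (inverts_of_inverts hr.not_isScal (hr.inverts_of_not_mem (hS n.2) hn) ha)) ?_
  · have h0 : (Subgroup.centralizer {i}).relIndex (Subgroup.normalizer
        ((Subgroup.centralizer {i} : Subgroup (SL2 F)) : Set (SL2 F))) = 2 := hr.index_two
    have h1 := Subgroup.relIndex_le_of_le_right (H := Subgroup.centralizer {i}) hS
      (by rw [h0]; omega)
    have h3 : (Subgroup.centralizer {i}).relIndex (S : Subgroup (SL2 F)) ≠ 1 := fun e =>
      hj2 (Subgroup.relIndex_eq_one.mp e hj)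
    have h4 : (Subgroup.centralizer {i}).relIndex (S : Subgroup (SL2 F)) ≠ 0 :=
      Subgroup.index_ne_zero_of_finite
    change (Subgroup.centralizer {i}).relIndex (S : Subgroup (SL2 F)) = 2
    omega
  · have hm : (-1 : SL2 F) ∈ (S : Subgroup (SL2 F)) :=
      sylow_two_mem_of_pow h2 S hi hS (mem_cent_iff.mpr (by simp)) (k := 1) (by simp)
    rw [Nat.card_eq_two_iff]
    refine ⟨⟨1, one_pow 2⟩, ⟨⟨⟨-1, hm⟩, mem_cent_iff.mpr (by simp)⟩, Subtype.ext (Subtype.ext
      (by simp))⟩, fun e => sl_neg_ne_self h2 1 (congrArg (fun x => x.1.1.1) e).symm, ?_⟩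
    rw [Set.eq_univ_iff_forall]
    rintro ⟨⟨⟨a, ha⟩, ha'⟩, h⟩
    have h' : a ^ 2 = 1 := congrArg (fun x => x.1.1) h
    rcases pm_eq_one_iff'.mp (pm_eq_one_iff.mpr ((hr.sq_eq_one_iff ha').mp h')) with rfl | rfl
    · exact Or.inl rfl
    · exact Or.inr rfl

/-- Let F be a finite field with q elements, q odd, ℓ any prime and S a Sylow ℓ-subgroup of SL₂ over F with normaliser N. Then SL₂ and N have the same number of irreducible complex characters of degree not divisible by ℓ (the McKay equality holds for SL₂ over F at every prime). -/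
theorem result {F : Type*} [Field F] [Fintype F] (hodd : Odd (Fintype.card F)) (ℓ : ℕ) [Fact ℓ.Prime] (S : Sylow ℓ (Matrix.SpecialLinearGroup (Fin 2) F)) :
    Nat.card {χ : Cfsg.IrrCharacter (Matrix.SpecialLinearGroup (Fin 2) F) // ¬ ℓ ∣ Cfsg.charDegree (χ : Matrix.SpecialLinearGroup (Fin 2) F → ℂ)} =
      Nat.card {ψ : Cfsg.IrrCharacter (Subgroup.normalizer ((S : Subgroup (Matrix.SpecialLinearGroup (Fin 2) F)) : Set (Matrix.SpecialLinearGroup (Fin 2) F))) //
        ¬ ℓ ∣ Cfsg.charDegree (ψ : Subgroup.normalizer ((S : Subgroup (Matrix.SpecialLinearGroup (Fin 2) F)) : Set (Matrix.SpecialLinearGroup (Fin 2) F)) → ℂ)} := by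
  show mk ℓ (SL2 F) = mk ℓ (Subgroup.normalizer ((S : Subgroup (SL2 F)) : Set (SL2 F)))
  have hℓ : ℓ.Prime := Fact.out
  have h2 := two_ne_zero_of_odd hodd
  have ho := Nat.odd_iff.mp hodd
  have hq1 := Fintype.one_lt_card (α := F)
  have h1 : ¬ ℓ ∣ 1 := hℓ.one_lt.ne' ∘ Nat.dvd_one.mp
  by_cases hd : ℓ ∣ Nat.card (SL2 F)
  swap
  · have : (S : Subgroup (SL2 F)) = ⊥ := Subgroup.eq_bot_of_card_eq _ (by
      rw [S.card_eq_multiplicity, Nat.factorization_eq_zero_of_not_dvd hd, pow_zero])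
    exact mk_top ℓ (by rw [this]; exact Subgroup.normalizer_eq_top _)
  by_cases hq : ℓ ∣ Fintype.card F
  · obtain ⟨p, hp⟩ := CharP.exists F
    obtain ⟨n, hpp, hn⟩ := FiniteField.card F p
    obtain rfl : ℓ = p := (Nat.prime_dvd_prime_iff_eq hℓ hpp).mp (hℓ.dvd_of_dvd_pow (hn ▸ hq))
    exact mk_char hodd ℓ S
  by_cases h5 : 5 ≤ Fintype.card F
  swap
  · have h3 : Fintype.card F = 3 := by omega
    have hG : Nat.card (SL2 F) = 24 := by rw [card_SL2', Nat.card_eq_fintype_card, h3]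
    rw [hG] at hd
    rw [h3] at hq
    obtain rfl : ℓ = 2 := by
      have : ℓ ∣ 2 ^ 3 := ((Nat.Prime.dvd_mul hℓ).mp (hd : ℓ ∣ 3 * 8)).resolve_left hq
      exact (Nat.prime_dvd_prime_iff_eq hℓ Nat.prime_two).mp (hℓ.dvd_of_dvd_pow this)
    refine mk_top 2 (Subgroup.eq_top_of_card_eq _ ?_)
    rw [hG, sylow_two_card_normalizer h2 S (sylow_two_card_eq_eight S
      (by rw [Nat.card_eq_fintype_card, h3]; omega))]
  rw [mk_SL2 hodd h5, if_neg h1, if_neg hq]
  by_cases hℓ2 : ℓ = 2
  · subst hℓ2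
    rw [mk_two_normalizer hodd, if_pos (by omega), if_pos (by omega)]
    split_ifs <;> omega
  obtain ⟨s, hs, hso, hsS, hSs⟩ := exists_isReg_of_sylow hℓ2 (by rwa [Nat.card_eq_fintype_card]) hd S
  have hk := hs.card_conjClasses_normalizer
  have hcop : Nat.Coprime ℓ 2 := (Nat.coprime_primes hℓ Nat.prime_two).mpr hℓ2
  have hl3 : 3 ≤ ℓ := by have := hℓ.two_le; omega
  rw [hs.normalizer_eq hsS hSs, mk_of_forall (G := Subgroup.normalizer _) fun χ h => by
    have a := deg_le_index_of_comm χ.2 ((Subgroup.centralizer {s}).subgroupOf _)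
      (fun a ha b hb => Subtype.ext (sl_cent_comm hs.not_isScal ha hb))
    rw [hs.index_two] at a
    have := Nat.le_of_dvd (deg_pos χ.2) h
    omega]
  rw [card_sq_eq_one_of_two_ne h2] at hk
  have hdc : ℓ ∣ Nat.card (Subgroup.centralizer ({s} : Set (SL2 F))) :=
    hso ▸ Subgroup.orderOf_dvd_natCard _ (mem_cent_iff.mpr rfl)
  have e1 : ℓ ∣ (Fintype.card F + 1) / 2 ↔ ℓ ∣ Fintype.card F + 1 := by
    rw [← hcop.dvd_mul_left, Nat.mul_div_cancel' (by omega)]
  have e2 : ℓ ∣ (Fintype.card F - 1) / 2 ↔ ℓ ∣ Fintype.card F - 1 := by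
    rw [← hcop.dvd_mul_left, Nat.mul_div_cancel' (by omega)]
  have h12 : ¬ (ℓ ∣ Fintype.card F - 1 ∧ ℓ ∣ Fintype.card F + 1) := by
    rintro ⟨h1, h2⟩
    have := Nat.dvd_sub h2 h1
    rw [show Fintype.card F + 1 - (Fintype.card F - 1) = 2 by omega] at this
    have := Nat.le_of_dvd two_pos this
    omega
  simp only [e1, e2]
  rcases hs.card_cent with e | e <;> rw [e, Nat.card_eq_fintype_card (α := F)] at hk hdc
  · have h' : ¬ ℓ ∣ Fintype.card F + 1 := fun h => h12 ⟨hdc, h⟩
    simp only [if_pos hdc, if_neg h']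
    omega
  · have h' : ¬ ℓ ∣ Fintype.card F - 1 := fun h => h12 ⟨h, hdc⟩
    simp only [if_pos hdc, if_neg h']
    omega

end Cfsg.Agent.S2436
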