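import Cfsg.Statements.S4510
import Cfsg.Agent.H17.Count

set_option autoImplicit false
open Cfsg

namespace Cfsg.Agent.S4510

/-- Let G be a finite group, p a prime, M a maximal ideal of the algebraic integers containing p, and call the defect of a conjugacy class the exponent of p in the order of the centralizer of its elements. Two irreducible characters lying in p-blocks of defect exactly d lie in the same block if and only if their central characters (class size times χ(x)/χ(1)) agree modulo the local ideal at M at every p-regular element x whose class has defect exactly d. -/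
theorem result {G : Type*} [Group G] [Finite G] (p : ℕ) [Fact p.Prime] (M : Ideal Cfsg.AlgInt) (hM : Cfsg.IsPModular p M) (d : ℕ) (χ ψ : Cfsg.IrrCharacter G) (hχ : Cfsg.blockDefect p (Cfsg.blockOf M (χ : G → ℂ)) = d) (hψ : Cfsg.blockDefect p (Cfsg.blockOf M (ψ : G → ℂ)) = d) : Cfsg.SameBlock M (χ : G → ℂ) (ψ : G → ℂ) ↔ ∀ x : G, ¬ p ∣ orderOf x → (Nat.card (Subgroup.centralizer ({x} : Set G))).factorization p = d → Cfsg.MemLocalIdeal M (Cfsg.centralChar (χ : G → ℂ) x - Cfsg.centralChar (ψ : G → ℂ) x) := by
  refine ⟨fun h x _ _ => h x, fun h => ?_⟩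
  rw [H17.sameBlock_iff_lam_eq hM.2.1]
  refine H17.lam_eq_of_agree hM.2.1 fun g hg => ?_
  have hB := H17.isPBlock_blockOf (M := M) χ
  have h1 := H17.not_dvd_of_coeff_eB_ne_zero hM (H17.lamClosed_of_isPBlock hM.2.1 hB) hg
  have h2 := H17.factorization_Cg_le_of_coeff_eB hM hB hg
  by_cases h3 : (Nat.card (H17.Cg g)).factorization p = d
  · rw [H17.lam_classSum, H17.lam_classSum,
      H19.red_eq_iff (H17.centralChar_mem_Vr χ g) (H17.centralChar_mem_Vr ψ g)]
    exact H19.mli_val_lt_one hM.2.1 (h g h1 h3)
  · have h4 : H17.lam M χ (H17.classSum (H19.kk M) g) = 0 := by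
      by_contra hc
      have := H17.defect_le_factorization_Cg hM hB (H17.mem_blockOf_self hM.2.1 χ) hc
      omega
    have h5 : H17.lam M ψ (H17.classSum (H19.kk M) g) = 0 := by
      by_contra hc
      have := H17.defect_le_factorization_Cg hM (H17.isPBlock_blockOf (M := M) ψ)
        (H17.mem_blockOf_self hM.2.1 ψ) hc
      omega
    rw [h4, h5]

end Cfsg.Agent.S4510
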