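import Cfsg.Statements.S2439
import Cfsg.Agent.H77.PSL2Chars
import Cfsg.Agent.S4510
import Cfsg.Agent.H17.Numeric

set_option autoImplicit false
open Cfsg

namespace Cfsg.Agent.S2439

open Cfsg.Agent.H77

open Cfsg.Agent.H21 Cfsg.Agent.H19

/-- Let F be a finite field with q elements of odd characteristic p, and M a maximal ideal of the algebraic integers containing p. Then SL₂ over F has exactly three p-blocks relative to M: the irreducible character of degree q (the Steinberg character) alone; the other irreducible characters taking the same value at −1 as at 1 (the principal block); and the irreducible characters χ with χ(−1) = −χ(1). Every Sylow p-subgroup is a defect group of each of the last two blocks. -/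
theorem result {F : Type*} [Field F] [Fintype F] (p : ℕ) [Fact p.Prime] [CharP F p] (hp : p ≠ 2)
    (M : Ideal Cfsg.AlgInt) (hM : Cfsg.IsPModular p M) :
    (∀ B : Set (Cfsg.IrrCharacter (Matrix.SpecialLinearGroup (Fin 2) F)), Cfsg.IsPBlock M B ↔
      (B = {χ : Cfsg.IrrCharacter (Matrix.SpecialLinearGroup (Fin 2) F) | (χ : Matrix.SpecialLinearGroup (Fin 2) F → ℂ) 1 = (Fintype.card F : ℂ)} ∨
       B = {χ : Cfsg.IrrCharacter (Matrix.SpecialLinearGroup (Fin 2) F) | (χ : Matrix.SpecialLinearGroup (Fin 2) F → ℂ) (-1) = (χ : Matrix.SpecialLinearGroup (Fin 2) F → ℂ) 1 ∧ (χ : Matrix.SpecialLinearGroup (Fin 2) F → ℂ) 1 ≠ (Fintype.card F : ℂ)} ∨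
       B = {χ : Cfsg.IrrCharacter (Matrix.SpecialLinearGroup (Fin 2) F) | (χ : Matrix.SpecialLinearGroup (Fin 2) F → ℂ) (-1) = -(χ : Matrix.SpecialLinearGroup (Fin 2) F → ℂ) 1})) ∧
    Nat.card {B : Set (Cfsg.IrrCharacter (Matrix.SpecialLinearGroup (Fin 2) F)) // Cfsg.IsPBlock M B} = 3 ∧
    ∀ P : Sylow p (Matrix.SpecialLinearGroup (Fin 2) F),
      Cfsg.IsDefectGroup p M {χ : Cfsg.IrrCharacter (Matrix.SpecialLinearGroup (Fin 2) F) | (χ : Matrix.SpecialLinearGroup (Fin 2) F → ℂ) (-1) = (χ : Matrix.SpecialLinearGroup (Fin 2) F → ℂ) 1 ∧ (χ : Matrix.SpecialLinearGroup (Fin 2) F → ℂ) 1 ≠ (Fintype.card F : ℂ)} (P : Subgroup (Matrix.SpecialLinearGroup (Fin 2) F)) ∧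
      Cfsg.IsDefectGroup p M {χ : Cfsg.IrrCharacter (Matrix.SpecialLinearGroup (Fin 2) F) | (χ : Matrix.SpecialLinearGroup (Fin 2) F → ℂ) (-1) = -(χ : Matrix.SpecialLinearGroup (Fin 2) F → ℂ) 1} (P : Subgroup (Matrix.SpecialLinearGroup (Fin 2) F)) := by
  classical
  have hpp : p.Prime := Fact.out
  have hmax := hM.2.1
  obtain ⟨n, -, hn⟩ := FiniteField.card F p
  have hq : p ∣ Fintype.card F := by rw [hn]; exact dvd_pow_self p n.ne_zero
  have hq1 := Fintype.one_lt_card (α := F)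
  have h1 : ¬ p ∣ 1 := hpp.one_lt.ne' ∘ Nat.dvd_one.mp
  have hqa : ¬ p ∣ Fintype.card F + 1 := fun h => h1 ((Nat.dvd_add_right hq).mp h)
  have hqs : ¬ p ∣ Fintype.card F - 1 := fun h => h1 ((Nat.dvd_sub_iff_right hq1.le hq).mp h)
  have hp2 : ¬ p ∣ 2 := fun h => hp ((Nat.prime_dvd_prime_iff_eq hpp Nat.prime_two).mp h)
  have h2 : (2 : F) ≠ 0 := fun h => hp2 ((CharP.cast_eq_zero_iff F p 2).mp (by exact_mod_cast h))
  have hG : (Nat.card (SL2 F)).factorization p = n := by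
    have : ¬ p ∣ (Fintype.card F - 1) * (Fintype.card F + 1) := fun h =>
      ((Nat.Prime.dvd_mul hpp).mp h).elim hqs hqa
    rw [card_SL2', Nat.card_eq_fintype_card, Nat.factorization_mul Fintype.card_ne_zero
      (fun h => this (by rw [h]; exact dvd_zero p)), Finsupp.add_apply,
      Nat.factorization_eq_zero_of_not_dvd this, hn, hpp.factorization_pow]
    simp
  obtain ⟨St, hSt⟩ : ∃ St : IrrCharacter (SL2 F), St.1 = sSt F := ⟨⟨_, isIrr_sSt⟩, rfl⟩
  have hnd : ∀ χ : IrrCharacter (SL2 F), χ ≠ St → ¬ p ∣ charDegree χ.1 := fun χ h h' =>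
    h (Subtype.ext ((eq_sSt_of_char_dvd p χ.2 h').trans hSt.symm))
  have hq' : ∀ χ : IrrCharacter (SL2 F), χ.1 1 = (Fintype.card F : ℂ) ↔ χ = St := by
    refine fun χ => ⟨fun h => ?_, fun h => by rw [h, hSt, sSt_one]⟩
    by_contra h'
    exact hnd χ h' (by rw [charDegree_eq h]; exact hq)
  have hbSt : blockOf M St.1 = {St} := Cfsg.Agent.H17.blockOf_eq_singleton_of_nu_eq hM St (by
    rw [hG, nu, charDegree_eq ((hq' St).mpr rfl), hn, hpp.factorization_pow]; simp)
  have hne : ∀ χ : IrrCharacter (SL2 F), χ.1 1 ≠ 0 := fun χ => by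
    rw [← cast_deg]; exact Nat.cast_ne_zero.mpr (deg_ne_zero χ)
  have hz : (-1 : SL2 F) ∈ Subgroup.center (SL2 F) :=
    sl_mem_center_iff.mpr (sl_isScal_iff.mpr (Or.inr rfl))
  have hsgn : ∀ χ : IrrCharacter (SL2 F), χ.1 (-1) = χ.1 1 ∨ χ.1 (-1) = -χ.1 1 := fun χ => by
    have := irr_center_mul χ.2 hz (-1)
    rw [neg_mul_neg, one_mul] at this
    exact mul_self_eq_mul_self_iff.mp this.symm
  have hnn : ∀ χ : IrrCharacter (SL2 F), χ.1 (-1) = χ.1 1 → χ.1 (-1) ≠ -χ.1 1 :=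
    fun χ h h' => hne χ (by linear_combination (h' - h) / 2)
  have hStm : St.1 (-1) = St.1 1 := by
    rw [hSt, ← uts_neg_one, sSt_scal (neg_one_sq), sSt_one]
  have hc : ∀ χ : IrrCharacter (SL2 F), centralChar χ.1 (-1) = χ.1 (-1) / χ.1 1 := fun χ => by
    rw [centralChar, sl_index_cent_isScal (sl_mem_center_iff.mp hz)]; simp
  have hc1 : ∀ χ : IrrCharacter (SL2 F), centralChar χ.1 1 = 1 := fun χ => by
    rw [centralChar, sl_index_cent_isScal (sl_isScal_iff.mpr (Or.inl rfl))]; simp [hne χ]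
  have hm2 : ¬ MemLocalIdeal M 2 := fun h => hp2 ((mli_natCast_iff hM 2).mp (by exact_mod_cast h))
  obtain ⟨P₀⟩ : Nonempty (Sylow p (SL2 F)) := inferInstance
  have hdef : ∀ χ : IrrCharacter (SL2 F), χ ≠ St → blockDefect p (blockOf M χ.1) = n := by
    intro χ h
    rw [← hG, ← Cfsg.Agent.H17.dg_sylow_iff hM (H21.isPBlock_blockOf χ) P₀,
      Cfsg.Agent.H17.dg_sylow_iff_exists hM (H21.isPBlock_blockOf χ)]
    exact ⟨χ, self_mem_blockOf hmax χ, hnd χ h⟩
  have key : ∀ χ ψ : IrrCharacter (SL2 F), χ ≠ St →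
      (SameBlock M χ.1 ψ.1 ↔ ψ ≠ St ∧ χ.1 (-1) / χ.1 1 = ψ.1 (-1) / ψ.1 1) := by
    intro χ ψ hχ
    constructor
    · intro h
      refine ⟨fun e => hχ ?_, ?_⟩
      · have : χ ∈ blockOf M St.1 := H21.sameBlock_symm hmax (e ▸ h)
        rwa [hbSt] at this
      · have h3 := h (-1)
        rw [hc, hc] at h3
        rcases hsgn χ with e | e <;> rcases hsgn ψ with e' | e' <;> rw [e, e'] at h3 ⊢ <;>
          simp only [neg_div, div_self (hne _)] at h3 ⊢
        · exact absurd (by convert h3 using 1; ring) hm2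
        · exact absurd (by convert mli_neg hmax h3 using 1; ring) hm2
    · rintro ⟨hψ, h⟩
      refine (Cfsg.Agent.S4510.result p M hM n χ ψ (hdef χ hχ) (hdef ψ hψ)).mpr fun x hx hx' => ?_
      have hs : IsScal (x : M2 F) := by
        rcases type_cases (x : M2 F) with h | h | h | h
        · exact h
        · obtain ⟨z, b, hz, hb, hc⟩ := exists_isConj_uts_of_isPar h
          refine absurd ?_ hx
          rw [← orderOf_isConj hc, ← orderOf_uts_unip p (b := 2 * (z * b))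
            (mul_ne_zero h2 (mul_ne_zero z.ne_zero hb))]
          refine dvd_trans (dvd_of_eq ?_) (orderOf_pow_dvd 2)
          congr 1
          rw [pow_two, uts_mul, ← pow_two, hz, ← units_eq_inv_iff.mpr hz]
          congr 1
          ring
        · rw [sl_card_cent_isSplit h, Nat.card_eq_fintype_card,
            Nat.factorization_eq_zero_of_not_dvd hqs] at hx'
          exact absurd hx'.symm n.ne_zero
        · rw [sl_card_cent_noEig h, Nat.factorization_eq_zero_of_not_dvd hqa] at hx'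
          exact absurd hx'.symm n.ne_zero
      rcases pm_eq_one_iff'.mp (pm_eq_one_iff.mpr hs) with rfl | rfl
      · rw [hc1, hc1, sub_self]; exact mli_zero hmax
      · rw [hc, hc, h, sub_self]; exact mli_zero hmax
  have b2 : ∀ χ : IrrCharacter (SL2 F), χ ≠ St → χ.1 (-1) = χ.1 1 → blockOf M χ.1 =
      {χ : IrrCharacter (SL2 F) | χ.1 (-1) = χ.1 1 ∧ χ.1 1 ≠ (Fintype.card F : ℂ)} := by
    intro χ h e
    ext ψ
    rw [mem_blockOf, key χ ψ h, Set.mem_ofPred_eq, Ne, Ne, hq', e, div_self (hne _),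
      eq_div_iff (hne _), one_mul, and_comm, eq_comm]
  have b3 : ∀ χ : IrrCharacter (SL2 F), χ.1 (-1) = -χ.1 1 → blockOf M χ.1 =
      {χ : IrrCharacter (SL2 F) | χ.1 (-1) = -χ.1 1} := by
    intro χ e
    ext ψ
    rw [mem_blockOf, key χ ψ (fun h => hnn χ (h ▸ hStm) e), Set.mem_ofPred_eq, e, neg_div,
      div_self (hne _), eq_div_iff (hne _), neg_one_mul, eq_comm]
    exact ⟨fun h => h.2, fun h => ⟨fun h' => hnn ψ (h' ▸ hStm) h, h⟩⟩
  have b1 : blockOf M St.1 = {χ : IrrCharacter (SL2 F) | χ.1 1 = (Fintype.card F : ℂ)} := by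
    rw [hbSt]; ext ψ; rw [Set.mem_ofPred_eq, hq', Set.mem_singleton_iff]
  have htr : triv (SL2 F) ≠ St := fun h => by
    have := (hq' _).mpr h
    rw [triv_apply] at this
    have : 1 = Fintype.card F := by exact_mod_cast this
    omega
  obtain ⟨φ, hφ⟩ : ∃ φ : IrrCharacter (SL2 F), φ.1 (-1) = -φ.1 1 := by
    obtain ⟨φ, h, h'⟩ := Cfsg.Agent.H11.exists_irr_apply_ne (sl_neg_ne_self h2 (1 : SL2 F))
    exact ⟨⟨φ, h⟩, (hsgn ⟨φ, h⟩).resolve_left h'⟩
  have hφ' : φ ≠ St := fun h => hnn φ (h ▸ hStm) hφ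
  have c2 := b2 _ htr rfl
  have c3 := b3 φ hφ
  rw [← b1, ← c2, ← c3]
  have hall : ∀ B, IsPBlock M B ↔
      B = blockOf M St.1 ∨ B = blockOf M (triv (SL2 F)).1 ∨ B = blockOf M φ.1 := by
    refine fun B => ⟨?_, ?_⟩
    · rintro ⟨χ, rfl⟩
      by_cases h : χ = St
      · exact Or.inl (by rw [h])
      · rcases hsgn χ with e | e
        · exact Or.inr (Or.inl ((b2 χ h e).trans c2.symm))
        · exact Or.inr (Or.inr ((b3 χ e).trans c3.symm))
    · rintro (rfl | rfl | rfl) <;> exact H21.isPBlock_blockOf _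
  refine ⟨hall, ?_, fun P => ⟨?_, ?_⟩⟩
  · have e : {B | IsPBlock M B} =
        {blockOf M St.1, blockOf M (triv (SL2 F)).1, blockOf M φ.1} := Set.ext hall
    rw [show Nat.card {B // IsPBlock M B} = Set.ncard {B | IsPBlock M B} from rfl, e]
    refine Set.ncard_eq_three.mpr ⟨_, _, _, fun h => ?_, fun h => ?_, fun h => ?_, rfl⟩
    · have := self_mem_blockOf hmax (triv (SL2 F))
      rw [← h, hbSt] at this
      exact htr this
    · have := self_mem_blockOf hmax φ
      rw [← h, hbSt] at this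
      exact hφ' this
    · have := self_mem_blockOf hmax φ
      rw [← h, c2] at this
      exact hnn φ this.1 hφ
  · exact (Cfsg.Agent.H17.dg_sylow_iff hM (H21.isPBlock_blockOf _) P).mpr ((hdef _ htr).trans hG.symm)
  · exact (Cfsg.Agent.H17.dg_sylow_iff hM (H21.isPBlock_blockOf _) P).mpr ((hdef _ hφ').trans hG.symm)

end Cfsg.Agent.S2439
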