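import Cfsg.Statements.S2440
import Cfsg.Agent.H75.ModSL
import Cfsg.Agent.H26.SLBasic

set_option autoImplicit false
open Cfsg

namespace Cfsg.Agent.S2440

/-- For a prime p and n ≥ 2, the group SL_n over the field with p elements has exactly gcd(n, p − 1) + 1 p-blocks relative to any maximal ideal of the algebraic integers containing p, that is, one more than the order of its centre (only this total is asserted; it arises as the defect-zero block of the Steinberg character plus as many blocks of maximal defect as the order of the centre). -/
theorem result (p : ℕ) [Fact p.Prime] (n : ℕ) (hn : 2 ≤ n) (M : Ideal Cfsg.AlgInt) (hM : Cfsg.IsPModular p M) :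
    Nat.card {B : Set (Cfsg.IrrCharacter (Matrix.SpecialLinearGroup (Fin n) (ZMod p))) // Cfsg.IsPBlock M B} =
      Nat.gcd n (p - 1) + 1 := by
  obtain ⟨L, h, -⟩ := H75.exists_modelSL (K := ZMod p) p hn
  have : Nonempty (Fin n) := ⟨⟨0, by omega⟩⟩
  rw [L.card_blocks h hM, H26.card_center_sl, Fintype.card_fin, Nat.card_zmod]

end Cfsg.Agent.S2440
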