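import Cfsg.Statements.S2441
import Cfsg.Agent.H75.ChevLin
import Cfsg.Agent.H75.Blocks
import Cfsg.Agent.H35.StPar

set_option autoImplicit false
open Cfsg

namespace Cfsg.Agent.S2441

theorem aux {D : Cfsg.Lie.ChevalleyDatum} (hD : D ∈ [Cfsg.Lie.chevG2, Cfsg.Lie.chevB2, Cfsg.Lie.chevD4,
    Cfsg.Lie.chevF4, Cfsg.Lie.chevE6, Cfsg.Lie.chevE7, Cfsg.Lie.chevE8]) (p : ℕ) [Fact p.Prime]
    (M : Ideal Cfsg.AlgInt) (hM : Cfsg.IsPModular p M) :
    Nat.card {B : Set (Cfsg.IrrCharacter (D.group (ZMod p))) // Cfsg.IsPBlock M B} = 2 := by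
  rw [(H75.chevModel1 hD (ZMod p) p).card_blocks (H75.chevModel1_G1 hD _ p) hM,
    H35.center_eq_bot (H34.cert hD), Subgroup.card_bot]


/-- For a prime p, the Chevalley groups of types G₂, F₄ and E₈ over the field with p elements (types for which the simply connected and adjoint groups coincide, so the group has trivial centre) each have exactly two p-blocks relative to any maximal ideal of the algebraic integers containing p (only the count is asserted; it arises as the defect-zero block of the Steinberg character plus a single block of maximal defect). -/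
theorem result (p : ℕ) [Fact p.Prime] (M : Ideal Cfsg.AlgInt) (hM : Cfsg.IsPModular p M) :
    Nat.card {B : Set (Cfsg.IrrCharacter (Cfsg.Lie.chevG2.group (ZMod p))) // Cfsg.IsPBlock M B} = 2 ∧
    Nat.card {B : Set (Cfsg.IrrCharacter (Cfsg.Lie.chevF4.group (ZMod p))) // Cfsg.IsPBlock M B} = 2 ∧
    Nat.card {B : Set (Cfsg.IrrCharacter (Cfsg.Lie.chevE8.group (ZMod p))) // Cfsg.IsPBlock M B} = 2 := by
  exact ⟨aux (by simp) p M hM, aux (by simp) p M hM, aux (by simp) p M hM⟩

end Cfsg.Agent.S2441
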