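import Cfsg.Statements.S2442
import Cfsg.Agent.H22.CuspD
import Cfsg.Agent.H12.Galois
import Cfsg.Agent.H19.GaloisNum
import Cfsg.Agent.H11.Irr

set_option autoImplicit false
open scoped MatrixGroups
open Cfsg

namespace Cfsg.Agent.S2442


open Polynomial Module Cfsg.Agent.H19 Cfsg.Agent.H22.Cusp
open scoped ComplexConjugate

theorem mul_conj_eq_one_iff {z w : ℂ} {N : ℕ} (hN : N ≠ 0) (hw : w ^ N = 1) :
    z * conj w = 1 ↔ z = w := by
  have h1 : w * conj w = 1 := by
    rw [Complex.mul_conj', Complex.norm_eq_one_of_pow_eq_one hw hN]; simp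
  refine ⟨fun h => ?_, fun h => h ▸ h1⟩
  calc z = z * (w * conj w) := by rw [h1, mul_one]
    _ = (z * conj w) * w := by ring
    _ = w := by rw [h, one_mul]

open Classical in
/-- Let F be a finite field with q elements and n ≥ 2. Call a complex character χ of GL_n over F cuspidal when, for every 0 < m < n, the sum of χ over the subgroup of matrices that agree with the identity outside the upper right m × (n − m) block vanishes (the restriction of χ to the unipotent radical of each maximal standard parabolic subgroup contains no principal constituent). Then GL_n has at least φ(qⁿ − 1)/n distinct cuspidal irreducible characters of degree (q − 1)(q² − 1)⋯(q^(n−1) − 1), φ being Euler's function (in particular at least one). -/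
theorem result {F : Type*} [Field F] [Fintype F] [DecidableEq F] (n : ℕ) (hn : 2 ≤ n) :
    Nat.totient (Fintype.card F ^ n - 1) / n ≤
      Nat.card {χ : Cfsg.IrrCharacter (GL (Fin n) F) //
        (χ : GL (Fin n) F → ℂ) 1 = ∏ i ∈ Finset.Ico 1 n, ((Fintype.card F : ℂ) ^ i - 1) ∧
        ∀ m : ℕ, 0 < m → m < n →
          (∑ g : GL (Fin n) F,
            if (∀ i j : Fin n, ¬ (i.val < m ∧ m ≤ j.val) → (g : Matrix (Fin n) (Fin n) F) i j = (1 : Matrix (Fin n) (Fin n) F) i j)
            then (χ : GL (Fin n) F → ℂ) g else 0) = 0} := by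
  obtain ⟨p, hp⟩ := CharP.exists F
  have hpp : p.Prime := CharP.char_is_prime F p
  have : Fact p.Prime := ⟨hpp⟩
  have : NeZero n := ⟨by omega⟩
  obtain ⟨M, hM⟩ := exists_isPModular hpp
  have := charP_kk hM
  let _ : Algebra (ZMod p) F := ZMod.algebra _ p
  let _ : Algebra (ZMod p) (kk M) := ZMod.algebra _ p
  let _ : Algebra F (kk M) := (IsAlgClosed.lift : F →ₐ[ZMod p] kk M).toRingHom.toAlgebra
  let K := FiniteField.Extension F p n
  have := Fintype.ofFinite K
  have hK : finrank F K = n := FiniteField.finrank_extension F p n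
  let j : K →ₐ[F] kk M := IsAlgClosed.lift
  set N := Fintype.card F ^ n - 1 with hN
  have hq : 1 < Fintype.card F ^ n := Nat.one_lt_pow (by omega) Fintype.one_lt_card
  have hN0 : 0 < N := by omega
  have hNK : Nat.card Kˣ = N := by
    rw [Nat.card_units, FiniteField.natCard_extension, Nat.card_eq_fintype_card]
  have hpN : ¬ p ∣ N := by
    intro h
    obtain ⟨r, -, hr⟩ := FiniteField.card F p
    have h1 : p ∣ Fintype.card F ^ n :=
      dvd_pow (hr ▸ dvd_pow_self p r.ne_zero) (by omega)
    have h2 : p ∣ Fintype.card F ^ n - N := Nat.dvd_sub h1 h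
    rw [show Fintype.card F ^ n - N = 1 by omega] at h2
    exact hpp.one_lt.ne' (Nat.dvd_one.1 h2)
  have hx : ∀ x : Kˣ, j x ^ N = 1 := fun x => by
    rw [← map_pow, ← Units.val_pow_eq_pow_val, ← hNK, pow_card_eq_one', Units.val_one, map_one]
  have ht1 : teich p M 1 = 1 := by
    have := teich_red hM (z := 1) hpN (one_pow _)
    rwa [red_one] at this
  have ht0 : teich p M 0 = 0 := by
    rcases teich_pow_eq_one_or hM 0 with h | ⟨m, hm, -, h⟩
    · exact h
    · rw [zero_pow (by rintro rfl; exact hm (dvd_zero p))] at h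
      exact (zero_ne_one h).elim
  let θ₀ : Kˣ →* ℂ :=
    { toFun := fun x => teich p M (j x)
      map_one' := by simp [ht1]
      map_mul' := fun x y => by
        rw [Units.val_mul, map_mul, teich_mul hM hpN (hx x) (hx y)] }
  have hθN : ∀ x, θ₀ x ^ N = 1 := fun x => (teich_spec hM hpN (hx x)).1
  have hθi : Function.Injective θ₀ := by
    intro x y h
    have h1 : red M (teich p M (j x)) = red M (teich p M (j y)) := congrArg (red M) h
    rw [(teich_spec hM hpN (hx x)).2, (teich_spec hM hpN (hx y)).2] at h1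
    exact Units.ext (j.injective h1)
  have hσ : ∀ u : ℕ, ∃ σ : ℂ ≃+* ℂ, N.Coprime u → ∀ z : ℂ, z ^ N = 1 → σ z = z ^ u := by
    intro u
    by_cases hu : N.Coprime u
    · obtain ⟨σ, h⟩ := H12.exists_ringEquiv_pow hN0 hu.symm
      exact ⟨σ, fun _ => h⟩
    · exact ⟨RingEquiv.refl _, fun h => (hu h).elim⟩
  choose σ hσ using hσ
  let T : ℕ → kk M → ℂ := fun u x => σ u (teich p M x)
  let θ : ℕ → Kˣ →* ℂ := fun u => (σ u : ℂ →* ℂ).comp θ₀
  have hθ : ∀ u x, θ u x = σ u (θ₀ x) := fun _ _ => rfl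
  have hθN' : ∀ u x, θ u x ^ N = 1 := fun u x => by rw [hθ, ← map_pow, hθN, map_one]
  let D : ℕ → GL (Fin n) F → ℂ := fun u g => DD (bT (T u)) (natRep F n g)
  have hb : ∀ u f, bT (T u) f = σ u (bT (F := F) (teich p M) f) := fun u f => by
    rw [bT, bT, map_multiset_sum, Multiset.map_map]
    rfl
  have hD : ∀ u, IsGeneralizedCharacter _ (D u) := fun u =>
    isGen_Dr (fun H _ _ W ρ => by
      simp only [hb]
      exact H12.isGeneralizedCharacter_gal (isGen_bT hM ρ) (σ u : ℂ →+* ℂ)) ⊤ _ (natRep F n)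
      fun _ => inv_top _
  have hin : ∀ u v, classInner (D u) (D v) =
      ∑ s : Gal(K/F), if ∀ x : Kˣ, θ u x = θ v (Units.map (s : K →* K) x) then 1 else 0 := by
    intro u v
    rw [classInner_DD j (by omega) hK (T u) (T v) (by simp [T, ht0]) (θ u) (θ v)
      (fun _ => rfl) (fun _ => rfl)]
    simp only [mul_conj_eq_one_iff hN0.ne' (hθN' v _)]
  let χ : ℕ → GL (Fin n) F → ℂ := fun u => (((-1) ^ (n - 1) : ℤ) : ℂ) • D u
  have hχin : ∀ u v, classInner (χ u) (χ v) = classInner (D u) (D v) := fun u v => by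
    rw [H11.classInner_smul_left, H11.classInner_smul_right, ← mul_assoc, map_intCast,
      ← Int.cast_mul, ← mul_pow]
    simp
  have hχ1 : ∀ u, χ u 1 = ∏ i ∈ Finset.Ico 1 n, ((Fintype.card F : ℂ) ^ i - 1) := fun u => by
    have h1 : bT (F := F) (T u) (X - 1) = 1 := by
      rw [hb, bT, ← C_1, aroots_X_sub_C]
      simp [ht1]
    have h2 : D u 1 = ∏ i ∈ Finset.Ico 1 n, (1 - (Fintype.card F : ℂ) ^ i) := by
      have := DD_one (V := Fin n → F) (bT_mul (T u)) h1
      rw [finrank_fin_fun] at this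
      simp only [D, map_one, this]
    simp only [χ, Pi.smul_apply, h2, smul_eq_mul]
    rw [Finset.prod_congr rfl (g := fun i => -(1 - (Fintype.card F : ℂ) ^ i))
      (s₂ := Finset.Ico 1 n) (f := fun i => (Fintype.card F : ℂ) ^ i - 1) fun _ _ => by ring,
      Finset.prod_neg, Nat.card_Ico]
    simp
  have hχ : ∀ u, IsIrrCharacter _ (χ u) := fun u => by
    refine H11.isIrrCharacter_of_isGen (H11.isGen_intCast_smul (hD u) _) ?_ ?_
    · rw [hχin, hin, Finset.sum_eq_single 1, if_pos]
      · intro x; rfl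
      · intro s _ hs
        rw [if_neg]
        intro h
        refine hs (AlgEquiv.ext fun t => ?_)
        rcases eq_or_ne t 0 with rfl | ht
        · simp
        · have h1 := hθi ((σ u).injective (h (Units.mk0 t ht)))
          exact (congrArg Units.val h1).symm
      · simp
    · rw [hχ1]
      have : ∏ i ∈ Finset.Ico 1 n, ((Fintype.card F : ℂ) ^ i - 1) =
          ((∏ i ∈ Finset.Ico 1 n, ((Fintype.card F : ℝ) ^ i - 1) : ℝ) : ℂ) := by push_cast; rfl
      rw [this, Complex.ofReal_re]
      refine Finset.prod_nonneg fun i _ => sub_nonneg.2 (one_le_pow₀ ?_)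
      exact_mod_cast Fintype.card_pos
  let Φ : ℕ → {χ : Cfsg.IrrCharacter (GL (Fin n) F) //
        (χ : GL (Fin n) F → ℂ) 1 = ∏ i ∈ Finset.Ico 1 n, ((Fintype.card F : ℂ) ^ i - 1) ∧
        ∀ m : ℕ, 0 < m → m < n →
          (∑ g : GL (Fin n) F,
            if (∀ i j : Fin n, ¬ (i.val < m ∧ m ≤ j.val) → (g : Matrix (Fin n) (Fin n) F) i j = (1 : Matrix (Fin n) (Fin n) F) i j)
            then (χ : GL (Fin n) F → ℂ) g else 0) = 0} := fun u => ⟨⟨χ u, hχ u⟩, hχ1 u, by
    intro m h0 h1
    have h2 := congrArg ((((-1) ^ (n - 1) : ℤ) : ℂ) * ·) (sum_DD_cusp (bT_mul (F := F) (T u)) h0 h1)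
    simp only [Finset.mul_sum, mul_zero, mul_ite] at h2
    convert h2
    rfl⟩
  have := Fintype.ofFinite (IrrCharacter (GL (Fin n) F))
  refine Nat.div_le_of_le_mul ?_
  rw [Nat.totient, Nat.card_eq_fintype_card]
  refine (Finset.card_le_mul_card_image (f := Φ) _ n fun b hb => ?_).trans
    (Nat.mul_le_mul_left _ (Finset.card_le_univ _))
  obtain ⟨v, -, rfl⟩ := Finset.mem_image.1 hb
  have hs : ∀ u : ℕ, ∃ s : Gal(K/F), Φ u = Φ v →
      ∀ x : Kˣ, θ u x = θ v (Units.map (s : K →* K) x) := by
    intro u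
    by_contra h
    simp only [not_exists, Classical.not_imp] at h
    have h1 : χ u = χ v := congrArg (fun z => (z.1 : GL (Fin n) F → ℂ)) (h 1).1
    have h3 : classInner (χ u) (χ v) = 1 := by rw [← h1]; exact H11.classInner_irr_self (hχ u)
    rw [hχin, hin, Finset.sum_eq_zero fun s _ => if_neg (h s).2] at h3
    exact zero_ne_one h3
  choose s hs using hs
  obtain ⟨g, hg⟩ := IsCyclic.exists_ofOrder_eq_natCard (α := Kˣ)
  have ho : orderOf (θ₀ g) = N := by rw [orderOf_injective θ₀ hθi, hg, hNK]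
  calc _ ≤ (Finset.univ : Finset Gal(K/F)).card := by
        refine Finset.card_le_card_of_injOn s (fun _ _ => by simp) fun u hu w hw h => ?_
        simp only [Finset.coe_filter, Finset.mem_filter, Finset.mem_range,
          Set.mem_ofPred_eq] at hu hw
        have h1 := hs u hu.2 g
        rw [h, ← hs w hw.2 g, hθ, hθ, hσ u hu.1.2 _ (hθN g), hσ w hw.1.2 _ (hθN g)] at h1
        exact pow_injOn_Iio_orderOf (by rw [ho]; exact hu.1.1) (by rw [ho]; exact hw.1.1) h1
    _ = n := by
        rw [Finset.card_univ, Fintype.card_eq_nat_card, FiniteField.natCard_algEquiv_extension]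

end Cfsg.Agent.S2442
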