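import Cfsg.Statements.S2531
import Cfsg.Agent.H26.SL5

set_option autoImplicit false
open Cfsg

namespace Cfsg.Agent.S2531

theorem card_points {F V : Type*} [Field F] [Finite F] [AddCommGroup V] [Module F V] [Finite V]
    (W : Submodule F V) (hW : W ≠ ⊥) :
    ((Nat.card {x : Projectivization F V // x.rep ∈ W} : ℕ) : F) = 1 := by
  have h1 : Nat.card {x : Projectivization F V // x.rep ∈ W} = Nat.card (Projectivization F W) := by
    symm
    have key : ∀ (v : V) (hv : v ≠ 0), (Projectivization.mk F v hv).rep ∈ W ↔ v ∈ W := by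
      intro v hv
      obtain ⟨a, ha⟩ := Projectivization.exists_smul_eq_mk_rep F v hv
      rw [← ha, Units.smul_def, W.smul_mem_iff a.ne_zero]
    refine Nat.card_eq_of_bijective
      (fun y => ⟨Projectivization.map W.subtype W.injective_subtype y, ?_⟩) ⟨?_, ?_⟩
    · induction y using Projectivization.ind with
      | h v hv => rw [Projectivization.map_mk, key]; exact v.2
    · intro y z hyz
      exact Projectivization.map_injective (τ := RingHom.id F) W.subtype W.injective_subtype
        (congrArg Subtype.val hyz)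
    · rintro ⟨x, hx⟩
      refine ⟨Projectivization.mk F ⟨x.rep, hx⟩ (fun h => x.rep_nonzero (congrArg Subtype.val h)), ?_⟩
      apply Subtype.ext
      simp only [Projectivization.map_mk]
      exact Projectivization.mk_rep x
  have := Fintype.ofFinite F
  have hq : ((Nat.card F : ℕ) : F) = 0 := by
    rw [Nat.card_eq_fintype_card]; exact FiniteField.cast_card_eq_zero F
  have h2 := Projectivization.card' F W
  have h3 : Nat.card W = Nat.card F ^ Module.finrank F W := Module.natCard_eq_pow_finrank
  have h4 : Module.finrank F W ≠ 0 := by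
    intro h
    exact hW (Submodule.finrank_eq_zero.1 h)
  have h5 : 1 ≤ Nat.card F := Nat.card_pos
  have h6 := congrArg (Nat.cast : ℕ → F) h2
  rw [h3] at h6
  push_cast [Nat.cast_sub h5] at h6
  rw [hq, zero_pow h4] at h6
  rw [h1]
  linear_combination h6

theorem count {P : Type*} [Fintype P] [DecidableEq P] (T : Finset (Equiv.Perm P)) (B C : Finset P)
    (h : ∀ b ∈ B, ∀ d ∈ C, ∃! s, s ∈ T ∧ s b = d) :
    ∑ s ∈ T, (B.filter fun b => s b ∈ C).card = B.card * C.card := by
  have h1 : ∀ s : Equiv.Perm P, (B.filter fun b => s b ∈ C).card =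
      ∑ b ∈ B, ∑ d ∈ C, if s b = d then 1 else 0 := by
    intro s
    rw [Finset.card_filter]
    refine Finset.sum_congr rfl fun b _ => ?_
    rw [Finset.sum_ite_eq]
  simp only [h1]
  rw [Finset.sum_comm, Finset.card_eq_sum_ones B, Finset.sum_mul]
  refine Finset.sum_congr rfl fun b hb => ?_
  rw [Finset.sum_comm, one_mul, Finset.card_eq_sum_ones C]
  refine Finset.sum_congr rfl fun d hd => ?_
  rw [← Finset.card_filter, Finset.card_eq_one]
  obtain ⟨s, hs, hu⟩ := h b hb d hd
  refine ⟨s, ?_⟩
  ext t
  simp only [Finset.mem_filter, Finset.mem_singleton]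
  exact ⟨hu t, fun ht => ht ▸ hs⟩


/-- Let `F` be a finite field and `n ≥ 3`. No set of permutations of the points of the projective space of `Fⁿ`, each induced by an invertible semilinear transformation of `Fⁿ` (so a subset of the full projective semilinear group), is sharply 2-transitive on the points: it is impossible that for all pairs of distinct points `(a, b)` and `(c, d)` exactly one member of the set sends `a` to `c` and `b` to `d`. -/
theorem result {F : Type*} [Field F] [Finite F]
    (n : ℕ) (hn : 3 ≤ n) (S : Set (Equiv.Perm (Projectivization F (Fin n → F))))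
    (hS : ∀ s ∈ S, ∃ (σ : F ≃+* F) (f : (Fin n → F) →ₛₗ[(σ : F →+* F)] (Fin n → F)) (hf : Function.Injective f),
      ∀ x, s x = Projectivization.map f hf x) :
    ¬ (∀ a b c d : Projectivization F (Fin n → F), a ≠ b → c ≠ d →
        ∃! s, s ∈ S ∧ s a = c ∧ s b = d) := by
  classical
  intro h
  have := Fintype.ofFinite (Projectivization F (Fin n → F))
  have hn' : 3 ≤ Fintype.card (Fin n) := by simpa using hn
  let i : Fin n := ⟨0, by omega⟩
  have key : ∀ (v : Fin n → F) (hv : v ≠ 0),
      (Projectivization.mk F v hv).rep i = 0 ↔ v i = 0 := by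
    intro v hv
    obtain ⟨a, ha⟩ := Projectivization.exists_smul_eq_mk_rep F v hv
    rw [← ha, Units.smul_def, Pi.smul_apply, smul_eq_mul, mul_eq_zero, or_iff_right a.ne_zero]
  let a : Projectivization F (Fin n → F) :=
    Projectivization.mk F (Pi.single i 1) (Pi.single_ne_zero_iff.2 one_ne_zero)
  have ha : a.rep i ≠ 0 := by
    rw [Ne, key]; simp
  let B : Finset (Projectivization F (Fin n → F)) := Finset.univ.filter fun x => x.rep i = 0
  let T : Finset (Equiv.Perm (Projectivization F (Fin n → F))) :=
    Finset.univ.filter fun s => s ∈ S ∧ s a = a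
  have hT : ∀ b, b ≠ a → ∀ d, d ≠ a → ∃! s, s ∈ T ∧ s b = d := by
    intro b hb d hd
    simpa [T, and_assoc] using h a b a d hb.symm hd.symm
  have hBa : ∀ b ∈ B, b ≠ a := by
    rintro b hb rfl
    exact ha (Finset.mem_filter.1 hb).2
  have hcard : ∀ (W : Submodule F (Fin n → F)) (X : Finset (Projectivization F (Fin n → F))),
      W ≠ ⊥ → (∀ x, x ∈ X ↔ x.rep ∈ W) → (X.card : F) = 1 := by
    intro W X hW hX
    rw [← card_points W hW, Nat.subtype_card X hX]
  have hs : ∀ s ∈ T, ((B.filter fun b => s b ∈ B).card : F) = 1 := by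
    intro s hsT
    obtain ⟨σ, f, hf, hsf⟩ := hS s (Finset.mem_filter.1 hsT).2.1
    let φ : (Fin n → F) →ₗ[F] F :=
      { toFun := fun v => σ.symm (f v i)
        map_add' := by intro v w; simp
        map_smul' := by intro c v; simp [map_smulₛₗ] }
    obtain ⟨w, hw⟩ := H26.exists_dotProduct_eq φ
    obtain ⟨v, hv0, hv1, hv2⟩ := H26.exists_ne_zero_dot₂ (Pi.single i 1) w hn'
    refine hcard (LinearMap.ker (LinearMap.proj i) ⊓ LinearMap.ker φ) _ ?_ fun x => ?_
    · rw [Submodule.ne_bot_iff]
      refine ⟨v, ⟨by simpa using hv1, ?_⟩, hv0⟩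
      rw [SetLike.mem_coe, LinearMap.mem_ker, hw, hv2]
    · have h1 : s x = Projectivization.mk F (f x.rep)
          (fun h0 => x.rep_nonzero (hf (by rw [h0, map_zero]))) := by
        rw [hsf]
        conv_lhs => rw [← Projectivization.mk_rep x, Projectivization.map_mk]
      simp only [B, Finset.mem_filter, Finset.mem_univ, true_and, Submodule.mem_inf,
        LinearMap.mem_ker, LinearMap.proj_apply, h1, key]
      simp [φ]
  have hB : (B.card : F) = 1 := by
    obtain ⟨v, hv0, hv1, -⟩ := H26.exists_ne_zero_dot₂ (Pi.single i (1 : F)) 0 hn'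
    refine hcard (LinearMap.ker (LinearMap.proj i)) _ ?_ fun x => by simp [B]
    rw [Submodule.ne_bot_iff]
    exact ⟨v, by simpa using hv1, hv0⟩
  have hU : ((Finset.univ : Finset (Projectivization F (Fin n → F))).card : F) = 1 := by
    have : Nontrivial (Fin n → F) := ⟨_, _, a.rep_nonzero⟩
    exact hcard ⊤ _ top_ne_bot fun x => by simp
  obtain ⟨b, hb⟩ : B.Nonempty := by
    rw [← Finset.card_pos]
    by_contra h0
    rw [show B.card = 0 by omega] at hB
    simp at hB
  have h1 := count T B B fun b hb d hd => hT b (hBa b hb) d (hBa d hd)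
  have h2 := count T {b} (Finset.univ.erase a) fun b' hb' d hd =>
    hT b' (by rw [Finset.mem_singleton.1 hb']; exact hBa b hb) d (Finset.ne_of_mem_erase hd)
  have h3 : ∑ s ∈ T, (({b} : Finset _).filter fun b => s b ∈ Finset.univ.erase a).card =
      T.card := by
    rw [Finset.card_eq_sum_ones T]
    refine Finset.sum_congr rfl fun s hs => ?_
    rw [Finset.filter_true_of_mem, Finset.card_singleton]
    intro x hx
    rw [Finset.mem_singleton.1 hx]
    refine Finset.mem_erase.2 ⟨fun h0 => hBa b hb (s.injective ?_), Finset.mem_univ _⟩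
    rw [h0, (Finset.mem_filter.1 hs).2.2]
  have h4 : T.card + 1 = (Finset.univ : Finset (Projectivization F (Fin n → F))).card := by
    rw [← h3, h2, Finset.card_singleton, one_mul, Finset.card_erase_add_one (Finset.mem_univ a)]
  have h5 := congrArg (Nat.cast : ℕ → F) h1
  have h6 := congrArg (Nat.cast : ℕ → F) h4
  push_cast at h5 h6
  rw [Finset.sum_congr rfl hs, hB, Finset.sum_const, nsmul_eq_mul] at h5
  rw [hU] at h6
  have h7 : (1 : F) = 0 := by linear_combination h6 - h5
  exact one_ne_zero h7

end Cfsg.Agent.S2531
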