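import Cfsg.Statements.S2532


set_option autoImplicit false
open Cfsg

namespace Cfsg.Agent.S2532

/-- many points with the same stabilizer in different orbits -/
theorem exists_points {H Ω : Type*} [Group H] [Finite H] [Fintype Ω] [MulAction H Ω] (r : ℕ)
    (h : 2 ^ Nat.card H * (Nat.card H * r) ≤ Fintype.card Ω) :
    ∃ (S : Subgroup H) (x : Fin r → Ω), (∀ i, MulAction.stabilizer H (x i) = S) ∧
      ∀ i j (g : H), g • x i = x j → i = j := by
  classical
  letI : Fintype H := Fintype.ofFinite H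
  letI : Fintype (Subgroup H) := Fintype.ofFinite _
  have h1 : Fintype.card (Subgroup H) ≤ 2 ^ Nat.card H := by
    have := Fintype.card_le_of_injective (fun S : Subgroup H => (S : Set H)) SetLike.coe_injective
    rwa [Fintype.card_set, ← Nat.card_eq_fintype_card (α := H)] at this
  obtain ⟨S, hS⟩ := Fintype.exists_le_card_fiber_of_mul_le_card
    (fun x : Ω => MulAction.stabilizer H x) ((Nat.mul_le_mul_right _ h1).trans h)
  set F := Finset.univ.filter fun x : Ω => MulAction.stabilizer H x = S with hF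
  let q : Ω → MulAction.orbitRel.Quotient H Ω := Quotient.mk _
  have h2 : F.card ≤ Nat.card H * (F.image q).card := by
    refine Finset.card_le_mul_card_image _ _ fun b hb => ?_
    obtain ⟨a, -, rfl⟩ := Finset.mem_image.1 hb
    rw [Nat.card_eq_fintype_card, ← Finset.card_univ]
    refine le_trans (Finset.card_le_card fun y hy => ?_)
      (Finset.card_image_le (s := Finset.univ) (f := fun g : H => g • a))
    obtain ⟨g, hg⟩ := Quotient.exact (Finset.mem_filter.1 hy).2
    exact Finset.mem_image.2 ⟨g, Finset.mem_univ _, hg⟩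
  have h3 : r ≤ (F.image q).card := Nat.le_of_mul_le_mul_left (hS.trans h2) Nat.card_pos
  obtain ⟨T, hT, hTc⟩ := Finset.exists_subset_card_eq h3
  let e : Fin r ≃ T := (T.equivFinOfCardEq hTc).symm
  choose x hx hqx using fun i : Fin r => Finset.mem_image.1 (hT (e i).2)
  refine ⟨S, x, fun i => (Finset.mem_filter.1 (hx i)).2, fun i j g hg => e.injective (Subtype.ext ?_)⟩
  rw [← hqx, ← hqx]
  exact (Quotient.sound ⟨g, hg⟩ : q (x j) = q (x i)).symm

/-- the diagonal action on the second factor -/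
def diagHom (α β : Type*) : Equiv.Perm β →* Equiv.Perm (α × β) where
  toFun σ := Equiv.prodCongrRight fun _ => σ
  map_one' := rfl
  map_mul' _ _ := rfl


/-- There is a function `f` of two natural-number arguments such that, whenever `m ≥ f(n, r)`, every subgroup of order `n` of the alternating group of degree `m` centralizes some subgroup of that alternating group isomorphic to the alternating group of degree `r`. -/
theorem result :
    ∃ f : ℕ → ℕ → ℕ, ∀ (m r : ℕ) (H : Subgroup ↥(alternatingGroup (Fin m))), f (Nat.card H) r ≤ m →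
      ∃ K : Subgroup ↥(alternatingGroup (Fin m)), Nonempty (↥K ≃* ↥(alternatingGroup (Fin r))) ∧
        K ≤ Subgroup.centralizer (H : Set ↥(alternatingGroup (Fin m))) := by
  classical
  refine ⟨fun n r => 2 ^ n * (n * r), fun m r H hm => ?_⟩
  obtain ⟨S, x, hS, hx⟩ := exists_points (H := H) (Ω := Fin m) r (by simpa using hm)
  have hfix : ∀ i (g : H), g • x i = x i ↔ g ∈ S := fun i g => by
    rw [← hS i, MulAction.mem_stabilizer_iff]
  let ι₀ : (H ⧸ S) × Fin r → Fin m := fun p => p.1.out • x p.2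
  have hι₀ : ∀ (g : H) i, ι₀ ((g : H ⧸ S), i) = g • x i := by
    intro g i
    obtain ⟨s, hs⟩ := QuotientGroup.mk_out_eq_mul S g
    change (g : H ⧸ S).out • x i = _
    rw [hs, mul_smul, (hfix i s).2 s.2]
  have hinj : Function.Injective ι₀ := by
    rintro ⟨a, i⟩ ⟨b, j⟩ hab
    obtain ⟨a, rfl⟩ := QuotientGroup.mk_surjective a
    obtain ⟨b, rfl⟩ := QuotientGroup.mk_surjective b
    rw [hι₀, hι₀, ← inv_smul_eq_iff, ← mul_smul] at hab
    obtain rfl := hx _ _ _ hab
    rw [(QuotientGroup.eq.2 ((hfix _ _).1 hab) : (b : H ⧸ S) = a)]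
  let ι : (H ⧸ S) × Fin r ↪ Fin m := ⟨ι₀, hinj⟩
  let φ : Equiv.Perm (Fin r) →* Equiv.Perm (Fin m) :=
    (Equiv.Perm.viaEmbeddingHom ι).comp (diagHom _ _)
  have hφ : Function.Injective φ := by
    refine (Equiv.Perm.viaEmbeddingHom_injective ι).comp fun σ τ h => Equiv.ext fun i => ?_
    exact congrArg Prod.snd (congrArg (fun e : Equiv.Perm ((H ⧸ S) × Fin r) => e ((1 : H), i)) h)
  have hφ1 : ∀ σ (g : H) i, φ σ (g • x i) = g • x (σ i) := by
    intro σ g i
    rw [← hι₀, ← hι₀]
    exact Equiv.Perm.viaEmbedding_apply (diagHom _ _ σ) ι ((g : H ⧸ S), i)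
  have hφ2 : ∀ σ y, (∀ (g : H) i, g • x i ≠ y) → φ σ y = y := by
    intro σ y hy
    refine Equiv.Perm.viaEmbedding_apply_of_notMem (diagHom _ _ σ) ι y ?_
    rintro ⟨p, hp⟩
    exact hy _ _ hp
  letI : Fintype (H ⧸ S) := Fintype.ofFinite _
  have hsign : ∀ σ : alternatingGroup (Fin r), φ σ ∈ alternatingGroup (Fin m) := by
    intro σ
    rw [Equiv.Perm.mem_alternatingGroup]
    have h1 : Equiv.Perm.sign (diagHom (H ⧸ S) _ (σ : Equiv.Perm (Fin r))) = 1 := by
      change Equiv.Perm.sign (Equiv.prodCongrRight fun _ => (σ : Equiv.Perm (Fin r))) = 1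
      rw [Equiv.Perm.sign_prodCongrRight]
      exact Finset.prod_eq_one fun _ _ => σ.2
    rw [← h1]
    change Equiv.Perm.sign (Equiv.Perm.viaEmbedding _ ι) = _
    unfold Equiv.Perm.viaEmbedding
    convert Equiv.Perm.sign_extendDomain _ _
  let ψ : alternatingGroup (Fin r) →* alternatingGroup (Fin m) :=
    (φ.comp (alternatingGroup (Fin r)).subtype).codRestrict _ hsign
  have hψ : Function.Injective ψ := fun a b h =>
    Subtype.ext (hφ (congrArg Subtype.val h))
  refine ⟨ψ.range, ⟨(MonoidHom.ofInjective hψ).symm⟩, ?_⟩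
  rintro _ ⟨σ, rfl⟩
  rw [Subgroup.mem_centralizer_iff]
  intro h hh
  refine Subtype.ext (Equiv.ext fun y => ?_)
  change (⟨h, hh⟩ : H) • φ σ y = φ σ ((⟨h, hh⟩ : H) • y)
  by_cases hy : ∃ (g : H) (i : Fin r), g • x i = y
  · obtain ⟨g, i, rfl⟩ := hy
    rw [← mul_smul, hφ1, hφ1, mul_smul]
  · push Not at hy
    rw [hφ2 _ _ hy, hφ2]
    intro g i hg
    exact hy ((⟨h, hh⟩ : H)⁻¹ * g) i (by rw [mul_smul, hg, inv_smul_smul])

end Cfsg.Agent.S2532
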