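import Cfsg.Statements.S2537
import Cfsg.Agent.H29.Solvable
import Cfsg.Agent.H2.Hall

set_option autoImplicit false
open Cfsg

namespace Cfsg.Agent.S2537

/-- Let `F` be a finite field with `q` elements of characteristic `p ≥ 5`, and `ε = 1` if `q ≡ 1 (mod 4)`, `ε = -1` otherwise. Then `PSL(2, F)` has a Hall `{2, 3}`-subgroup if and only if `3` divides `q − ε`, or the `{2,3}`-part of `q² − 1` is 24, or the `{2,3}`-part of `q² − 1` is 48 (the `{2,3}`-part of `m` being the largest divisor of `m` with no prime factor other than 2 and 3). -/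
theorem result {F : Type*} [Field F] [Fintype F] {p : ℕ} [Fact p.Prime] [CharP F p]
    (hp : 5 ≤ p) (q : ℕ) (hq : Fintype.card F = q) :
    (∃ H : Subgroup (Matrix.ProjectiveSpecialLinearGroup (Fin 2) F), Cfsg.IsPiHall ({2, 3} : Set ℕ) H) ↔
      (3 ∣ q - 1 ∧ q % 4 = 1) ∨ (3 ∣ q + 1 ∧ q % 4 = 3) ∨
        2 ^ (q ^ 2 - 1).factorization 2 * 3 ^ (q ^ 2 - 1).factorization 3 = 24 ∨
        2 ^ (q ^ 2 - 1).factorization 2 * 3 ^ (q ^ 2 - 1).factorization 3 = 48 := by
  rw [← Nat.card_eq_fintype_card] at hq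
  have := H29.finite_PGL2 (F := F)
  have := H29.finite_PSL2 (F := F)
  obtain ⟨n, hn, hqp⟩ := H29.exists_card_eq_char_pow F p
  have hpp : p.Prime := Fact.out
  have hcop : ∀ r : ℕ, r.Prime → r < 5 → ¬ r ∣ q := fun r hr h5 h => by
    rw [← hq, hqp] at h
    have := (Nat.prime_dvd_prime_iff_eq hr hpp).1 (hr.dvd_of_dvd_pow h)
    omega
  have h2 := hcop 2 Nat.prime_two (by omega)
  have h3 := hcop 3 Nat.prime_three (by omega)
  have hq5 : 5 ≤ q := by
    rw [← hq, hqp]; exact hp.trans (Nat.le_self_pow (by omega) p)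
  have ho : Odd (Nat.card F) := by rw [hq]; exact Nat.odd_iff.2 (by omega)
  have cL := H29.card_L_of_odd ho
  rw [hq] at cL
  have hsq : (q + 1) * (q * (q - 1)) = q * (q ^ 2 - 1) := by
    rw [show q ^ 2 - 1 = (q + 1) * (q - 1) from by simpa using Nat.sq_sub_sq q 1]; ring
  have hN : q ^ 2 - 1 ≠ 0 := by
    have : 5 ^ 2 ≤ q ^ 2 := Nat.pow_le_pow_left hq5 2
    omega
  have arith : ∀ a b i : ℕ, 2 ^ a * 3 ^ b * i = q * (q ^ 2 - 1) → ((¬ 2 ∣ i ∧ ¬ 3 ∣ i) ↔
      2 ^ (q ^ 2 - 1).factorization 2 * 3 ^ (q ^ 2 - 1).factorization 3 = 2 ^ a * 3 ^ b) := by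
    intro a b i h
    have hi : i ≠ 0 := by
      rintro rfl
      exact mul_ne_zero (by omega) hN h.symm
    have f : ∀ x y : ℕ, (2 ^ x * 3 ^ y).factorization 2 = x ∧ (2 ^ x * 3 ^ y).factorization 3 = y := by
      intro x y
      rw [Nat.factorization_mul (by positivity) (by positivity), Nat.prime_two.factorization_pow,
        Nat.prime_three.factorization_pow]
      simp
    have e := congrArg Nat.factorization h
    rw [Nat.factorization_mul (by positivity) hi, Nat.factorization_mul (by omega) hN] at e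
    have e2 := DFunLike.congr_fun e 2
    have e3 := DFunLike.congr_fun e 3
    simp only [Finsupp.add_apply, (f a b).1, (f a b).2, Nat.factorization_eq_zero_of_not_dvd h2,
      Nat.factorization_eq_zero_of_not_dvd h3] at e2 e3
    rw [Nat.prime_two.dvd_iff_one_le_factorization hi, Nat.prime_three.dvd_iff_one_le_factorization hi]
    constructor
    · rintro ⟨a1, a2⟩
      congr 2 <;> omega
    · intro h'
      have a1 := (f a b).1
      have a2 := (f a b).2
      rw [← h', (f _ _).1] at a1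
      rw [← h', (f _ _).2] at a2
      omega
  have hidx : ∀ K : Subgroup (Matrix.ProjGenLinGroup (Fin 2) F), K ≤ H29.Lsub F →
      2 * Nat.card K * (K.comap H29.pslp).index = (q + 1) * (q * (q - 1)) := fun K hK => by
    rw [← cL, ← H29.card_PSL2_eq, ← (K.comap H29.pslp).card_mul_index,
      Nat.card_congr (H29.comapPslpEquiv hK).toEquiv, mul_assoc]
  have hD : ∀ T D : Subgroup (Matrix.ProjGenLinGroup (Fin 2) F), H29.IsTorus T D →
      Nat.card ↥(D ⊓ H29.Lsub F) = Nat.card T := fun T D h => by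
    rw [h.dihedral_inf_L.2, ← h.card_inf_L, H29.gcd_two_of_odd ho]
  have hDs : ∀ T D : Subgroup (Matrix.ProjGenLinGroup (Fin 2) F), H29.IsSplitTorus T D →
      2 * ((D ⊓ H29.Lsub F).comap H29.pslp).index = q * (q + 1) := fun T D h => by
    have := hidx (D ⊓ H29.Lsub F) inf_le_right
    rw [hD T D (Or.inl h), h.card, hq] at this
    apply Nat.eq_of_mul_eq_mul_left (show 0 < q - 1 by omega)
    linarith
  have hDn : ∀ T D : Subgroup (Matrix.ProjGenLinGroup (Fin 2) F), H29.IsNonsplitTorus T D →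
      2 * ((D ⊓ H29.Lsub F).comap H29.pslp).index = q * (q - 1) := fun T D h => by
    have := hidx (D ⊓ H29.Lsub F) inf_le_right
    rw [hD T D (Or.inr h), h.card, hq] at this
    apply Nat.eq_of_mul_eq_mul_left (show 0 < q + 1 by omega)
    linarith
  constructor
  · rintro ⟨H, hH1, hH2⟩
    have i2 := hH2 2 Nat.prime_two (by simp)
    have i3 := hH2 3 Nat.prime_three (by simp)
    have hL := H29.map_pslp_le_L H
    have hc : Nat.card H = Nat.card (H.map H29.pslp) := Nat.card_congr (H29.pslpEquiv H).toEquiv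
    have hHi := hidx _ hL
    rw [Subgroup.comap_map_eq_self_of_injective H29.pslp_injective, hsq] at hHi
    have hdvd : ∀ K, H.map H29.pslp ≤ K → ((K ⊓ H29.Lsub F).comap H29.pslp).index ∣ H.index :=
      fun K hK => Subgroup.index_dvd_of_le (Subgroup.map_le_iff_le_comap.1 (le_inf hK hL))
    have h5 : ¬ Nonempty (H.map H29.pslp ≃* alternatingGroup (Fin 5)) := fun ⟨e⟩ => by
      have := hH1 5 Nat.prime_five (by rw [hc, Nat.card_congr e.toEquiv, H29.card_A5]; norm_num)
      simp at this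
    rcases H29.dickson p (H.map H29.pslp) with ⟨x, hx⟩ | ⟨T, D, hT, -, hD'⟩ | ⟨-, e | e | e⟩ |
      ⟨-, e⟩ | ⟨c, k, hk3, hk⟩
    · exfalso
      have a1 := hidx (MulAction.stabilizer _ x ⊓ H29.Lsub F) inf_le_right
      have a2 := H29.card_stab_inf_L x
      rw [H29.gcd_two_of_odd ho, hq] at a2
      rw [a2, mul_comm] at a1
      have a3 := Nat.eq_of_mul_eq_mul_right (Nat.mul_pos (by omega) (by omega)) a1
      exact i2 (dvd_trans (by rw [a3]; omega) (hdvd _ hx))
    · have a1 := hdvd _ hD'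
      have b2 := mt (fun h => dvd_trans h a1) i2
      have b3 := mt (fun h => dvd_trans h a1) i3
      rcases hT with hT | hT
      · have := hDs T D hT
        refine Or.inl ⟨?_, ?_⟩
        · have : ¬ 3 ∣ q + 1 := fun h => b3 ((Nat.Coprime.dvd_mul_left (by norm_num)).1
            (this ▸ h.mul_left q))
          rcases (by omega : q % 3 = 0 ∨ q % 3 = 1 ∨ q % 3 = 2) with h | h | h <;> omega
        · have : ¬ 4 ∣ q + 1 := fun h => b2 (by have := h.mul_left q; omega)
          omega
      · have := hDn T D hT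
        refine Or.inr (Or.inl ⟨?_, ?_⟩)
        · have : ¬ 3 ∣ q - 1 := fun h => b3 ((Nat.Coprime.dvd_mul_left (by norm_num)).1
            (this ▸ h.mul_left q))
          rcases (by omega : q % 3 = 0 ∨ q % 3 = 1 ∨ q % 3 = 2) with h | h | h <;> omega
        · have : ¬ 4 ∣ q - 1 := fun h => b2 (by have := h.mul_left q; omega)
          omega
    · obtain ⟨e⟩ := e
      rw [Nat.card_congr e.toEquiv, H29.card_A4] at hHi
      exact Or.inr (Or.inr (Or.inl ((arith 3 1 _ hHi).1 ⟨i2, i3⟩)))
    · obtain ⟨e⟩ := e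
      rw [Nat.card_congr e.toEquiv, H29.card_S4] at hHi
      exact Or.inr (Or.inr (Or.inr ((arith 4 1 _ hHi).1 ⟨i2, i3⟩)))
    · exact (h5 e).elim
    · exact (h5 e).elim
    · exfalso
      have a1 : H29.PSLsub k.subtype ≤ (H.map H29.pslp).map (MulAut.conj c).toMonoidHom := by
        rcases hk with hk | hk <;> rw [hk]
        exact H29.PSLsub_le_PGLsub _
      have a2 := Subgroup.card_dvd_of_le a1
      have a3 := Subgroup.card_dvd_of_le (H29.uni_le_L (H29.inf : H29.P1 k))
      rw [H29.card_map_conj, H29.card_PSLsub, ← hc] at a2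
      rw [H29.card_uni] at a3
      have := hH1 p hpp ((H29.char_dvd_card p).trans (a3.trans a2))
      simp at this
      omega
  · have hsolv : ∀ T D : Subgroup (Matrix.ProjGenLinGroup (Fin 2) F), H29.IsTorus T D →
        ¬ 2 ∣ ((D ⊓ H29.Lsub F).comap H29.pslp).index →
        ¬ 3 ∣ ((D ⊓ H29.Lsub F).comap H29.pslp).index →
        ∃ H : Subgroup (Matrix.ProjectiveSpecialLinearGroup (Fin 2) F),
          Cfsg.IsPiHall ({2, 3} : Set ℕ) H := fun T D h a2 a3 => by
      have := h.isSolvable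
      have := H29.isSolvable_of_le (inf_le_left : D ⊓ H29.Lsub F ≤ D)
      have := H29.isSolvable_of_equiv (H29.comapPslpEquiv (inf_le_right : D ⊓ H29.Lsub F ≤ _))
      obtain ⟨H, b1, b2⟩ := H2.exists_isPiHall {2, 3} ((D ⊓ H29.Lsub F).comap H29.pslp)
      refine ⟨H.map (Subgroup.subtype _), fun r hr h' => b1 r hr ?_, fun r hr h' h'' => ?_⟩
      · rwa [Subgroup.card_map_of_injective (Subgroup.subtype_injective _)] at h'
      · rw [Subgroup.index_map_subtype] at h''
        rcases (Nat.Prime.dvd_mul hr).1 h'' with h4 | h4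
        · exact b2 r hr h' h4
        · rcases h' with rfl | rfl
          · exact a2 h4
          · exact a3 h4
    have hex : ∀ (K : Subgroup (Matrix.ProjGenLinGroup (Fin 2) F)) (a : ℕ), K ≤ H29.Lsub F →
        Nat.card K = 2 ^ a * 3 ^ 1 →
        2 ^ (q ^ 2 - 1).factorization 2 * 3 ^ (q ^ 2 - 1).factorization 3 = 2 ^ (a + 1) * 3 ^ 1 →
        ∃ H : Subgroup (Matrix.ProjectiveSpecialLinearGroup (Fin 2) F),
          Cfsg.IsPiHall ({2, 3} : Set ℕ) H := fun K a hK hc h => by
      have a1 := hidx K hK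
      rw [hc, hsq, ← mul_assoc, ← pow_succ'] at a1
      obtain ⟨b2, b3⟩ := (arith _ _ _ a1).2 h
      refine ⟨K.comap H29.pslp, fun r hr h' => ?_, fun r hr h' => ?_⟩
      · rw [Nat.card_congr (H29.comapPslpEquiv hK).toEquiv, hc] at h'
        rcases (Nat.Prime.dvd_mul hr).1 h' with h4 | h4
        · exact Or.inl ((Nat.prime_dvd_prime_iff_eq hr Nat.prime_two).1 (hr.dvd_of_dvd_pow h4))
        · exact Or.inr ((Nat.prime_dvd_prime_iff_eq hr Nat.prime_three).1 (hr.dvd_of_dvd_pow h4))
      · rcases h' with rfl | rfl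
        · exact b2
        · exact b3
    rintro (⟨a1, a2⟩ | ⟨a1, a2⟩ | h | h)
    · obtain ⟨T, D, hT⟩ := H29.exists_isSplitTorus' F
      have := hDs T D hT
      refine hsolv T D (Or.inl hT) (fun h => ?_) (fun h => ?_)
      · have : 4 ∣ q + 1 := (Nat.Coprime.dvd_mul_left (m := q) (Nat.Coprime.pow_left 2
          ((Nat.Prime.coprime_iff_not_dvd Nat.prime_two).2 h2))).1 (by omega)
        omega
      · have := (Nat.Prime.dvd_mul Nat.prime_three).1 (this ▸ h.mul_left 2)
        omega
    · obtain ⟨T, D, hT⟩ := H29.exists_isNonsplitTorus F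
      have := hDn T D hT
      refine hsolv T D (Or.inr hT) (fun h => ?_) (fun h => ?_)
      · have : 4 ∣ q - 1 := (Nat.Coprime.dvd_mul_left (m := q) (Nat.Coprime.pow_left 2
          ((Nat.Prime.coprime_iff_not_dvd Nat.prime_two).2 h2))).1 (by omega)
        omega
      · have := (Nat.Prime.dvd_mul Nat.prime_three).1 (this ▸ h.mul_left 2)
        omega
    · obtain ⟨K, hK, ⟨e⟩⟩ := H29.exists_A4_le_L ho
      exact hex K 2 hK (by rw [Nat.card_congr e.toEquiv, H29.card_A4]; norm_num) h
    · have h16 : 2 ^ 4 ∣ q ^ 2 - 1 := by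
        have a1 : 2 ^ 4 ∣ 2 ^ (q ^ 2 - 1).factorization 2 * 3 ^ (q ^ 2 - 1).factorization 3 := by
          rw [h]; norm_num
        exact ((Nat.Coprime.pow _ _ (by norm_num)).dvd_of_dvd_mul_right a1).trans
          (Nat.ordProj_dvd _ _)
      obtain ⟨K, hK, ⟨e⟩⟩ := H29.exists_S4_le_L (F := F) (by
        rw [hq]
        have a1 : q ^ 2 % 16 = 1 := by omega
        rw [Nat.pow_mod] at a1
        have : q % 16 < 16 := Nat.mod_lt _ (by norm_num)
        have a2 : q % 8 = q % 16 % 8 := by omega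
        rw [a2]
        generalize q % 16 = r at a1 this
        interval_cases r <;> simp at a1 ⊢)
      exact hex K 3 hK (by rw [Nat.card_congr e.toEquiv, H29.card_S4]; norm_num) h

end Cfsg.Agent.S2537
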