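import Cfsg.Statements.S2541
import Cfsg.Agent.H29.Trace
import Cfsg.Agent.H29.Subfield

set_option autoImplicit false
open Cfsg

namespace Cfsg.Agent.S2541

/-- Let F be a field with 9 elements. The symmetric group S_6 is not isomorphic to PGL_2(F) (although both have index-2 subgroups isomorphic to A_6). -/
theorem result {F : Type*} [Field F] [Fintype F] (hF : Fintype.card F = 9) : ¬ Nonempty (Equiv.Perm (Fin 6) ≃* Matrix.ProjGenLinGroup (Fin 2) F) := by
  rintro ⟨e⟩
  have : Fact (Nat.Prime 3) := Nat.fact_prime_three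
  rw [← Nat.card_eq_fintype_card] at hF
  have : CharP F 3 := H29.charP_of_dvd_card F 3 (by rw [hF]; norm_num)
  have h := H29.orderOf_dvd_PGL 3 (e (finRotate 6))
  have h6 : orderOf (finRotate 6) = 6 := by
    rw [orderOf_eq_iff (by norm_num)]
    decide
  rw [MulEquiv.orderOf_eq, h6, hF] at h
  omega

end Cfsg.Agent.S2541
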