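import Cfsg.Statements.S2542
import Cfsg.Agent.H29.A5Conj

set_option autoImplicit false
open Cfsg

namespace Cfsg.Agent.S2542

/-- Let F be a field with 11 elements. PSL_2(F) has a subgroup H of index 11 isomorphic to the alternating group A_5, and the action of PSL_2(F) on the cosets of H is 2-transitive (of degree 11). -/
theorem result {F : Type*} [Field F] [Fintype F] (hF : Fintype.card F = 11) : ∃ H : Subgroup (Matrix.ProjectiveSpecialLinearGroup (Fin 2) F), H.index = 11 ∧ Nonempty (H ≃* alternatingGroup (Fin 5)) ∧ MulAction.IsMultiplyPretransitive (Matrix.ProjectiveSpecialLinearGroup (Fin 2) F) ((Matrix.ProjectiveSpecialLinearGroup (Fin 2) F) ⧸ H) 2 := by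
  rw [← Nat.card_eq_fintype_card] at hF
  have := H29.finite_PGL2 (F := F)
  have := H29.finite_PSL2 (F := F)
  have : Fact (Nat.Prime 2) := Nat.fact_prime_two
  have : Fact (Nat.Prime 5) := ⟨by norm_num⟩
  have ho : Odd (Nat.card F) := by rw [hF]; decide
  obtain ⟨H0, hL, ⟨e0⟩⟩ := H29.exists_A5_le_L (F := F) (by rw [hF]; norm_num)
  have c0 : Nat.card H0 = 60 := (Nat.card_congr e0.toEquiv).trans H29.card_A5
  have cc : ∀ {K : Subgroup (Matrix.ProjGenLinGroup (Fin 2) F)}, K ≤ H29.Lsub F →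
      Nat.card (K.comap H29.pslp) = Nat.card K := fun h =>
    Nat.card_congr (H29.comapPslpEquiv h).toEquiv
  have hnorm : ∀ {K : Subgroup (Matrix.ProjGenLinGroup (Fin 2) F)}, K ≤ H29.Lsub F →
      Subgroup.normalizer (K : Set _) ⊓ H29.Lsub F ≤ H0 →
      Subgroup.normalizer (K.comap H29.pslp : Set _) ≤ H0.comap H29.pslp := fun {K} h h' g hg => by
    refine h' ⟨?_, H29.pslp_mem_L g⟩
    have := Subgroup.le_normalizer_map H29.pslp ⟨g, hg, rfl⟩
    rwa [H29.map_comap_pslp h] at this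
  set H := H0.comap H29.pslp with hH
  have cH : Nat.card H = 60 := (cc hL).trans c0
  have cG : Nat.card (Matrix.ProjectiveSpecialLinearGroup (Fin 2) F) = 660 := by
    have := H29.card_L_of_odd ho
    rw [hF, ← H29.card_PSL2_eq] at this
    omega
  have hi : H.index = 11 := by
    have := H.card_mul_index
    rw [cH, cG] at this
    omega
  have k2 : ∀ g, 2 ^ 2 ∣ Nat.card ↥(H ⊓ H.map (MulAut.conj g).toMonoidHom) → g ∈ H := by
    obtain ⟨H', hH', ⟨e'⟩⟩ := H29.exists_A4_le_of_A5 e0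
    obtain ⟨a, b, hab, ha, hb, h1⟩ := H29.A4_eq_normalizer (by rw [hF]; norm_num) e'
    have hV : H29.klein a b ≤ H29.Lsub F := H29.klein_le_iff.2 ⟨ha, hb⟩
    intro g hg
    refine H29.mem_of_sylow_dvd (P := (H29.klein a b).comap H29.pslp) (Subgroup.comap_mono ?_)
      (by rw [cc hV, hab.card]; norm_num) (by rw [cH]; decide +kernel) (hnorm hV (h1 ▸ hH')) hg
    exact le_trans (le_inf Subgroup.le_normalizer hV) (h1 ▸ hH')
  have k5 : ∀ g, 5 ^ 1 ∣ Nat.card ↥(H ⊓ H.map (MulAut.conj g).toMonoidHom) → g ∈ H := by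
    obtain ⟨φ, hφ, rfl⟩ := H29.exists_hom_of_equiv e0
    obtain ⟨t, w, h1, h2, h3⟩ := H29.A5_dih5
    have o5 : orderOf (φ t) = 5 := by rw [orderOf_injective φ hφ, orderOf_eq_prime h1 h2]
    have h2' : φ t ≠ 1 := fun h => h2 (hφ (by rw [h, map_one]))
    have : CharP F 11 := by
      have : Fact (Nat.Prime 11) := ⟨by norm_num⟩
      exact H29.charP_of_dvd_card F 11 (by rw [hF])
    obtain ⟨T, D, hT, ht⟩ := H29.exists_torus_of_pow_char_ne 11 (g := φ t) (fun h => by
      have := orderOf_dvd_of_pow_eq_one h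
      rw [o5] at this
      omega)
    have hC : Subgroup.zpowers (φ t) ≤ H29.Lsub F := Subgroup.zpowers_le.2 (hL ⟨t, rfl⟩)
    have hw3 : φ w * φ t * (φ w)⁻¹ = (φ t)⁻¹ := by rw [← map_inv, ← map_mul, ← map_mul, h3, map_inv]
    have hwD : φ w ∈ D := hT.ti ht h2' (hw3 ▸ inv_mem ht)
    have hwT : φ w ∉ T := fun h => by
      rw [hT.comm h ht, mul_inv_cancel_right, eq_inv_iff_mul_eq_one, ← sq] at hw3
      have := orderOf_dvd_of_pow_eq_one hw3
      rw [o5] at this
      omega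
    have hc : orderOf (φ t) = Nat.card ↥(T ⊓ H29.Lsub F) := by
      have a1 := hT.card_inf_L
      have a2 := hT.card
      have a3 := (T ⊓ H29.Lsub F).orderOf_dvd_natCard (Subgroup.mem_inf.2 ⟨ht, hL ⟨t, rfl⟩⟩)
      rw [H29.gcd_two_of_odd ho] at a1
      rw [o5] at a3 ⊢
      omega
    intro g hg
    refine H29.mem_of_sylow_dvd (P := (Subgroup.zpowers (φ t)).comap H29.pslp)
      (Subgroup.comap_mono (Subgroup.zpowers_le.2 (show φ t ∈ φ.range from ⟨t, rfl⟩)))
      (by rw [cc hC, Nat.card_zpowers, o5]; norm_num) (by rw [cH]; decide +kernel) (hnorm hC ?_) hg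
    rw [hT.normalizer_eq (Subgroup.zpowers_le.2 ht) (by simpa using h2')]
    exact hT.D_inf_L_le ⟨t, rfl⟩ ht (hL ⟨t, rfl⟩) hc ⟨w, rfl⟩ hwD hwT (hL ⟨w, rfl⟩)
  refine ⟨H, hi, ⟨(H29.comapPslpEquiv hL).trans e0⟩, ?_⟩
  have key : ∀ x y : Matrix.ProjectiveSpecialLinearGroup (Fin 2) F ⧸ H,
      x ≠ ((1 : Matrix.ProjectiveSpecialLinearGroup (Fin 2) F) : _ ⧸ H) →
      y ≠ ((1 : Matrix.ProjectiveSpecialLinearGroup (Fin 2) F) : _ ⧸ H) → ∃ h ∈ H, h • x = y := by
    intro x y hx hy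
    obtain ⟨g, rfl⟩ := QuotientGroup.mk_surjective x
    have hg : g ∉ H := fun h => hx (by rw [eq_comm, QuotientGroup.eq]; simpa using h)
    have hsub : MulAction.orbit H (g : _ ⧸ H) ⊆
        {((1 : Matrix.ProjectiveSpecialLinearGroup (Fin 2) F) : _ ⧸ H)}ᶜ := by
      rintro _ ⟨h, rfl⟩ h'
      have := (H29.smul_coe_eq_iff (H := H) h g 1).1 h'
      exact hg (by simpa using mul_mem (inv_mem h.2) this)
    have c1 : ({((1 : Matrix.ProjectiveSpecialLinearGroup (Fin 2) F) : _ ⧸ H)}ᶜ : Set _).ncard = 10 := by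
      rw [Set.ncard_compl, Set.ncard_singleton, ← Subgroup.index, hi]
    have c2 := Set.ncard_le_ncard hsub
    have c3 := (MulAction.stabilizer H (g : _ ⧸ H)).card_mul_index
    have c4 : Nat.card (MulAction.stabilizer H (g : _ ⧸ H)) =
        Nat.card ↥(H ⊓ H.map (MulAut.conj g).toMonoidHom) := by
      rw [← Subgroup.card_map_of_injective (Subgroup.subtype_injective H)]
      congr 2
      ext k
      rw [Subgroup.mem_inf, H29.mem_map_conj_iff, ← H29.smul_coe_eq_iff]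
      exact ⟨by rintro ⟨k, hk, rfl⟩; exact ⟨k.2, hk⟩, fun h => ⟨⟨k, h.1⟩, h.2, rfl⟩⟩
    rw [MulAction.index_stabilizer, cH, c4] at c3
    have n2 := mt (k2 g) hg
    have n5 := mt (k5 g) hg
    have c5 : (MulAction.orbit H (g : _ ⧸ H)).ncard = 10 := by
      rw [c1] at c2
      generalize (MulAction.orbit H (g : _ ⧸ H)).ncard = m at c2 c3
      generalize Nat.card ↥(H ⊓ H.map (MulAut.conj g).toMonoidHom) = n at n2 n5 c3
      interval_cases m <;> omega
    have := Set.eq_of_subset_of_ncard_le hsub (by rw [c1, c5])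
    obtain ⟨h, hh⟩ : y ∈ MulAction.orbit H (g : _ ⧸ H) := by rw [this]; exact hy
    exact ⟨h, h.2, hh⟩
  rw [MulAction.is_two_pretransitive_iff]
  intro a b c d hab hcd
  obtain ⟨a, rfl⟩ := QuotientGroup.mk_surjective a
  obtain ⟨c, rfl⟩ := QuotientGroup.mk_surjective c
  obtain ⟨h, hh, e⟩ := key (a⁻¹ • b) (c⁻¹ • d)
    (fun h => hab (by rw [inv_smul_eq_iff] at h; rw [h]; simp))
    (fun h => hcd (by rw [inv_smul_eq_iff] at h; rw [h]; simp))
  refine ⟨c * h * a⁻¹, by rw [H29.smul_coe_eq_iff]; simpa [mul_assoc] using hh, ?_⟩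
  rw [mul_smul, mul_smul, e, smul_inv_smul]

end Cfsg.Agent.S2542
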