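import Cfsg.Statements.S2543
import Cfsg.Agent.H29.A5Conj

set_option autoImplicit false
open scoped Pointwise
open Cfsg

namespace Cfsg.Agent.S2543

/-- Let F be a field with 11 elements. PSL_2(F) has exactly 22 subgroups isomorphic to the alternating group A_5, and they form two conjugacy classes: there are two such subgroups that are not conjugate, and every such subgroup is conjugate to one of these two. -/
theorem result {F : Type*} [Field F] [Fintype F] (hF : Fintype.card F = 11) : Nat.card {H : Subgroup (Matrix.ProjectiveSpecialLinearGroup (Fin 2) F) // Nonempty (H ≃* alternatingGroup (Fin 5))} = 22 ∧ ∃ H K : Subgroup (Matrix.ProjectiveSpecialLinearGroup (Fin 2) F), Nonempty (H ≃* alternatingGroup (Fin 5)) ∧ Nonempty (K ≃* alternatingGroup (Fin 5)) ∧ (∀ g : Matrix.ProjectiveSpecialLinearGroup (Fin 2) F, MulAut.conj g • H ≠ K) ∧ ∀ L : Subgroup (Matrix.ProjectiveSpecialLinearGroup (Fin 2) F), Nonempty (L ≃* alternatingGroup (Fin 5)) → ∃ g : Matrix.ProjectiveSpecialLinearGroup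 (Fin 2) F, MulAut.conj g • L = H ∨ MulAut.conj g • L = K := by
  rw [← Nat.card_eq_fintype_card] at hF
  have := H29.finite_PGL2 (F := F)
  obtain ⟨H0, hL, ⟨e0⟩⟩ := H29.exists_A5_le_L (F := F) (by rw [hF]; norm_num)
  have hN := H29.normalizer_A5_of_prime (by rw [hF]; norm_num) (by omega) e0
  have hs : ∀ (g : Matrix.ProjectiveSpecialLinearGroup (Fin 2) F)
      (H : Subgroup (Matrix.ProjectiveSpecialLinearGroup (Fin 2) F)), (MulAut.conj g • H).map H29.pslp =
        (H.map H29.pslp).map (MulAut.conj (H29.pslp g)).toMonoidHom := fun g H =>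
    H29.map_conj_map _ H g
  constructor
  · have h1 := H29.card_conjugates H0
    have h2 := H0.card_mul_index
    rw [Nat.card_congr e0.toEquiv, H29.card_A5, H29.card_PGL2, hF] at h2
    rw [hN] at h1
    have h3 : H0.index = 22 := by omega
    rw [← h3, ← h1]
    refine Nat.card_congr (Equiv.ofBijective (fun H => ⟨H.1.map H29.pslp, ?_⟩) ⟨?_, ?_⟩)
    · obtain ⟨e⟩ := H.2
      obtain ⟨c, hc⟩ := H29.A5_conj e0 ((H29.pslpEquiv H.1).symm.trans e)
      exact ⟨c, hc.symm⟩
    · intro H K h
      exact Subtype.ext (H29.map_pslp_inj.1 (congrArg Subtype.val h))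
    · rintro ⟨_, c, rfl⟩
      have hL' := (H29.map_conj_le_L_iff (c := c)).2 hL
      exact ⟨⟨_, ⟨(H29.comapPslpEquiv hL').trans ((H29.conjEquiv H0 c).symm.trans e0)⟩⟩,
        Subtype.ext (H29.map_comap_pslp hL')⟩
  · obtain ⟨c, hc⟩ : ∃ c, c ∉ H29.Lsub F := by
      by_contra h
      push Not at h
      exact H29.L_ne_top_of_odd (F := F) (by rw [hF]; decide) fun c _ => h c
    have hL' := (H29.map_conj_le_L_iff (c := c)).2 hL
    refine ⟨H0.comap H29.pslp, (H0.map (MulAut.conj c).toMonoidHom).comap H29.pslp,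
      ⟨(H29.comapPslpEquiv hL).trans e0⟩,
      ⟨(H29.comapPslpEquiv hL').trans ((H29.conjEquiv H0 c).symm.trans e0)⟩, fun g hg => hc ?_,
      fun K ⟨e⟩ => ?_⟩
    · have := congrArg (Subgroup.map H29.pslp) hg
      rw [hs, H29.map_comap_pslp hL, H29.map_comap_pslp hL'] at this
      have h1 : c⁻¹ * H29.pslp g ∈ H0 := by
        rw [← hN, H29.mem_normalizer_iff_map_conj, ← H29.map_conj_map_conj, this,
          H29.map_conj_inv_map_conj]
      simpa using mul_mem (H29.pslp_mem_L g) (inv_mem (hL h1))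
    · obtain ⟨d, hd⟩ := H29.A5_conj ((H29.pslpEquiv K).symm.trans e) e0
      by_cases hdL : d ∈ H29.Lsub F
      · obtain ⟨g, rfl⟩ := H29.exists_pslp_eq hdL
        exact ⟨g, Or.inl (by rw [← H29.map_pslp_inj, hs, hd, H29.map_comap_pslp hL])⟩
      · obtain ⟨g, hg⟩ := H29.exists_pslp_eq (H29.mul_mem_L_of_not_mem hc hdL)
        exact ⟨g, Or.inr (by
          rw [← H29.map_pslp_inj, hs, hg, ← H29.map_conj_map_conj, hd, H29.map_comap_pslp hL'])⟩

end Cfsg.Agent.S2543
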