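import Cfsg.Statements.S2550
import Cfsg.Agent.H61.L34Rec
import Cfsg.Agent.S0819
import Cfsg.Agent.S0256

set_option autoImplicit false
open Cfsg

namespace Cfsg.Agent.S2550

/-- Let F be a field with 2 elements and K a field with 4 elements. PSL_4(F) and PSL_3(K) have the same order (20160) but are not isomorphic. -/
theorem result {F K : Type*} [Field F] [Fintype F] [Field K] [Fintype K] (hF : Fintype.card F = 2) (hK : Fintype.card K = 4) : Nat.card (Matrix.ProjectiveSpecialLinearGroup (Fin 4) F) = Nat.card (Matrix.ProjectiveSpecialLinearGroup (Fin 3) K) ∧ ¬ Nonempty (Matrix.ProjectiveSpecialLinearGroup (Fin 4) F ≃* Matrix.ProjectiveSpecialLinearGroup (Fin 3) K) := by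
  obtain ⟨e⟩ := S0256.result hF
  refine ⟨?_, fun ⟨f⟩ => ?_⟩
  · rw [H61.card_PSL34 hK, Nat.card_congr e.toEquiv, nat_card_alternatingGroup, Nat.card_fin]
    rfl
  · let g : alternatingGroup (Fin 8) := ⟨Equiv.swap 0 1 * Equiv.swap 1 2 *
      (Equiv.swap 3 4 * Equiv.swap 4 5 * Equiv.swap 5 6 * Equiv.swap 6 7), by
        rw [Equiv.Perm.mem_alternatingGroup]; decide⟩
    have hg : orderOf g = 15 := by
      rw [← Subgroup.orderOf_coe]
      refine (orderOf_eq_iff (by norm_num)).mpr ⟨by decide +kernel, fun m h1 h2 => ?_⟩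
      interval_cases m <;> decide +kernel
    exact S0819.result hK (f (e.symm g)) (by rw [f.orderOf_eq, e.symm.orderOf_eq, hg])

end Cfsg.Agent.S2550
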