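import Cfsg.Statements.S2552

set_option autoImplicit false
open Cfsg

namespace Cfsg.Agent.S2552

/-- Let F be a finite field and n ≥ 1. For every k, the special linear group SL_n(F) acts transitively on the set of k-dimensional subspaces of F^n: any two subspaces of the same dimension are carried onto each other by some matrix of determinant 1. -/
theorem result {F : Type*} [Field F] [Fintype F] (n : ℕ) (hn : 1 ≤ n) (U₁ U₂ : Submodule F (Fin n → F)) (h : Module.finrank F U₁ = Module.finrank F U₂) : ∃ g : Matrix.SpecialLinearGroup (Fin n) F, U₁.map ((Matrix.SpecialLinearGroup.toLin' g : (Fin n → F) ≃ₗ[F] (Fin n → F)) : (Fin n → F) →ₗ[F] (Fin n → F)) = U₂ := by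
  obtain ⟨e, he⟩ : ∃ e : (Fin n → F) ≃ₗ[F] (Fin n → F),
      U₁.map (e : (Fin n → F) →ₗ[F] (Fin n → F)) = U₂ := by
    obtain ⟨C₁, h₁⟩ := U₁.exists_isCompl
    obtain ⟨C₂, h₂⟩ := U₂.exists_isCompl
    have hC : Module.finrank F C₁ = Module.finrank F C₂ := by
      have := Submodule.finrank_add_eq_of_isCompl h₁
      have := Submodule.finrank_add_eq_of_isCompl h₂
      omega
    let f := LinearEquiv.ofFinrankEq _ _ h
    let g := LinearEquiv.ofFinrankEq _ _ hC
    refine ⟨(Submodule.prodEquivOfIsCompl _ _ h₁).symm.trans ((f.prodCongr g).trans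
      (Submodule.prodEquivOfIsCompl _ _ h₂)), ?_⟩
    apply Submodule.eq_of_le_of_finrank_eq
    · rintro _ ⟨v, hv, rfl⟩
      have := Submodule.prodEquivOfIsCompl_symm_apply_left _ _ h₁ ⟨v, hv⟩
      simp only at this
      simp [this]
    · rw [LinearEquiv.finrank_map_eq, h]
  obtain ⟨v, hv0, hv⟩ : ∃ v : Fin n → F, v ≠ 0 ∧ (v ∈ U₁ ∨ U₁ = ⊥) := by
    by_cases h0 : U₁ = ⊥
    · exact ⟨fun _ => 1, fun h => one_ne_zero (congrFun h ⟨0, hn⟩), Or.inr h0⟩
    · obtain ⟨v, hv, hv0⟩ := U₁.ne_bot_iff.1 h0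
      exact ⟨v, hv0, Or.inl hv⟩
  obtain ⟨f, hf⟩ := Module.Projective.exists_dual_eq_one F hv0
  set c : F := LinearMap.det (e : (Fin n → F) →ₗ[F] (Fin n → F)) with hc
  have hc0 : c ≠ 0 := (LinearEquiv.isUnit_det' e).ne_zero
  let z := LinearMap.transvection ((c⁻¹ - 1) • f) v
  have hz : LinearMap.det z = c⁻¹ := by
    simp [z, hf]
  let g := (e : (Fin n → F) →ₗ[F] (Fin n → F)) ∘ₗ z
  have hg : LinearMap.det g = 1 := by
    rw [LinearMap.det_comp, hz, ← hc, mul_inv_cancel₀ hc0]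
  let A : Matrix.SpecialLinearGroup (Fin n) F :=
    ⟨LinearMap.toMatrix' g, by rw [LinearMap.det_toMatrix', hg]⟩
  refine ⟨A, ?_⟩
  apply Submodule.eq_of_le_of_finrank_eq
  · rintro _ ⟨w, hw, rfl⟩
    rw [← he]
    refine ⟨z w, ?_, ?_⟩
    · rcases hv with hv | hv
      · exact U₁.add_mem hw (U₁.smul_mem _ hv)
      · rw [hv] at hw ⊢
        rw [(Submodule.mem_bot F).1 hw, map_zero]
        exact Submodule.zero_mem _
    · change _ = Matrix.toLin' (LinearMap.toMatrix' g) w
      rw [Matrix.toLin'_toMatrix']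
      rfl
  · rw [LinearEquiv.finrank_map_eq, h]

end Cfsg.Agent.S2552
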