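import Cfsg.Statements.S2561
import Cfsg.Agent.H79.F2Forms

set_option autoImplicit false
open Cfsg

namespace Cfsg.Agent.S2561

/-- Fix the non-singular alternating form on the 2m-dimensional space over the field of two elements obtained by polarizing the plus-type form Σ xᵢyᵢ (m ≥ 1). The functions q on the space with q(u + v) = q(u) + q(v) + f(u, v) (the quadratic forms polarizing to f) number 2^(2m); each is equivalent under an invertible linear map either to the plus-type form or to the minus-type form Σ xᵢyᵢ + (z₁² + z₁z₂ + z₂²); and those of plus type number 2^(2m−1) + 2^(m−1), those of minus type 2^(2m−1) − 2^(m−1). -/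
theorem result (m : ℕ) (hm : 1 ≤ m) :
    Nat.card {q : (Fin m ⊕ Fin m → ZMod 2) → ZMod 2 // (∀ u v : (Fin m ⊕ Fin m → ZMod 2), q (u + v) = q u + q v + (Cfsg.quadFormPlus m (ZMod 2) (u + v) - Cfsg.quadFormPlus m (ZMod 2) u - Cfsg.quadFormPlus m (ZMod 2) v))} = 2 ^ (2 * m) ∧
    (∀ q : (Fin m ⊕ Fin m → ZMod 2) → ZMod 2, (∀ u v : (Fin m ⊕ Fin m → ZMod 2), q (u + v) = q u + q v + (Cfsg.quadFormPlus m (ZMod 2) (u + v) - Cfsg.quadFormPlus m (ZMod 2) u - Cfsg.quadFormPlus m (ZMod 2) v)) →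
      (∃ g : (Fin m ⊕ Fin m → ZMod 2) ≃ₗ[ZMod 2] (Fin m ⊕ Fin m → ZMod 2), ∀ v, q v = Cfsg.quadFormPlus m (ZMod 2) (g v)) ∨
      (∃ g : (Fin m ⊕ Fin m → ZMod 2) ≃ₗ[ZMod 2] ((Fin (m - 1) ⊕ Fin (m - 1)) ⊕ Fin 2 → ZMod 2), ∀ v, q v = Cfsg.quadFormMinus (m - 1) (ZMod 2) 1 1 (g v))) ∧
    Nat.card {q : (Fin m ⊕ Fin m → ZMod 2) → ZMod 2 // (∀ u v : (Fin m ⊕ Fin m → ZMod 2), q (u + v) = q u + q v + (Cfsg.quadFormPlus m (ZMod 2) (u + v) - Cfsg.quadFormPlus m (ZMod 2) u - Cfsg.quadFormPlus m (ZMod 2) v)) ∧ ∃ g : (Fin m ⊕ Fin m → ZMod 2) ≃ₗ[ZMod 2] (Fin m ⊕ Fin m → ZMod 2), ∀ v, q v = Cfsg.quadFormPlus m (ZMod 2) (g v)} = 2 ^ (2 * m - 1) + 2 ^ (m - 1) ∧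
    Nat.card {q : (Fin m ⊕ Fin m → ZMod 2) → ZMod 2 // (∀ u v : (Fin m ⊕ Fin m → ZMod 2), q (u + v) = q u + q v + (Cfsg.quadFormPlus m (ZMod 2) (u + v) - Cfsg.quadFormPlus m (ZMod 2) u - Cfsg.quadFormPlus m (ZMod 2) v)) ∧ ∃ g : (Fin m ⊕ Fin m → ZMod 2) ≃ₗ[ZMod 2] ((Fin (m - 1) ⊕ Fin (m - 1)) ⊕ Fin 2 → ZMod 2), ∀ v, q v = Cfsg.quadFormMinus (m - 1) (ZMod 2) 1 1 (g v)} = 2 ^ (2 * m - 1) - 2 ^ (m - 1) := by
  have hp : ∀ u v, Cfsg.quadFormPlus m (ZMod 2) (u + v) - Cfsg.quadFormPlus m (ZMod 2) u -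
      Cfsg.quadFormPlus m (ZMod 2) v = QuadraticMap.polar (H30.qPlus (ZMod 2) m) u v :=
    fun _ _ => rfl
  simp only [hp]
  obtain ⟨m, rfl⟩ : ∃ k, m = k + 1 := ⟨m - 1, by omega⟩
  have hQ0 := H30.qPlus_nondegenerate (F := ZMod 2) (m + 1)
  have hV : Module.finrank (ZMod 2) (Fin (m + 1) ⊕ Fin (m + 1) → ZMod 2) = 2 * m + 2 := by
    simp; ring
  have han : H79.Aniso (1 : ZMod 2) 1 := by unfold H79.Aniso; decide
  have hplus : H79.IsPlus (F := ZMod 2) (H30.qPlus (ZMod 2) (m + 1)) := H79.isPlus_plus _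
  have hnd : ∀ (q : (Fin (m + 1) ⊕ Fin (m + 1) → ZMod 2) → ZMod 2)
      (hq : ∀ u v, q (u + v) = q u + q v + QuadraticMap.polar (H30.qPlus (ZMod 2) (m + 1)) u v),
      H79.ND (H79.f2Form q (QuadraticMap.polarBilin (H30.qPlus (ZMod 2) (m + 1))) hq) :=
    fun q hq x hx => hQ0.1 x fun y => by rw [← H79.polar_f2Form q _ hq]; exact hx y
  have hdich : ∀ (q : (Fin (m + 1) ⊕ Fin (m + 1) → ZMod 2) → ZMod 2)
      (hq : ∀ u v, q (u + v) = q u + q v + QuadraticMap.polar (H30.qPlus (ZMod 2) (m + 1)) u v),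
      (∃ g : (Fin (m + 1) ⊕ Fin (m + 1) → ZMod 2) ≃ₗ[ZMod 2] (Fin (m + 1) ⊕ Fin (m + 1) → ZMod 2),
        ∀ v, q v = Cfsg.quadFormPlus (m + 1) (ZMod 2) (g v)) ∨
      (∃ g : (Fin (m + 1) ⊕ Fin (m + 1) → ZMod 2) ≃ₗ[ZMod 2]
        ((Fin (m + 1 - 1) ⊕ Fin (m + 1 - 1)) ⊕ Fin 2 → ZMod 2),
        ∀ v, q v = Cfsg.quadFormMinus (m + 1 - 1) (ZMod 2) 1 1 (g v)) := fun q hq => by
    rcases H79.iso_plus_or_minus (m := m + 1) hV _ (hnd q hq) han with ⟨g, hg⟩ | ⟨-, g, hg⟩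
    · exact Or.inl ⟨g, fun v => (hg v).symm⟩
    · exact Or.inr ⟨g, fun v => (hg v).symm⟩
  have h0 := H30.nc_plus_zero_int hQ0 hV hplus
  have h1 := H30.nc_plus_ne_zero_int hQ0 hV hplus one_ne_zero
  simp only [Nat.card_zmod, Nat.cast_ofNat] at h0 h1
  have e1 : 2 * (m + 1) - 1 = 2 * m + 1 := by omega
  refine ⟨?_, hdich, ?_, ?_⟩
  · have := H79.card_shift hQ0 fun _ => True
    simp only [and_true] at this
    rw [this, Nat.card_congr (Equiv.subtypeUnivEquiv fun _ => trivial)]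
    simp [two_mul]
  · rw [H79.card_shift hQ0, e1, Nat.add_sub_cancel]
    have : H30.nc (H30.qPlus (ZMod 2) (m + 1)) 0 = 2 ^ (2 * m + 1) + 2 ^ m := by
      zify; rw [h0]; ring
    rw [← this]
    exact Nat.card_congr (Equiv.subtypeEquivRight fun w => H79.iso_shift_iff hQ0 hV w)
  · rw [H79.card_shift hQ0, e1]
    have : H30.nc (H30.qPlus (ZMod 2) (m + 1)) 1 = 2 ^ (2 * m + 1) - 2 ^ (m + 1 - 1) := by
      have : 2 ^ m ≤ 2 ^ (2 * m + 1) := Nat.pow_le_pow_right (by norm_num) (by omega)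
      rw [Nat.add_sub_cancel]
      zify [this]; rw [h1]
    rw [← this]
    refine Nat.card_congr (Equiv.subtypeEquivRight fun w => ?_)
    have hw := H79.iso_shift_iff hQ0 hV w
    constructor
    · rintro ⟨g, hg⟩
      refine (H79.zmod2_cases _).resolve_left fun h => ?_
      obtain ⟨g', hg'⟩ := hw.2 h
      refine H79.not_isPlus_minus _ han (hplus.of_iso ⟨g'.symm.trans g, fun v => ?_⟩)
      rw [LinearEquiv.trans_apply, ← hg]
      exact (hg' _).trans (by rw [g'.apply_symm_apply])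
    · intro h
      refine (hdich _ fun u v => ?_).resolve_left fun h' => ?_
      · rw [QuadraticMap.map_add (H30.qPlus (ZMod 2) (m + 1)), QuadraticMap.polar_add_left]; ring
      · rw [hw.1 h'] at h
        exact zero_ne_one h

end Cfsg.Agent.S2561
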