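import Cfsg.Statements.S2562
import Cfsg.Agent.H79.QuadClass

set_option autoImplicit false
open Cfsg

namespace Cfsg.Agent.S2562

/-- Witt indices over the field of two elements, m ≥ 1: for the plus-type form Σ xᵢyᵢ in dimension 2m some m-dimensional subspace is totally singular and no totally singular subspace has larger dimension; for the minus-type form Σ xᵢyᵢ + (z₁² + z₁z₂ + z₂²) in dimension 2m the maximal dimension of a totally singular subspace is m − 1. -/
theorem result (m : ℕ) (hm : 1 ≤ m) :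
    (∃ U : Submodule (ZMod 2) (Fin m ⊕ Fin m → ZMod 2), (∀ u ∈ U, Cfsg.quadFormPlus m (ZMod 2) u = 0) ∧ Module.finrank (ZMod 2) ↥U = m) ∧
    (∀ U : Submodule (ZMod 2) (Fin m ⊕ Fin m → ZMod 2), (∀ u ∈ U, Cfsg.quadFormPlus m (ZMod 2) u = 0) → Module.finrank (ZMod 2) ↥U ≤ m) ∧
    (∃ U : Submodule (ZMod 2) ((Fin (m - 1) ⊕ Fin (m - 1)) ⊕ Fin 2 → ZMod 2), (∀ u ∈ U, Cfsg.quadFormMinus (m - 1) (ZMod 2) 1 1 u = 0) ∧ Module.finrank (ZMod 2) ↥U = m - 1) ∧
    (∀ U : Submodule (ZMod 2) ((Fin (m - 1) ⊕ Fin (m - 1)) ⊕ Fin 2 → ZMod 2), (∀ u ∈ U, Cfsg.quadFormMinus (m - 1) (ZMod 2) 1 1 u = 0) → Module.finrank (ZMod 2) ↥U ≤ m - 1) := by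
  have hA : H79.Aniso (1 : ZMod 2) 1 := by unfold H79.Aniso; decide
  refine ⟨⟨H79.plusTS m _, fun u hu => by simp [quadFormPlus, H79.mem_plusTS.mp hu],
    H79.finrank_plusTS m⟩, fun U hU => ?_, ?_, fun U hU => H79.finrank_le_of_ts_minus hA U hU⟩
  · have := H79.two_mul_finrank_le_of_ts (H79.nd_qPlus m) hU
    simp at this
    omega
  · let L : (Fin (m - 1) → ZMod 2) →ₗ[ZMod 2] ((Fin (m - 1) ⊕ Fin (m - 1)) ⊕ Fin 2 → ZMod 2) :=
      { toFun := fun x => Sum.elim (Sum.elim x 0) 0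
        map_add' := fun x y => by ext ((j | j) | j) <;> simp
        map_smul' := fun a x => by ext ((j | j) | j) <;> simp }
    have hL : Function.Injective L := by
      intro x y hxy
      ext j
      simpa [L] using congrFun hxy (.inl (.inl j))
    refine ⟨LinearMap.range L, ?_, ?_⟩
    · rintro _ ⟨x, rfl⟩
      simp [L, quadFormMinus]
    · rw [LinearMap.finrank_range_of_inj hL]; simp

end Cfsg.Agent.S2562
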