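import Cfsg.Statements.S2563
import Cfsg.Agent.H79.F2Forms

set_option autoImplicit false
open Cfsg

namespace Cfsg.Agent.S2563

/-- For k ≥ 1 the symmetric group of degree 4k + 4 embeds in a full orthogonal group in dimension 4k + 2 over the field of two elements: in the isometry group of the plus-type form Σ xᵢyᵢ when k is odd, and in that of the minus-type form Σ xᵢyᵢ + (z₁² + z₁z₂ + z₂²) when k is even (through its action on even partitions of a (4k+4)-set, with the form 'half the size of a part, modulo 2'). -/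
theorem result (k : ℕ) (hk : 1 ≤ k) :
    (Odd k → ∃ φ : Equiv.Perm (Fin (4 * k + 4)) →* ↥(Cfsg.isometryGroup (ZMod 2) (Cfsg.quadFormPlus (2 * k + 1) (ZMod 2))), Function.Injective φ) ∧
    (Even k → ∃ φ : Equiv.Perm (Fin (4 * k + 4)) →* ↥(Cfsg.isometryGroup (ZMod 2) (Cfsg.quadFormMinus (2 * k) (ZMod 2) 1 1)), Function.Injective φ) := by
  obtain ⟨φ, hφ⟩ := H79.exists_perm_halfWt (n := 4 * k + 2) (by omega) (by omega)
  have hQ := (H79.nd_iff _).1 (H79.halfWtQ_nondegenerate (n := 4 * k + 2) ⟨2 * k + 1, by ring⟩)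
  constructor
  · intro hk'
    have h : H79.Iso (F := ZMod 2) (H79.halfWtQ (4 * k + 2)) (H30.qPlus (ZMod 2) (2 * k + 1)) :=
      H79.iso_plus_of_isPlus (by simp; ring) _ hQ ((H79.isPlus_halfWt k).2 hk')
    let e := ((H30.isoEquiv _).trans (H30.OCongr h.toIsometryEquiv)).trans (H30.isoEquiv _).symm
    exact ⟨e.toMonoidHom.comp φ, e.injective.comp hφ⟩
  · intro hk'
    have h : H79.Iso (F := ZMod 2) (H79.halfWtQ (4 * k + 2)) (H30.qMinus (ZMod 2) (2 * k) 1 1) :=
      H79.iso_minus_of_not_isPlus (by simp; ring) _ hQ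
        (fun h => (Nat.not_odd_iff_even.2 hk') ((H79.isPlus_halfWt k).1 h)) (by
          unfold H79.Aniso; decide)
    let e := ((H30.isoEquiv _).trans (H30.OCongr h.toIsometryEquiv)).trans (H30.isoEquiv _).symm
    exact ⟨e.toMonoidHom.comp φ, e.injective.comp hφ⟩

end Cfsg.Agent.S2563
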