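import Cfsg.Statements.S2565
import Cfsg.Agent.S0825
import Cfsg.Agent.H28.Transport

set_option autoImplicit false
open Cfsg

namespace Cfsg.Agent.S2565

/-- The commutator subgroup of the full orthogonal group of the plus-type form Σ xᵢyᵢ in dimension 6 over the field of two elements (the group Ω⁺₆(2), of index 2) is isomorphic to the alternating group of degree 8. -/
theorem result :
    (Cfsg.Omega (ZMod 2) (Cfsg.quadFormPlus 3 (ZMod 2))).index = 2 ∧
    Nonempty (↥(Cfsg.Omega (ZMod 2) (Cfsg.quadFormPlus 3 (ZMod 2))) ≃* alternatingGroup (Fin 8)) := by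
  obtain ⟨e⟩ := Cfsg.Agent.S0825.result (F := ZMod 2) (by simp)
  have hc : commutator (Equiv.Perm (Fin 8)) = alternatingGroup (Fin 8) :=
    alternatingGroup.commutator_perm_eq (by simp)
  refine ⟨?_, ⟨(H28.commutatorEquiv e).trans (MulEquiv.subgroupCongr hc)⟩⟩
  have h1 : Cfsg.Omega (ZMod 2) (Cfsg.quadFormPlus 3 (ZMod 2)) =
      (alternatingGroup (Fin 8)).comap e.toMonoidHom := by
    ext g
    rw [← hc, Subgroup.mem_comap]
    exact (H28.mem_commutator_equiv e g).symm
  rw [h1, Subgroup.index_comap_of_surjective _ e.surjective]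
  exact alternatingGroup.index_eq_two

end Cfsg.Agent.S2565
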