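import Cfsg.Statements.S2567

set_option autoImplicit false
open Cfsg

namespace Cfsg.Agent.S2567

/-- Lifting elements of prime order from PGL to GL: let F be a finite field with q elements, r a prime not dividing q − 1, and x an element of order r in GL_n(F) modulo its centre (the scalar matrices). Then x has exactly one preimage in GL_n(F) of order r. -/
theorem result {F : Type*} [Field F] [Fintype F] {q n r : ℕ} (hF : Fintype.card F = q) (hr : r.Prime) (hdiv : ¬ r ∣ q - 1) (x : GL (Fin n) F ⧸ Subgroup.center (GL (Fin n) F)) (hx : orderOf x = r) : ∃! g : GL (Fin n) F, (QuotientGroup.mk g : GL (Fin n) F ⧸ Subgroup.center (GL (Fin n) F)) = x ∧ orderOf g = r := by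
  obtain ⟨g, rfl⟩ := QuotientGroup.mk_surjective x
  set Z := Subgroup.center (GL (Fin n) F) with hZ
  have hZexp : ∀ z ∈ Z, z ^ (q - 1) = 1 := by
    intro z hz
    rw [hZ, Matrix.GeneralLinearGroup.center_eq_range_scalar] at hz
    obtain ⟨c, rfl⟩ := hz
    rw [← map_pow, ← hF, ← Nat.card_eq_fintype_card, ← Nat.card_units, pow_card_eq_one', map_one]
  have hcop : (q - 1).Coprime r := ((Nat.Prime.coprime_iff_not_dvd hr).2 hdiv).symm
  have hg : g ^ r ∈ Z := by
    rw [← QuotientGroup.eq_one_iff, QuotientGroup.mk_pow, ← hx, pow_orderOf_eq_one]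
  have hord : ∀ h : GL (Fin n) F, (QuotientGroup.mk h : GL (Fin n) F ⧸ Z) = QuotientGroup.mk g →
      h ^ r = 1 → orderOf h = r := by
    intro h h1 h2
    refine Nat.dvd_antisymm (orderOf_dvd_of_pow_eq_one h2) ?_
    rw [← hx, ← h1]
    exact orderOf_map_dvd (QuotientGroup.mk' Z) h
  obtain ⟨m, -, hm⟩ := Nat.exists_mul_mod_eq_one_of_coprime hcop hr.one_lt
  obtain ⟨k, hk⟩ : ∃ k, (q - 1) * m = 1 + r * k :=
    ⟨(q - 1) * m / r, by
      have := Nat.mod_add_div ((q - 1) * m) r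
      omega⟩
  refine ⟨g ^ ((q - 1) * m), ⟨?_, ?_⟩, ?_⟩
  · rw [hk, pow_add, pow_one, pow_mul, QuotientGroup.mk_mul_of_mem _ (Z.pow_mem hg k)]
  · refine hord _ ?_ ?_
    · rw [hk, pow_add, pow_one, pow_mul, QuotientGroup.mk_mul_of_mem _ (Z.pow_mem hg k)]
    · rw [← pow_mul, mul_comm, pow_mul, pow_mul, hZexp _ hg, one_pow]
  · rintro h ⟨h1, h2⟩
    have h3 : h⁻¹ * g ∈ Z := QuotientGroup.eq.1 h1
    have h4 : g = h * (h⁻¹ * g) := by group
    have h5 : Commute h (h⁻¹ * g) := Subgroup.mem_center_iff.1 h3 h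
    rw [h4, h5.mul_pow, pow_mul (h⁻¹ * g), hZexp _ h3, one_pow, mul_one, hk, pow_add, pow_one,
      pow_mul, ← h2, pow_orderOf_eq_one, one_pow, mul_one]

end Cfsg.Agent.S2567
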