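import Cfsg.Statements.S2569
import Cfsg.Agent.H76.Classes

set_option autoImplicit false
open Cfsg

namespace Cfsg.Agent.S2569

/-- In GL_n over a finite field of characteristic p, the conjugacy class of a semisimple element (an element of order prime to p) under the special linear group is its whole GL-conjugacy class: for every such x and every invertible g there is h of determinant one with h x h⁻¹ = g x g⁻¹. -/
theorem result {F : Type*} [Field F] [Fintype F] {p : ℕ} [Fact p.Prime] [CharP F p] {n : ℕ} (x g : GL (Fin n) F) (hx : (orderOf x).Coprime p) : ∃ h : GL (Fin n) F, (h : Matrix (Fin n) (Fin n) F).det = 1 ∧ h * x * h⁻¹ = g * x * g⁻¹ := by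
  rcases Nat.eq_zero_or_pos n with rfl | hn
  · exact ⟨1, by simp, Subsingleton.elim _ _⟩
  · have : Nonempty (Fin n) := ⟨⟨0, hn⟩⟩
    obtain ⟨y, hy⟩ := Multiset.exists_mem_of_ne_zero
      (H76.med_ne_zero (x : Matrix (Fin n) (Fin n) F))
    exact H76.exists_det_one_conj x g hy (H76.exp_eq_one_of_coprime p x hx y hy)

end Cfsg.Agent.S2569
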