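import Cfsg.Statements.S2570
import Cfsg.Agent.H76.Unip

set_option autoImplicit false
open Cfsg

namespace Cfsg.Agent.S2570

/-- Number of conjugacy classes of elements of order p in GL_n over a finite field of characteristic p: they correspond to the Jordan types, that is, to the partitions of n with all parts at most p other than the partition into ones, so there are (number of partitions of n with parts ≤ p) − 1 of them. -/
theorem result {F : Type*} [Field F] [Fintype F] {p : ℕ} [Fact p.Prime] [CharP F p] (n : ℕ) : Nat.card {C : ConjClasses (GL (Fin n) F) // ∃ g : GL (Fin n) F, ConjClasses.mk g = C ∧ orderOf g = p} = (Finset.univ.filter (fun μ : Nat.Partition n => ∀ a ∈ μ.parts, a ≤ p)).card - 1 := by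
  classical
  have hp : p.Prime := Fact.out
  have := H76.card_unipotent_classes (F := F) (n := Fin n) (fun g => orderOf g = p)
    (fun s => (∀ a ∈ s, a ≤ p) ∧ ¬ ∀ a ∈ s, a ≤ 1) (fun g => by
      have h1 := H76.pow_char_pow_eq_one_iff p g 1
      have h0 := H76.pow_char_pow_eq_one_iff p g 0
      rw [pow_one, H76.sub_one_pow_eq_zero_iff] at h1
      rw [pow_zero, pow_one, H76.sub_one_pow_eq_zero_iff] at h0
      rw [orderOf_eq_prime_iff, h1, Ne, h0, H76.isNilpotent_sub_one_iff]
      simp only [Multiset.forall_mem_map_iff]
      constructor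
      · rintro ⟨h2, h3⟩
        exact ⟨fun x hx => (h2 x hx).1, fun x hx => (h2 x hx).2,
          fun h4 => h3 fun x hx => ⟨(h2 x hx).1, h4 x hx⟩⟩
      · rintro ⟨h2, h3, h4⟩
        exact ⟨fun x hx => ⟨h2 x hx, h3 x hx⟩, fun h5 => h4 fun x hx => (h5 x hx).2⟩)
  rw [this, Fintype.card_fin, Nat.card_eq_fintype_card, Fintype.card_subtype]
  let o : Nat.Partition n := ⟨Multiset.replicate n 1, fun h => by
    rw [Multiset.eq_of_mem_replicate h]; exact one_pos, by simp⟩
  have ho : ∀ μ : Nat.Partition n, (∀ a ∈ μ.parts, a ≤ 1) ↔ μ = o := by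
    intro μ
    constructor
    · intro h
      have h1 : μ.parts = Multiset.replicate (Multiset.card μ.parts) 1 :=
        Multiset.eq_replicate_card.2 fun a ha => le_antisymm (h a ha) (μ.parts_pos ha)
      have h2 := μ.parts_sum
      rw [h1] at h2
      simp only [Multiset.sum_replicate, smul_eq_mul, mul_one] at h2
      rw [h2] at h1
      exact Nat.Partition.ext h1
    · rintro rfl a ha
      exact (Multiset.eq_of_mem_replicate ha).le
  rw [← Finset.card_erase_of_mem (a := o)]
  · congr 1
    ext μ
    simp only [Finset.mem_filter, Finset.mem_univ, true_and, Finset.mem_erase, ho, Ne]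
    exact and_comm
  · simp only [Finset.mem_filter, Finset.mem_univ, true_and]
    intro a ha
    exact (Multiset.eq_of_mem_replicate ha).le.trans hp.one_le

end Cfsg.Agent.S2570
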