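import Cfsg.Statements.S2572
import Cfsg.Agent.H76.Cent
import Cfsg.Agent.H76.SpData

set_option autoImplicit false
open Cfsg

namespace Cfsg.Agent.S2572

/-- Centraliser of a transvection in GL_n(q), n ≥ 2: if t − 1 has rank one and square zero, the centraliser of t in GL_n(q) has order q^(2n−3) (q − 1) |GL_(n−2)(q)| (a group of order q^(2n−3) extended by GL_1(q) × GL_(n−2)(q)). -/
theorem result {F : Type*} [Field F] [Fintype F] {q n : ℕ} (hF : Fintype.card F = q) (hn : 2 ≤ n) (t : GL (Fin n) F) (ht : Cfsg.IsTransvection (t : Matrix (Fin n) (Fin n) F)) : Nat.card ↥(Subgroup.centralizer ({t} : Set (GL (Fin n) F))) = q ^ (2 * n - 3) * (q - 1) * ∏ i : Fin (n - 2), (q ^ (n - 2) - q ^ (i : ℕ)) := by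
  subst hF
  classical
  have hn0 : IsNilpotent ((t : Matrix (Fin n) (Fin n) F) - 1) := ⟨2, by rw [sq, ht.2]⟩
  set m := (H76.med (t : Matrix (Fin n) (Fin n) F)).map Prod.snd with hm
  have hmed := H76.med_eq_map_snd _ hn0
  have h1 := H76.card_med_add_rank _ hn0
  have h2 := H76.sum_snd_med _ hn0
  have h3 := H76.rank_sub_one_pow_add _ hn0 2
  rw [← hm] at hmed h2
  rw [ht.1, Fintype.card_fin] at h1
  rw [Fintype.card_fin] at h2
  have hpos : ∀ e ∈ m, 0 < e := fun e he => H76.pos_of_ed_unip hmed he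
  have hD : ∀ e ∈ m, e ≤ 2 := fun e he => by
    have := (H76.aeval_eq_zero_iff_med (t : Matrix (Fin n) (Fin n) F) ((Polynomial.X - 1) ^ 2)).1
      (by simp [sq, ht.2]) (Polynomial.X - 1, e) (hmed ▸ Multiset.mem_map_of_mem _ he)
    have h4 := Polynomial.natDegree_le_of_dvd this (pow_ne_zero _ (Polynomial.X_sub_C_ne_zero 1))
    rw [← Polynomial.C_1, Polynomial.natDegree_pow, Polynomial.natDegree_pow,
      Polynomial.natDegree_X_sub_C] at h4
    omega
  have h0 : m.count 0 = 0 := Multiset.count_eq_zero_of_notMem fun h => (hpos _ h).false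
  have h4 := H76.sum_map_eq_sum_range_count m (D := 3) (fun e he => Nat.lt_succ_of_le (hD e he)) id
  have h5 := H76.sum_map_eq_sum_range_count m (D := 3) (fun e he => Nat.lt_succ_of_le (hD e he))
    fun _ => 1
  simp only [Finset.sum_range_succ, Finset.sum_range_zero, id, Multiset.map_id', h2,
    Multiset.map_const', Multiset.sum_replicate, smul_eq_mul, mul_one, h0] at h4 h5
  rw [hm, Multiset.card_map, ← hm] at h5
  have a1 : m.count 1 = n - 2 := by omega
  have a2 : m.count 2 = 1 := by omega
  have h := H76.card_gl_commute_unip hmed hD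
  have e : Nat.card (Subgroup.centralizer ({t} : Set (GL (Fin n) F))) = _ :=
    (Nat.card_congr (Equiv.subtypeEquivRight fun x => by
      rw [Subgroup.mem_centralizer_singleton_iff, Units.ext_iff]; rfl)).trans h
  rw [e]
  simp only [H76.gam, Finset.sum_range_succ, Finset.prod_range_succ, Finset.sum_range_zero,
    Finset.prod_range_zero]
  rw [h0, a1, a2]
  have : 2 * n - 3 = 2 * (n - 2) + 1 := by omega
  rw [this]
  simp
  ring

end Cfsg.Agent.S2572
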