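import Cfsg.Statements.S2573
import Cfsg.Agent.H76.Unip

set_option autoImplicit false
open Cfsg

namespace Cfsg.Agent.S2573

/-- The invariant subspaces of a regular unipotent matrix form a chain: over a finite field, if u is an n × n matrix with (u − 1)^n = 0 and rank(u − 1) = n − 1, then every subspace W of F^n with u W ⊆ W is the kernel of (u − 1)^(dim W); so u has at most one invariant subspace of each dimension. -/
theorem result {F : Type*} [Field F] [Finite F] {n : ℕ} (u : Matrix (Fin n) (Fin n) F) (hnil : (u - 1) ^ n = 0) (hreg : (u - 1).rank = n - 1) (W : Submodule F (Fin n → F)) (hW : ∀ v ∈ W, u.mulVec v ∈ W) : W = LinearMap.ker (Matrix.mulVecLin ((u - 1) ^ Module.finrank F W)) := by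
  rcases Nat.eq_zero_or_pos n with rfl | hn
  · exact Subsingleton.elim _ _
  have : Nonempty (Fin n) := ⟨⟨0, hn⟩⟩
  have hW' : ∀ v ∈ W, (u - 1).mulVecLin v ∈ W := by
    intro v hv
    rw [Matrix.mulVecLin_apply, Matrix.sub_mulVec, Matrix.one_mulVec]
    exact W.sub_mem (hW v hv) hv
  have hpow : ∀ k, ((u - 1) ^ k).mulVecLin = (u - 1).mulVecLin ^ k := by
    intro k
    induction k with
    | zero => simp [Module.End.one_eq_id]
    | succ k ih => rw [pow_succ, pow_succ, Matrix.mulVecLin_mul, ih, Module.End.mul_eq_comp]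
  have h1 : IsNilpotent ((u - 1).mulVecLin.restrict hW') :=
    Module.End.isNilpotent.restrict hW' ⟨n, by rw [← hpow, hnil, Matrix.mulVecLin_zero]⟩
  have h2 : ((u - 1).mulVecLin.restrict hW') ^ Module.finrank F W = 0 := by
    have := LinearMap.aeval_self_charpoly ((u - 1).mulVecLin.restrict hW')
    rwa [h1.charpoly_eq_X_pow_finrank, map_pow, Polynomial.aeval_X] at this
  apply Submodule.eq_of_le_of_finrank_le
  · intro v hv
    have := congrArg Subtype.val (LinearMap.congr_fun h2 ⟨v, hv⟩)
    rw [Module.End.pow_restrict] at this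
    rw [LinearMap.mem_ker, hpow]
    exact this
  · have h3 := H76.rank_sub_one_pow_add u ⟨n, hnil⟩ (Module.finrank F W)
    rw [H76.med_of_regular u ⟨n, hnil⟩ (by simpa using hreg)] at h3
    have h4 := LinearMap.finrank_range_add_finrank_ker
      (Matrix.mulVecLin ((u - 1) ^ Module.finrank F W))
    rw [Module.finrank_fintype_fun_eq_card] at h4
    simp only [Multiset.map_singleton, Multiset.sum_singleton, Matrix.rank] at h3
    omega

end Cfsg.Agent.S2573
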