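import Cfsg.Statements.S2574
import Cfsg.Agent.H76.FConj
import Cfsg.Agent.H76.Cent

set_option autoImplicit false
open Cfsg

namespace Cfsg.Agent.S2574

/-- A regular unipotent element of the symplectic group has totally isotropic small invariant subspaces: over a finite field, if u ∈ Sp_2m(F) satisfies (u − 1)^(2m) = 0 and rank(u − 1) = 2m − 1, and W is a u-invariant subspace with 2 dim W ≤ 2m, then the alternating form vanishes identically on W. -/
theorem result {F : Type*} [Field F] [Finite F] {m : ℕ} (u : Matrix.symplecticGroup (Fin m) F) (hnil : ((u : Matrix (Fin m ⊕ Fin m) (Fin m ⊕ Fin m) F) - 1) ^ (2 * m) = 0) (hreg : ((u : Matrix (Fin m ⊕ Fin m) (Fin m ⊕ Fin m) F) - 1).rank = 2 * m - 1) (W : Submodule F (Fin m ⊕ Fin m → F)) (hW : ∀ v ∈ W, (u : Matrix (Fin m ⊕ Fin m) (Fin m ⊕ Fin m) F).mulVec v ∈ W) (hdim : 2 * Module.finrank F W ≤ 2 * m) : ∀ v ∈ W, ∀ w ∈ W, Cfsg.sympForm m F v w = 0 := by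
  rcases Nat.eq_zero_or_pos m with rfl | hm
  · intro v _ w _; simp [sympForm, dotProduct]
  have hc : Fintype.card (Fin m ⊕ Fin m) = 2 * m := by simp [two_mul]
  have : Nonempty (Fin m ⊕ Fin m) := ⟨.inl ⟨0, hm⟩⟩
  set g : Module.End F (Fin m ⊕ Fin m → F) := Matrix.toLin' u.1 with hg
  have hmed : H76.ed g = {(Polynomial.X - 1, 2 * m)} :=
    hc ▸ H76.med_of_regular _ ⟨_, hnil⟩ (by rw [hc]; exact hreg)
  have hN : (g - 1) ^ (2 * m) = 0 := H76.pow_eq_zero_of_ed_unip (m := {2 * m}) (by simpa using hmed)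
    (by simp)
  have hW' : ∀ v ∈ W, (g - 1) v ∈ W := fun v hv => W.sub_mem (hW v hv) hv
  have h1 : ∀ v ∈ W, v ∈ H76.KK (g - 1) m := fun v hv => by
    have h2 : IsNilpotent ((g - 1).restrict hW') := Module.End.isNilpotent.restrict hW' ⟨_, hN⟩
    have h3 := ((g - 1).restrict hW').aeval_self_charpoly
    rw [h2.charpoly_eq_X_pow_finrank, map_pow, Polynomial.aeval_X, Module.End.pow_restrict] at h3
    exact H76.KK_mono (by omega : Module.finrank F W ≤ m)
      (congrArg Subtype.val (LinearMap.congr_fun h3 ⟨v, hv⟩))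
  have h2 : Module.finrank F (H76.KK (g - 1) m) = m := by
    classical
    have h1 : (Polynomial.X - 1 : Polynomial F) = Polynomial.X - Polynomial.C 1 := by simp
    have := (H76.hasED_ed g).kerDim_pow (h1 ▸ Polynomial.monic_X_sub_C 1)
      (h1 ▸ Polynomial.irreducible_X_sub_C 1) m
    rw [hmed, h1, Polynomial.natDegree_X_sub_C, H76.kerDim, map_pow, map_sub,
      Polynomial.aeval_X, Polynomial.C_1, map_one] at this
    simp only [Multiset.map_singleton, Multiset.sum_singleton, if_true, mul_one,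
      min_eq_left (show m ≤ 2 * m by omega)] at this
    exact this
  have h3 : LinearMap.range ((g - 1) ^ m) = H76.KK (g - 1) m := by
    refine Submodule.eq_of_le_of_finrank_eq ?_ ?_
    · rintro _ ⟨v, rfl⟩
      rw [H76.mem_KK, H76.pow_pow_apply, ← two_mul, hN]; rfl
    · have := ((g - 1) ^ m).finrank_range_add_finrank_ker
      rw [Module.finrank_fintype_fun_eq_card, hc] at this
      have h4 : Module.finrank F (LinearMap.ker ((g - 1) ^ m)) = m := h2
      rw [h2]
      omega
  intro v hv w hw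
  obtain ⟨w', rfl⟩ := h3.ge (h1 w hw)
  exact (H27.jBilin_apply _ _).symm.trans
    (H76.form_pow_eq_zero (H76.isEForm_jBilin _).sep (H76.pres_sp u) (h1 v hv) w')

end Cfsg.Agent.S2574
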