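import Cfsg.Statements.S2575
import Cfsg.Agent.H76.CyclicPow

set_option autoImplicit false
open Cfsg

namespace Cfsg.Agent.S2575

/-- Which diagonal involutions of PGL_n(q) lie in PSL_n(q), q odd: for the diagonal matrix t with i entries −1 and n − i entries 1, some non-zero scalar multiple of t has determinant one if and only if i is even or the 2-part of q − 1 exceeds the 2-part of n (that is, −1 is an n-th power in the field exactly in the latter case). -/
theorem result {F : Type*} [Field F] [Fintype F] {q : ℕ} (hF : Fintype.card F = q) (hq : Odd q) {n : ℕ} (hn : 1 ≤ n) (i : ℕ) (hi : i ≤ n) : (∃ c : F, c ≠ 0 ∧ (c • Matrix.diagonal (fun j : Fin n => if (j : ℕ) < i then (-1 : F) else 1)).det = 1) ↔ (Even i ∨ padicValNat 2 n < padicValNat 2 (q - 1)) := by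
  have h2 : 1 < q := hF ▸ Fintype.one_lt_card
  have hchar : ringChar F ≠ 2 := by
    intro h
    have := FiniteField.even_card_of_char_two h
    rw [hF] at this
    have := Nat.odd_iff.1 hq
    omega
  have hdet : ∀ c : F, (c • Matrix.diagonal (fun j : Fin n => if (j : ℕ) < i then (-1 : F) else 1)).det
      = c ^ n * (-1) ^ i := by
    intro c
    rw [Matrix.det_smul, Matrix.det_diagonal, Fintype.card_fin, Finset.prod_ite,
      Finset.prod_const_one, mul_one, Finset.prod_const, Fin.card_filter_val_lt, min_eq_right hi]
  simp only [hdet]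
  rcases Nat.even_or_odd i with he | ho
  · simp only [he, true_or, iff_true]
    exact ⟨1, one_ne_zero, by simp [he.neg_one_pow]⟩
  · simp only [Nat.not_even_iff_odd.2 ho, false_or, ho.neg_one_pow, mul_neg, mul_one,
      neg_eq_iff_eq_neg]
    rw [H76.exists_pow_eq_iff_field n (neg_ne_zero.2 one_ne_zero), hF, orderOf_neg_one,
      if_neg hchar]
    have h3 : (q - 1) / (q - 1).gcd n ≠ 0 :=
      (Nat.div_pos (Nat.gcd_le_left _ (by omega)) (Nat.gcd_pos_of_pos_left _ (by omega))).ne'
    rw [dvd_iff_padicValNat_ne_zero h3, H76.padicValNat_div_gcd 2 (by omega) (by omega)]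
    omega

end Cfsg.Agent.S2575
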