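import Cfsg.Statements.S2576
import Cfsg.Agent.H76.CyclicPow

set_option autoImplicit false
open Cfsg

namespace Cfsg.Agent.S2576

/-- Which involutions of PGL_2m(q) coming from a scalar of the quadratic extension field lie in PSL_2m(q), q odd: let μ generate the Sylow 2-subgroup of the multiplicative group of the field with q elements (μ has order the 2-part of q − 1) and let t be the block-diagonal matrix with m diagonal blocks [[0, 1], [μ, 0]] (so t² is the scalar μ and t is an involution modulo scalars). Then some non-zero scalar multiple of t has determinant one if and only if q ≡ 3 (mod 4) or the 2-part of q − 1 is less than the 2-part of 2m. -/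
theorem result {F : Type*} [Field F] [Fintype F] {q : ℕ} (hF : Fintype.card F = q) (hq : Odd q) {m : ℕ} (hm : 1 ≤ m) (μ : F) (hμ : orderOf μ = 2 ^ padicValNat 2 (q - 1)) : (∃ c : F, c ≠ 0 ∧ (c • Matrix.blockDiagonal (fun _ : Fin m => !![(0 : F), 1; μ, 0])).det = 1) ↔ (q % 4 = 3 ∨ padicValNat 2 (q - 1) < padicValNat 2 (2 * m)) := by
  have h2 : 1 < q := hF ▸ Fintype.one_lt_card
  have hq' := Nat.odd_iff.1 hq
  have hchar : ringChar F ≠ 2 := by
    intro h
    have := FiniteField.even_card_of_char_two h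
    rw [hF] at this
    omega
  have hμ0 : μ ≠ 0 := by
    rintro rfl
    rw [orderOf_zero] at hμ
    exact (pow_pos two_pos _).ne hμ
  have hdet : ∀ c : F, (c • Matrix.blockDiagonal (fun _ : Fin m => !![(0 : F), 1; μ, 0])).det
      = c ^ (2 * m) * (-μ) ^ m := by
    intro c
    rw [Matrix.det_smul, Matrix.det_blockDiagonal]
    simp
  simp only [hdet]
  have h4 : ∀ c : F, c ^ (2 * m) * (-μ) ^ m = 1 ↔ c ^ (2 * m) = ((-μ) ^ m)⁻¹ := fun c =>
    mul_eq_one_iff_eq_inv₀ (pow_ne_zero _ (neg_ne_zero.2 hμ0))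
  simp only [h4]
  rw [H76.exists_pow_eq_iff_field _ (inv_ne_zero (pow_ne_zero _ (neg_ne_zero.2 hμ0))), hF,
    orderOf_dvd_iff_pow_eq_one, inv_pow, inv_eq_one, ← pow_mul, ← orderOf_dvd_iff_pow_eq_one]
  obtain ⟨a, ha⟩ : ∃ a, padicValNat 2 (q - 1) = a + 1 :=
    Nat.exists_eq_add_one_of_ne_zero
      ((dvd_iff_padicValNat_ne_zero (by omega)).1 (by omega))
  have h5 : ∀ k, 2 ^ k ∣ q - 1 ↔ k ≤ a + 1 := fun k => by
    rw [padicValNat_dvd_iff_le (by omega), ha]
  rw [ha] at hμ ⊢
  have hneg : μ ^ 2 ^ a = -1 := by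
    have h6 : μ ^ 2 ^ a * μ ^ 2 ^ a = 1 := by
      rw [← pow_add, ← two_mul, ← pow_succ', ← hμ, pow_orderOf_eq_one]
    rcases mul_self_eq_one_iff.1 h6 with h | h
    · have := orderOf_dvd_of_pow_eq_one h
      rw [hμ, Nat.pow_dvd_pow_iff_le_right one_lt_two] at this
      omega
    · exact h
  rcases Nat.eq_zero_or_pos a with rfl | ha0
  · have h7 : ¬ 2 ^ 2 ∣ q - 1 := by rw [h5]; omega
    have h8 : -μ = 1 := by
      rw [pow_zero, pow_one] at hneg
      rw [hneg, neg_neg]
    rw [h8, orderOf_one]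
    simp only [one_dvd, true_iff]
    left
    omega
  · have h7 : 2 ^ 2 ∣ q - 1 := by rw [h5]; omega
    have h8 : orderOf (-μ) = 2 ^ (a + 1) := by
      apply orderOf_eq_prime_pow
      · rw [(Nat.even_pow.2 ⟨even_two, ha0.ne'⟩).neg_pow, hneg]
        exact Ring.neg_one_ne_one_of_char_ne_two hchar
      · rw [(Nat.even_pow.2 ⟨even_two, by omega⟩).neg_pow, ← hμ, pow_orderOf_eq_one]
    have h3 : (q - 1) / (q - 1).gcd (2 * m) ≠ 0 :=
      (Nat.div_pos (Nat.gcd_le_left _ (by omega)) (Nat.gcd_pos_of_pos_left _ (by omega))).ne'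
    rw [h8, padicValNat_dvd_iff_le (mul_ne_zero (by omega) h3), padicValNat.mul (by omega) h3,
      H76.padicValNat_div_gcd 2 (by omega) (by omega), ha,
      padicValNat.mul two_ne_zero (by omega), padicValNat_self]
    omega

end Cfsg.Agent.S2576
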