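import Cfsg.Statements.S2578
import Cfsg.Agent.H76.Unip

set_option autoImplicit false
open Cfsg

namespace Cfsg.Agent.S2578

/-- Regular unipotent classes of SL_n(q): for n ≥ 2 over the field with q elements, the matrices u of determinant one with (u − 1)^n = 0 and rank(u − 1) = n − 1 form a single GL_n(q)-class which splits into exactly gcd(n, q − 1) conjugacy classes of SL_n(q). -/
theorem result {F : Type*} [Field F] [Fintype F] {q : ℕ} (hF : Fintype.card F = q) {n : ℕ} (hn : 2 ≤ n) : Nat.card {C : ConjClasses (Matrix.SpecialLinearGroup (Fin n) F) // ∃ u : Matrix.SpecialLinearGroup (Fin n) F, ConjClasses.mk u = C ∧ ((u : Matrix (Fin n) (Fin n) F) - 1) ^ n = 0 ∧ ((u : Matrix (Fin n) (Fin n) F) - 1).rank = n - 1} = Nat.gcd n (q - 1) := by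
  classical
  have : Nonempty (Fin n) := ⟨⟨0, by omega⟩⟩
  have hv : H76.Valid ({(Polynomial.X - 1, n)} : Multiset (Polynomial F × ℕ)) := by
    intro x hx
    rw [Multiset.mem_singleton.1 hx]
    exact ⟨H76.monic_X_sub_one, H76.irreducible_X_sub_one, by omega⟩
  obtain ⟨A, hA⟩ := H76.exists_med_eq (n := Fin n) hv (by simp [H76.natDegree_X_sub_one])
  have hdet : A.det = 1 := by
    rw [Matrix.det_eq_sign_charpoly_coeff, H76.charpoly_eq_prod_med, hA]
    simp [Polynomial.coeff_zero_eq_eval_zero, ← mul_pow]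
  let x : Matrix.SpecialLinearGroup (Fin n) F := ⟨A, hdet⟩
  have h1 := H76.card_classes_in_class_of_ker Matrix.SpecialLinearGroup.toGL
    Matrix.SpecialLinearGroup.toGL_injective Matrix.GeneralLinearGroup.det H76.gl_det_surjective
    H76.range_toGL x
  have h2 : (Subgroup.centralizer {Matrix.SpecialLinearGroup.toGL x}).map
      Matrix.GeneralLinearGroup.det = (powMonoidHom n : Fˣ →* Fˣ).range := by
    obtain ⟨Ψ, hΨ⟩ := H76.exists_unitComm_equiv_of_med hA
    rw [H76.centralizer_eq_unitComm]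
    ext c
    simp only [Subgroup.mem_map, MonoidHom.mem_range, powMonoidHom_apply]
    constructor
    · rintro ⟨z, hz, rfl⟩
      obtain ⟨u, hu⟩ := Ψ.surjective ⟨z, hz⟩
      have h3 := hΨ u
      rw [hu] at h3
      obtain ⟨a, ha⟩ := AdjoinRoot.mk_surjective u.val
      rw [← ha, H76.norm_mk_pow H76.monic_X_sub_one] at h3
      have h4 : Algebra.norm F (AdjoinRoot.mk (Polynomial.X - 1) a) ≠ 0 := by
        intro h0
        rw [h0, zero_pow (by omega)] at h3
        exact z.det_ne_zero h3
      exact ⟨Units.mk0 _ h4, Units.ext h3.symm⟩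
    · rintro ⟨c, rfl⟩
      obtain ⟨z, hz, hd⟩ := H76.exists_commute_gl_det_eq A
        (x := (Polynomial.X - 1, n)) (by rw [hA]; simp) c
      exact ⟨z, hz, hd⟩
  rw [h2, IsCyclic.index_powMonoidHom_range, Nat.card_units, Nat.card_eq_fintype_card (α := F),
    hF, Nat.gcd_comm] at h1
  rw [← h1]
  refine Nat.card_congr (Equiv.subtypeEquivRight fun C => exists_congr fun u =>
    and_congr_right fun _ => ?_)
  rw [H76.isConj_gl_iff_med_eq]
  change _ ↔ H76.med A = H76.med (u : Matrix (Fin n) (Fin n) F)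
  rw [hA]
  constructor
  · rintro ⟨h3, h4⟩
    simpa using (H76.med_of_regular _ ⟨_, h3⟩ (by simpa using h4)).symm
  · intro h3
    obtain ⟨h4, h5⟩ := H76.regular_of_med h3.symm
    exact ⟨by simpa using H76.sub_one_pow_card_eq_zero h4, by simpa using h5⟩

end Cfsg.Agent.S2578
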