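import Cfsg.Statements.S2582
import Cfsg.Agent.H76.SpData

set_option autoImplicit false
open Cfsg

namespace Cfsg.Agent.S2582

/-- Which unipotent Jordan types occur in the finite symplectic group: over a finite field, a unipotent matrix with Jordan block sizes d_1, …, d_t (sum 2m, all at least 1) is similar to an element of Sp_2m(F) if and only if every odd block size occurs an even number of times. -/
theorem result {F : Type*} [Field F] [Fintype F] {m t : ℕ} (d : Fin t → ℕ) (hd : ∀ k, 1 ≤ d k) (hsum : ∑ k, d k = 2 * m) : (∃ e : ((k : Fin t) × Fin (d k)) ≃ (Fin m ⊕ Fin m), ∃ A : Matrix.symplecticGroup (Fin m) F, IsConj (Matrix.reindex e e (Cfsg.jordanTypeMatrix d F)) (A : Matrix (Fin m ⊕ Fin m) (Fin m ⊕ Fin m) F)) ↔ ∀ j : ℕ, Odd j → Even (Finset.univ.filter (fun k : Fin t => d k = j)).card := by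
  have e : ((k : Fin t) × Fin (d k)) ≃ (Fin m ⊕ Fin m) :=
    Fintype.equivOfCardEq (by simp [hsum, two_mul])
  have key := H76.fadm_utype_iff (A := (AlgebraicClosure F)ˣ) (good := Even)
    (Q := (Fintype.card F : ℤ)) hd hsum
  simp only [Nat.not_even_iff_odd] at key
  rw [← key, H76.fadm_iff_exists_sp]
  exact ⟨fun ⟨e, A, h⟩ => ⟨A, (H76.isConj_jordanType_iff hd e (H27.spToGL m F A)).1 h⟩,
    fun ⟨A, h⟩ => ⟨e, A, (H76.isConj_jordanType_iff hd e (H27.spToGL m F A)).2 h⟩⟩

end Cfsg.Agent.S2582
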