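import Cfsg.Statements.S2583
import Cfsg.Agent.H76.SpData
import Cfsg.Agent.H30.OrthMatrix

set_option autoImplicit false
open Cfsg

namespace Cfsg.Agent.S2583

/-- Which unipotent Jordan types occur in a finite orthogonal group in odd characteristic: over a finite field of odd order, a unipotent matrix with Jordan block sizes d_1, …, d_t (sum n, all at least 1) is similar to an isometry of some quadratic form on F^n with non-degenerate polar form if and only if every even block size occurs an even number of times. -/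
theorem result {F : Type*} [Field F] [Fintype F] (h2 : (2 : F) ≠ 0) {n t : ℕ} (d : Fin t → ℕ) (hd : ∀ k, 1 ≤ d k) (hsum : ∑ k, d k = n) : (∃ Q : QuadraticForm F (Fin n → F), (QuadraticMap.polarBilin Q).Nondegenerate ∧ ∃ e : ((k : Fin t) × Fin (d k)) ≃ Fin n, ∃ A : ↥(Cfsg.isometryGroup F ⇑Q), IsConj (Matrix.reindex e e (Cfsg.jordanTypeMatrix d F)) ((A : Matrix.GeneralLinearGroup (Fin n) F) : Matrix (Fin n) (Fin n) F)) ↔ ∀ j : ℕ, Even j → 0 < j → Even (Finset.univ.filter (fun k : Fin t => d k = j)).card := by
  have e : ((k : Fin t) × Fin (d k)) ≃ Fin n := Fintype.equivOfCardEq (by simp [hsum])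
  have key := H76.fadm_utype_iff (A := (AlgebraicClosure F)ˣ) (good := Odd)
    (Q := (Fintype.card F : ℤ)) hd hsum
  simp only [Nat.not_odd_iff_even] at key
  have key2 : (∀ j : ℕ, Even j → 0 < j →
      Even (Finset.univ.filter (fun k : Fin t => d k = j)).card) ↔
      ∀ j : ℕ, Even j → Even (Finset.univ.filter (fun k : Fin t => d k = j)).card := by
    refine forall₂_congr fun j _ => ⟨fun h => ?_, fun h _ => h⟩
    rcases j.eq_zero_or_pos with rfl | hj
    · rw [Finset.filter_false_of_mem fun k _ => by have := hd k; omega]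
      exact Even.zero
    · exact h hj
  rw [key2, ← key]
  constructor
  · rintro ⟨Q, hQ, e, A, h⟩
    rw [← (H76.isConj_jordanType_iff hd e _).1 h]
    refine (H76.fadm_ujord_sym h2 (H76.isEForm_of_isSymm (B := QuadraticMap.polarBilin Q)
      (fun v w => QuadraticMap.polar_comm _ _ _) hQ) fun v w => ?_).cast (Fintype.card_fin n)
    have := H30.mem_isometryGroup.1 A.2
    simp only [QuadraticMap.polarBilin_apply_apply, QuadraticMap.polar, Matrix.toLin'_apply,
      ← Matrix.mulVec_add, this]
  · intro h
    obtain ⟨k, g, B, h1, -, h3, h4⟩ := h.real_sym h2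
    obtain rfl : k = n := by rw [← h.adm.wt_eq, ← h4, H76.wt_ujord, Fintype.card_fin]
    refine ⟨LinearMap.BilinMap.toQuadraticMap B, ?_, e, ⟨g, H30.mem_isometryGroup.2 fun v => h3 v v⟩,
      (H76.isConj_jordanType_iff hd e _).2 h4⟩
    suffices QuadraticMap.polarBilin (LinearMap.BilinMap.toQuadraticMap B) = (2 : F) • B from
      this ▸ (h1.smul h2).nondegenerate
    refine LinearMap.ext₂ fun v w => ?_
    rw [QuadraticMap.polarBilin_apply_apply, LinearMap.BilinMap.polar_toQuadraticMap, h1.symm v w]
    simp [two_mul]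

end Cfsg.Agent.S2583
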