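import Cfsg.Statements.S2585
import Cfsg.Agent.H79.InvolSp

set_option autoImplicit false
open Cfsg

namespace Cfsg.Agent.S2585

/-- Over a finite field of characteristic two every element of the symplectic group is orthogonal for a suitable quadratic form: for each A in Sp_2m(F) there is a quadratic form Q on F^(2m) whose polar form is the alternating form defining Sp_2m(F) (so Q is non-degenerate) and which A preserves. Equivalently, for m ≥ 1, Sp_2m(F) is the union of the conjugates of its two orthogonal subgroups O⁺_2m(F) and O⁻_2m(F). -/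
theorem result {F : Type*} [Field F] [Fintype F] [CharP F 2] {m : ℕ} (A : Matrix.symplecticGroup (Fin m) F) : ∃ Q : QuadraticForm F (Fin m ⊕ Fin m → F), (∀ u v : Fin m ⊕ Fin m → F, QuadraticMap.polar ⇑Q u v = Cfsg.sympForm m F u v) ∧ ∀ v : Fin m ⊕ Fin m → F, Q ((A : Matrix (Fin m ⊕ Fin m) (Fin m ⊕ Fin m) F).mulVec v) = Q v := by
  have h2 : (2 : F) = 0 := CharTwo.two_eq_zero
  have hN := H27.jBilin_nondegenerate (l := Fin m) (F := F)
  have hp : ∀ u v, QuadraticMap.polar (H30.qPlus F m) u v = H27.jBilin (Fin m) F u v := fun u v => by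
    rw [H30.polar_qPlus, H27.jBilin_apply_sum]
    exact Finset.sum_congr rfl fun i _ => by rw [CharTwo.sub_eq_add, add_comm]
  let t := H27.spToLin (Fin m) F A
  have ht : ∀ u v, H27.jBilin (Fin m) F (t u) (t v) = H27.jBilin (Fin m) F u v := H27.spToLin_mem A
  obtain ⟨l, hl⟩ := H79.exists_sqrt_linear h2 (fun v => H30.qPlus F m (t v) - H30.qPlus F m v)
    (fun x y => by rw [map_add, H30.Q_add, H30.Q_add, hp, hp, ht]; ring)
    (fun c x => by rw [map_smul, H30.Q_smul, H30.Q_smul]; ring)
  have hker : LinearMap.ker (H79.nil t) ≤ LinearMap.ker l := fun v hv => by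
    have h1 : t v = v := sub_eq_zero.1 hv
    have := hl v
    simp only [h1, sub_self] at this
    exact pow_eq_zero_iff two_ne_zero |>.1 this.symm
  obtain ⟨f, hf⟩ := LinearMap.exists_extend
    (((LinearMap.ker (H79.nil t)).liftQ l hker).comp (H79.nil t).quotKerEquivRange.symm.toLinearMap)
  have hfl : ∀ v, f (H79.nil t v) = l v := fun v => by
    have := LinearMap.congr_fun hf ⟨H79.nil t v, LinearMap.mem_range_self _ v⟩
    refine this.trans ?_
    change (LinearMap.ker (H79.nil t)).liftQ l hker ((H79.nil t).quotKerEquivRange.symm _) = _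
    rw [LinearMap.quotKerEquivRange_symm_apply_image]
    rfl
  refine ⟨H30.qPlus F m + QuadraticMap.linMulLin f f, fun u v => ?_, fun v => ?_⟩
  · rw [H27.sympForm_eq_jBilin, ← hp]
    simp only [QuadraticMap.polar, add_apply, QuadraticMap.linMulLin_apply, map_add]
    linear_combination f u * f v * h2
  · change H30.qPlus F m (t v) + f (t v) * f (t v) = H30.qPlus F m v + f v * f v
    have h1 := hl v
    have h3 := hfl v
    rw [H79.nil_apply, map_sub] at h3
    rw [← h3] at h1
    linear_combination h1 + (f (t v) ^ 2 - f (t v) * f v) * h2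

end Cfsg.Agent.S2585
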