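import Cfsg.Statements.S2584
import Cfsg.Agent.H76.SpData
import Cfsg.Agent.H30.OrthMatrix
import Cfsg.Agent.S2585

set_option autoImplicit false
open Cfsg

namespace Cfsg.Agent.S2584

/-- Which unipotent Jordan types occur in a finite orthogonal group in characteristic two: over a finite field of characteristic 2 and in even dimension 2m, a unipotent matrix with Jordan block sizes d_1, …, d_t (sum 2m, all at least 1) is similar to an isometry of some quadratic form on F^(2m) with non-degenerate polar form if and only if every odd block size occurs an even number of times (the same condition as for the symplectic group, which contains these orthogonal groups). -/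
theorem result {F : Type*} [Field F] [Fintype F] [CharP F 2] {m t : ℕ} (d : Fin t → ℕ) (hd : ∀ k, 1 ≤ d k) (hsum : ∑ k, d k = 2 * m) : (∃ Q : QuadraticForm F (Fin (2 * m) → F), (QuadraticMap.polarBilin Q).Nondegenerate ∧ ∃ e : ((k : Fin t) × Fin (d k)) ≃ Fin (2 * m), ∃ A : ↥(Cfsg.isometryGroup F ⇑Q), IsConj (Matrix.reindex e e (Cfsg.jordanTypeMatrix d F)) ((A : Matrix.GeneralLinearGroup (Fin (2 * m)) F) : Matrix (Fin (2 * m)) (Fin (2 * m)) F)) ↔ ∀ j : ℕ, Odd j → Even (Finset.univ.filter (fun k : Fin t => d k = j)).card := by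
  have e : ((k : Fin t) × Fin (d k)) ≃ Fin (2 * m) := Fintype.equivOfCardEq (by simp [hsum])
  have key := H76.fadm_utype_iff (A := (AlgebraicClosure F)ˣ) (good := Even)
    (Q := (Fintype.card F : ℤ)) hd hsum
  simp only [Nat.not_even_iff_odd] at key
  rw [← key]
  constructor
  · rintro ⟨Q, hQ, e, A, h⟩
    rw [← (H76.isConj_jordanType_iff hd e _).1 h]
    have ha : (QuadraticMap.polarBilin Q).IsAlt := fun v => by
      rw [QuadraticMap.polarBilin_apply_apply, QuadraticMap.polar_self, two_smul,
        CharTwo.add_self_eq_zero]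
    refine (H76.fadm_ujord_alt (H76.isEForm_of_isAlt ha hQ) ha fun v w => ?_).cast
      (Fintype.card_fin _)
    have := H30.mem_isometryGroup.1 A.2
    simp only [QuadraticMap.polarBilin_apply_apply, QuadraticMap.polar, Matrix.toLin'_apply,
      ← Matrix.mulVec_add, this]
  · intro h
    obtain ⟨A, hA⟩ := (H76.fadm_iff_exists_sp _).1 h
    obtain ⟨Q, h1, h2⟩ := S2585.result A
    let σ : Fin m ⊕ Fin m ≃ Fin (2 * m) := Fintype.equivOfCardEq (by simp [two_mul])
    let φ : (Fin (2 * m) → F) ≃ₗ[F] (Fin m ⊕ Fin m → F) := LinearEquiv.funCongrLeft F F σ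
    let g : GL (Fin (2 * m)) F :=
      Units.map (Matrix.reindexAlgEquiv F F σ).toMonoidHom (H27.spToGL m F A)
    have hg : (g : Matrix _ _ F) = Matrix.reindex σ σ (A : Matrix _ _ F) := rfl
    refine ⟨Q.comp φ.toLinearMap, ?_, e, ⟨g, H30.mem_isometryGroup.2 fun v => ?_⟩,
      (H76.isConj_jordanType_iff (L := AlgebraicClosure F) hd e _).2 ?_⟩
    · suffices QuadraticMap.polarBilin (Q.comp φ.toLinearMap) =
          H76.pull (H27.jBilin (Fin m) F) φ.toLinearMap from
        this ▸ ((H76.isEForm_jBilin (F := F) (Fin m)).pull φ).nondegenerate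
      refine LinearMap.ext₂ fun v w => ?_
      rw [QuadraticMap.polarBilin_apply_apply, H76.pull_apply, ← H27.sympForm_eq_jBilin, ← h1]
      simp [QuadraticMap.polar]
    · simp only [QuadraticMap.comp_apply]
      rw [← h2 (φ.toLinearMap v), hg]
      congr 1
      ext i
      simp [φ, Matrix.submatrix_mulVec_equiv, LinearMap.funLeft_apply]
      rfl
    · rw [← hA, H76.ujord_eq_ujord_iff]
      exact H76.med_reindex σ _

end Cfsg.Agent.S2584
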