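import Cfsg.Statements.S2591
import Cfsg.Agent.H76.SpUnip
import Cfsg.Agent.H76.UJordAux

set_option autoImplicit false
open Cfsg

namespace Cfsg.Agent.S2591

/-- Over a finite field of odd order and for m ≥ 1, the regular unipotent elements of Sp_2m(F) (u − 1 nilpotent of rank 2m − 1, a single Jordan block) form exactly two conjugacy classes of Sp_2m(F) (one class under the similarity group, which splits in two). -/
theorem result {F : Type*} [Field F] [Fintype F] {q : ℕ} (hF : Fintype.card F = q) (hq : Odd q) {m : ℕ} (hm : 1 ≤ m) : Nat.card {C : ConjClasses ↥(Matrix.symplecticGroup (Fin m) F) // ∃ u : Matrix.symplecticGroup (Fin m) F, ConjClasses.mk u = C ∧ ((u : Matrix (Fin m ⊕ Fin m) (Fin m ⊕ Fin m) F) - 1) ^ (2 * m) = 0 ∧ ((u : Matrix (Fin m ⊕ Fin m) (Fin m ⊕ Fin m) F) - 1).rank = 2 * m - 1} = 2 := by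
  classical
  subst hF
  let L := AlgebraicClosure F
  have h2 : (2 : F) ≠ 0 := H30.two_ne_zero_iff_odd_card.2 hq
  have hc : Fintype.card (Fin m ⊕ Fin m) = 2 * m := by simp [two_mul]
  have : Nonempty (Fin m ⊕ Fin m) := ⟨.inl ⟨0, hm⟩⟩
  let μ₀ : Nat.Partition (2 * m) := ⟨{2 * m}, by
      intro i hi; rw [Multiset.mem_singleton.1 hi]; omega, by simp⟩
  refine (H76.card_sp_unipotent L h2 m _ (fun μ => μ = μ₀) (fun s => s = {2 * m}) (fun μ => ?_)
    (fun g => ?_)).trans ?_
  · constructor
    · rintro rfl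
      refine ⟨rfl, fun j hj => ?_⟩
      have : j ≠ 2 * m := by rintro rfl; exact Nat.not_odd_iff_even.2 (even_two_mul m) hj
      simp [μ₀, this]
    · exact fun h => Nat.Partition.ext h.1
  · have e : ((H27.spToGL m F g : GL (Fin m ⊕ Fin m) F) : Matrix (Fin m ⊕ Fin m) (Fin m ⊕ Fin m) F) =
        (g : Matrix (Fin m ⊕ Fin m) (Fin m ⊕ Fin m) F) := rfl
    have key : H76.ujord L (H27.spToGL m F g) = {(1, 2 * m)} ↔
        (∀ x ∈ H76.ujord L (H27.spToGL m F g), x.1 = 1) ∧
          (H76.ujord L (H27.spToGL m F g)).map Prod.snd = {2 * m} := by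
      constructor
      · intro h; simp [h]
      · rintro ⟨h3, h4⟩
        obtain ⟨x, hx, hx'⟩ := Multiset.map_eq_singleton.1 h4
        rw [hx, show x = (1, 2 * m) from Prod.ext (h3 x (by simp [hx])) hx']
    rw [← key, H76.ujord_eq_singleton_iff (by omega), e]
    constructor
    · rintro ⟨h3, h4⟩
      rw [H76.med_of_regular _ ⟨_, h3⟩ (by rw [hc, h4]), hc]
    · intro h
      obtain ⟨h3, h4⟩ := H76.regular_of_med h
      refine ⟨?_, by rw [h4, hc]⟩
      rw [← hc]
      exact H76.sub_one_pow_card_eq_zero h3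
  · have h5 : μ₀.parts.toFinset.filter Even = {2 * m} := by
      simp [μ₀, Finset.filter_singleton]
    rw [Finset.filter_eq', if_pos (Finset.mem_univ _), Finset.sum_singleton, h5]
    simp

end Cfsg.Agent.S2591
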