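import Cfsg.Statements.S2593
import Cfsg.Agent.H79.InvolSp

set_option autoImplicit false
open Cfsg

namespace Cfsg.Agent.S2593

/-- Number of conjugacy classes of involutions in the symplectic group Sp_2m(F) over a finite field of characteristic two (m ≥ 1): for each s with 1 ≤ s ≤ m there is one class with rank(t − 1) = s if s is odd and two if s is even (according as v ↦ f(v, tv), f the symplectic form, vanishes identically or not), so m + ⌊m/2⌋ classes in all. -/
theorem result {F : Type*} [Field F] [Fintype F] [CharP F 2] {m : ℕ} (hm : 1 ≤ m) : Nat.card {C : ConjClasses ↥(Matrix.symplecticGroup (Fin m) F) // ∃ g : Matrix.symplecticGroup (Fin m) F, ConjClasses.mk g = C ∧ orderOf g = 2} = m + m / 2 := by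
  have h2 : (2 : F) = 0 := CharTwo.two_eq_zero
  have hN := H27.jBilin_nondegenerate (l := Fin m) (F := F)
  have hA := H27.jBilin_isAlt (l := Fin m) (F := F)
  rw [H79.card_invol_classes (H27.spEquiv (Fin m) F)
    (fun t => (H79.rk t, H79.AltType (H27.jBilin (Fin m) F) t))
    (fun t s ht hs => by rw [H79.isConj_sp_iff h2 hN hA t s ht hs]; simp)
    (fun x => 1 ≤ x.1 ∧ x.1 ≤ m ∧ (¬ x.2 → True) ∧ (x.2 → Even x.1 ∧ x.1 ≤ m)),
    H79.card_pairs le_rfl (fun _ => True)]
  · simp
  · rintro ⟨s, p⟩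
    constructor
    · rintro ⟨h1, h3, -, h4⟩
      by_cases hp : p
      · obtain ⟨U, hUk, hU⟩ := H27.exists_isotropic_finrank_eq hN hA (k := s)
          (by rw [H79.finrank_sum_self]; omega)
        obtain ⟨t, ht, ht2, hr, ha⟩ := H79.exists_invol_alt h2 hN hA U hU (hUk ▸ (h4 hp).1)
        have : H79.rk t = s := by rw [H79.rk, hr, hUk]
        exact ⟨t, ht, ht2, H79.rk_pos.1 (by omega), by simp [this, ha, hp]⟩
      · obtain ⟨t, ht, ht2, hr, ha⟩ := H79.exists_invol_sp h2 hN hA h1
          (by rw [H79.finrank_sum_self]; omega)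
        exact ⟨t, ht, ht2, H79.rk_pos.1 (by omega), by simp [hr, ha, hp]⟩
    · rintro ⟨t, ht, ht2, ht1, h⟩
      obtain ⟨rfl, rfl⟩ := Prod.mk.inj h
      have := H79.two_mul_rk_le h2 hN ht ht2
      rw [H79.finrank_sum_self] at this
      exact ⟨H79.rk_pos.2 ht1, by omega, fun _ => trivial,
        fun ha => ⟨H79.even_rk_of_altType h2 hN hA ht ht2 ha, by omega⟩⟩

end Cfsg.Agent.S2593
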