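import Cfsg.Statements.S2680
import Cfsg.Agent.H79.InvolSp

set_option autoImplicit false
open Cfsg

namespace Cfsg.Agent.S2680

/-- Centraliser order of an involution t of Sp_2m(q), q even, with s = rank(t − 1) odd (type b_s): |C(t)| = q^(2ms − (3s² − s)/2) · |Sp_(s−1)(q)| · |Sp_(2m−2s)(q)|, where |Sp_2k(q)| = q^(k²) Π_(i=1)^k (q^(2i) − 1). -/
theorem result {F : Type*} [Field F] [Fintype F] [CharP F 2] {q : ℕ} (hF : Fintype.card F = q) {m s : ℕ} (t : Matrix.symplecticGroup (Fin m) F) (ht : t ^ 2 = 1) (hs : ((t : Matrix (Fin m ⊕ Fin m) (Fin m ⊕ Fin m) F) - 1).rank = s) (hodd : Odd s) : Nat.card ↥(Subgroup.centralizer ({t} : Set ↥(Matrix.symplecticGroup (Fin m) F))) = q ^ (2 * m * s - (3 * s ^ 2 - s) / 2) * ((q : ℕ) ^ (((s - 1) / 2) ^ 2) * ∏ i : Fin ((s - 1) / 2), (q ^ (2 * ((i : ℕ) + 1)) - 1)) * ((q : ℕ) ^ ((m - s) ^ 2) * ∏ i : Fin (m - s), (q ^ (2 * ((i : ℕ) + 1)) -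 1)) := by
  have h2 : (2 : F) = 0 := CharTwo.two_eq_zero
  obtain ⟨hsm, hc⟩ := H79.card_centralizer_spMat h2 t ht hs
  obtain ⟨k, rfl⟩ := hodd
  rw [hc, (H79.card_isom_wall h2 H27.jBilin_nondegenerate H27.jBilin_isAlt (H27.spEquiv (Fin m) F t).2
    (H79.coe_mul_self_eq_one _ (by rwa [← pow_two]))).2.1 k (by rw [H79.rk_spEquiv, hs]),
    ← H79.spOrder_eq, ← H79.spOrder_eq, hF, show (2 * k + 1 - 1) / 2 = k by omega, mul_right_comm]
  congr 3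
  obtain ⟨r, rfl⟩ := Nat.exists_eq_add_of_le hsm
  have e1 : (2 * k + 1) * (2 * k + 1 + 1) / 2 = (2 * k + 1) * (k + 1) :=
    Nat.div_eq_of_eq_mul_right two_pos (by ring)
  have e2 : (3 * (2 * k + 1) ^ 2 - (2 * k + 1)) / 2 = (2 * k + 1) * (3 * k + 1) :=
    Nat.div_eq_of_eq_mul_right two_pos (Nat.sub_eq_of_eq_add (by ring))
  rw [e1, e2, Nat.add_sub_cancel_left]
  exact (Nat.sub_eq_of_eq_add (by ring)).symm

end Cfsg.Agent.S2680
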