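import Cfsg.Statements.S2594
import Cfsg.Agent.H79.InvolSp
import Cfsg.Agent.S2680

set_option autoImplicit false
open Cfsg

namespace Cfsg.Agent.S2594

/-- Over a finite field with q elements, q even, an element t of Sp_2m(F) with rank(t − 1) = 1 (a symplectic transvection) has centraliser in Sp_2m(F) of order q^(2m−1) · |Sp_(2m−2)(q)| = q^(2m−1) · q^((m−1)²) · Π_(i=1)^(m−1) (q^(2i) − 1). -/
theorem result {F : Type*} [Field F] [Fintype F] [CharP F 2] {q : ℕ} (hF : Fintype.card F = q) {m : ℕ} (hm : 1 ≤ m) (t : Matrix.symplecticGroup (Fin m) F) (ht : ((t : Matrix (Fin m ⊕ Fin m) (Fin m ⊕ Fin m) F) - 1).rank = 1) : Nat.card ↥(Subgroup.centralizer ({t} : Set ↥(Matrix.symplecticGroup (Fin m) F))) = q ^ (2 * m - 1) * (q ^ ((m - 1) ^ 2) * ∏ i : Fin (m - 1), (q ^ (2 * ((i : ℕ) + 1)) - 1)) := by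
  have h2 : (2 : F) = 0 := CharTwo.two_eq_zero
  have ht2 : t ^ 2 = 1 := by
    rw [← H79.rk_spEquiv] at ht
    obtain ⟨u, hu0, hu⟩ := finrank_eq_one_iff'.1 ht
    have hI := (H27.spEquiv (Fin m) F t).2
    rw [← (H27.spEquiv (Fin m) F).map_eq_one_iff, map_pow, pow_two]
    generalize H27.spEquiv (Fin m) F t = s at u hu0 hu hI ⊢
    have hN := H27.jBilin_nondegenerate (l := Fin m) (F := F)
    have hA := H27.jBilin_isAlt (l := Fin m) (F := F)
    have h1 : ∀ x, ∃ c : F, s.1 x = x + c • (u : Fin m ⊕ Fin m → F) := fun x => by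
      obtain ⟨c, hc⟩ := hu ((H79.nil s.1).rangeRestrict x)
      exact ⟨c, by rw [H79.apply_eq_add_nil]; exact congrArg (x + ·) (congrArg Subtype.val hc).symm⟩
    have h3 : s.1 u = u := by
      obtain ⟨c, hc⟩ := h1 u
      obtain ⟨y, hy⟩ : ∃ y, H27.jBilin (Fin m) F u y ≠ 0 := by
        by_contra h
        push Not at h
        exact hu0 (Subtype.ext (hN.1 _ h))
      obtain ⟨d, hd⟩ := h1 y
      have := hI u y
      rw [hc, hd] at this
      simp only [map_add, map_smul, LinearMap.add_apply, LinearMap.smul_apply, hA.self_eq_zero,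
        smul_eq_mul, mul_zero, add_zero, add_eq_left, mul_eq_zero, hy, or_false] at this
      rw [hc, this, zero_smul, add_zero]
    refine Subtype.ext (LinearEquiv.ext fun x => ?_)
    obtain ⟨c, hc⟩ := h1 x
    change s.1 (s.1 x) = x
    rw [hc, map_add, map_smul, hc, h3, add_assoc, ← two_smul F, h2, zero_smul, add_zero]
  simpa using S2680.result hF t ht2 ht odd_one

end Cfsg.Agent.S2594
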