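import Cfsg.Statements.S2599
import Cfsg.Agent.H79.QuadWitt

set_option autoImplicit false
open Cfsg

namespace Cfsg.Agent.S2599

/-- An irreducible invariant subspace of a semisimple isometry is non-degenerate or totally singular: let Q be a quadratic form on F^n (F finite of characteristic p) with non-degenerate polar form f, x an isometry of Q of order prime to p, and U a non-zero x-invariant subspace containing no x-invariant subspace other than 0 and U. Then U meets its f-orthogonal trivially, or Q vanishes on U, or p = 2, U is a line spanned by a non-singular vector and x fixes U pointwise. -/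
theorem result {F : Type*} [Field F] [Fintype F] {p : ℕ} [Fact p.Prime] [CharP F p] {n : ℕ} (Q : QuadraticForm F (Fin n → F)) (hQ : (QuadraticMap.polarBilin Q).Nondegenerate) (x : ↥(Cfsg.isometryGroup F ⇑Q)) (hx : (orderOf x).Coprime p) (U : Submodule F (Fin n → F)) (hU0 : U ≠ ⊥) (hUx : ∀ u ∈ U, ((x : Matrix.GeneralLinearGroup (Fin n) F) : Matrix (Fin n) (Fin n) F).mulVec u ∈ U) (hirr : ∀ W : Submodule F (Fin n → F), W ≤ U → (∀ w ∈ W, ((x : Matrix.GeneralLinearGroup (Fin n) F) : Matrix (Fin n) (Fin n) F).mulVec w ∈ W) → W = ⊥ ∨ W = U) : U ⊓ LinearMap.BilinForm.orthogonal (QuadraticMap.polarBilin Q) U = ⊥ ∨ (∀ u ∈ U, Q u = 0) ∨ (p = 2 ∧ Module.finrank F U = 1 ∧ (∃ u ∈ U, Q u ≠ 0) ∧ ∀ u ∈ U, ((x : Matrix.GeneralLinearGroup (Fin n) F) : Matrix (Fin n) (Fin n) F).mulVec u = u) := by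
  set A := ((x : Matrix.GeneralLinearGroup (Fin n) F) : Matrix (Fin n) (Fin n) F) with hA
  have hxQ : ∀ v, Q (A.mulVec v) = Q v := fun v => x.2 v v
  have hp : ∀ u v, QuadraticMap.polar Q (A.mulVec u) (A.mulVec v) = QuadraticMap.polar Q u v :=
    H79.polar_of_isometry (Matrix.mulVecLin A) hxQ
  have hinj : Function.Injective A.mulVec :=
    Matrix.mulVec_injective_iff_isUnit.mpr (Units.isUnit _)
  have hsurj : ∀ u ∈ U, ∃ u' ∈ U, A.mulVec u' = u := by
    intro u hu
    have h1 : Function.Injective ((Matrix.mulVecLin A).restrict hUx) := fun a b hab =>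
      Subtype.ext (hinj (congrArg Subtype.val hab))
    obtain ⟨u', hu'⟩ := LinearMap.injective_iff_surjective.mp h1 ⟨u, hu⟩
    exact ⟨u', u'.2, congrArg Subtype.val hu'⟩
  rcases hirr (U ⊓ LinearMap.BilinForm.orthogonal (QuadraticMap.polarBilin Q) U) inf_le_left
    (fun w hw => ⟨hUx w hw.1, fun u hu => by
      obtain ⟨u', hu', rfl⟩ := hsurj u hu
      exact (hp u' w).trans (hw.2 u' hu')⟩) with h | h
  · exact Or.inl h
  have hti : ∀ u ∈ U, ∀ w ∈ U, QuadraticMap.polar Q u w = 0 := fun u hu w hw =>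
    (h.ge hw).2 u hu
  let U₀ : Submodule F (Fin n → F) :=
    { carrier := {u | u ∈ U ∧ Q u = 0}
      add_mem' := fun {a b} ha hb => ⟨U.add_mem ha.1 hb.1, by
        rw [H79.map_add', ha.2, hb.2, hti a ha.1 b hb.1]; simp⟩
      zero_mem' := ⟨U.zero_mem, by simp⟩
      smul_mem' := fun c a ha => ⟨U.smul_mem c ha.1, by rw [H79.map_smul', ha.2]; simp⟩ }
  rcases hirr U₀ (fun u hu => hu.1) (fun w hw => ⟨hUx w hw.1, (hxQ w).trans hw.2⟩) with h0 | h0
  swap
  · exact Or.inr (Or.inl fun u hu => (h0.ge hu).2)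
  have han : ∀ u ∈ U, Q u = 0 → u = 0 := fun u hu hq => by
    have : u ∈ U₀ := ⟨hu, hq⟩
    rwa [h0] at this
  obtain ⟨u, hu, hu0⟩ := (Submodule.ne_bot_iff U).mp hU0
  have hqu : Q u ≠ 0 := fun hq => hu0 (han u hu hq)
  have h2 : (2 : F) = 0 := by
    have := hti u hu u hu
    rw [H79.polar_self'] at this
    exact (mul_eq_zero.mp this).resolve_right hqu
  have hp2 : p = 2 := by
    have := (CharP.cast_eq_zero_iff F p 2).mp (by exact_mod_cast h2)
    exact (Nat.prime_dvd_prime_iff_eq Fact.out Nat.prime_two).mp this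
  have hsq : ∀ a : F, ∃ r : F, r ^ 2 = a := by
    subst hp2
    exact fun a => (surjective_frobenius F 2) a
  refine Or.inr (Or.inr ⟨hp2, ?_, ⟨u, hu, hqu⟩, fun w hw => ?_⟩)
  · refine finrank_eq_one_iff'.mpr ⟨⟨u, hu⟩, fun h => hu0 (congrArg Subtype.val h), fun w => ?_⟩
    obtain ⟨r, hr⟩ := hsq (Q w / Q u)
    refine ⟨r, Subtype.ext ?_⟩
    have h1 : Q (r • u + (-1 : F) • (w : Fin n → F)) = 0 := by
      rw [H79.map_comb2, hti u hu w w.2, hr]; field_simp; linear_combination Q w * h2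
    have := han _ (U.add_mem (U.smul_mem _ hu) (U.smul_mem _ w.2)) h1
    rw [neg_one_smul, ← sub_eq_add_neg, sub_eq_zero] at this
    exact this
  · have h1 : Q ((1 : F) • A.mulVec w + (-1 : F) • w) = 0 := by
      rw [H79.map_comb2, hti _ (hUx w hw) w hw, hxQ]; linear_combination Q w * h2
    have := han _ (U.add_mem (U.smul_mem _ (hUx w hw)) (U.smul_mem _ hw)) h1
    rwa [neg_one_smul, one_smul, ← sub_eq_add_neg, sub_eq_zero] at this

end Cfsg.Agent.S2599
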