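import Cfsg.Statements.S2609
import Cfsg.Agent.H79.OmegaCrit

set_option autoImplicit false
open Cfsg

namespace Cfsg.Agent.S2609

theorem key {F : Type*} [Field F] {n : ℕ} (Q : QuadraticForm F (Fin n → F)) (hQ : (QuadraticMap.polarBilin Q).Nondegenerate) (vs : List (Fin n → F)) (hvs : ∀ v ∈ vs, Q v ≠ 0) :
    ∃ e : H30.O Q, (∀ x, (vs.map (fun v => Cfsg.reflectionMatrix ⇑Q v)).prod.mulVec x = e.1 x) ∧
      H30.dickson hQ e = (-1) ^ vs.length ∧ ∃ c : Fˣ, (c : F) = (vs.map (fun v => Q v)).prod ∧
        H30.spinorNorm hQ e = c := by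
  induction vs with
  | nil => exact ⟨1, fun x => by simp, by simp, 1, by simp, by simp⟩
  | cons v vs ih =>
    obtain ⟨e, h1, h2, c, h3, h4⟩ := ih fun w hw => hvs w (List.mem_cons_of_mem _ hw)
    have hv := hvs v List.mem_cons_self
    refine ⟨H30.refl Q v * e, fun x => ?_, ?_, Units.mk0 _ hv * c, ?_, ?_⟩
    · rw [List.map_cons, List.prod_cons, ← Matrix.mulVec_mulVec, h1, H30.reflectionMatrix_mulVec]
      rfl
    · rw [map_mul, h2, H30.dickson_refl hQ hv, List.length_cons, pow_succ, mul_comm]
    · simp [h3]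
    · rw [map_mul, h4, H30.spinorNorm_refl hQ hv, QuotientGroup.mk_mul]

/-- Spinor norm criterion for Ω over a finite field of odd order: let Q be a quadratic form on F^n, n ≥ 2, with non-degenerate polar form, and let g be an isometry written as a product of reflections in non-singular vectors v_1, …, v_k. Then g lies in Ω (the commutator subgroup of the orthogonal group) if and only if k is even and Q(v_1)⋯Q(v_k) is a square; in particular, for g of determinant one, whether that product is a square does not depend on the chosen factorisation (it is the spinor norm of g). -/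
theorem result {F : Type*} [Field F] [Fintype F] (h2 : (2 : F) ≠ 0) {n : ℕ} (hn : 2 ≤ n) (Q : QuadraticForm F (Fin n → F)) (hQ : (QuadraticMap.polarBilin Q).Nondegenerate) (g : ↥(Cfsg.isometryGroup F ⇑Q)) (vs : List (Fin n → F)) (hvs : ∀ v ∈ vs, Q v ≠ 0) (hg : ((g : Matrix.GeneralLinearGroup (Fin n) F) : Matrix (Fin n) (Fin n) F) = (vs.map (fun v => Cfsg.reflectionMatrix ⇑Q v)).prod) : g ∈ Cfsg.Omega F ⇑Q ↔ (Even vs.length ∧ IsSquare (vs.map (fun v => Q v)).prod) := by
  obtain ⟨e, h1, h2', c, h3, h4⟩ := key Q hQ vs hvs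
  rw [H79.mem_Omega_iff hQ (H30.not_isExc_of_two h2), (H30.coe_eq_iff_isoEquiv g e _ h1).1 hg,
    H30.mem_kerDS, h2', h4, H30.sqCl_mk_eq_one_iff, h3, neg_one_pow_eq_one_iff_even (by decide)]

end Cfsg.Agent.S2609
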