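import Cfsg.Statements.S2610
import Cfsg.Agent.H79.OmegaCrit

set_option autoImplicit false
open Cfsg

namespace Cfsg.Agent.S2610

/-- For a quadratic form Q on F^n with non-degenerate polar form, F finite of odd order and n ≥ 2 even, the isometry −1 lies in Ω (the commutator subgroup of the orthogonal group) if and only if the discriminant of Q (the determinant of the Gram matrix of its polar form) is a square. -/
theorem result {F : Type*} [Field F] [Fintype F] (h2 : (2 : F) ≠ 0) {n : ℕ} (hn : 2 ≤ n) (he : Even n) (Q : QuadraticForm F (Fin n → F)) (hQ : (QuadraticMap.polarBilin Q).Nondegenerate) : (∃ g : ↥(Cfsg.isometryGroup F ⇑Q), g ∈ Cfsg.Omega F ⇑Q ∧ ((g : Matrix.GeneralLinearGroup (Fin n) F) : Matrix (Fin n) (Fin n) F) = -1) ↔ IsSquare (Matrix.of (fun i j : Fin n => QuadraticMap.polar ⇑Q (Pi.single i 1) (Pi.single j 1))).det := by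
  classical
  rw [H79.exists_mem_Omega_iff hQ (H30.not_isExc_of_two h2) (H30.negOne Q) (-1)
    (fun v => by rw [H30.negOne_apply, Matrix.neg_mulVec, Matrix.one_mulVec]), H30.mem_kerDS,
    H30.dickson_negOne hQ h2, Module.finrank_fin_fun, he.neg_one_pow]
  have : Invertible (2 : F) := invertibleOfNonzero h2
  obtain ⟨b, hb⟩ := LinearMap.BilinForm.exists_orthogonal_basis (B := QuadraticMap.polarBilin Q)
    ⟨fun x y => QuadraticMap.polar_comm _ x y⟩
  have horth : ∀ i j, i ≠ j → QuadraticMap.polar Q (b i) (b j) = 0 := fun i j hij => hb hij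
  have hg : H79.gram Q b = Matrix.diagonal fun i => 2 * Q (b i) := by
    ext i j
    by_cases hij : i = j
    · subst hij; rw [Matrix.diagonal_apply_eq, H79.gram_apply, H30.polar_self']
    · rw [Matrix.diagonal_apply_ne _ hij, H79.gram_apply, horth i j hij]
  have hdet := (H79.nd_iff_det_gram Q b).1 ((H79.nd_iff Q).1 hQ)
  rw [hg, Matrix.det_diagonal] at hdet
  have hb0 : ∀ i, Q (b i) ≠ 0 := fun i h => hdet (Finset.prod_eq_zero (Finset.mem_univ i) (by simp [h]))
  rw [H30.spinorNorm_negOne hQ b hb0 horth b.span_eq.ge, H30.sqCl_mk_eq_one_iff]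
  obtain ⟨r, hr, hr'⟩ := H79.det_gram_basis Q (Pi.basisFun F (Fin n)) b
  have e : (Matrix.of (fun i j : Fin n => QuadraticMap.polar ⇑Q (Pi.single i 1) (Pi.single j 1))) =
      H79.gram Q (Pi.basisFun F (Fin n)) := by
    ext i j; simp [H79.gram]
  obtain ⟨k, hk⟩ := he
  rw [e, hr', hg, Matrix.det_diagonal, Finset.prod_mul_distrib, Finset.prod_const, Finset.card_univ,
    Fintype.card_fin, show (2 : F) ^ Module.finrank F (Fin n → F) = (2 ^ k) ^ 2 by
      rw [Module.finrank_fin_fun, hk, ← two_mul, pow_mul'], ← mul_assoc, ← mul_pow,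
    H79.isSquare_sq_mul_iff (mul_ne_zero hr (pow_ne_zero _ h2))]
  simp

end Cfsg.Agent.S2610
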