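import Cfsg.Statements.S2612
import Cfsg.Agent.H79.OmegaPlus

set_option autoImplicit false
open Cfsg

namespace Cfsg.Agent.S2612

/-- For the hyperbolic quadratic form Σ x_i y_i on F^(2m) (F finite, m ≥ 1, excluding m = 2 over the field of two elements), Ω⁺_2m(F) (the commutator subgroup of the orthogonal group) contains an element interchanging the two complementary maximal totally singular subspaces {y = 0} and {x = 0} if and only if m is even (dimension divisible by 4). -/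
theorem result {F : Type*} [Field F] [Fintype F] {m : ℕ} (hm : 1 ≤ m) (h : Fintype.card F ≠ 2 ∨ m ≠ 2) : (∃ g : ↥(Cfsg.isometryGroup F (Cfsg.quadFormPlus m F)), g ∈ Cfsg.Omega F (Cfsg.quadFormPlus m F) ∧ (∀ v : Fin m ⊕ Fin m → F, (∀ i, v (Sum.inr i) = 0) → ∀ i, (((g : Matrix.GeneralLinearGroup (Fin m ⊕ Fin m) F) : Matrix (Fin m ⊕ Fin m) (Fin m ⊕ Fin m) F).mulVec v) (Sum.inl i) = 0) ∧ (∀ v : Fin m ⊕ Fin m → F, (∀ i, v (Sum.inl i) = 0) → ∀ i, (((g : Matrix.GeneralLinearGroup (Fin m ⊕ Fin m) F) : Matrix (Fin m ⊕ Fin m) (Fin m ⊕ Fin m) F).mulVec v) (Sum.inr i) = 0)) ↔ Even m := by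
  have hQ := H30.qPlus_nondegenerate (F := F) m
  have hx := H79.not_isExc_plus h
  have hU := H79.halfTS_plus (F := F) m
  have key : ∀ g : H30.O (H30.qPlus F m), (∀ v : Fin m ⊕ Fin m → F, (∀ i, v (Sum.inr i) = 0) →
      ∀ i, g.1 v (Sum.inl i) = 0) → (H30.dickson hQ g = 1 ↔ Even m) := by
    intro g h1
    have := hU.1.dickson_eq_one_iff hQ hx g
    rw [hU.2] at this
    have e : LinearMap.ker (LinearMap.funLeft F F (Sum.inr : Fin m → Fin m ⊕ Fin m)) ⊓
        (LinearMap.ker (LinearMap.funLeft F F (Sum.inr : Fin m → Fin m ⊕ Fin m))).map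
          (g.1 : (Fin m ⊕ Fin m → F) →ₗ[F] (Fin m ⊕ Fin m → F)) = ⊥ := by
      rw [eq_bot_iff]
      rintro _ ⟨hv, v, hv', rfl⟩
      rw [Submodule.mem_bot]
      ext (i | i)
      · exact h1 v (fun j => congrFun (LinearMap.mem_ker.1 hv') j) i
      · exact congrFun (LinearMap.mem_ker.1 hv) i
    rw [e] at this
    simpa using this
  constructor
  · rintro ⟨g, hg, h1, -⟩
    exact (key _ h1).1 ((H79.mem_Omega_iff (Q := H30.qPlus F m) hQ hx g).1 hg).1
  · intro he
    let s : H30.O (H30.qPlus F m) := ⟨LinearEquiv.funCongrLeft F F (Equiv.sumComm _ _), fun v => by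
      simp [H30.qPlus_apply, mul_comm]⟩
    obtain ⟨c, hc⟩ := QuotientGroup.mk_surjective (H30.spinorNorm hQ s)
    have : Nonempty (Fin m) := ⟨⟨0, hm⟩⟩
    obtain ⟨A, hA⟩ := Matrix.GeneralLinearGroup.det_surjective (n := Fin m) (R := F) c
    obtain ⟨g, hg⟩ := (H30.isoEquiv (H30.qPlus F m)).surjective (s * H79.levi F m A)
    have h1 : ∀ v i, (s * H79.levi F m A).1 v (Sum.inl i) =
        ((A⁻¹ : GL (Fin m) F).1.transpose.mulVec (v ∘ Sum.inr)) i := fun v i => by
      rw [H30.O_mul_apply, H79.levi_apply, H79.fromBlocks_diag_mulVec]; rfl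
    have h2 : ∀ v i, (s * H79.levi F m A).1 v (Sum.inr i) = (A.1.mulVec (v ∘ Sum.inl)) i :=
      fun v i => by rw [H30.O_mul_apply, H79.levi_apply, H79.fromBlocks_diag_mulVec]; rfl
    have h3 : ∀ v : Fin m ⊕ Fin m → F, (∀ i, v (Sum.inr i) = 0) →
        ∀ i, (s * H79.levi F m A).1 v (Sum.inl i) = 0 := fun v hv i => by
      rw [h1, show v ∘ Sum.inr = 0 from funext hv, Matrix.mulVec_zero]; rfl
    refine ⟨g, (H79.mem_Omega_iff (Q := H30.qPlus F m) hQ hx g).2 ?_, fun v hv i => ?_,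
      fun v hv i => ?_⟩
    · rw [hg]
      exact (H30.mem_kerDS hQ).2 ⟨(key _ h3).2 he, by
        rw [map_mul, (H79.levi_hom A).2, hA, hc, H30.sqCl_mul_self]⟩
    · have := h3 v hv i
      rw [← hg] at this
      exact this
    · have := h2 v i
      rw [← hg, show v ∘ Sum.inl = 0 from funext hv, Matrix.mulVec_zero] at this
      exact this

end Cfsg.Agent.S2612
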