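import Cfsg.Statements.S2613
import Cfsg.Agent.H79.OmegaPlus

set_option autoImplicit false
open Cfsg

namespace Cfsg.Agent.S2613

/-- For the hyperbolic form Σ x_j y_j on F^(2m), F finite with q elements, q odd, and 1 ≤ i ≤ m: the involution negating the first i hyperbolic pairs (x_j, y_j ↦ −x_j, −y_j for j < i) and fixing the rest lies in Ω⁺_2m(q) (commutator subgroup of the orthogonal group) if and only if q^i ≡ 1 (mod 4); its (−1)-eigenspace is a hyperbolic 2i-space. -/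
theorem result {F : Type*} [Field F] [Fintype F] {q : ℕ} (hF : Fintype.card F = q) (hq : Odd q) {m : ℕ} (i : ℕ) (hi : 1 ≤ i) (him : i ≤ m) : (∃ g : ↥(Cfsg.isometryGroup F (Cfsg.quadFormPlus m F)), g ∈ Cfsg.Omega F (Cfsg.quadFormPlus m F) ∧ ((g : Matrix.GeneralLinearGroup (Fin m ⊕ Fin m) F) : Matrix (Fin m ⊕ Fin m) (Fin m ⊕ Fin m) F) = Matrix.diagonal (fun k : Fin m ⊕ Fin m => if (Sum.elim (fun j : Fin m => (j : ℕ)) (fun j : Fin m => (j : ℕ)) k) < i then (-1 : F) else 1)) ↔ q ^ i % 4 = 1 := by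
  have hQ := H30.qPlus_nondegenerate (F := F) m
  have h2 : (2 : F) ≠ 0 := H79.two_ne_zero_of_odd_card (hF ▸ hq)
  obtain ⟨g, h1, h3, h4⟩ := H79.exists_diagonal hQ Sum.inl Sum.inr
    (fun i => ⟨by simp [H30.qPlus_apply], by simp [H30.qPlus_apply],
      by simp [H30.polar_qPlus, Pi.single_apply]⟩)
    (fun i j _ => by simp [H30.polar_qPlus])
    (fun i j hij => by simp [H30.polar_qPlus, Pi.single_apply, hij.symm])
    (fun i j _ => by simp [H30.polar_qPlus])
    (fun j : Fin m => if (j : ℕ) < i then (-1 : Fˣ) else 1)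
    (fun k : Fin m ⊕ Fin m => if (Sum.elim (fun j : Fin m => (j : ℕ)) (fun j : Fin m => (j : ℕ)) k) < i then (-1 : F) else 1)
    (fun j => by by_cases h : (j : ℕ) < i <;> simp [h])
    (fun j => by by_cases h : (j : ℕ) < i <;> simp [h])
    (by rintro (k | k); exacts [Or.inl ⟨k, rfl⟩, Or.inr (Or.inl ⟨k, rfl⟩)])
  refine (H79.exists_mem_Omega_iff (Q := H30.qPlus F m) hQ (H30.not_isExc_of_two h2) g _ h1).trans ?_
  rw [H30.mem_kerDS, h3, h4, H79.prod_ite_neg_one him, H30.sqCl_mk_eq_one_iff,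
    ← H79.isSquare_neg_one_pow_iff_mod hF hq]
  simp

end Cfsg.Agent.S2613
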