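import Cfsg.Statements.S2615
import Cfsg.Agent.H79.OmegaPlus

set_option autoImplicit false
open Cfsg

namespace Cfsg.Agent.S2615

/-- For an elliptic form Σ_(j<m−1) x_j y_j + (z₁² + a z₁z₂ + b z₂²) (anisotropic binary part) on F^(2m), F finite with q elements, q odd, and 1 ≤ i ≤ m − 1: the involution negating the first i hyperbolic pairs and fixing the rest lies in Ω⁻_2m(q) (commutator subgroup of the orthogonal group) if and only if q^i ≡ 1 (mod 4). -/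
theorem result {F : Type*} [Field F] [Fintype F] {q : ℕ} (hF : Fintype.card F = q) (hq : Odd q) {m : ℕ} (a b : F) (hab : ∀ z₁ z₂ : F, z₁ ^ 2 + a * z₁ * z₂ + b * z₂ ^ 2 = 0 → z₁ = 0 ∧ z₂ = 0) (i : ℕ) (hi : 1 ≤ i) (him : i + 1 ≤ m) : (∃ g : ↥(Cfsg.isometryGroup F (Cfsg.quadFormMinus (m - 1) F a b)), g ∈ Cfsg.Omega F (Cfsg.quadFormMinus (m - 1) F a b) ∧ ((g : Matrix.GeneralLinearGroup ((Fin (m - 1) ⊕ Fin (m - 1)) ⊕ Fin 2) F) : Matrix ((Fin (m - 1) ⊕ Fin (m - 1)) ⊕ Fin 2) ((Fin (m - 1) ⊕ Fin (m - 1)) ⊕ Fin 2) F) = Matrix.diagonal (fun k : (Fin (m - 1) ⊕ Fin (m - 1)) ⊕ Fin 2 => if (Sum.elim (Sum.elim (fun j : Fin (m - 1) => (j : ℕ)) (fun j : Fin (m - 1) => (j : ℕ))) (fun _ : Fin 2 => i) k) < i then (-1 : F) else 1)) ↔ q ^ i % 4 = 1 := by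
  have h2 : (2 : F) ≠ 0 := H79.two_ne_zero_of_odd_card (hF ▸ hq)
  have hQ := H30.qMinus_nondegenerate (F := F) (m - 1) hab
  obtain ⟨g, h1, h3, h4⟩ := H79.exists_diagonal hQ (fun j => Sum.inl (Sum.inl j))
    (fun j => Sum.inl (Sum.inr j))
    (fun i => ⟨by simp [H30.qMinus_apply], by simp [H30.qMinus_apply],
      by simp [H30.polar_qMinus, Pi.single_apply]⟩)
    (fun i j _ => by simp [H30.polar_qMinus])
    (fun i j hij => by simp [H30.polar_qMinus, Pi.single_apply, hij.symm])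
    (fun i j _ => by simp [H30.polar_qMinus])
    (fun j : Fin (m - 1) => if (j : ℕ) < i then (-1 : Fˣ) else 1)
    (fun k : (Fin (m - 1) ⊕ Fin (m - 1)) ⊕ Fin 2 => if (Sum.elim (Sum.elim (fun j : Fin (m - 1) => (j : ℕ)) (fun j : Fin (m - 1) => (j : ℕ))) (fun _ : Fin 2 => i) k) < i then (-1 : F) else 1)
    (fun j => by by_cases h : (j : ℕ) < i <;> simp [h])
    (fun j => by by_cases h : (j : ℕ) < i <;> simp [h])
    (by
      rintro ((k | k) | k)
      · exact Or.inl ⟨k, rfl⟩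
      · exact Or.inr (Or.inl ⟨k, rfl⟩)
      · exact Or.inr (Or.inr ⟨by simp, fun j => by simp [H30.polar_qMinus]⟩))
  refine (H79.exists_mem_Omega_iff (Q := H30.qMinus F (m - 1) a b) hQ (H30.not_isExc_of_two h2) g _
    h1).trans ?_
  rw [H30.mem_kerDS, h3, h4, H79.prod_ite_neg_one (by omega), H30.sqCl_mk_eq_one_iff,
    ← H79.isSquare_neg_one_pow_iff_mod hF hq]
  simp

end Cfsg.Agent.S2615
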