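import Cfsg.Statements.S2619
import Cfsg.Agent.H79.QuadWitt

set_option autoImplicit false
open Cfsg

namespace Cfsg.Agent.S2619

/-- Over a finite field of characteristic two, given an alternating bilinear form B on a finite-dimensional space, a basis (v_i) and scalars (λ_i), there is exactly one quadratic form whose polar form is B and whose value at each v_i is λ_i. -/
theorem result {F V ι : Type*} [Field F] [Finite F] [CharP F 2] [AddCommGroup V] [Module F V] [Fintype ι] (b : Module.Basis ι F V) (B : LinearMap.BilinForm F V) (hB : B.IsAlt) (c : ι → F) : ∃! Q : QuadraticForm F V, QuadraticMap.polarBilin Q = B ∧ ∀ i, Q (b i) = c i := by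
  classical
  letI : LinearOrder ι := LinearOrder.lift' (Fintype.equivFin ι) (Fintype.equivFin ι).injective
  have h2 : (2 : F) = 0 := CharTwo.two_eq_zero
  let M : Matrix ι ι F := Matrix.of fun i j =>
    if i = j then c i else if i < j then B (b i) (b j) else 0
  let B' : LinearMap.BilinForm F V := Matrix.toBilin b M
  have hB' : ∀ i j, B' (b i) (b j) = M i j := by
    intro i j
    rw [← LinearMap.BilinForm.toMatrix_apply, LinearMap.BilinForm.toMatrix_toBilin]
  refine ⟨LinearMap.BilinMap.toQuadraticMap B', ⟨?_, fun i => ?_⟩, ?_⟩
  · refine b.ext fun i => b.ext fun j => ?_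
    rw [QuadraticMap.polarBilin_apply_apply, LinearMap.BilinMap.polar_toQuadraticMap, hB', hB']
    rcases lt_trichotomy i j with h | h | h
    · simp [M, h, h.ne, h.ne', not_lt.mpr h.le]
    · subst h
      simp only [M, Matrix.of_apply, if_true, hB.self_eq_zero]
      linear_combination c i * h2
    · simp only [M, Matrix.of_apply, h, h.ne, h.ne', not_lt.mpr h.le, if_false, if_true, zero_add]
      rw [← hB.neg_eq]
      linear_combination -(B (b i) (b j)) * h2
  · simp [hB', M]
  · rintro Q ⟨hQ1, hQ2⟩
    rw [← QuadraticMap.toQuadraticMap_toBilin Q b]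
    congr 1
    refine b.ext fun i => b.ext fun j => ?_
    rw [QuadraticMap.toBilin_apply, hB', hQ2, ← QuadraticMap.polarBilin_apply_apply, hQ1]
    simp [M]

end Cfsg.Agent.S2619
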