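import Cfsg.Statements.S2625
import Cfsg.Agent.H79.QuadDisc

set_option autoImplicit false
open Cfsg

namespace Cfsg.Agent.S2625

/-- For a quadratic form Q on F^n with non-degenerate polar form, F finite and n odd (so |F| is odd), the multiplier of any similarity is a square: if g is an invertible linear map with Q(g v) = c·Q(v) for all v then c is a square. -/
theorem result {F : Type*} [Field F] [Fintype F] {n : ℕ} (hn : Odd n) (Q : QuadraticForm F (Fin n → F)) (hQ : (QuadraticMap.polarBilin Q).Nondegenerate) (g : (Fin n → F) ≃ₗ[F] (Fin n → F)) (c : F) (hg : ∀ v, Q (g v) = c * Q v) : IsSquare c := by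
  have hd := (H79.nd_iff_det_gram Q (Pi.basisFun F _)).mp ((H79.nd_iff _).mp hQ)
  obtain ⟨r, hr0, hr⟩ := H79.Iso.det_gram (Q := ⇑(c • Q)) (Q' := Q) ⟨g, fun v => by simpa using hg v⟩
    (Pi.basisFun F _) (Pi.basisFun F _)
  rw [H79.gram_smul, Matrix.det_smul, Fintype.card_fin] at hr
  have h1 : c ^ n = r ^ 2 := mul_right_cancel₀ hd hr
  obtain ⟨k, rfl⟩ := hn
  have hc : c ≠ 0 := by
    rintro rfl
    exact pow_ne_zero 2 hr0 (by simpa using h1.symm)
  rw [← H79.isSquare_sq_mul_iff (pow_ne_zero k hc)]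
  exact ⟨r, by linear_combination h1⟩

end Cfsg.Agent.S2625
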