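import Cfsg.Statements.S2628
import Cfsg.Agent.H79.OmegaCrit

set_option autoImplicit false
open Cfsg

namespace Cfsg.Agent.S2628

/-- For the orthogonal direct sum Q ⊕ Q of two copies of a quadratic form Q with non-degenerate polar form on F^k (F finite), every isometry g of Q acting diagonally, diag(g, g), lies in Ω(Q ⊕ Q), the commutator subgroup of the orthogonal group of Q ⊕ Q. (Excluded: k = 2 over the field of two elements, where Q ⊕ Q is the hyperbolic 4-space whose orthogonal group's commutator subgroup is smaller than the group usually called Ω.) -/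
theorem result {F : Type*} [Field F] [Fintype F] {k : ℕ} (h : Fintype.card F ≠ 2 ∨ k ≠ 2) (Q : QuadraticForm F (Fin k → F)) (hQ : (QuadraticMap.polarBilin Q).Nondegenerate) (g : ↥(Cfsg.isometryGroup F ⇑Q)) : ∃ x : ↥(Cfsg.isometryGroup F (fun v : Fin k ⊕ Fin k → F => Q (v ∘ Sum.inl) + Q (v ∘ Sum.inr))), x ∈ Cfsg.Omega F (fun v : Fin k ⊕ Fin k → F => Q (v ∘ Sum.inl) + Q (v ∘ Sum.inr)) ∧ ((x : Matrix.GeneralLinearGroup (Fin k ⊕ Fin k) F) : Matrix (Fin k ⊕ Fin k) (Fin k ⊕ Fin k) F) = Matrix.fromBlocks ((g : Matrix.GeneralLinearGroup (Fin k) F) : Matrix (Fin k) (Fin k) F) 0 0 ((g : Matrix.GeneralLinearGroup (Fin k) F) : Matrix (Fin k) (Fin k) F) := by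
  have hQ' := (H79.nd_iff _).2 (H79.nd_qSum ((H79.nd_iff _).1 hQ) ((H79.nd_iff _).1 hQ))
  have hx : ¬ H30.IsExc (H79.qSum Q Q) := H30.not_isExc_of_card (h.imp id fun h => by
    simp only [Module.finrank_fintype_fun_eq_card, Fintype.card_sum, Fintype.card_fin]; omega)
  have key := H79.exists_mem_Omega_iff hQ' hx
    (H79.blockO' Q Q (H30.isoEquiv Q g, H30.isoEquiv Q g))
    (Matrix.fromBlocks ((g : Matrix.GeneralLinearGroup (Fin k) F) : Matrix (Fin k) (Fin k) F) 0 0
      ((g : Matrix.GeneralLinearGroup (Fin k) F) : Matrix (Fin k) (Fin k) F))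
    (fun v => by
      rw [H79.blockO'_apply, H79.fromBlocks_diag_mulVec]; rfl)
  refine key.2 ?_
  rw [H30.mem_kerDS, (H79.blockO'_hom hQ hQ hQ' _).1, (H79.blockO'_hom hQ hQ hQ' _).2]
  exact ⟨Int.units_mul_self _, H30.sqCl_mul_self _⟩

end Cfsg.Agent.S2628
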