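import Cfsg.Statements.S2631
import Cfsg.Agent.H79.OmegaPlus

set_option autoImplicit false
open Cfsg

namespace Cfsg.Agent.S2631

/-- For the hyperbolic form Σ x_i y_i on F^(2m) over a finite field (m ≥ 1, excluding m = 2 over the field of two elements), Ω (the commutator subgroup of the orthogonal group) acts transitively on each of the two classes of maximal totally singular subspaces: if U and W are m-dimensional totally singular subspaces with m − dim(U ∩ W) even, some element of Ω carries U to W. -/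
theorem result {F : Type*} [Field F] [Fintype F] {m : ℕ} (hm : 1 ≤ m) (h : Fintype.card F ≠ 2 ∨ m ≠ 2) (U W : Submodule F (Fin m ⊕ Fin m → F)) (hU : Module.finrank F U = m) (hW : Module.finrank F W = m) (hU0 : ∀ u ∈ U, Cfsg.quadFormPlus m F u = 0) (hW0 : ∀ w ∈ W, Cfsg.quadFormPlus m F w = 0) (he : Even (m - Module.finrank F ↥(U ⊓ W))) : ∃ g : ↥(Cfsg.isometryGroup F (Cfsg.quadFormPlus m F)), g ∈ Cfsg.Omega F (Cfsg.quadFormPlus m F) ∧ U.map (Matrix.mulVecLin ((g : Matrix.GeneralLinearGroup (Fin m ⊕ Fin m) F) : Matrix (Fin m ⊕ Fin m) (Fin m ⊕ Fin m) F)) = W := by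
  have hQ := H30.qPlus_nondegenerate (F := F) m
  have hx := H79.not_isExc_plus h
  refine H79.exists_Omega_map (Q := H30.qPlus F m) hQ hx ?_
  obtain ⟨g, rfl⟩ := H79.exists_O_map_eq_of_sing (Q := H30.qPlus F m) hQ hU0 hW0 (hU.trans hW.symm)
  have hU' : H79.HalfTS (H30.qPlus F m) U := ⟨hU0, by simp [hU, two_mul]⟩
  have hd := (hU'.dickson_eq_one_iff hQ hx g).2 (by rwa [hU])
  obtain ⟨s, h1, h2, h3⟩ := H79.exists_stab_spinor (Q := H30.qPlus F m) hQ hU0
    (H30.ne_bot_of_finrank_pos (by omega)) (H30.spinorNorm hQ g)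
  exact H79.exists_kerDS_map_eq hQ U g s h1 (h2.trans hd.symm) h3

end Cfsg.Agent.S2631
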