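import Cfsg.Statements.S2633
import Cfsg.Agent.H79.OmegaPlus

set_option autoImplicit false
open Cfsg

namespace Cfsg.Agent.S2633

/-- Ω is transitive on totally singular subspaces of each dimension less than half the dimension: for a quadratic form Q on F^n with non-degenerate polar form (F finite; excluding dimension 4 over the field of two elements), if U and W are subspaces of the same dimension k with 2k < n on which Q vanishes, then some element of Ω (the commutator subgroup of the orthogonal group) carries U to W. -/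
theorem result {F : Type*} [Field F] [Fintype F] {n : ℕ} (h : Fintype.card F ≠ 2 ∨ n ≠ 4) (Q : QuadraticForm F (Fin n → F)) (hQ : (QuadraticMap.polarBilin Q).Nondegenerate) (U W : Submodule F (Fin n → F)) {k : ℕ} (hk : 2 * k < n) (hU : Module.finrank F U = k) (hW : Module.finrank F W = k) (hU0 : ∀ u ∈ U, Q u = 0) (hW0 : ∀ w ∈ W, Q w = 0) : ∃ g : ↥(Cfsg.isometryGroup F ⇑Q), g ∈ Cfsg.Omega F ⇑Q ∧ U.map (Matrix.mulVecLin ((g : Matrix.GeneralLinearGroup (Fin n) F) : Matrix (Fin n) (Fin n) F)) = W := by
  have hx : ¬ H30.IsExc Q := H30.not_isExc_of_card (h.imp id fun h => by simpa using h)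
  refine H79.exists_Omega_map hQ hx ?_
  obtain ⟨g, rfl⟩ := H79.exists_O_map_eq_of_sing hQ hU0 hW0 (hU.trans hW.symm)
  by_cases h0 : U = ⊥
  · exact ⟨1, Subgroup.one_mem _, by simp [h0]⟩
  have hd := H30.finrank_add_finrank_perp hQ U
  rw [Module.finrank_fin_fun] at hd
  obtain ⟨v, hv, hv0⟩ : ∃ v ∈ H30.perp Q U, Q v ≠ 0 := by
    by_contra hc
    push Not at hc
    have := H79.le_perp_of_sing hc
    rw [H30.perp_perp hQ] at this
    have := Submodule.finrank_mono this
    omega
  have hr : U.map ((H30.refl Q v).1 : (Fin n → F) →ₗ[F] (Fin n → F)) = U :=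
    H79.map_eq_of_le _ fun u hu => by rwa [H30.refl_apply_of_orth (H30.mem_perp.1 hv u hu)]
  rcases Int.units_eq_one_or (H30.dickson hQ g) with hd | hd
  · obtain ⟨s, h1, h2, h3⟩ := H79.exists_stab_spinor hQ hU0 h0 (H30.spinorNorm hQ g)
    exact H79.exists_kerDS_map_eq hQ U g s h1 (h2.trans hd.symm) h3
  · obtain ⟨s, h1, h2, h3⟩ := H79.exists_stab_spinor hQ hU0 h0
      (H30.spinorNorm hQ g * H30.spinorNorm hQ (H30.refl Q v))
    exact H79.exists_kerDS_map_eq hQ U g (s * H30.refl Q v) (H79.map_mul_eq h1 hr)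
      (by rw [map_mul, h2, H30.dickson_refl hQ hv0, hd, one_mul])
      (by rw [map_mul, h3, mul_assoc, H30.sqCl_mul_self, mul_one])

end Cfsg.Agent.S2633
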