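import Cfsg.Statements.S2634
import Cfsg.Agent.H79.OmegaPlus

set_option autoImplicit false
open Cfsg

namespace Cfsg.Agent.S2634

/-- Over a finite field of characteristic two, Ω (the commutator subgroup of the orthogonal group of a quadratic form Q on F^n with non-degenerate polar form; excluding dimension 4 over the field of two elements) acts transitively on the non-singular 1-spaces: for u, v with Q(u) ≠ 0 and Q(v) ≠ 0 some element of Ω carries the line through u to the line through v. -/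
theorem result {F : Type*} [Field F] [Fintype F] [CharP F 2] {n : ℕ} (h : Fintype.card F ≠ 2 ∨ n ≠ 4) (Q : QuadraticForm F (Fin n → F)) (hQ : (QuadraticMap.polarBilin Q).Nondegenerate) (u v : Fin n → F) (hu : Q u ≠ 0) (hv : Q v ≠ 0) : ∃ g : ↥(Cfsg.isometryGroup F ⇑Q), g ∈ Cfsg.Omega F ⇑Q ∧ (F ∙ ((g : Matrix.GeneralLinearGroup (Fin n) F) : Matrix (Fin n) (Fin n) F).mulVec u) = F ∙ v := by
  have hx : ¬ H30.IsExc Q := H30.not_isExc_of_card (h.imp id fun h => by simpa using h)
  have h2 : (2 : F) = 0 := CharTwo.two_eq_zero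
  obtain ⟨a, ha⟩ := H30.isSquare_of_two_eq_zero h2 (Q v / Q u)
  have ha0 : a ≠ 0 := by
    rintro rfl
    exact div_ne_zero hv hu (by simpa using ha)
  have hau : Q (a • u) = Q v := by rw [H30.Q_smul, ← ha, div_mul_cancel₀ _ hu]
  obtain ⟨g, hg⟩ := H30.witt_one hQ (H30.ne_zero_of_Q_ne_zero (hau ▸ hv))
    (H30.ne_zero_of_Q_ne_zero hv) hau
  have key : ∀ k ∈ H30.kerDS hQ, (F ∙ k.1 u) = F ∙ v → ∃ g : ↥(Cfsg.isometryGroup F ⇑Q), g ∈ Cfsg.Omega F ⇑Q ∧ (F ∙ ((g : Matrix.GeneralLinearGroup (Fin n) F) : Matrix (Fin n) (Fin n) F).mulVec u) = F ∙ v := by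
    intro k hk hkv
    obtain ⟨g, rfl⟩ := (H30.isoEquiv Q).surjective k
    exact ⟨g, (H79.mem_Omega_iff hQ hx g).2 hk, hkv⟩
  rw [map_smul] at hg
  rcases Int.units_eq_one_or (H30.dickson hQ g) with hd | hd
  · refine key g ((H30.mem_kerDS_of_two_eq_zero hQ h2).2 hd) ?_
    rw [← hg, Submodule.span_singleton_smul_eq ha0.isUnit]
  · refine key (g * H30.refl Q u) ((H30.mem_kerDS_of_two_eq_zero hQ h2).2 (by
      rw [map_mul, hd, H30.dickson_refl hQ hu]; simp)) ?_
    rw [← hg, Submodule.span_singleton_smul_eq ha0.isUnit, H30.O_mul_apply, H30.refl_apply_self hu,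
      map_neg, ← neg_one_smul F, Submodule.span_singleton_smul_eq isUnit_one.neg]

end Cfsg.Agent.S2634
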