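import Cfsg.Statements.S2635
import Cfsg.Agent.H79.OmegaPlus

set_option autoImplicit false
open Cfsg

namespace Cfsg.Agent.S2635

/-- Over a finite field of characteristic two, for a quadratic form Q on F^n with non-degenerate polar form, n ≥ 2, other than dimension 4 over the field of two elements, Ω (the commutator subgroup of the orthogonal group) is exactly the subgroup generated by the products of two reflections (orthogonal transvections) x ↦ x − Q(v)⁻¹ f(x, v) v, Q(v) ≠ 0: the products of an even number of reflections. -/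
theorem result {F : Type*} [Field F] [Fintype F] [CharP F 2] {n : ℕ} (hn : 2 ≤ n) (h : Fintype.card F ≠ 2 ∨ n ≠ 4) (Q : QuadraticForm F (Fin n → F)) (hQ : (QuadraticMap.polarBilin Q).Nondegenerate) : Cfsg.Omega F ⇑Q = Subgroup.closure {g : ↥(Cfsg.isometryGroup F ⇑Q) | ∃ u v : Fin n → F, Q u ≠ 0 ∧ Q v ≠ 0 ∧ ((g : Matrix.GeneralLinearGroup (Fin n) F) : Matrix (Fin n) (Fin n) F) = Cfsg.reflectionMatrix ⇑Q u * Cfsg.reflectionMatrix ⇑Q v} := by
  have hx : ¬ H30.IsExc Q := H30.not_isExc_of_card (h.imp id fun h => by simpa using h)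
  have h2 : (2 : F) = 0 := CharTwo.two_eq_zero
  set K := Subgroup.closure {g : ↥(Cfsg.isometryGroup F ⇑Q) | ∃ u v : Fin n → F, Q u ≠ 0 ∧ Q v ≠ 0 ∧ ((g : Matrix.GeneralLinearGroup (Fin n) F) : Matrix (Fin n) (Fin n) F) = Cfsg.reflectionMatrix ⇑Q u * Cfsg.reflectionMatrix ⇑Q v} with hK
  have hm : ∀ u v x, (Cfsg.reflectionMatrix ⇑Q u * Cfsg.reflectionMatrix ⇑Q v).mulVec x =
      (H30.refl Q u * H30.refl Q v).1 x := fun u v x => by
    rw [← Matrix.mulVec_mulVec, H30.reflectionMatrix_mulVec, H30.reflectionMatrix_mulVec]; rfl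
  apply le_antisymm
  · have gen : ∀ u v, Q u ≠ 0 → Q v ≠ 0 → (H30.isoEquiv Q).symm (H30.refl Q u * H30.refl Q v) ∈ K :=
      fun u v hu hv => Subgroup.subset_closure ⟨u, v, hu, hv,
        (H30.coe_eq_iff_isoEquiv _ _ _ (hm u v)).2 (by simp)⟩
    have key : ∀ g : H30.O Q, (H30.dickson hQ g = 1 ∧ (H30.isoEquiv Q).symm g ∈ K) ∨
        (H30.dickson hQ g = -1 ∧ ∀ w, Q w ≠ 0 → (H30.isoEquiv Q).symm (H30.refl Q w * g) ∈ K) := by
      intro g
      induction g using H30.refl_induction hQ hx with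
      | h1 => exact Or.inl ⟨map_one _, by rw [map_one]; exact K.one_mem⟩
      | hmul v g hv ih =>
        rcases ih with ⟨h1, h3⟩ | ⟨h1, h3⟩
        · refine Or.inr ⟨by rw [map_mul, h1, H30.dickson_refl hQ hv, mul_one], fun w hw => ?_⟩
          rw [← mul_assoc, map_mul]
          exact K.mul_mem (gen w v hw hv) h3
        · exact Or.inl ⟨by rw [map_mul, h1, H30.dickson_refl hQ hv]; simp, h3 v hv⟩
    intro g hg
    rw [H79.mem_Omega_iff hQ hx, H30.mem_kerDS_of_two_eq_zero hQ h2] at hg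
    rcases key (H30.isoEquiv Q g) with ⟨-, h3⟩ | ⟨h1, -⟩
    · simpa using h3
    · rw [hg] at h1; exact absurd h1 (by decide)
  · rw [hK, Subgroup.closure_le]
    rintro g ⟨u, v, hu, hv, hg⟩
    rw [SetLike.mem_coe, H79.mem_Omega_iff hQ hx, H30.mem_kerDS_of_two_eq_zero hQ h2,
      (H30.coe_eq_iff_isoEquiv _ _ _ (hm u v)).1 hg, map_mul, H30.dickson_refl hQ hu,
      H30.dickson_refl hQ hv]
    simp

end Cfsg.Agent.S2635
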