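import Cfsg.Statements.S2636
import Mathlib
import Cfsg.Agent.H73.FieldPSL

set_option autoImplicit false
open Cfsg

namespace Cfsg.Agent.S2636

/-- Centraliser of a field automorphism in PGL_n: let F be the field with q = q₀^r elements, σ a field automorphism of F of prime order r (so its fixed field has q₀ elements) and n ≥ 1. The invertible matrices g whose entrywise image under σ is a scalar multiple of g — those whose coset modulo scalars is fixed by σ — number (q − 1)/(q₀ − 1) · |GL_n(q₀)|; equivalently the centraliser in PGL_n(q) of the induced automorphism has the order of PGL_n(q₀). -/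
theorem result {F : Type*} [Field F] [Fintype F] {q₀ r n : ℕ} (hr : r.Prime) (hn : 1 ≤ n) (hF : Fintype.card F = q₀ ^ r) (σ : F ≃+* F) (hσ : orderOf σ = r) : Nat.card {g : GL (Fin n) F // ∃ c : F, c ≠ 0 ∧ (g : Matrix (Fin n) (Fin n) F).map σ = c • (g : Matrix (Fin n) (Fin n) F)} = (q₀ ^ r - 1) / (q₀ - 1) * ∏ i : Fin n, (q₀ ^ n - q₀ ^ (i : ℕ)) := by
  have : Nonempty (Fin n) := ⟨⟨0, hn⟩⟩
  have h0 : Nat.card (H73.fixF σ) = q₀ := by
    apply Nat.pow_left_injective hr.ne_zero
    simp only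
    rw [← hF, ← hσ, H73.card_fixF_pow, Nat.card_eq_fintype_card]
  let i := (H73.fixF σ).subtype
  have hi : ∀ x, σ x = x ↔ ∃ y, i y = x := fun x => ⟨fun h => ⟨⟨x, h⟩, rfl⟩, fun ⟨y, h⟩ => h ▸ y.2⟩
  let ψ := (Matrix.ProjGenLinGroup.mk).comp
    (Matrix.GeneralLinearGroup.map i : GL (Fin n) (H73.fixF σ) →* GL (Fin n) F)
  have h1 : ∀ g : GL (Fin n) F, (∃ c : F, c ≠ 0 ∧ (g : Matrix (Fin n) (Fin n) F).map σ =
      c • (g : Matrix (Fin n) (Fin n) F)) ↔ g ∈ ψ.range.comap Matrix.ProjGenLinGroup.mk := by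
    intro g
    constructor
    · rintro ⟨c, hc, e⟩
      obtain ⟨b, k, h1, rfl⟩ := H73.exists_fixed_of_glMap_eq_scalar_mul σ (g := g)
        (c := Units.mk0 c hc) (Units.ext (by
          rw [H73.coe_glMap, e]; simp [Matrix.scalar_apply, ← Matrix.smul_eq_diagonal_mul]))
      obtain ⟨k, rfl⟩ := (H73.glMap_eq_self_iff hi).1 h1
      exact ⟨k, by simp [ψ]⟩
    · rintro ⟨k, hk⟩
      obtain ⟨u, rfl⟩ := Matrix.ProjGenLinGroup.mk_eq_mk_iff.1 hk
      refine ⟨σ u / u, by simp, ?_⟩
      rw [← H73.coe_glMap, map_mul, (H73.glMap_eq_self_iff hi).2 ⟨k, rfl⟩, H73.glMap_scalar]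
      ext a b
      simp only [Units.val_mul, Matrix.GeneralLinearGroup.coe_scalar, Matrix.scalar_apply,
        Matrix.mul_diagonal, Matrix.smul_apply, smul_eq_mul, Units.coe_map, MonoidHom.coe_coe]
      field_simp
  have h2 : ψ.ker = Subgroup.center _ := by
    ext k
    rw [MonoidHom.mem_ker, MonoidHom.comp_apply, Matrix.ProjGenLinGroup.mk_eq_one,
      Matrix.GeneralLinearGroup.center_eq_range_scalar,
      Matrix.GeneralLinearGroup.center_eq_range_scalar]
    constructor
    · rintro ⟨c, hc⟩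
      obtain ⟨d, rfl⟩ := H73.exists_scalar_of_map_eq_scalar i hc.symm
      exact ⟨d, rfl⟩
    · rintro ⟨d, rfl⟩
      exact ⟨_, (Matrix.GeneralLinearGroup.map_scalar i d).symm⟩
  have h3 := Subgroup.card_mul_index ψ.ker
  rw [Subgroup.index_ker, h2, H26.card_center_gl, Nat.card_units, H26.card_gl_fin, h0] at h3
  have h4 := Subgroup.card_mul_index (ψ.range.comap Matrix.ProjGenLinGroup.mk)
  rw [Subgroup.index_comap_of_surjective _ Matrix.ProjGenLinGroup.mk_surjective,
    ← H26.card_units_mul_card_pgl, ← Subgroup.card_mul_index ψ.range, ← mul_assoc] at h4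
  have : Finite (Matrix.ProjGenLinGroup (Fin n) F) :=
    Finite.of_surjective _ Matrix.ProjGenLinGroup.mk_surjective
  have h5 := Nat.eq_of_mul_eq_mul_right (Nat.pos_of_ne_zero Subgroup.index_ne_zero_of_finite) h4
  rw [Nat.card_congr (Equiv.subtypeEquivRight h1), h5, ← h3, ← mul_assoc, Nat.div_mul_cancel,
    Nat.card_units, Nat.card_eq_fintype_card, hF]
  simpa using Nat.sub_dvd_pow_sub_pow q₀ 1 r

end Cfsg.Agent.S2636
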