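import Cfsg.Statements.S2637
import Cfsg.Agent.H76.CentSp

set_option autoImplicit false
open Cfsg

namespace Cfsg.Agent.S2637

/-- Centraliser of a fixed-point-free element of order three in Sp_2m(q) when q ≡ 2 (mod 3): if x ∈ Sp_2m(F) (|F| = q, m ≥ 1) satisfies x³ = 1 and x − 1 is invertible, then its centraliser in Sp_2m(F) has the order of the unitary group GU_m(q), namely q^(m(m−1)/2) Π_(i=1)^m (q^i − (−1)^i) (x lies in the centre of a subgroup GU_m(q) of Sp_2m(q)). -/
theorem result {F : Type*} [Field F] [Fintype F] {q : ℕ} (hF : Fintype.card F = q) (hq : q % 3 = 2) {m : ℕ} (hm : 1 ≤ m) (x : Matrix.symplecticGroup (Fin m) F) (hx3 : x ^ 3 = 1) (hfpf : IsUnit ((x : Matrix (Fin m ⊕ Fin m) (Fin m ⊕ Fin m) F) - 1)) : (Nat.card ↥(Subgroup.centralizer ({x} : Set ↥(Matrix.symplecticGroup (Fin m) F))) : ℤ) = (q : ℤ) ^ (m * (m - 1) / 2) * ∏ i : Fin m, ((q : ℤ) ^ ((i : ℕ) + 1) - (-1) ^ ((i : ℕ) + 1)) := by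
  subst hF
  have hr : ∀ r : F, r ^ 2 ≠ -1 + -1 * r := fun r h => by
    have h3 : r ^ 3 = 1 := by linear_combination (r - 1) * h
    have h0 : r ≠ 0 := by rintro rfl; simp at h3
    have h4 := FiniteField.pow_card_sub_one_eq_one r h0
    obtain ⟨k, hk⟩ : ∃ k, Fintype.card F - 1 = 3 * k + 1 := ⟨Fintype.card F / 3, by omega⟩
    rw [hk, pow_succ, pow_mul, h3, one_pow, one_mul] at h4
    subst h4
    have h5 : ((3 : ℕ) : F) = 0 := by push_cast; linear_combination h
    have h6 := FiniteField.cast_card_eq_zero F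
    rw [show Fintype.card F = 3 * k + 2 by omega, Nat.cast_add, Nat.cast_mul, h5] at h6
    push_cast at h5 h6
    exact one_ne_zero (α := F) (by linear_combination h5 - h6)
  have h3 : (x : Matrix (Fin m ⊕ Fin m) (Fin m ⊕ Fin m) F) * x = (-1 : F) • 1 + (-1 : F) • x.1 := by
    have h1 : (x : Matrix (Fin m ⊕ Fin m) (Fin m ⊕ Fin m) F) ^ 3 = 1 := congrArg Subtype.val hx3
    rw [← sub_eq_zero, ← hfpf.mul_right_eq_zero, ← sub_eq_zero.2 h1]
    simp only [neg_one_smul]
    noncomm_ring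
  rw [H76.card_centralizer_sp, H76.card_cent_order_three hr (H76.isEForm_jBilin _)
    (x := Matrix.toLin' x.1) (H76.pres_sp x)
    (m := m) _ (by simp [two_mul]), H76.ordGU_int Fintype.card_pos]
  have := congrArg Matrix.toLin' h3
  rw [Matrix.toLin'_mul, map_add, map_smul, map_smul, Matrix.toLin'_one] at this
  exact this

end Cfsg.Agent.S2637
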