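import Cfsg.Statements.S2638
import Cfsg.Agent.H76.Unip

set_option autoImplicit false
open Cfsg

namespace Cfsg.Agent.S2638

/-- If an element x of GL_n(q), n ≥ 1, has prime order r and the multiplicative order of q modulo r is n (r is a primitive prime divisor of q^n − 1, so x acts irreducibly), then the centraliser of x in GL_n(q) is cyclic of order q^n − 1 (the multiplicative group of the field with q^n elements, a Singer cycle). -/
theorem result {F : Type*} [Field F] [Fintype F] {p q : ℕ} [Fact p.Prime] [CharP F p] (hF : Fintype.card F = q) {n r : ℕ} (hn : 1 ≤ n) (hr : r.Prime) (hrp : r ≠ p) (hi : orderOf (q : ZMod r) = n) (x : GL (Fin n) F) (hx : orderOf x = r) : IsCyclic ↥(Subgroup.centralizer ({x} : Set (GL (Fin n) F))) ∧ Nat.card ↥(Subgroup.centralizer ({x} : Set (GL (Fin n) F))) = q ^ n - 1 := by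
  classical
  have hp : p.Prime := Fact.out
  have hcop : p.Coprime r := (Nat.coprime_primes hp hr).2 hrp.symm
  obtain ⟨f, -, hf⟩ := FiniteField.card F p
  have h1 := H76.exp_eq_one_of_coprime p x (by rw [hx]; exact hcop.symm)
  have h2 := (H76.pow_eq_one_iff_med x r).1 (by rw [← hx, pow_orderOf_eq_one])
  have h3 : ∃ y ∈ H76.med (x : Matrix (Fin n) (Fin n) F), y.1 ≠ Polynomial.X - 1 := by
    by_contra hne
    push Not at hne
    have : x ^ 1 = 1 := by
      rw [H76.pow_eq_one_iff_med]
      intro y hy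
      rw [h1 y hy, hne y hy, pow_one, pow_one]
    rw [pow_one] at this
    rw [this, orderOf_one] at hx
    exact hr.one_lt.ne hx
  obtain ⟨y, hy, hy1⟩ := h3
  obtain ⟨hm, hirr, -⟩ := H76.valid_med _ y hy
  have h4 : y.1 ∣ Polynomial.cyclotomic r F := by
    have h5 := h2 y hy
    have : Fact r.Prime := ⟨hr⟩
    rw [h1 y hy, pow_one, ← Polynomial.cyclotomic_prime_mul_X_sub_one F r] at h5
    rcases hirr.prime.dvd_or_dvd h5 with h | h
    · exact h
    · exact absurd (H76.eq_of_monic_irreducible_dvd_pow hm hirr H76.monic_X_sub_one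
        H76.irreducible_X_sub_one (k := 1) (by rwa [pow_one])) hy1
  have h5 : y.1.natDegree = n := by
    rw [Polynomial.natDegree_of_dvd_cyclotomic_of_irreducible hf hcop h4 hirr, ← hi, ← hF, hf,
      ← orderOf_units, ZMod.coe_unitOfCoprime]
  have h6 : H76.med (x : Matrix (Fin n) (Fin n) F) = {(y.1, 0 + 1)} := by
    obtain ⟨t, ht⟩ := Multiset.exists_cons_of_mem hy
    have h7 := H76.med_degree (x : Matrix (Fin n) (Fin n) F)
    rw [ht, Multiset.map_cons, Multiset.sum_cons, h1 y hy, h5, Fintype.card_fin] at h7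
    have ht0 : t = 0 := by
      by_contra hne
      obtain ⟨z, hz⟩ := Multiset.exists_mem_of_ne_zero hne
      have h8 := H76.valid_med _ z (by rw [ht]; exact Multiset.mem_cons_of_mem hz)
      have h9 : z.2 * z.1.natDegree ≤ (t.map fun x => x.2 * x.1.natDegree).sum :=
        Multiset.single_le_sum (fun _ _ => Nat.zero_le _) _ (Multiset.mem_map_of_mem _ hz)
      have := Nat.mul_pos h8.2.2 h8.2.1.natDegree_pos
      omega
    rw [ht, ht0, zero_add, ← h1 y hy]
    rfl
  obtain ⟨Ψ, -⟩ := H76.exists_unitComm_equiv_of_med h6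
  rw [H76.centralizer_eq_unitComm]
  constructor
  · have : Fact (Irreducible (y.1 ^ (0 + 1))) := ⟨by simpa using hirr⟩
    have := H76.finite_adjoinRoot (pow_ne_zero (0 + 1) hm.ne_zero)
    have : Finite (AdjoinRoot (y.1 ^ (0 + 1))) := Module.finite_of_finite F
    exact isCyclic_of_surjective Ψ Ψ.surjective
  · rw [← Nat.card_congr Ψ.toEquiv, H76.card_units_adjoinRoot_pow hirr, h5,
      Nat.card_eq_fintype_card, hF]
    simp

end Cfsg.Agent.S2638
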