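import Cfsg.Statements.S2639
import Cfsg.Agent.H79.Embed

set_option autoImplicit false
open Cfsg

namespace Cfsg.Agent.S2639

/-- The unitary group embeds in the symplectic group of twice the dimension over the subfield: for a field K with q² elements and a field F with q elements (isomorphic to the subfield of K of order q), there is an injective homomorphism GU_m(q) → Sp_2m(F). -/
theorem result {K F : Type*} [Field K] [Fintype K] [Field F] [Fintype F] {q : ℕ} (hK : Fintype.card K = q ^ 2) (hF : Fintype.card F = q) (m : ℕ) : ∃ φ : ↥(Cfsg.GU m K q) →* ↥(Matrix.symplecticGroup (Fin m) F), Function.Injective φ := by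
  obtain ⟨alg, hfin⟩ := H79.exists_algebra_of_card (K := K) (F := F) two_ne_zero (by rw [hK, hF])
  obtain ⟨c, hA, hB⟩ := H79.exists_herm_alt hK hF m
  refine H79.exists_embed_sp ((H79.resHom F K (Fin m)).comp
    ((Units.coeHom _).comp (Cfsg.GU m K q).subtype)) ?_ hB hA
    (by simp [Module.finrank_pi_fintype, hfin, mul_comm]) fun g u v => ?_
  · exact H79.resHom_injective.comp (Units.val_injective.comp Subtype.val_injective)
  · rw [H79.hermTr_apply, H79.hermTr_apply]
    congr 2
    exact g.2 u v

end Cfsg.Agent.S2639
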