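import Cfsg.Statements.S2640
import Cfsg.Agent.H79.Embed

set_option autoImplicit false
open Cfsg

namespace Cfsg.Agent.S2640

/-- For m even, the unitary group GU_m(q) (over the field with q² elements) embeds in the orthogonal group O⁺_2m(q) of the hyperbolic form Σ x_i y_i over the field with q elements (there is an injective homomorphism). -/
theorem result {K F : Type*} [Field K] [Fintype K] [Field F] [Fintype F] {q : ℕ} (hK : Fintype.card K = q ^ 2) (hF : Fintype.card F = q) (m : ℕ) (hm : Even m) : ∃ φ : ↥(Cfsg.GU m K q) →* ↥(Cfsg.isometryGroup F (Cfsg.quadFormPlus m F)), Function.Injective φ := by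
  obtain ⟨alg, hfin⟩ := H79.exists_algebra_of_card (K := K) (F := F) two_ne_zero (by rw [hK, hF])
  obtain ⟨Q, hQ, h1, h2⟩ := H79.exists_herm_quad hK hF m
  refine H79.exists_embed_orth ((H79.resHom F K (Fin m)).comp
    ((Units.coeHom _).comp (Cfsg.GU m K q).subtype)) ?_ (H79.qPlus m F)
    (H79.iso_plus_of_isPlus (by simp [Module.finrank_pi_fintype, hfin, mul_comm]) Q hQ
      ((H79.isPlus_herm_iff hK hF m Q h1 h2).mpr hm)) fun g v => ?_
  · exact H79.resHom_injective.comp (Units.val_injective.comp Subtype.val_injective)
  · apply FaithfulSMul.algebraMap_injective F K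
    rw [h1, h1]
    exact g.2 v v

end Cfsg.Agent.S2640
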