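import Cfsg.Statements.S2641
import Cfsg.Agent.H79.Embed

set_option autoImplicit false
open Cfsg

namespace Cfsg.Agent.S2641

/-- For m odd, the unitary group GU_m(q) (over the field with q² elements) embeds in the orthogonal group O⁻_2m(q) of an elliptic form (Σ_(i<m−1) x_i y_i plus an anisotropic binary form) over the field with q elements (there is an injective homomorphism). -/
theorem result {K F : Type*} [Field K] [Fintype K] [Field F] [Fintype F] {q : ℕ} (hK : Fintype.card K = q ^ 2) (hF : Fintype.card F = q) (m : ℕ) (hm : Odd m) (a b : F) (hab : ∀ z₁ z₂ : F, z₁ ^ 2 + a * z₁ * z₂ + b * z₂ ^ 2 = 0 → z₁ = 0 ∧ z₂ = 0) : ∃ φ : ↥(Cfsg.GU m K q) →* ↥(Cfsg.isometryGroup F (Cfsg.quadFormMinus (m - 1) F a b)), Function.Injective φ := by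
  obtain ⟨alg, hfin⟩ := H79.exists_algebra_of_card (K := K) (F := F) two_ne_zero (by rw [hK, hF])
  obtain ⟨Q, hQ, h1, h2⟩ := H79.exists_herm_quad hK hF m
  have hm1 := hm.pos
  refine H79.exists_embed_orth ((H79.resHom F K (Fin m)).comp
    ((Units.coeHom _).comp (Cfsg.GU m K q).subtype)) ?_ (H79.qMinus (m - 1) F a b)
    (H79.iso_minus_of_not_isPlus (by simp [Module.finrank_pi_fintype, hfin]; omega) Q hQ
      (fun h => Nat.not_even_iff_odd.mpr hm ((H79.isPlus_herm_iff hK hF m Q h1 h2).mp h)) hab)
    fun g v => ?_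
  · exact H79.resHom_injective.comp (Units.val_injective.comp Subtype.val_injective)
  · apply FaithfulSMul.algebraMap_injective F K
    rw [h1, h1]
    exact g.2 v v

end Cfsg.Agent.S2641
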