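import Cfsg.Statements.S2642
import Cfsg.Agent.H76.UJordAux
import Cfsg.Agent.S2570

set_option autoImplicit false
open Cfsg

namespace Cfsg.Agent.S2642

/-- Number of conjugacy classes of elements of order p in the general unitary group GU_n(q), q a power of p: every unipotent Jordan type occurs and the classes correspond to the partitions of n with all parts at most p other than the all-ones partition, exactly as in GL_n; so there are (number of partitions of n with parts ≤ p) − 1 classes. -/
theorem result {K : Type*} [Field K] [Fintype K] {p q n : ℕ} [Fact p.Prime] [CharP K p] (hK : Fintype.card K = q ^ 2) : Nat.card {C : ConjClasses ↥(Cfsg.GU n K q) // ∃ g : ↥(Cfsg.GU n K q), ConjClasses.mk g = C ∧ orderOf g = p} = (Finset.univ.filter (fun μ : Nat.Partition n => ∀ a ∈ μ.parts, a ≤ p)).card - 1 := by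
  have : CharP (AlgebraicClosure K) p := charP_of_injective_algebraMap (algebraMap K _).injective p
  have hG := H76.cm_gl (F := K) (AlgebraicClosure K) (Fin n)
  rw [Fintype.card_fin] at hG
  rw [← S2570.result (F := K) n, hG.card_classes _ (fun s => H76.OK p s p ∧ ¬ H76.OK p s 1)
    (H76.orderOf_eq_prime_iff_ok _ p Fact.out),
    (H76.cm_gu (AlgebraicClosure K) hK n).card_classes _ (fun s => H76.OK p s p ∧ ¬ H76.OK p s 1)
      fun g => by rw [← Subgroup.orderOf_coe, H76.orderOf_eq_prime_iff_ok (AlgebraicClosure K) p Fact.out]]
  refine Nat.card_congr (Equiv.subtypeEquivRight fun s => and_congr_left fun h => ?_)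
  have h1 : ∀ x ∈ s, x.1 = 1 := fun x hx =>
    H76.units_eq_one_of_pow_char_pow p (j := 1) (by rw [pow_one]; exact (h.1 x hx).1)
  exact ⟨fun h => H76.adm_of_fst_eq_one h h1, fun h => H76.adm_of_fst_eq_one h h1⟩

end Cfsg.Agent.S2642
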