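import Cfsg.Statements.S2643
import Cfsg.Agent.H76.UJordAux

set_option autoImplicit false
open Cfsg

namespace Cfsg.Agent.S2643

/-- Regular unipotent classes of SU_n(q), n ≥ 2: the elements u of the special unitary group (isometries of Σ u_i v_i^q of determinant one over the field with q² elements) with (u − 1)^n = 0 and rank(u − 1) = n − 1 form exactly gcd(n, q + 1) conjugacy classes of SU_n(q). -/
theorem result {K : Type*} [Field K] [Fintype K] {q n : ℕ} (hK : Fintype.card K = q ^ 2) (hn : 2 ≤ n) : Nat.card {C : ConjClasses ↥(Cfsg.SU n K q) // ∃ u : ↥(Cfsg.SU n K q), ConjClasses.mk u = C ∧ (((u : GL (Fin n) K) : Matrix (Fin n) (Fin n) K) - 1) ^ n = 0 ∧ (((u : GL (Fin n) K) : Matrix (Fin n) (Fin n) K) - 1).rank = n - 1} = Nat.gcd n (q + 1) := by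
  obtain ⟨p, hp⟩ := CharP.exists K
  have := Fact.mk (CharP.char_is_prime K p)
  have : CharP (AlgebraicClosure K) p := charP_of_injective_algebraMap (algebraMap K _).injective p
  have : NeZero n := ⟨by omega⟩
  have hG := H76.cm_gu (AlgebraicClosure K) hK n
  have hQ := H76.char_dvd_neg_q hK p
  have hk := H76.range_suToGU_eq_ker_detL (F := K) (AlgebraicClosure K) (q := q) n
  obtain ⟨x, hx⟩ := hG.exists_eq hk (s := {(1, n)})
    (H76.adm_singleton (one_zpow _) (by omega)) (by simp)
  have h1 := hG.card_fiber_dvd hQ (by omega) H76.suToGU_injective hk x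
  have h2 := hG.dvd_card_fiber hQ (by omega) H76.suToGU_injective hk x (k := n) fun z hz => by
    have h3 := H76.eq_of_commute_regular (L := AlgebraicClosure K)
      ((H76.ujord_eq_singleton_iff (by omega)).1 hx) (z := z.1)
      (congrArg (fun g : Cfsg.GU n K q => ((g : GL (Fin n) K) : Matrix (Fin n) (Fin n) K)) hz.eq)
    obtain ⟨y, hy⟩ := Multiset.exists_mem_of_ne_zero ((hG.adm z).ne_zero (by omega))
    exact ⟨y.1, h3 _ ((hG.adm z).frob_mem_one hy) y hy, by
      rw [hG.det, H76.ddet_eq_pow_wt fun w hw => h3 w hw y hy, (hG.adm z).wt_eq]⟩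
  rw [hx, H76.natAbs_neg_sub_one] at h1 h2
  rw [show H76.gsz ({(1, n)} : Multiset ((AlgebraicClosure K)ˣ × ℕ)) = n by simp [H76.gsz]] at h1
  rw [← Nat.dvd_antisymm h1 h2]
  refine Nat.card_congr (Equiv.subtypeEquivRight fun C => exists_congr fun u =>
    and_congr_right fun _ => ?_)
  rw [H76.ujord_eq_singleton_iff (by omega)]
  constructor
  · rintro ⟨h3, h4⟩
    have := H76.med_of_regular _ ⟨_, h3⟩ (by simpa using h4)
    rwa [Fintype.card_fin] at this
  · intro h3
    obtain ⟨h4, h5⟩ := H76.regular_of_med h3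
    have h6 := H76.sub_one_pow_card_eq_zero h4
    rw [Fintype.card_fin] at h5 h6
    exact ⟨h6, h5⟩

end Cfsg.Agent.S2643
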