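import Cfsg.Statements.S2644
import Cfsg.Agent.H76.UJordAux

set_option autoImplicit false
open Cfsg

namespace Cfsg.Agent.S2644

/-- In the special unitary group SU_n(q) with n ≥ 3 (isometries of Σ u_i v_i^q of determinant one over the field with q² elements), any two transvections (elements t with t − 1 of rank one and square zero) are conjugate. -/
theorem result {K : Type*} [Field K] [Fintype K] {q n : ℕ} (hK : Fintype.card K = q ^ 2) (hn : 3 ≤ n) (s t : ↥(Cfsg.SU n K q)) (hs : Cfsg.IsTransvection (((s : GL (Fin n) K) : Matrix (Fin n) (Fin n) K))) (ht : Cfsg.IsTransvection (((t : GL (Fin n) K) : Matrix (Fin n) (Fin n) K))) : IsConj s t := by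
  obtain ⟨p, hp⟩ := CharP.exists K
  have := Fact.mk (CharP.char_is_prime K p)
  have : CharP (AlgebraicClosure K) p := charP_of_injective_algebraMap (algebraMap K _).injective p
  have hG := H76.cm_gu (AlgebraicClosure K) hK n
  obtain ⟨y, hy, h1⟩ := H76.mem_med_of_sq_zero _ hs.2 (by rw [hs.1, Fintype.card_fin]; omega)
  obtain ⟨α, -, h2⟩ := H76.exists_mem_ujord (L := AlgebraicClosure K) hy
  exact hG.isConj_of_one_mem (H76.char_dvd_neg_q hK p) (by omega) H76.suToGU_injective
    (H76.range_suToGU_eq_ker_detL (AlgebraicClosure K) n) h2 h1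
    ((H76.isConj_iff_ujord_eq _ _ _).1 ((H76.isConj_units_iff _ _).2
      (H76.isConj_of_sq_zero _ _ hs.2 ht.2 (hs.1.trans ht.1.symm))))

end Cfsg.Agent.S2644
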