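import Cfsg.Statements.S2646
import Cfsg.Agent.H76.Cent
import Cfsg.Agent.H76.SpData

set_option autoImplicit false
open Cfsg

namespace Cfsg.Agent.S2646

/-- Order of the centraliser in the general unitary group GU_n(q) of a unipotent element of given Jordan type: if u ∈ GU_n(q) (isometries of Σ u_i v_i^q over the field with q² elements) is similar to the unipotent matrix with a_i Jordan blocks of size i (all sizes at least 1), then its centraliser in GU_n(q) has order q^γ · Π_i |GU_(a_i)(q)| with γ = 2 Σ_(i<j) i a_i a_j + Σ_i (i − 1) a_i², the same exponent as in GL_n(q), where |GU_a(q)| = q^(a(a−1)/2) Π_(k=1)^a (q^k − (−1)^k). -/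
theorem result {K : Type*} [Field K] [Fintype K] {q n t : ℕ} (hK : Fintype.card K = q ^ 2) (d : Fin t → ℕ) (hd : ∀ k, 1 ≤ d k) (e : ((k : Fin t) × Fin (d k)) ≃ Fin n) (u : ↥(Cfsg.GU n K q)) (hu : IsConj (Matrix.reindex e e (Cfsg.jordanTypeMatrix d K)) ((u : GL (Fin n) K) : Matrix (Fin n) (Fin n) K)) : (Nat.card ↥(Subgroup.centralizer ({u} : Set ↥(Cfsg.GU n K q))) : ℤ) = (q : ℤ) ^ (2 * (∑ i ∈ Finset.range (Finset.univ.sup d + 1), ∑ j ∈ Finset.range (Finset.univ.sup d + 1), if i < j then i * (Finset.univ.filter (fun k : Fin t => d k = i)).card * (Finset.univ.filter (fun k : Fin t => d k = j)).card else 0) + ∑ i ∈ Finset.range (Finset.univ.sup d + 1), (i - 1) * (Finset.univ.filter (fun k : Fin t => d k = i)).card ^ 2) * ∏ i ∈ Finset.range (Finset.univ.sup d + 1), ((q : ℤ) ^ ((Finset.univ.filter (fun k : Fin t => d k = i)).card * ((Finset.univ.filter (fun k : Fin t => d k = i)).card - 1) / 2) * ∏ j : Fin (Finset.univ.filter (fun k : Fin t => d k = i)).card, ((q : ℤ) ^ ((j : ℕ) + 1) - (-1) ^ ((j : ℕ) + 1)))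 := by
  have hq := H31.two_le_of_card_sq hK
  have hmed : H76.med ((u : GL (Fin n) K) : Matrix (Fin n) (Fin n) K) =
      (Finset.univ.val.map d).map fun e => (Polynomial.X - 1, e) := by
    rw [← (H76.isConj_iff_med_eq _ _).1 hu, H76.med_reindex, H76.med_jordanTypeMatrix hd,
      Multiset.map_map]
    rfl
  have h := H76.card_cent_unitary hK (fun _ => rfl) (H76.isEForm_hermB hK n)
    ((H76.mem_GU_iff_pres hK).1 u.2) (D := Finset.univ.sup d) hmed (fun e he => by
      obtain ⟨k, -, rfl⟩ := Multiset.mem_map.1 he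
      exact Finset.le_sup (Finset.mem_univ k))
  rw [show (Finset.univ.val.map d).count = _ from funext (H76.count_univ_map d),
    ← H76.card_gl_commute_pres (H76.isEForm_hermB hK n).sep] at h
  have e : Nat.card (Subgroup.centralizer ({u} : Set (GU n K q))) = _ := (Nat.card_congr
    { toFun x := ⟨x.1.1, by
        have := congrArg (fun y : GU n K q => ((y : GL (Fin n) K) : Matrix (Fin n) (Fin n) K))
          (Subgroup.mem_centralizer_singleton_iff.1 x.2)
        simpa using this, (H76.mem_GU_iff_pres hK).1 x.1.2⟩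
      invFun x := ⟨⟨x.1, (H76.mem_GU_iff_pres hK).2 x.2.2⟩,
        Subgroup.mem_centralizer_singleton_iff.2 (Subtype.ext (Units.ext x.2.1))⟩
      left_inv _ := rfl
      right_inv _ := rfl }).trans h
  rw [e]
  push_cast
  congr 1
  exact Finset.prod_congr rfl fun i _ => by rw [H76.count_univ_map, H76.ordGU_int (by omega)]

end Cfsg.Agent.S2646
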