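import Cfsg.Statements.S2653
import Cfsg.Agent.H29.AltDimFT

set_option autoImplicit false
open scoped MatrixGroups
open Cfsg

namespace Cfsg.Agent.S2653

/-- Alternating sections of finite linear groups. Let `F` be a finite field of characteristic `p` and `n` a natural number, and suppose some subgroup `H` of GL_n(F) has a normal subgroup `K` with `H ⧸ K` isomorphic to the alternating group of degree `r ≥ 9`. Then `n ≥ r - 2` when `p` divides `r`, and `n ≥ r - 1` otherwise (the smallest degree of a nontrivial projective representation of that alternating group in characteristic `p`). The same bound follows for every classical group with natural module of dimension `n` over `F`, since each is a section of a subgroup of GL_n(F). -/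
theorem result {F : Type*} [Field F] [Fintype F] (p : ℕ) [Fact p.Prime] [CharP F p]
    (n : ℕ) (r : ℕ) (H : Subgroup (GL (Fin n) F)) (K : Subgroup ↥H) [K.Normal]
    (h : Nonempty (↥H ⧸ K ≃* ↥(alternatingGroup (Fin r)))) (hr : 9 ≤ r) :
    r - 1 - (if p ∣ r then 1 else 0) ≤ n := by
  obtain ⟨e⟩ := h
  obtain ⟨ρ, hρ⟩ := H29.exists_glRep H.subtype
  have h1 := H29.feitTits hr _ (e.toMonoidHom.comp (QuotientGroup.mk' K))
    (e.surjective.comp (QuotientGroup.mk'_surjective K)) ρ (fun g hg => by
      rw [show g = 1 from Subtype.ext (hρ g hg)]; exact one_mem _) rfl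
  rw [Module.finrank_fin_fun] at h1
  split_ifs with h2
  · omega
  · have := h1.2 (mt (CharP.cast_eq_zero_iff _ p r).1 h2)
    omega

end Cfsg.Agent.S2653
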