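import Cfsg.Statements.S2654
import Cfsg.Agent.H29.ASE8

set_option autoImplicit false
open scoped MatrixGroups
open Cfsg

namespace Cfsg.Agent.S2654

/-- Alternating sections of the groups of type E₈. Let `F` be a finite field of characteristic `p` and let `G` be the Chevalley group of type E₈ over `F`. If some subgroup of `G` has a quotient isomorphic to the alternating group of degree `r`, then `r` is at most 17, or 18 in characteristic 3. (Only an upper bound is asserted.) -/
theorem result {F : Type*} [Field F] [Fintype F] (p : ℕ) [Fact p.Prime] [CharP F p]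
    (r : ℕ) (H : Subgroup ↥(Cfsg.Lie.chevE8.group F)) (K : Subgroup ↥H) [K.Normal]
    (h : Nonempty (↥H ⧸ K ≃* ↥(alternatingGroup (Fin r)))) :
    r ≤ 17 + (if p = 3 then 1 else 0) := by
  obtain ⟨e⟩ := h
  have hp : p.Prime := Fact.out
  let C : H34.Cert Lie.chevE8 := H34.cert (by simp)
  have hW := H29.cardW_E8 C
  by_contra h1
  split_ifs at h1 with h2
  · obtain ⟨L, _, _, _, hL, Γ, _, _, j, π, hj, hπ, h3⟩ := H29.exists_setup C p e (n := 19) (by omega)
      (by omega) (m := 17) (by rw [h2]; decide) (by decide)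
    exact h3 17 0 (by decide) (by decide) (by omega) (by rw [hW]; decide) (by decide)
      (H29.e8_no19 C j hj hL π hπ)
  have key : ∀ q : ℕ, q.Prime → p ≠ q → p.Coprime q := fun q hq => (Nat.coprime_primes hp hq).2
  by_cases h4 : p = 11
  · obtain ⟨L, _, _, _, hL, Γ, _, _, j, π, hj, hπ, h3⟩ := H29.exists_setup C p e (n := 18) (by omega)
      (by omega) (m := 15 * 13 ^ 2) (by rw [h4]; decide) (by decide)
    have h5 := h3 3 5 (by decide) (by decide) h2 (by rw [hW]; decide) (by decide)
    exact h5 (H29.e8_no18 C (l := 13) (by simp) (dvd_mul_left _ _) π hπ (H29.good8_13 C p hL j hj π hπ h5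
      (by decide) (by rw [h4]; decide)
      (h3 5 2 (by decide) (by decide) (by omega) (by rw [hW]; decide) (by decide))
      (h3 13 0 (by decide) (by decide) (by omega) (by rw [hW]; decide) (by decide))))
  obtain ⟨l, hl, hl', hpl⟩ : ∃ l, l.Prime ∧ (l = 13 ∨ l = 17) ∧ p ≠ l := by
    by_cases h5 : p = 13
    · exact ⟨17, by decide, by simp, by omega⟩
    · exact ⟨13, by decide, by simp, h5⟩
  have := Fact.mk hl
  have h6 := (key 3 (by decide) h2).mul_right (key 11 (by decide) h4)
  obtain ⟨L, _, _, _, hL, Γ, _, _, j, π, hj, hπ, h3⟩ := H29.exists_setup C p e (n := 18) (by omega)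
    (by omega) (m := 3 * 11 * l ^ 2) (h6.mul_right ((key l hl hpl).pow_right _))
    (mul_pos (by decide) (pow_pos hl.pos _))
  have h5 := h3 3 5 (by decide) (by decide) h2 (by rw [hW]; decide) (by decide)
  exact h5 (H29.e8_no18 C hl' (dvd_mul_left _ _) π hπ (H29.good8_11 C p hL j hj π hπ h5
    (dvd_mul_right _ _) h6.symm (h3 11 0 (by decide) (by decide) h4 (by rw [hW]; decide) (by decide))))

end Cfsg.Agent.S2654
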