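import Cfsg.Statements.S2655
import Cfsg.Agent.H29.ASE7

set_option autoImplicit false
open scoped MatrixGroups
open Cfsg

namespace Cfsg.Agent.S2655

/-- Alternating sections of the groups of type E₇. Let `F` be a finite field of characteristic `p` and let `G` be the Chevalley group of type E₇ over `F`. If some subgroup of `G` has a quotient isomorphic to the alternating group of degree `r`, then `r` is at most 13, or 14 in characteristic 7. (Only an upper bound is asserted.) -/
theorem result {F : Type*} [Field F] [Fintype F] (p : ℕ) [Fact p.Prime] [CharP F p]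
    (r : ℕ) (H : Subgroup ↥(Cfsg.Lie.chevE7.group F)) (K : Subgroup ↥H) [K.Normal]
    (h : Nonempty (↥H ⧸ K ≃* ↥(alternatingGroup (Fin r)))) :
    r ≤ 13 + (if p = 7 then 1 else 0) := by
  obtain ⟨e⟩ := h
  have hp : p.Prime := Fact.out
  let C : H34.Cert Lie.chevE7 := H34.cert (by simp)
  by_contra h1
  split_ifs at h1 with h2
  · obtain ⟨L, _, _, _, hL, Γ, _, _, j, π, hj, hπ, h3⟩ := H29.exists_setup C p e (n := 15) (by omega)
      (by omega) (m := 5 ^ 2) (by rw [h2]; decide) (by decide)
    exact h3 5 1 (by decide) (by decide) (by omega) (by rw [H29.cardW_E7]; decide) (by decide)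
      (H29.e7_no15 C j hj hL π hπ)
  · obtain ⟨L, _, _, _, hL, Γ, _, _, j, π, hj, hπ, h3⟩ := H29.exists_setup C p e (n := 14) (by omega)
      (by omega) (m := 7 ^ 2) (((Nat.coprime_primes hp (by decide)).2 h2).pow_right _) (by decide)
    exact h3 7 1 (by decide) (by decide) h2 (by rw [H29.cardW_E7]; decide) (by decide)
      (H29.e7_no14 C j hj hL π hπ)

end Cfsg.Agent.S2655
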