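import Cfsg.Statements.S2656
import Cfsg.Agent.H29.ASE6

set_option autoImplicit false
open scoped MatrixGroups
open Cfsg

namespace Cfsg.Agent.S2656

/-- Alternating sections of the groups of type E₆. Let `F` be a finite field of characteristic `p` and let `G` be the Chevalley group of type E₆ over `F`. If some subgroup of `G` has a quotient isomorphic to the alternating group of degree `r`, then `r ≤ 12`, and `r ≤ 11` unless the characteristic is 2, 3 or 5. (Only an upper bound is asserted; characteristic 3 is admitted among the exceptions because the alternating group of degree 12 embeds in a ten-dimensional orthogonal group over the field with 3 elements.) -/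
theorem result {F : Type*} [Field F] [Fintype F] (p : ℕ) [Fact p.Prime] [CharP F p]
    (r : ℕ) (H : Subgroup ↥(Cfsg.Lie.chevE6.group F)) (K : Subgroup ↥H) [K.Normal]
    (h : Nonempty (↥H ⧸ K ≃* ↥(alternatingGroup (Fin r)))) :
    r ≤ 11 + (if p = 2 ∨ p = 3 ∨ p = 5 then 1 else 0) := by
  obtain ⟨e⟩ := h
  have hp : p.Prime := Fact.out
  let C : H34.Cert Lie.chevE6 := H34.cert (by simp)
  by_contra h1
  split_ifs at h1 with h2
  · have h4 : p ≠ 11 := by omega
    obtain ⟨L, _, _, _, hL, Γ, _, _, j, π, hj, hπ, h3⟩ := H29.exists_setup C p e (n := 13) (by omega)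
      (by omega) (m := 11) ((Nat.coprime_primes hp (by decide)).2 h4) (by decide)
    exact h3 11 0 (by decide) (by decide) h4 (by rw [H29.cardW_E6]; decide) (by decide)
      (H29.e6_no13 C j hj hL π hπ)
  · obtain ⟨L, _, _, _, hL, Γ, _, _, j, π, hj, hπ, h3⟩ := H29.exists_setup C p e (n := 12) (by omega)
      (by omega) (m := 5 ^ 2) (((Nat.coprime_primes hp (by decide)).2 (by omega)).pow_right _)
      (by decide)
    refine h3 5 1 (by decide) (by decide) (by omega) (by rw [H29.cardW_E6]; decide) (by decide)
      (H29.e6_no12 C j hj hL (fun h4 => ?_) π hπ)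
    have h5 := (CharP.cast_eq_zero_iff L p 12).1 h4
    have := Nat.le_of_dvd (by decide) h5
    interval_cases p <;> simp_all (config := {decide := true})

end Cfsg.Agent.S2656
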