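import Cfsg.Statements.S2661
import Cfsg.Agent.H34.TwF4
import Cfsg.Agent.H34.Loc1

set_option autoImplicit false
open scoped MatrixGroups
open Cfsg

namespace Cfsg.Agent.S2661

open Cfsg.Agent.H34 Cfsg.Lie

theorem not_autExp [Fact (Nat.Prime 7)] : ¬ AutExp 7 16 (alternatingGroup (Fin 7)) := fun h => by
  have := h.commute (x := ⟨c[0, 1, 2, 3, 4, 5, 6], Equiv.Perm.mem_alternatingGroup.2 (by decide +kernel)⟩)
    (y := ⟨c[1, 2, 4] * c[3, 6, 5], Equiv.Perm.mem_alternatingGroup.2 (by decide +kernel)⟩) (k := 2) (by decide +kernel)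
    (by decide +kernel)
  revert this
  unfold Commute SemiconjBy
  decide +kernel

theorem zmod7 : ∀ z : ZMod 7, (z + 1) ^ 3 = 1 → (z + 1) ^ 12 * ((z + 1) ^ 3 + 1) *
    ((z + 1) ^ 3 + (z + 1) ^ 2 + (z + 1) + 1) * ((z + 1) ^ 6 + 1) ≠ 0 := by decide +kernel


/-- Alternating sections of the large Ree groups ²F₄. Let `m ≥ 1`, let `K` be a field with `2^(2m+1)` elements and let `G` be the large Ree group ²F₄(2^(2m+1)) realised over `K`. If some subgroup of `G` has a quotient isomorphic to the alternating group of degree `r`, then `r ≤ 6`. (Only an upper bound is asserted.) -/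
theorem result {K : Type*} [Field K] [Fintype K] {m : ℕ} (hm : 1 ≤ m)
    (hK : Fintype.card K = 2 ^ (2 * m + 1)) (r : ℕ) (H : Subgroup ↥(Cfsg.Lie.twistedF4 K (2 ^ m))) (N : Subgroup ↥H) [N.Normal]
    (h : Nonempty (↥H ⧸ N ≃* ↥(alternatingGroup (Fin r)))) :
    r ≤ 6 := by
  obtain ⟨_, θ, hθ, h2⟩ := exists_theta hK
  have : Fact (Nat.Prime 7) := ⟨by norm_num⟩
  by_contra hr
  obtain ⟨e⟩ := h
  obtain ⟨f⟩ := F4_weyl θ h2
  let X := twF4 θ h2 hθ
  refine not_autExp (AutExp.section (X.τ.autExp X.j X.j_inj X.j_range.ge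
    (X.j_range.le.trans X.τ.G1_le_fix) Cert.H_comm (fun w hw => ?_) fun h7 => ?_) (by omega) e)
  · have := pow_card_eq_one' (x := (⟨w, hw⟩ : (tF4 θ h2).T.fixJ Set.univ))
    rw [Nat.card_congr f.toEquiv, DihedralGroup.nat_card] at this
    exact congrArg Subtype.val this
  · have h3 := ((cF4.split K).H.comap X.j).card_mul_index
    have h4 : Nat.card ((cF4.split K).H.comap X.j) =
        Nat.card ↥(chevF4.diagonalSubgroup K ⊓ twistedF4 K (2 ^ m)) :=
      Nat.card_congr ⟨fun g => ⟨g.1, g.2, g.1.2⟩, fun g => ⟨⟨g, g.2.2⟩, g.2.1⟩, fun _ => rfl,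
        fun _ => rfl⟩
    rw [h4, F4_card_H θ h2 hθ, F4_card θ h2 hθ, Nat.card_eq_fintype_card] at h3
    have h5 : Fintype.card K ^ 3 % 7 = 1 := by
      rw [hK, ← pow_mul, mul_comm, pow_mul, Nat.pow_mod]; simp
    have h6 : 2 ≤ Fintype.card K := Fintype.one_lt_card
    generalize Fintype.card K = q at h3 h5 h6
    obtain ⟨s, rfl⟩ : ∃ s, q = s + 1 := ⟨q - 1, by omega⟩
    rw [show (s + 1) ^ 4 - 1 = s * ((s + 1) ^ 3 + (s + 1) ^ 2 + (s + 1) + 1) from
      Nat.sub_eq_of_eq_add (by ring), Nat.add_sub_cancel] at h3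
    rw [show ((cF4.split K).H.comap X.j).index = (s + 1) ^ 12 * ((s + 1) ^ 3 + 1) *
      ((s + 1) ^ 3 + (s + 1) ^ 2 + (s + 1) + 1) * ((s + 1) ^ 6 + 1) from
      Nat.eq_of_mul_eq_mul_left (show 0 < s ^ 2 by have : 0 < s := by omega
                                                   positivity) (by rw [h3]; ring),
      ← ZMod.natCast_eq_zero_iff] at h7
    rw [← Nat.mod_eq_of_lt (show 1 < 7 by decide), ← ZMod.natCast_eq_natCast_iff'] at h5
    push_cast at h5 h7
    exact zmod7 _ h5 h7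

end Cfsg.Agent.S2661
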