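import Cfsg.Statements.S2665
import Cfsg.Agent.H76.LangGL

set_option autoImplicit false
open scoped MatrixGroups
open Cfsg

namespace Cfsg.Agent.S2665

/-- The Lang–Steinberg Theorem for the general linear group. Let `K` be an algebraically closed field of prime characteristic `p`, let `q = p^f` with `f ≥ 1`, and let `σ` be the endomorphism of GL_n(K) raising every matrix entry to the `q`-th power. Then every element `g` of GL_n(K) can be written `g = x · σ(x)⁻¹` for some `x` in GL_n(K): the map `x ↦ x σ(x)⁻¹` is surjective. -/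
theorem result {K : Type*} [Field K] [IsAlgClosed K] (p : ℕ) [Fact p.Prime] [CharP K p]
    (f : ℕ) (hf : 1 ≤ f) (n : ℕ) (g : GL (Fin n) K) :
    ∃ x : GL (Fin n) K, g = x * (Matrix.GeneralLinearGroup.map (iterateFrobenius K p f) x)⁻¹ := by
  have hp : p.Prime := Fact.out
  let σ := iterateFrobenius K p f
  let φ : (Fin n → K) →ₛₗ[σ] (Fin n → K) :=
    { toFun v := (g : Matrix (Fin n) (Fin n) K).mulVec (σ ∘ v)
      map_add' v w := by rw [← Matrix.mulVec_add]; congr 1; ext; simp
      map_smul' c v := by rw [← Matrix.mulVec_smul]; congr 1; ext; simp }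
  have h := H76.span_fixed_eq_top (q := p ^ f) (Nat.one_lt_pow (by omega) hp.one_lt)
    (iterateFrobenius_def p f) φ fun v w h =>
      σ.injective.comp_left (Matrix.mulVec_injective_iff_isUnit.2 g.isUnit h)
  obtain ⟨s, hs, hs1, hs2⟩ := exists_linearIndependent K {v | φ v = v}
  let b := Module.Basis.mk hs2 (by rw [Subtype.range_coe, hs1, h])
  let c := b.reindex (b.indexEquiv (Pi.basisFun K (Fin n)))
  have hc : ∀ j, φ (c j) = c j := fun j => by
    simp only [c, b, Module.Basis.reindex_apply, Module.Basis.mk_apply]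
    exact hs (Subtype.coe_prop _)
  obtain ⟨x, hx⟩ : IsUnit (Matrix.of fun i j => c j i) :=
    Matrix.linearIndependent_cols_iff_isUnit.1 c.linearIndependent
  refine ⟨x, eq_mul_inv_of_mul_eq (Units.ext ?_)⟩
  ext i j
  rw [hx, Matrix.of_apply, ← hc j]
  simp [φ, Matrix.mul_apply, Matrix.mulVec, dotProduct, hx, σ]

end Cfsg.Agent.S2665
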