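import Cfsg.Statements.S2669
import Cfsg.Agent.H75.Shintani

set_option autoImplicit false
open Cfsg

namespace Cfsg.Agent.S2669

theorem card_rel {α β γ : Type*} (P : α → Prop) (T : α → β → Prop) (hT : ∀ a b, T a b → P a)
    (f : ∀ a, P a → Nonempty ({b // T a b} ≃ γ)) :
    Nat.card {p : α × β // T p.1 p.2} = Nat.card {a // P a} * Nat.card γ := by
  classical
  rw [← Nat.card_prod]
  apply Nat.card_congr
  let e1 : {p : α × β // T p.1 p.2} ≃ (Σ a : {a // P a}, {b // T a.1 b}) :=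
    { toFun := fun p => ⟨⟨p.1.1, hT _ _ p.2⟩, ⟨p.1.2, p.2⟩⟩
      invFun := fun s => ⟨(s.1.1, s.2.1), s.2.2⟩
      left_inv := fun _ => rfl
      right_inv := fun _ => rfl }
  exact e1.trans ((Equiv.sigmaCongrRight (fun a : {a // P a} => (f a.1 a.2).some)).trans
    (Equiv.sigmaEquivProd _ _))

theorem pow_mem_Y {X : Type*} [Group X] (σ : MulAut X) (Y : Subgroup X)
    (hY : ∀ y : X, y ∈ Y ↔ σ y ∈ Y) (n : ℕ) (y : X) (hy : y ∈ Y) : (σ ^ n) y ∈ Y := by
  induction n with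
  | zero => exact hy
  | succ n ih => rw [H75.shintani_pow_succ_apply']; exact (hY _).1 ih

/-- The fibre `{h ∈ H : c * h ∈ Y}` is a coset of `Y ⊓ H` once it is non-empty. -/
theorem fibre_equiv {X : Type*} [Group X] (H Y : Subgroup X) (c : X) (h0 : X) (hh0 : h0 ∈ H)
    (hc : c * h0 ∈ Y) : Nonempty ({h : H // c * (h : X) ∈ Y} ≃ ↥(Y ⊓ H)) := by
  refine ⟨{ toFun := fun h => ⟨h0⁻¹ * h.1, ?_, H.mul_mem (H.inv_mem hh0) h.1.2⟩
            invFun := fun y => ⟨⟨h0 * y.1, H.mul_mem hh0 y.2.2⟩, ?_⟩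
            left_inv := ?_
            right_inv := ?_ }⟩
  · have := Y.mul_mem (Y.inv_mem hc) h.2
    simpa [mul_assoc] using this
  · have := Y.mul_mem hc y.2.1
    simpa [mul_assoc] using this
  · intro h; ext; simp
  · intro y; ext; simp


/-- Shintani descent preserves numbers of fixed points on coset spaces (abstract form). Let `σ` be an automorphism of a group `X` and `e ≥ 1`; write `G` for the fixed points of `σᵉ` and `H` for the fixed points of `σ`, and assume `G` is finite. Let `Y` be a `σ`-stable subgroup of `X` on which the maps `a ↦ a σ(a)⁻¹` and `a ↦ a σᵉ(a)⁻¹` are surjective (as for a closed connected `σ`-stable subgroup of an algebraic group). Let `g ∈ G`, let `a ∈ X` satisfy `g = a σ(a)⁻¹` and put `x = σᵉ(a)⁻¹ a` (the Shintani image, an element of `H`). The element `g σ` of the semidirect product acts on the cosets of `Y ∩ G` in `G` by `k (Y ∩ G) ↦ g σ(k) (Y ∩ G)`, fixing that coset exactly when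 `k⁻¹ g σ(k) ∈ Y`; and `x` fixes the coset `h (Y ∩ H)` of `H` exactly when `h⁻¹ x h ∈ Y`. Then the two numbers of fixed cosets agree; in cross-multiplied form, `#{k ∈ G : k⁻¹ g σ(k) ∈ Y} · |Y ∩ H| = #{h ∈ H : h⁻¹ x h ∈ Y} · |Y ∩ G|`. -/
theorem result {X : Type*} [Group X] (σ : MulAut X) (e : ℕ) (he : 1 ≤ e)
    [Finite ↥((MulEquiv.toMonoidHom (σ ^ e)).eqLocus (MonoidHom.id X))]
    (Y : Subgroup X) (hY : ∀ y : X, y ∈ Y ↔ σ y ∈ Y)
    (hYL : ∀ y ∈ Y, ∃ a ∈ Y, y = a * (σ a)⁻¹) (hYLe : ∀ y ∈ Y, ∃ a ∈ Y, y = a * ((σ ^ e) a)⁻¹)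
    (g : X) (hg : g ∈ (MulEquiv.toMonoidHom (σ ^ e)).eqLocus (MonoidHom.id X)) (a : X) (ha : g = a * (σ a)⁻¹) :
    Nat.card {k : ↥((MulEquiv.toMonoidHom (σ ^ e)).eqLocus (MonoidHom.id X)) // (k : X)⁻¹ * g * σ k ∈ Y} *
        Nat.card ↥(Y ⊓ (MulEquiv.toMonoidHom σ).eqLocus (MonoidHom.id X)) =
      Nat.card {h : ↥((MulEquiv.toMonoidHom σ).eqLocus (MonoidHom.id X)) // (h : X)⁻¹ * (((σ ^ e) a)⁻¹ * a) * h ∈ Y} *
        Nat.card ↥(Y ⊓ (MulEquiv.toMonoidHom (σ ^ e)).eqLocus (MonoidHom.id X)) := by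
  subst ha
  set G := (MulEquiv.toMonoidHom (σ ^ e)).eqLocus (MonoidHom.id X) with hG
  set H := (MulEquiv.toMonoidHom σ).eqLocus (MonoidHom.id X) with hH
  have hGm : ∀ k : X, k ∈ G ↔ (σ ^ e) k = k := fun k => Iff.rfl
  have hHm : ∀ k : X, k ∈ H ↔ σ k = k := fun k => Iff.rfl
  have e1 := card_rel (α := G) (β := H) (γ := ↥(Y ⊓ H))
    (fun k => (k : X)⁻¹ * (a * (σ a)⁻¹) * σ k ∈ Y) (fun k h => (k : X)⁻¹ * a * (h : X) ∈ Y)
    (by
      intro k h hkh
      have h1 := (hY _).1 hkh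
      rw [map_mul, map_mul, map_inv, (hHm _).1 h.2] at h1
      have := Y.mul_mem hkh (Y.inv_mem h1)
      convert this using 1
      group)
    (by
      intro k hk
      obtain ⟨y, hy, hyy⟩ := hYL _ hk
      refine fibre_equiv H Y _ (a⁻¹ * k * y) ?_ (by simpa [mul_assoc] using hy)
      rw [hHm, map_mul, map_mul, map_inv]
      have : (σ a)⁻¹ = a⁻¹ * k * (y * (σ y)⁻¹) * (σ k)⁻¹ := by rw [← hyy]; group
      rw [this]; group)
  have e2 := card_rel (α := H) (β := G) (γ := ↥(Y ⊓ G))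
    (fun h => (h : X)⁻¹ * (((σ ^ e) a)⁻¹ * a) * h ∈ Y) (fun h k => (h : X)⁻¹ * a⁻¹ * (k : X) ∈ Y)
    (by
      intro h k hkh
      have h1 := pow_mem_Y σ Y hY e _ hkh
      rw [map_mul, map_mul, map_inv, map_inv, (hGm _).1 k.2,
        H75.shintani_pow_fix σ e _ ((hHm _).1 h.2)] at h1
      have := Y.mul_mem h1 (Y.inv_mem hkh)
      convert this using 1
      group)
    (by
      intro h hh
      obtain ⟨y, hy, hyy⟩ := hYLe _ (Y.inv_mem hh)
      refine fibre_equiv G Y _ (a * h * y) ?_ (by simpa [mul_assoc] using hy)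
      rw [hGm, map_mul, map_mul, H75.shintani_pow_fix σ e _ ((hHm _).1 h.2)]
      have : (σ ^ e) a = a * h * (y * ((σ ^ e) y)⁻¹) * (h : X)⁻¹ := by rw [← hyy]; group
      rw [this]; group)
  rw [← e1, ← e2]
  apply Nat.card_congr
  refine (Equiv.prodComm _ _).subtypeEquiv ?_
  rintro ⟨k, h⟩
  simp only [Equiv.prodComm_apply, Prod.swap]
  rw [← Y.inv_mem_iff]
  simp [mul_assoc]

end Cfsg.Agent.S2669
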