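import Cfsg.Statements.S2671
import Cfsg.Agent.H76.PrimeCount

set_option autoImplicit false
open Cfsg

namespace Cfsg.Agent.S2671

/-- Number of conjugacy classes of elements of odd prime order r in the general unitary group GU_n(q), for r not dividing q(q + 1): let i be the multiplicative order of q modulo r, b = i if i is odd and b = i/2 if i is even, and s = (r − 1)/b. If i ≢ 2 (mod 4) the eigenvalue orbits pair off into dual pairs of totally isotropic blocks and there are C(⌊n/(2b)⌋ + s/2, s/2) − 1 classes; if i ≡ 2 (mod 4) each orbit gives a non-degenerate block of dimension i/2 and there are C(⌊2n/i⌋ + s, s) − 1 classes. -/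
theorem result {K : Type*} [Field K] [Fintype K] {p q n r i b s : ℕ} [Fact p.Prime] [CharP K p] (hK : Fintype.card K = q ^ 2) (hr : r.Prime) (hr2 : r ≠ 2) (hrp : r ≠ p) (hi : i = orderOf (q : ZMod r)) (hi2 : i ≠ 2) (hb : b = if Odd i then i else i / 2) (hs : s * b = r - 1) : Nat.card {C : ConjClasses ↥(Cfsg.GU n K q) // ∃ g : ↥(Cfsg.GU n K q), ConjClasses.mk g = C ∧ orderOf g = r} = if i % 4 = 2 then Nat.choose (2 * n / i + s) s - 1 else Nat.choose (n / (2 * b) + s / 2) (s / 2) - 1 := by
  have := Fact.mk hr
  let L := AlgebraicClosure K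
  have : CharP L p := charP_of_injective_algebraMap (algebraMap K _).injective p
  have h0 : 0 < orderOf (q : ZMod r) := by
    have := H28.orderOf_card_pos (F := K) hrp
    rw [hK, Nat.cast_pow, orderOf_pos_iff, isOfFinOrder_pow] at this
    exact orderOf_pos_iff.2 (this.resolve_right two_ne_zero)
  have h1 := H77.orderOf_neg_eq (H77.zmod_two_ne_zero hr2) h0
  rw [← hi] at h0 h1
  have h2 : ∀ {d T : ℕ}, orderOf (-(q : ZMod r)) = d → 0 < d → T * d = r - 1 → _ :=
    fun {d T} hd => (H76.cm_gu L hK n).card_prime (fun g => by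
      rw [← Subgroup.orderOf_coe, H76.orderOf_eq_prime_iff_ok L p hr]) hrp (by simpa using hd)
  split_ifs with h
  · rw [if_neg (by omega), if_pos h] at h1
    rw [if_neg (by rw [Nat.odd_iff]; omega)] at hb
    rw [h2 h1 (by omega) (hb ▸ hs), show i = 2 * (i / 2) by omega,
      Nat.mul_div_mul_left _ _ two_pos, Nat.mul_div_cancel_left _ two_pos]
  · have h3 : orderOf (-(q : ZMod r)) = 2 * b := by
      simp only [h1, hb, Nat.odd_iff]
      split_ifs <;> omega
    have h4 : 0 < 2 * b := by
      simp only [hb, Nat.odd_iff]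
      split_ifs <;> omega
    exact h2 h3 h4 (H76.half_mul_eq h3 h4 rfl hs)

end Cfsg.Agent.S2671
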