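import Cfsg.Statements.S2672
import Cfsg.Agent.H76.ProjPrime

set_option autoImplicit false
open Cfsg

namespace Cfsg.Agent.S2672

/-- Number of conjugacy classes of elements of odd prime order r in PGU_n(q) = GU_n(q)/scalars (n ≥ 3) when r divides q + 1: as in the linear case with q − 1 replaced by q + 1, the classes correspond to the rotation orbits on r-tuples of eigenvalue multiplicities summing to n with every entry < n, plus r − 1 further classes when r divides n; in all (C(n+r−1, r−1) − r − [r ∣ n])/r + r·[r ∣ n]. -/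
theorem result {K : Type*} [Field K] [Fintype K] {q n r : ℕ} (hK : Fintype.card K = q ^ 2) (hn : 3 ≤ n) (hr : r.Prime) (hr2 : r ≠ 2) (hrq : r ∣ q + 1) : Nat.card {C : ConjClasses (↥(Cfsg.GU n K q) ⧸ Subgroup.center ↥(Cfsg.GU n K q)) // ∃ g : ↥(Cfsg.GU n K q) ⧸ Subgroup.center ↥(Cfsg.GU n K q), ConjClasses.mk g = C ∧ orderOf g = r} = (Nat.choose (n + r - 1) (r - 1) - r - (if r ∣ n then 1 else 0)) / r + r * (if r ∣ n then 1 else 0) := by
  obtain ⟨p, hp⟩ := CharP.exists K
  have hpp := Fact.mk (CharP.char_is_prime K p)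
  exact H76.card_proj_prime (φ := (GU n K q).subtype) Subtype.val_injective
    (H76.cm_gu (AlgebraicClosure K) hK n) (by omega) (H76.char_dvd_neg_q hK p)
    (fun _ => by rw [H31.mem_center_GU_iff hK (by omega), H76.mem_center_gl_iff']; rfl) hr (by
      rw [← neg_add', dvd_neg]; exact_mod_cast hrq)

end Cfsg.Agent.S2672
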