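import Cfsg.Statements.S2673
import Cfsg.Agent.H76.PrimeCount

set_option autoImplicit false
open Cfsg

namespace Cfsg.Agent.S2673

/-- Number of conjugacy classes of elements of odd prime order r ≠ p in the orthogonal group O_(2m+1)(q) of x_0² + Σ x_j y_j, q odd: with i the multiplicative order of q mod r and t = (r − 1)/i, there are C(⌊m/i⌋ + t/2, t/2) − 1 classes if i is odd (dual pairs of totally singular i-blocks) and C(⌊(2m+1)/i⌋ + t, t) − 1 if i is even (elliptic i-blocks). -/
theorem result {F : Type*} [Field F] [Fintype F] {p q : ℕ} [Fact p.Prime] [CharP F p] (hF : Fintype.card F = q) (hq : Odd q) (m r i t : ℕ) (hr : r.Prime) (hr2 : r ≠ 2) (hrp : r ≠ p) (hi : i = orderOf (q : ZMod r)) (ht : t * i = r - 1) : Nat.card {C : ConjClasses ↥(Cfsg.isometryGroup F (Cfsg.quadFormOdd m F)) // ∃ g : ↥(Cfsg.isometryGroup F (Cfsg.quadFormOdd m F)), ConjClasses.mk g = C ∧ orderOf g = r} = if Odd i then Nat.choose (m / i + t / 2) (t / 2) - 1 else Nat.choose ((2 * m + 1) / i + t) t -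 1 := by
  subst hF
  have := Fact.mk hr
  have h0 : 0 < i := hi ▸ H28.orderOf_card_pos hrp
  have h3 : Fintype.card (Unit ⊕ (Fin m ⊕ Fin m)) = 2 * m + 1 := by simp; omega
  have h2 : ∀ {T : ℕ}, T * H28.cc i = r - 1 → _ := fun {T} hT =>
    H76.card_o_prime' (H30.qOdd_nondegenerate (H30.two_ne_zero_iff_odd_card.2 hq) m) hr2 hrp hi.symm
      hT (by omega) False (by
        simpa [h3, ← Nat.not_even_iff_odd] using fun h => absurd ((H28.even_cc i).trans_dvd h)
          (by simp))
  simp only [h3, if_false, Nat.sub_zero] at h2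
  split_ifs with h
  · have h1 : H28.cc i = 2 * i := if_neg (Nat.not_even_iff_odd.2 h)
    refine (h2 (H76.half_mul_eq (H28.orderOf_qq hr2 hi.symm) (H28.cc_pos h0) h1 ht)).trans ?_
    rw [h1, ← Nat.div_div_eq_div_mul, show (2 * m + 1) / 2 = m by omega]
  · have h1 : H28.cc i = i := if_pos (Nat.not_odd_iff_even.1 h)
    exact (h2 (h1.symm ▸ ht)).trans (by rw [h1])

end Cfsg.Agent.S2673
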