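import Cfsg.Statements.S2675
import Cfsg.Agent.H76.PrimeCount

set_option autoImplicit false
open Cfsg

namespace Cfsg.Agent.S2675

/-- Number of conjugacy classes of elements of odd prime order r ≠ p in the orthogonal group O⁻_2m(q) of an elliptic form Σ_(j<m−1) x_j y_j + z₁² + a z₁z₂ + c z₂² (binary part anisotropic, m ≥ 1): with i the multiplicative order of q mod r and t = (r − 1)/i — if i is odd, C(⌊m/i⌋ + t/2, t/2) − 1 minus, when i divides m, the C(m/i + t/2 − 1, t/2 − 1) tuples filling the whole space (dual pairs of totally singular blocks fill a hyperbolic space); if i is even, C(⌊2m/i⌋ + t, t) − 1 minus, when i divides 2m with even quotient, the C(2m/i + t − 1, t − 1) tuples filling the whole space with an even number of elliptic blocks. -/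
theorem result {F : Type*} [Field F] [Fintype F] {p q : ℕ} [Fact p.Prime] [CharP F p] (hF : Fintype.card F = q) (m r i t : ℕ) (hm : 1 ≤ m) (a c : F) (hac : ∀ z₁ z₂ : F, z₁ ^ 2 + a * z₁ * z₂ + c * z₂ ^ 2 = 0 → z₁ = 0 ∧ z₂ = 0) (hr : r.Prime) (hr2 : r ≠ 2) (hrp : r ≠ p) (hi : i = orderOf (q : ZMod r)) (ht : t * i = r - 1) : Nat.card {C : ConjClasses ↥(Cfsg.isometryGroup F (Cfsg.quadFormMinus (m - 1) F a c)) // ∃ g : ↥(Cfsg.isometryGroup F (Cfsg.quadFormMinus (m - 1) F a c)), ConjClasses.mk g = C ∧ orderOf g = r} = if Odd i then Nat.choose (m / i + t / 2) (t / 2) - 1 - (if i ∣ m then Nat.choose (m / i + t / 2 - 1) (t / 2 - 1) else 0) else Nat.choose (2 * m / i + t) t - 1 - (if i ∣ 2 * m ∧ Even (2 * m / i) then Nat.choose (2 * m / i + t - 1) (t - 1) else 0) := by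
  subst hF
  have := Fact.mk hr
  have h0 : 0 < i := hi ▸ H28.orderOf_card_pos hrp
  have h3 : Fintype.card ((Fin (m - 1) ⊕ Fin (m - 1)) ⊕ Fin 2) = 2 * m := by simp; omega
  have h2 := fun {T : ℕ} (hT : T * H28.cc i = r - 1) =>
    H76.card_o_prime' (H30.qMinus_nondegenerate (m - 1) hac) hr2 hrp hi.symm hT (by omega)
  simp only [h3, H28.tpw_qMinus _ hac] at h2
  by_cases h : Odd i
  · have h1 : H28.cc i = 2 * i := if_neg (Nat.not_even_iff_odd.2 h)
    refine (h2 (H76.half_mul_eq (H28.orderOf_qq hr2 hi.symm) (H28.cc_pos h0) h1 ht) (i ∣ m)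
      (by simp [H28.ss, Nat.not_even_iff_odd.2 h, h1, Nat.mul_dvd_mul_iff_left])).trans ?_
    rw [h1, Nat.mul_div_mul_left _ _ two_pos, if_pos h]
  · have h1 : H28.cc i = i := if_pos (Nat.not_odd_iff_even.1 h)
    refine (h2 (h1.symm ▸ ht) (i ∣ 2 * m ∧ Even (2 * m / i)) (by
      rw [h1, H28.ss, if_pos (Nat.not_odd_iff_even.1 h), one_mul, Nat.even_iff]
      omega)).trans ?_
    rw [h1, if_neg h]

end Cfsg.Agent.S2675
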