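import Cfsg.Statements.S2676
import Cfsg.Agent.H76.SpUnip
import Cfsg.Agent.H76.UJordAux

set_option autoImplicit false
open Classical
open Cfsg

namespace Cfsg.Agent.S2676

/-- Number of conjugacy classes of elements of order p in Sp_2m(q), q a power of the odd prime p: the classes correspond to the signed partitions of 2m — partitions with all parts at most p in which every odd part has even multiplicity, each even part size that occurs carrying a sign — other than the all-ones partition; so the count is the sum over such partitions of 2^(number of distinct even parts), minus one. -/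
theorem result {F : Type*} [Field F] [Fintype F] {p : ℕ} [Fact p.Prime] [CharP F p] (hp : p ≠ 2) (m : ℕ) : Nat.card {C : ConjClasses ↥(Matrix.symplecticGroup (Fin m) F) // ∃ g : Matrix.symplecticGroup (Fin m) F, ConjClasses.mk g = C ∧ orderOf g = p} = (∑ μ ∈ Finset.univ.filter (fun μ : Nat.Partition (2 * m) => (∀ a ∈ μ.parts, a ≤ p) ∧ ∀ j : ℕ, Odd j → Even (μ.parts.count j)), 2 ^ ((μ.parts.toFinset.filter (fun j : ℕ => Even j)).card)) - 1 := by
  have hpp : p.Prime := Fact.out
  let L := AlgebraicClosure F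
  have : CharP L p := charP_of_injective_algebraMap (algebraMap F L).injective p
  have h2 : (2 : F) ≠ 0 := fun h => hp ((Nat.prime_dvd_prime_iff_eq hpp Nat.prime_two).1
    ((CharP.cast_eq_zero_iff F p 2).1 (by exact_mod_cast h)))
  have c1 : ∀ e : ℕ, p ^ Nat.clog p e ∣ p ↔ e ≤ p := fun e => by
    have := Nat.pow_dvd_pow_iff_le_right hpp.one_lt (k := Nat.clog p e) (l := 1)
    rw [pow_one] at this
    rw [this, Nat.clog_le_iff_le_pow hpp.one_lt, pow_one]
  have c2 : ∀ e : ℕ, p ^ Nat.clog p e ∣ 1 ↔ e ≤ 1 := fun e => by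
    conv_lhs => rw [← pow_zero p]
    rw [Nat.pow_dvd_pow_iff_le_right hpp.one_lt, Nat.clog_le_iff_le_pow hpp.one_lt, pow_zero]
  have c3 : ∀ α : Lˣ, α ^ p = 1 ↔ α = 1 := fun α => by
    refine ⟨fun h => Units.ext ?_, fun h => by rw [h, one_pow]⟩
    have h1 : (α : L) ^ p = 1 := by rw [← Units.val_pow_eq_pow_val, h, Units.val_one]
    have h3 : ((α : L) - 1) ^ p = 0 := by rw [sub_pow_char, h1, one_pow, sub_self]
    exact sub_eq_zero.1 (pow_eq_zero_iff hpp.ne_zero |>.1 h3)
  set R : Nat.Partition (2 * m) → Prop :=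
    fun μ => (∀ a ∈ μ.parts, a ≤ p) ∧ ∀ j : ℕ, Odd j → Even (μ.parts.count j)
  rw [H76.card_sp_unipotent L h2 m (fun g => orderOf g = p)
    (fun μ => R μ ∧ ¬ ∀ a ∈ μ.parts, a ≤ 1) (fun s => (∀ a ∈ s, a ≤ p) ∧ ¬ ∀ a ∈ s, a ≤ 1)
    (fun μ => by simp only [R]; tauto) (fun g => ?_)]
  · let μ₀ : Nat.Partition (2 * m) := ⟨Multiset.replicate (2 * m) 1, by
      intro i hi; rw [Multiset.eq_of_mem_replicate hi]; exact one_pos, by simp⟩
    have h0 : (Finset.univ.filter R).filter (fun μ => ∀ a ∈ μ.parts, a ≤ 1) = {μ₀} := by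
      ext μ
      simp only [Finset.mem_filter, Finset.mem_univ, true_and, Finset.mem_singleton]
      constructor
      · rintro ⟨-, h⟩
        have h3 : μ.parts = Multiset.replicate (Multiset.card μ.parts) 1 :=
          Multiset.eq_replicate_card.2 fun a ha => le_antisymm (h a ha) (μ.parts_pos ha)
        have h4 := μ.parts_sum
        rw [h3, Multiset.sum_replicate, smul_eq_mul, mul_one] at h4
        exact Nat.Partition.ext (h3.trans (by rw [h4]))
      · rintro rfl
        refine ⟨⟨fun a ha => ?_, fun j _ => ?_⟩, fun a ha => (Multiset.eq_of_mem_replicate ha).le⟩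
        · rw [Multiset.eq_of_mem_replicate ha]; exact hpp.one_lt.le
        · simp only [μ₀, Multiset.count_replicate]
          split_ifs <;> simp
    have h5 : μ₀.parts.toFinset.filter (fun j : ℕ => Even j) = ∅ := by
      refine Finset.filter_eq_empty_iff.2 fun a ha => ?_
      rw [Multiset.eq_of_mem_replicate (Multiset.mem_toFinset.1 ha)]
      exact Nat.not_even_one
    rw [← Finset.sum_filter_add_sum_filter_not (Finset.univ.filter R)
      (fun μ => ∀ a ∈ μ.parts, a ≤ 1), h0, Finset.sum_singleton, h5, Finset.card_empty, pow_zero,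
      Nat.add_sub_cancel_left, Finset.filter_filter]
  · rw [← H76.orderOf_spToGL, H76.orderOf_eq_prime_iff_ok L p hpp]
    simp only [H76.OK, c1, c2, c3, pow_one, Multiset.forall_mem_map_iff]
    constructor
    · rintro ⟨h3, h4⟩
      exact ⟨fun x hx => (h3 x hx).1, fun x hx => (h3 x hx).2,
        fun h => h4 fun x hx => ⟨(h3 x hx).1, h x hx⟩⟩
    · rintro ⟨h3, h4, h5⟩
      exact ⟨fun x hx => ⟨h3 x hx, h4 x hx⟩, fun h => h5 fun x hx => (h x hx).2⟩

end Cfsg.Agent.S2676
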