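import Cfsg.Statements.S2677
import Mathlib
import Cfsg.Agent.H73.OutSU
import Cfsg.Agent.H31.HermCount

set_option autoImplicit false
open Cfsg

namespace Cfsg.Agent.S2677

/-- Centraliser of a field automorphism of odd prime order in PGU_n(q): let q = q₀^r with r an odd prime, K the field with q² elements and σ a field automorphism of K of order r (fixed field of order q₀²). The elements g of GU_n(q) whose entrywise image under σ is a scalar multiple of g — those whose coset modulo the q + 1 unitary scalars is fixed by σ — number (q + 1)/(q₀ + 1) · |GU_n(q₀)|; equivalently the centraliser in PGU_n(q) of the induced automorphism has the order of PGU_n(q₀). -/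
theorem result {K : Type*} [Field K] [Fintype K] {q₀ q r n : ℕ} (hr : r.Prime) (hr2 : r ≠ 2) (hn : 1 ≤ n) (hq : q = q₀ ^ r) (hK : Fintype.card K = q ^ 2) (σ : K ≃+* K) (hσ : orderOf σ = r) : (Nat.card {g : ↥(Cfsg.GU n K q) // ∃ c : K, c ≠ 0 ∧ ((g : GL (Fin n) K) : Matrix (Fin n) (Fin n) K).map σ = c • ((g : GL (Fin n) K) : Matrix (Fin n) (Fin n) K)} : ℤ) = ((q + 1) / (q₀ + 1) : ℕ) * ((q₀ : ℤ) ^ (n * (n - 1) / 2) * ∏ i : Fin n, ((q₀ : ℤ) ^ ((i : ℕ) + 1) - (-1) ^ ((i : ℕ) + 1))) := by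
  have : Nonempty (Fin n) := ⟨⟨0, by omega⟩⟩
  have := Fintype.ofFinite (H73.fixF σ)
  have h0 : Fintype.card (H73.fixF σ) = q₀ ^ 2 := by
    have h := H73.card_fixF_pow σ
    rw [show orderOf (G := RingAut K) σ = r from hσ, Nat.card_eq_fintype_card,
      Nat.card_eq_fintype_card, hK, hq, ← pow_mul, mul_comm, pow_mul] at h
    exact Nat.pow_left_injective hr.ne_zero h
  obtain ⟨i, hi⟩ := H73.exists_embedding_fixF σ (H73.fixF σ) Nat.card_eq_fintype_card.symm
  have ho := hr.odd_of_ne_two hr2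
  have hθ := H73.map_frobE_of_odd hK h0 ho hq i
  let ψ : H73.muU K q × GU n (H73.fixF σ) q₀ →* GL (Fin n) K :=
    ((Matrix.GeneralLinearGroup.scalar _).comp (Subgroup.subtype _)).noncommCoprod
      ((Matrix.GeneralLinearGroup.map i).comp (Subgroup.subtype _))
      fun _ _ => Matrix.GeneralLinearGroup.scalar_commute _ _
  have hψ : ∀ x, ψ x = Matrix.GeneralLinearGroup.scalar _ x.1.1 *
    Matrix.GeneralLinearGroup.map i x.2.1 := fun _ => rfl
  have e1 : Nat.card {g : ↥(Cfsg.GU n K q) // ∃ c : K, c ≠ 0 ∧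
      ((g : GL (Fin n) K) : Matrix (Fin n) (Fin n) K).map σ =
        c • ((g : GL (Fin n) K) : Matrix (Fin n) (Fin n) K)} = Nat.card ψ.range := by
    refine Nat.card_congr (Equiv.ofBijective (fun g => ⟨g.1.1, ?_⟩) ⟨?_, ?_⟩)
    · obtain ⟨⟨g, hg⟩, c, c0, h⟩ := g
      obtain ⟨b, k, h1, h2⟩ := H73.exists_fixed_of_glMap_eq_scalar_mul σ (g := g)
        (c := Units.mk0 c c0) (Units.ext (h.trans (by simp [Matrix.smul_eq_diagonal_mul])))
      obtain ⟨k, rfl⟩ := (H73.glMap_eq_self_iff hi).1 h1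
      obtain ⟨u, hu, k, hk, e⟩ := H73.exists_eq_scalar_mul_map hK h0 hθ hg h2
      exact ⟨(⟨u, hu⟩, ⟨k, hk⟩), e.symm⟩
    · exact fun a b e => Subtype.ext (Subtype.ext (congrArg (fun x : ψ.range => x.1) e))
    · rintro ⟨_, ⟨u, k⟩, rfl⟩
      refine ⟨⟨⟨_, mul_mem (H73.scalar_mem_GU hK u.2) (H73.map_mem_GU hK h0 hθ k.2)⟩,
        σ u.1 * (u.1 : K)⁻¹, by simp, ?_⟩, rfl⟩
      have := congrArg Units.val ((H73.glMap_eq_self_iff hi).2 ⟨k.1, rfl⟩)
      rw [H73.coe_glMap] at this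
      simpa [← Matrix.smul_eq_diagonal_mul, smul_smul, Matrix.map_smul'] using this
  have e2 : Nat.card ψ.ker = q₀ + 1 := by
    rw [← H73.card_muU h0]
    refine Nat.card_congr (Equiv.ofBijective (fun u : H73.muU (H73.fixF σ) q₀ =>
      (⟨(⟨_, H73.map_mem_muU hK h0 hθ u.2⟩, ⟨_, H73.scalar_mem_GU h0 (inv_mem u.2)⟩), by
        rw [MonoidHom.mem_ker, hψ, Matrix.GeneralLinearGroup.map_scalar, ← map_mul]
        simp⟩ : ψ.ker)) ⟨?_, ?_⟩).symm
    · exact fun a b e => Subtype.ext (inv_injective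
        (H73.scalar_inj (congrArg (fun x : ψ.ker => x.1.2.1) e)))
    · rintro ⟨⟨u, k, hk⟩, h⟩
      rw [MonoidHom.mem_ker, hψ, mul_eq_one_iff_eq_inv', ← map_inv] at h
      obtain ⟨d, rfl⟩ := H73.exists_scalar_of_map_eq_scalar i h
      rw [Matrix.GeneralLinearGroup.map_scalar] at h
      refine ⟨⟨d⁻¹, inv_mem (H73.mem_muU_of_scalar h0 hk)⟩, Subtype.ext (Prod.ext (Subtype.ext ?_)
        (Subtype.ext ?_))⟩
      · exact (map_inv _ d).trans (inv_eq_iff_eq_inv.2 (H73.scalar_inj h))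
      · simp
  have e3 := ψ.ker.card_mul_index
  rw [Subgroup.index_ker, e2, Nat.card_prod, H73.card_muU hK, H31.card_GU h0] at e3
  obtain ⟨m, hm⟩ : q₀ + 1 ∣ q + 1 := by simpa [hq] using ho.nat_add_dvd_pow_add_pow q₀ 1
  rw [hm, mul_assoc, Nat.mul_right_inj q₀.succ_ne_zero] at e3
  rw [e1, e3, hm, Nat.mul_div_cancel_left _ q₀.succ_pos, H31.ordGU, Finset.prod_range]
  have hq0 : 1 ≤ q₀ := Nat.pos_of_ne_zero fun h => Fintype.card_ne_zero (h0.trans (by simp [h]))
  push_cast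
  congr 2
  refine Finset.prod_congr rfl fun a _ => ?_
  split_ifs with h
  · simp [h.add_one.neg_one_pow]
  · rw [Nat.cast_sub (Nat.one_le_pow _ _ hq0)]
    simp [(Nat.not_even_iff_odd.1 h).add_one.neg_one_pow]

end Cfsg.Agent.S2677
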