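import Cfsg.Statements.S2678
import Cfsg.Agent.H79.Embed

set_option autoImplicit false
open Cfsg

namespace Cfsg.Agent.S2678

/-- Field-extension embedding of symplectic groups: for a field K with q² elements and a field F with q elements there is an injective homomorphism Sp_2a(K) → Sp_4a(F). -/
theorem result {K F : Type*} [Field K] [Fintype K] [Field F] [Fintype F] {q : ℕ} (hK : Fintype.card K = q ^ 2) (hF : Fintype.card F = q) (a : ℕ) : ∃ φ : ↥(Matrix.symplecticGroup (Fin a) K) →* ↥(Matrix.symplecticGroup (Fin (2 * a)) F), Function.Injective φ := by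
  obtain ⟨alg, hfin⟩ := H79.exists_algebra_of_card (K := K) (F := F) two_ne_zero (by rw [hK, hF])
  refine H79.exists_embed_sp ((H79.resHom F K (Fin a ⊕ Fin a)).comp
    (Matrix.symplecticGroup (Fin a) K).subtype) ?_
    (H79.trForm_nondegenerate (F := F) (H27.jBilin_nondegenerate (l := Fin a) (F := K)))
    (fun v => ?_) (by simp [Module.finrank_pi_fintype, hfin]; ring) fun g u v => ?_
  · exact H79.resHom_injective.comp Subtype.val_injective
  · rw [H79.trForm_apply, H27.jBilin_isAlt.self_eq_zero, map_zero]
  · rw [H79.trForm_apply, H79.trForm_apply]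
    congr 1
    exact H27.jBilin_sp g u v

end Cfsg.Agent.S2678
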