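import Cfsg.Statements.S2679
import Cfsg.Agent.H79.Embed

set_option autoImplicit false
open Cfsg

namespace Cfsg.Agent.S2679

open Polynomial in
theorem exists_root {F K : Type*} [Field F] [Fintype F] [Field K] [Fintype K] [Algebra F K]
    (hfin : Module.finrank F K = 2) {a c : F} (h : H79.Aniso a c) :
    ∃ θ : K, θ ^ 2 + algebraMap F K a * θ + algebraMap F K c = 0 := by
  let f : F[X] := X ^ 2 + C a * X + C c
  have hdeg : f.natDegree = 2 := by simp only [f]; compute_degree!
  have hmon : f.Monic := by simp only [f]; monicity!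
  have hirr : Irreducible f := by
    rw [Polynomial.Monic.irreducible_iff_roots_eq_zero_of_degree_le_three hmon (by omega) (by omega),
      Multiset.eq_zero_iff_forall_notMem]
    intro t ht
    have := (mem_roots hmon.ne_zero).mp ht
    exact H79.aniso_iff.mp h t (by simpa [f] using this)
  have : Fact (Irreducible f) := ⟨hirr⟩
  have hf : Module.finrank F (AdjoinRoot f) = 2 := by
    rw [(AdjoinRoot.powerBasis hmon.ne_zero).finrank, AdjoinRoot.powerBasis_dim, hdeg]
  obtain ⟨φ⟩ := FiniteField.nonempty_algHom_of_finrank_dvd (F := F) (K := AdjoinRoot f) (L := K)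
    (by rw [hf, hfin])
  refine ⟨φ (AdjoinRoot.root f), ?_⟩
  have h1 : aeval (φ (AdjoinRoot.root f)) f = 0 := by
    rw [aeval_algHom_apply, AdjoinRoot.aeval_eq, AdjoinRoot.mk_self, map_zero]
  generalize φ (AdjoinRoot.root f) = θ at h1
  simpa [f] using h1

theorem isPlus_of_root {K : Type*} [Field K] (m : ℕ) {a c θ : K} (h : θ ^ 2 + a * θ + c = 0) :
    H79.IsPlus (F := K) (quadFormMinus m K a c) := by
  let L : (Fin m ⊕ Unit → K) →ₗ[K] ((Fin m ⊕ Fin m) ⊕ Fin 2 → K) :=
    { toFun := fun x => Sum.elim (Sum.elim (x ∘ Sum.inl) 0) ![θ * x (.inr ()), x (.inr ())]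
      map_add' := fun x y => by
        ext ((j | j) | j)
        · simp
        · simp
        · fin_cases j <;> simp [mul_add]
      map_smul' := fun a x => by
        ext ((j | j) | j)
        · simp
        · simp
        · fin_cases j <;> simp [mul_left_comm] }
  have hL : Function.Injective L := by
    intro x y hxy
    ext (j | j)
    · simpa [L] using congrFun hxy (.inl (.inl j))
    · simpa [L] using congrFun hxy (.inr 1)
  refine ⟨LinearMap.range L, ?_, ?_⟩
  · rw [LinearMap.finrank_range_of_inj hL]; simp; ring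
  · rintro _ ⟨x, rfl⟩
    simp [L, quadFormMinus]
    linear_combination x (.inr ()) ^ 2 * h

/-- An elliptic orthogonal group embeds in the hyperbolic orthogonal group of the same dimension over the quadratic extension: for a field F with q elements and a field K with q² elements there is an injective homomorphism from O⁻_2m(F) (isometries of Σ_(j<m−1) x_j y_j + z₁² + a z₁z₂ + c z₂², binary part anisotropic) to O⁺_2m(K) (isometries of Σ_(j<m) x_j y_j over K). -/
theorem result {F K : Type*} [Field F] [Fintype F] [Field K] [Fintype K] {q : ℕ} (hF : Fintype.card F = q) (hK : Fintype.card K = q ^ 2) {m : ℕ} (hm : 1 ≤ m) (a c : F) (hac : ∀ z₁ z₂ : F, z₁ ^ 2 + a * z₁ * z₂ + c * z₂ ^ 2 = 0 → z₁ = 0 ∧ z₂ = 0) : ∃ φ : ↥(Cfsg.isometryGroup F (Cfsg.quadFormMinus (m - 1) F a c)) →* ↥(Cfsg.isometryGroup K (Cfsg.quadFormPlus m K)), Function.Injective φ := by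
  obtain ⟨alg, hfin⟩ := H79.exists_algebra_of_card (K := K) (F := F) two_ne_zero (by rw [hK, hF])
  have hA : H79.Aniso a c := hac
  obtain ⟨θ, hθ⟩ := exists_root hfin hA
  set f := algebraMap F K
  have hd : f a ^ 2 - 4 * f c ≠ 0 := by
    have := (map_ne_zero f).mpr hA.disc_ne_zero
    simpa [map_ofNat] using this
  have hmap : ∀ v, quadFormMinus (m - 1) K (f a) (f c) (f ∘ v) = f (quadFormMinus (m - 1) F a c v) := by
    intro v; simp [quadFormMinus]
  have hiso := H79.iso_plus_of_isPlus (m := m) (by simp; omega)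
    (H79.qMinus (m - 1) K (f a) (f c)) (H79.nd_qMinus' _ hd) (isPlus_of_root _ hθ)
  refine H79.exists_embed_orth ((H79.resHom K K _).comp (f.mapMatrix.toMonoidHom.comp
    ((Units.coeHom _).comp (Cfsg.isometryGroup F (Cfsg.quadFormMinus (m - 1) F a c)).subtype))) ?_
    (H79.qPlus m K) hiso fun g v => ?_
  · exact H79.resHom_injective.comp ((Matrix.map_injective f.injective).comp
      (Units.val_injective.comp Subtype.val_injective))
  · set A : Matrix ((Fin (m - 1) ⊕ Fin (m - 1)) ⊕ Fin 2) _ F := g.1.1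
    have hg : ∀ u, quadFormMinus (m - 1) F a c (A.mulVec u) = quadFormMinus (m - 1) F a c u :=
      fun u => g.2 u u
    change H79.qMinus (m - 1) K (f a) (f c) ((A.map f).mulVec v) = _
    have hcol : ∀ i, (A.map f).mulVec (Pi.single i 1) = f ∘ (A.mulVec (Pi.single i 1)) := by
      intro i; ext j; simp
    have hone : ∀ i : (Fin (m - 1) ⊕ Fin (m - 1)) ⊕ Fin 2,
        (Pi.single i 1 : _ → K) = f ∘ (Pi.single i 1 : _ → F) := by
      intro i; ext j; simp [Pi.single_apply]
    have hv : v = ∑ i, v i • (Pi.single i 1 : _ → K) := by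
      ext j; simp [Pi.single_apply]
    have hv' : (A.map f).mulVec v = ∑ i, v i • (A.map f).mulVec (Pi.single i 1) := by
      conv_lhs => rw [hv]
      rw [Matrix.mulVec_sum]
      simp only [Matrix.mulVec_smul]
    rw [hv']
    conv_rhs => rw [hv]
    refine H30.Q_sum_congr _ _ (fun i => ?_) (fun i j _ => ?_) _ _
    · rw [hcol, hone, H79.coe_qMinus, hmap, hmap, hg]
    · have hadd : ∀ u w : (Fin (m - 1) ⊕ Fin (m - 1)) ⊕ Fin 2 → F, f ∘ u + f ∘ w = f ∘ (u + w) := by
        intro u w; ext k; simp
      rw [hcol, hcol, hone, hone, H79.coe_qMinus]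
      simp only [QuadraticMap.polar, hadd, hmap, ← Matrix.mulVec_add, hg]

end Cfsg.Agent.S2679
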