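import Cfsg.Statements.S2681
import Cfsg.Agent.H79.InvolSp

set_option autoImplicit false
open Cfsg

namespace Cfsg.Agent.S2681

/-- Centraliser order of an involution t of Sp_2m(q), q even, with s = rank(t − 1) even and f(v, tv) = 0 for every v, f the symplectic form (type a_s): |C(t)| = q^(2ms − (3s² − s)/2) · |Sp_s(q)| · |Sp_(2m−2s)(q)|. -/
theorem result {F : Type*} [Field F] [Fintype F] [CharP F 2] {q : ℕ} (hF : Fintype.card F = q) {m s : ℕ} (t : Matrix.symplecticGroup (Fin m) F) (ht : t ^ 2 = 1) (ht1 : t ≠ 1) (hs : ((t : Matrix (Fin m ⊕ Fin m) (Fin m ⊕ Fin m) F) - 1).rank = s) (heven : Even s) (halt : ∀ v : Fin m ⊕ Fin m → F, Cfsg.sympForm m F v ((t : Matrix (Fin m ⊕ Fin m) (Fin m ⊕ Fin m) F).mulVec v) = 0) : Nat.card ↥(Subgroup.centralizer ({t} : Set ↥(Matrix.symplecticGroup (Fin m) F))) = q ^ (2 * m * s - (3 * s ^ 2 - s) / 2) * ((q : ℕ) ^ ((s / 2) ^ 2) * ∏ i : Fin (s / 2), (q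 ^ (2 * ((i : ℕ) + 1)) - 1)) * ((q : ℕ) ^ ((m - s) ^ 2) * ∏ i : Fin (m - s), (q ^ (2 * ((i : ℕ) + 1)) - 1)) := by
  have h2 : (2 : F) = 0 := CharTwo.two_eq_zero
  obtain ⟨hsm, hc⟩ := H79.card_centralizer_spMat h2 t ht hs
  obtain ⟨k, rfl⟩ := even_iff_exists_two_mul.1 heven
  rw [hc, (H79.card_isom_wall h2 H27.jBilin_nondegenerate H27.jBilin_isAlt (H27.spEquiv (Fin m) F t).2
    (H79.coe_mul_self_eq_one _ (by rwa [← pow_two]))).1 k ((H79.altType_spEquiv t).2 halt)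
    (by rw [H79.rk_spEquiv, hs]),
    ← H79.spOrder_eq, ← H79.spOrder_eq, hF, show 2 * k / 2 = k by omega, mul_right_comm]
  congr 3
  obtain ⟨r, rfl⟩ := Nat.exists_eq_add_of_le hsm
  have e1 : (2 * k) * (2 * k + 1) / 2 = k * (2 * k + 1) :=
    Nat.div_eq_of_eq_mul_right two_pos (by ring)
  have e2 : (3 * (2 * k) ^ 2 - (2 * k)) / 2 = 6 * k ^ 2 - k :=
    Nat.div_eq_of_eq_mul_right two_pos (by rw [Nat.mul_sub]; congr 1; ring)
  rw [e1, e2, Nat.add_sub_cancel_left]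
  have : k ≤ 6 * k ^ 2 := by nlinarith
  refine (Nat.sub_eq_of_eq_add ?_).symm
  zify [this]; ring

end Cfsg.Agent.S2681
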