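import Cfsg.Statements.S2682
import Cfsg.Agent.H79.InvolSp

set_option autoImplicit false
open Cfsg

namespace Cfsg.Agent.S2682

/-- Centraliser order of an involution t of Sp_2m(q), q even, with s = rank(t − 1) even and f(v, tv) ≠ 0 for some v, f the symplectic form (type c_s): |C(t)| = q^(2ms − (3s² − 3s)/2 − 1) · |Sp_(s−2)(q)| · |Sp_(2m−2s)(q)|. -/
theorem result {F : Type*} [Field F] [Fintype F] [CharP F 2] {q : ℕ} (hF : Fintype.card F = q) {m s : ℕ} (t : Matrix.symplecticGroup (Fin m) F) (ht : t ^ 2 = 1) (hs : ((t : Matrix (Fin m ⊕ Fin m) (Fin m ⊕ Fin m) F) - 1).rank = s) (heven : Even s) (hna : ∃ v : Fin m ⊕ Fin m → F, Cfsg.sympForm m F v ((t : Matrix (Fin m ⊕ Fin m) (Fin m ⊕ Fin m) F).mulVec v) ≠ 0) : Nat.card ↥(Subgroup.centralizer ({t} : Set ↥(Matrix.symplecticGroup (Fin m) F))) = q ^ (2 * m * s - (3 * s ^ 2 - 3 * s) / 2 - 1) * ((q : ℕ) ^ (((s - 2) / 2) ^ 2) * ∏ i :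 Fin ((s - 2) / 2), (q ^ (2 * ((i : ℕ) + 1)) - 1)) * ((q : ℕ) ^ ((m - s) ^ 2) * ∏ i : Fin (m - s), (q ^ (2 * ((i : ℕ) + 1)) - 1)) := by
  have h2 : (2 : F) = 0 := CharTwo.two_eq_zero
  obtain ⟨hsm, hc⟩ := H79.card_centralizer_spMat h2 t ht hs
  have hna' : ¬ H79.AltType (H27.jBilin (Fin m) F) (H27.spEquiv (Fin m) F t).1 := by
    rw [H79.altType_spEquiv]; push Not; exact hna
  have hpos : 0 < H79.rk (H27.spEquiv (Fin m) F t).1 := H79.rk_pos.2 fun h => hna' fun v => by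
    rw [h]; exact H27.jBilin_isAlt.self_eq_zero v
  rw [H79.rk_spEquiv, hs] at hpos
  obtain ⟨k, rfl⟩ : ∃ k, s = 2 * k + 2 := by
    obtain ⟨j, rfl⟩ := heven
    exact ⟨j - 1, by omega⟩
  rw [hc, (H79.card_isom_wall h2 H27.jBilin_nondegenerate H27.jBilin_isAlt (H27.spEquiv (Fin m) F t).2
    (H79.coe_mul_self_eq_one _ (by rwa [← pow_two]))).2.2 k hna' (by rw [H79.rk_spEquiv, hs]),
    ← H79.spOrder_eq, ← H79.spOrder_eq, hF, show (2 * k + 2 - 2) / 2 = k by omega, mul_right_comm,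
    ← mul_assoc, ← pow_add]
  congr 3
  obtain ⟨r, rfl⟩ := Nat.exists_eq_add_of_le hsm
  have e1 : (2 * k + 2) * (2 * k + 2 + 1) / 2 = (k + 1) * (2 * k + 3) :=
    Nat.div_eq_of_eq_mul_right two_pos (by ring)
  have e2 : (3 * (2 * k + 2) ^ 2 - 3 * (2 * k + 2)) / 2 = 3 * (k + 1) * (2 * k + 1) :=
    Nat.div_eq_of_eq_mul_right two_pos (Nat.sub_eq_of_eq_add (by ring))
  rw [e1, e2, Nat.add_sub_cancel_left, Nat.sub_sub]
  exact (Nat.sub_eq_of_eq_add (by ring)).symm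

end Cfsg.Agent.S2682
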