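import Cfsg.Statements.S2683
import Cfsg.Agent.H79.FixO

set_option autoImplicit false
open Cfsg

namespace Cfsg.Agent.S2683

/-- For the hyperbolic form Σ x_j y_j on F^(2m) over a finite field with q elements, q even (excluding m = 2 over the field of two elements), and an involution x of the orthogonal group with s = rank(x − 1) odd (type b_s; such x lie outside Ω): the elements of Ω (the commutator subgroup of the orthogonal group) commuting with x number q^(2m(s−1) − (3s² − 3s)/2) · |Sp_(s−1)(q)| · |Sp_(2m−2s)(q)|, where |Sp_2k(q)| = q^(k²) Π_(i=1)^k (q^(2i) − 1). -/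
theorem result {F : Type*} [Field F] [Fintype F] [CharP F 2] {q : ℕ} (hF : Fintype.card F = q) {m s : ℕ} (h : Fintype.card F ≠ 2 ∨ m ≠ 2) (x : ↥(Cfsg.isometryGroup F (Cfsg.quadFormPlus m F))) (hx : x ^ 2 = 1) (hs : (((x : Matrix.GeneralLinearGroup (Fin m ⊕ Fin m) F) : Matrix (Fin m ⊕ Fin m) (Fin m ⊕ Fin m) F) - 1).rank = s) (hodd : Odd s) : Nat.card {g : ↥(Cfsg.Omega F (Cfsg.quadFormPlus m F)) // (g : ↥(Cfsg.isometryGroup F (Cfsg.quadFormPlus m F))) * x = x * (g : ↥(Cfsg.isometryGroup F (Cfsg.quadFormPlus m F)))} = q ^ (2 * m * (s - 1) - (3 * s ^ 2 - 3 * s) / 2) * ((q : ℕ) ^ (((s - 1) / 2) ^ 2) * ∏ i : Fin ((s - 1) / 2), (q ^ (2 * ((i : ℕ) + 1)) - 1)) * ((q : ℕ) ^ ((m - s) ^ 2) * ∏ i : Fin (m - s), (q ^ (2 * ((i : ℕ) + 1)) - 1)) := by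
  have h2 : (2 : F) = 0 := CharTwo.two_eq_zero
  have hQ := H30.qPlus_nondegenerate (F := F) m
  have hx0 := H79.not_isExc_plus h
  have ht2 := H79.coe_mul_self_eq_one (H30.isoEquiv (H30.qPlus F m)) (by rwa [← pow_two] : x * x = 1)
  refine (H79.card_comm_Omega (Q := H30.qPlus F m) h2 hQ hx0 x).trans ?_
  have hrk : H79.rk (H30.isoEquiv (H30.qPlus F m) x).1 = s :=
    (H79.rk_isoEquiv (Q := H30.qPlus F m) x).trans hs
  have hI := H79.O_le_isom (H30.isoEquiv (H30.qPlus F m) x).2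
  have hsm := H79.two_mul_rk_le h2 hQ hI ht2
  have hV := H79.finrank_sum_self (F := F) m
  obtain ⟨c1, c2⟩ := H79.card_centralizer_ker h2 hQ hx0 _ ht2
  obtain ⟨w1, w2, w3⟩ := H79.card_isom_wall h2 hQ (H79.polar_isAlt h2) hI ht2
  have hA : H79.AltType (QuadraticMap.polarBilin (H30.qPlus F m)) (H30.isoEquiv (H30.qPlus F m) x).1 ↔
      ∀ v : Fin m ⊕ Fin m → F, Cfsg.quadFormPlus m F ((((x : Matrix.GeneralLinearGroup (Fin m ⊕ Fin m) F) : Matrix (Fin m ⊕ Fin m) (Fin m ⊕ Fin m) F) - 1).mulVec v) = 0 := by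
    rw [H79.altType_iff_sing h2, H79.nil_isoEquiv (Q := H30.qPlus F m) x]
    exact ⟨fun H v => H _ ⟨v, rfl⟩, by rintro H _ ⟨v, rfl⟩; exact H v⟩
  have hiso : ∀ u ∈ LinearMap.range (H79.nil (H30.isoEquiv (H30.qPlus F m) x).1),
      ∀ v ∈ LinearMap.range (H79.nil (H30.isoEquiv (H30.qPlus F m) x).1),
      QuadraticMap.polar (H30.qPlus F m) u v = 0 := fun u hu v hv => H79.nil_isotropic h2 hI ht2 hu hv
  rw [hrk, hV] at hsm c1 c2
  obtain ⟨r, rfl⟩ := Nat.exists_eq_add_of_le (show s ≤ m by omega)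
  rw [← H79.spOrder_eq, Nat.add_sub_cancel_left]
  obtain ⟨k, rfl⟩ := hodd
  have hna : ¬ H79.AltType (QuadraticMap.polarBilin (H30.qPlus F (2 * k + 1 + r)))
      (H30.isoEquiv (H30.qPlus F (2 * k + 1 + r)) x).1 := fun ha => by
    have := H79.even_rk_of_altType h2 hQ (H79.polar_isAlt h2) hI ht2 ha
    rw [hrk] at this
    exact Nat.not_even_two_mul_add_one k this
  have c := c1 fun h => hna h.2
  rw [w2 k hrk, H79.card_fixSub_nonsing h2 hQ hV hrk hiso (by
    rw [H79.altType_iff_sing h2] at hna; push Not at hna; exact hna), hF] at c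
  refine Nat.eq_of_mul_eq_mul_left two_pos (c.trans ?_)
  rw [← H79.spOrder_eq, show (2 * k + 1 - 1) / 2 = k by omega]
  have e : (2 * k + 1).choose 2 + 2 * (2 * k) * r =
      2 * (2 * k + 1 + r) * (2 * k + 1 - 1) - (3 * (2 * k + 1) ^ 2 - 3 * (2 * k + 1)) / 2 := by
    have e1 : (2 * k + 1).choose 2 = (2 * k + 1) * k := by
      rw [Nat.choose_two_right]
      exact Nat.div_eq_of_eq_mul_right two_pos (by rw [Nat.add_sub_cancel]; ring)
    have e2 : (3 * (2 * k + 1) ^ 2 - 3 * (2 * k + 1)) / 2 = 3 * (2 * k + 1) * k :=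
      Nat.div_eq_of_eq_mul_right two_pos (Nat.sub_eq_of_eq_add (by ring))
    rw [e1, e2, Nat.add_sub_cancel]
    exact (Nat.sub_eq_of_eq_add (by ring)).symm
  rw [e]; ring

end Cfsg.Agent.S2683
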