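import Cfsg.Statements.S2684
import Cfsg.Agent.H79.FixO

set_option autoImplicit false
open Cfsg

namespace Cfsg.Agent.S2684

/-- For the hyperbolic form Q = Σ x_j y_j on F^(2m) over a finite field with q elements, q even (excluding m = 2 over the field of two elements), and an involution x ≠ 1 of the orthogonal group with s = rank(x − 1) even and Q vanishing on the image of x − 1 (equivalently f(v, xv) = 0 for all v, where f(u, w) = Q(u + w) − Q(u) − Q(w) is the bilinear form of Q; type a_s, which lies in Ω): its centraliser in Ω (the commutator subgroup of the orthogonal group) has order q^(2ms − (3s² + s)/2) · |Sp_s(q)| · |Ω⁺_(2m−2s)(q)|, where |Ω⁺_2k(q)| = q^(k(k−1)) (q^k − 1) Π_(i=1)^(k−1) (q^(2i) − 1) for k ≥ 1 and the last factor is 1 when s = m. -/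
theorem result {F : Type*} [Field F] [Fintype F] [CharP F 2] {q : ℕ} (hF : Fintype.card F = q) {m s : ℕ} (h : Fintype.card F ≠ 2 ∨ m ≠ 2) (x : ↥(Cfsg.isometryGroup F (Cfsg.quadFormPlus m F))) (hx : x ^ 2 = 1) (hx1 : x ≠ 1) (hs : (((x : Matrix.GeneralLinearGroup (Fin m ⊕ Fin m) F) : Matrix (Fin m ⊕ Fin m) (Fin m ⊕ Fin m) F) - 1).rank = s) (heven : Even s) (halt : ∀ v : Fin m ⊕ Fin m → F, Cfsg.quadFormPlus m F ((((x : Matrix.GeneralLinearGroup (Fin m ⊕ Fin m) F) : Matrix (Fin m ⊕ Fin m) (Fin m ⊕ Fin m) F) - 1).mulVec v) = 0) : Nat.card {g : ↥(Cfsg.Omega F (Cfsg.quadFormPlus m F)) // (g : ↥(Cfsg.isometryGroup F (Cfsg.quadFormPlus m F))) * x = x * (g : ↥(Cfsg.isometryGroup F (Cfsg.quadFormPlus m F)))} = q ^ (2 * m * s - (3 * s ^ 2 + s) / 2) * ((q : ℕ) ^ ((s / 2) ^ 2) * ∏ i : Fin (s / 2), (q ^ (2 * ((i : ℕ) + 1)) - 1)) * (if s = m then 1 else q ^ ((m - s) * (m - s - 1)) * (q ^ (m - s) - 1) * ∏ i : Fin (m - s - 1), (q ^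 (2 * ((i : ℕ) + 1)) - 1)) := by
  have h2 : (2 : F) = 0 := CharTwo.two_eq_zero
  have hQ := H30.qPlus_nondegenerate (F := F) m
  have hx0 := H79.not_isExc_plus h
  have ht2 := H79.coe_mul_self_eq_one (H30.isoEquiv (H30.qPlus F m)) (by rwa [← pow_two] : x * x = 1)
  refine (H79.card_comm_Omega (Q := H30.qPlus F m) h2 hQ hx0 x).trans ?_
  have hrk : H79.rk (H30.isoEquiv (H30.qPlus F m) x).1 = s :=
    (H79.rk_isoEquiv (Q := H30.qPlus F m) x).trans hs
  have hI := H79.O_le_isom (H30.isoEquiv (H30.qPlus F m) x).2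
  have hsm := H79.two_mul_rk_le h2 hQ hI ht2
  have hV := H79.finrank_sum_self (F := F) m
  obtain ⟨c1, c2⟩ := H79.card_centralizer_ker h2 hQ hx0 _ ht2
  obtain ⟨w1, w2, w3⟩ := H79.card_isom_wall h2 hQ (H79.polar_isAlt h2) hI ht2
  have hA : H79.AltType (QuadraticMap.polarBilin (H30.qPlus F m)) (H30.isoEquiv (H30.qPlus F m) x).1 ↔
      ∀ v : Fin m ⊕ Fin m → F, Cfsg.quadFormPlus m F ((((x : Matrix.GeneralLinearGroup (Fin m ⊕ Fin m) F) : Matrix (Fin m ⊕ Fin m) (Fin m ⊕ Fin m) F) - 1).mulVec v) = 0 := by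
    rw [H79.altType_iff_sing h2, H79.nil_isoEquiv (Q := H30.qPlus F m) x]
    exact ⟨fun H v => H _ ⟨v, rfl⟩, by rintro H _ ⟨v, rfl⟩; exact H v⟩
  have hiso : ∀ u ∈ LinearMap.range (H79.nil (H30.isoEquiv (H30.qPlus F m) x).1),
      ∀ v ∈ LinearMap.range (H79.nil (H30.isoEquiv (H30.qPlus F m) x).1),
      QuadraticMap.polar (H30.qPlus F m) u v = 0 := fun u hu v hv => H79.nil_isotropic h2 hI ht2 hu hv
  rw [hrk, hV] at hsm c1 c2
  obtain ⟨r, rfl⟩ := Nat.exists_eq_add_of_le (show s ≤ m by omega)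
  rw [← H79.spOrder_eq, Nat.add_sub_cancel_left]
  have ha := hA.2 halt
  obtain ⟨k, rfl⟩ := even_iff_exists_two_mul.1 heven
  rw [w1 k ha hrk, H79.card_fixSub_sing hQ (H79.isPlus_plus _) hV hrk
    ((H79.altType_iff_sing h2 _).1 ha), hF] at c1 c2
  have e : 2 * (2 * k + r) * (2 * k) - (3 * (2 * k) ^ 2 + 2 * k) / 2 =
      (2 * k).choose 2 + 2 * (2 * k) * r := by
    have e1 : (2 * k).choose 2 + k = 2 * k ^ 2 := by
      have := H79.choose_two_succ (2 * k)
      rw [Nat.choose_two_right (2 * k + 1), Nat.add_sub_cancel,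
        Nat.div_eq_of_eq_mul_right two_pos (by ring : (2 * k + 1) * (2 * k) = 2 * (2 * k ^ 2 + k))]
        at this
      omega
    have e2 : (3 * (2 * k) ^ 2 + 2 * k) / 2 = 6 * k ^ 2 + k :=
      Nat.div_eq_of_eq_mul_right two_pos (by ring)
    rw [e2]
    exact Nat.sub_eq_of_eq_add (by linarith [e1])
  rw [e, show 2 * k / 2 = k by omega]
  by_cases hr : r = 0
  · rw [c2 ⟨by omega, ha⟩, if_pos (by omega), H79.oPlusOrder, if_pos hr]; ring
  · refine Nat.eq_of_mul_eq_mul_left two_pos ((c1 fun h => hr (by omega)).trans ?_)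
    rw [if_neg (by omega), H79.oPlusOrder, if_neg hr,
      Fin.prod_univ_eq_prod_range (fun i => q ^ (2 * (i + 1)) - 1)]
    ring

end Cfsg.Agent.S2684
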