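import Cfsg.Statements.S2702
import Mathlib
import Cfsg.Agent.H73.GraphLU

set_option autoImplicit false
open Cfsg

namespace Cfsg.Agent.S2702

/-- Let T = PSL_n(F) over the field with q = p^f elements, n ≥ 3, G = Inndiag(T) the image of PGL_n(F), and γ an involutory graph automorphism of T. The G-class of γ is the union of exactly c T-classes, where: if n is even and q is odd, c = gcd(n/2, q − 1) when C_G(γ) is isomorphic to the projective conformal symplectic group PGSp_n(F) (symplectic type) and c = gcd(n, q − 1)/2 otherwise; and c = gcd(n, q − 1) when n is odd or q is even. -/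
theorem result {F : Type*} [Field F] [Fintype F] {p f : ℕ} [Fact p.Prime] (hF : Fintype.card F = p ^ f) (hf : 1 ≤ f) {n : ℕ} (hn : 3 ≤ n) (γ : MulAut (Matrix.ProjectiveSpecialLinearGroup (Fin n) F)) (hγ : Cfsg.IsGraphAutClassPSL γ) (hγ2 : orderOf γ = 2) :
    ((Even n ∧ Odd p ∧ Nonempty (↥(Cfsg.inndiagPSL n F ⊓ Subgroup.centralizer {γ}) ≃* Cfsg.PGSp (n / 2) F)) → Cfsg.splitClassCount (Cfsg.inndiagPSL n F) (Cfsg.Inn (Matrix.ProjectiveSpecialLinearGroup (Fin n) F)) γ = Nat.gcd (n / 2) (p ^ f - 1)) ∧ ((Even n ∧ Odd p ∧ ¬ Nonempty (↥(Cfsg.inndiagPSL n F ⊓ Subgroup.centralizer {γ}) ≃* Cfsg.PGSp (n / 2) F)) → Cfsg.splitClassCount (Cfsg.inndiagPSL n F) (Cfsg.Inn (Matrix.ProjectiveSpecialLinearGroup (Fin n) F)) γ = Nat.gcd n (p ^ f - 1) / 2) ∧ (¬ (Even n ∧ Odd p) → Cfsg.splitClassCount (Cfsg.inndiagPSL n F) (Cfsg.Inn (Matrix.ProjectiveSpecialLinearGroup (Fin n) F)) γ = Nat.gcd n (p ^ f - 1)) := by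
  have hp : p.Prime := Fact.out
  have hc : Nat.card Fˣ = p ^ f - 1 := by rw [Nat.card_units, Nat.card_eq_fintype_card, hF]
  have key := fun (h : Even n) (h' : Odd p) => (H73.gfam_psl hn).split_even hγ hγ2 (m := n / 2)
    (H79.two_ne_zero_of_odd_card (hF ▸ h'.pow)) (by obtain ⟨k, rfl⟩ := h; omega)
    (by rw [Fintype.card_fin, Nat.two_mul_div_two_of_even h])
  refine ⟨fun h => hc ▸ (key h.1 h.2.1).1 h.2.2, fun h => ?_, fun h => ?_⟩
  · rw [(key h.1 h.2.1).2 h.2.2, hc, Nat.two_mul_div_two_of_even h.1]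
  · rw [(H73.gfam_psl hn).split_odd hγ hγ2, hc, Fintype.card_fin]
    rw [Fintype.card_fin, hc, ← Nat.not_even_iff_odd, or_iff_not_imp_left, not_not]
    exact fun k => Nat.Even.sub_odd (Nat.pos_of_ne_zero (pow_ne_zero _ hp.ne_zero))
      ((Nat.not_odd_iff_even.1 fun h' => h ⟨k, h'⟩).pow_of_ne_zero (by omega)) odd_one

end Cfsg.Agent.S2702
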