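import Cfsg.Statements.S2709
import Mathlib
import Cfsg.Agent.H73.GraphLU

set_option autoImplicit false
open Cfsg

namespace Cfsg.Agent.S2709

/-- Let T = PSU_n(q) be simple (n ≥ 3, (n,q) ≠ (3,2), q = p^f), realised over the field F with q² elements, G = Inndiag(T) the image of PGU_n(q), and γ an involutory graph automorphism of T. The G-class of γ is the union of exactly c T-classes, where: if n is even and q is odd, c = gcd(n/2, q + 1) when C_G(γ) is isomorphic to PGSp_n(F₀) for a field F₀ with q elements (symplectic type) and c = gcd(n, q + 1)/2 otherwise; and c = gcd(n, q + 1) when n is odd or q is even. -/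
theorem result {F : Type*} [Field F] [Fintype F] {p f q : ℕ} [Fact p.Prime] (hq : q = p ^ f) (hf : 1 ≤ f) (hF : Fintype.card F = q ^ 2) {n : ℕ} (hn : 3 ≤ n) (hs : ¬ (n = 3 ∧ q = 2)) (F₀ : Type*) [Field F₀] [Fintype F₀] (hF₀ : Fintype.card F₀ = q) (γ : MulAut (Cfsg.PSU n F q)) (hγ : Cfsg.IsGraphAutClassPSU γ) (hγ2 : orderOf γ = 2) :
    ((Even n ∧ Odd q ∧ Nonempty (↥(Cfsg.inndiagPSU n F q ⊓ Subgroup.centralizer {γ}) ≃* Cfsg.PGSp (n / 2) F₀)) → Cfsg.splitClassCount (Cfsg.inndiagPSU n F q) (Cfsg.Inn (Cfsg.PSU n F q)) γ = Nat.gcd (n / 2) (q + 1)) ∧ ((Even n ∧ Odd q ∧ ¬ Nonempty (↥(Cfsg.inndiagPSU n F q ⊓ Subgroup.centralizer {γ}) ≃* Cfsg.PGSp (n / 2) F₀)) → Cfsg.splitClassCount (Cfsg.inndiagPSU n F q) (Cfsg.Inn (Cfsg.PSU n F q)) γ = Nat.gcd n (q + 1) / 2) ∧ (¬ (Even n ∧ Odd q) → Cfsg.splitClassCount (Cfsg.inndiagPSU n F q) (Cfsg.Inn (Cfsg.PSU n F q)) γ = Nat.gcd n (q + 1)) := by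
  obtain ⟨i, hi⟩ := H73.exists_embedding_frobE hF hF₀
  have hc := H73.card_muU hF
  have key := fun (h : Even n) (h' : Odd q) => (H73.gfam_psu hF hn hi).split_even hγ hγ2
    (m := n / 2) (H79.two_ne_zero_of_odd_card (hF₀ ▸ h')) (by obtain ⟨k, rfl⟩ := h; omega)
    (by rw [Fintype.card_fin, Nat.two_mul_div_two_of_even h])
  refine ⟨fun h => hc ▸ (key h.1 h.2.1).1 h.2.2, fun h => ?_, fun h => ?_⟩
  · rw [(key h.1 h.2.1).2 h.2.2, hc, Nat.two_mul_div_two_of_even h.1]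
  · rw [(H73.gfam_psu hF hn hi).split_odd hγ hγ2, hc, Fintype.card_fin]
    rw [Fintype.card_fin, hc, ← Nat.not_even_iff_odd, or_iff_not_imp_left, not_not]
    exact fun k => (Nat.not_odd_iff_even.1 fun h' => h ⟨k, h'⟩).add_one

end Cfsg.Agent.S2709
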