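import Cfsg.Statements.S2718
import Cfsg.Agent.H79.GraphCount

set_option autoImplicit false
open Cfsg

namespace Cfsg.Agent.S2718

/-- Let T = PΩ⁺_{2m}(F) with m ≥ 4 and |F| = q odd, G = Inndiag(T), and γ an involutory graph automorphism of T induced by a similarity (one interchanging the two classes of maximal totally singular subspaces). Then the G-class of γ is either a single T-class or the union of exactly two T-classes, and it is the union of two unless m is odd and q ≡ 3 (mod 4). -/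
theorem result {F : Type*} [Field F] [Fintype F] (hodd : Odd (Fintype.card F)) {m : ℕ} (hm : 4 ≤ m) (γ : MulAut (Cfsg.POmega F (Cfsg.quadFormPlus m F))) (hγ : Cfsg.IsSimilarityGraphAutPOmegaPlus m γ) (hγ2 : orderOf γ = 2) :
    (Cfsg.splitClassCount (Cfsg.inndiagPOmegaPlus m F) (Cfsg.Inn (Cfsg.POmega F (Cfsg.quadFormPlus m F))) γ = 1 ∨ Cfsg.splitClassCount (Cfsg.inndiagPOmegaPlus m F) (Cfsg.Inn (Cfsg.POmega F (Cfsg.quadFormPlus m F))) γ = 2) ∧ (¬ (Odd m ∧ Fintype.card F % 4 = 3) → Cfsg.splitClassCount (Cfsg.inndiagPOmegaPlus m F) (Cfsg.Inn (Cfsg.POmega F (Cfsg.quadFormPlus m F))) γ = 2) := by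
  have h5 := H28.five_le_plus (m := m) (by omega)
  have hQ := H30.qPlus_nondegenerate (F := F) m
  obtain ⟨g, h1, h3, h4⟩ := hγ
  obtain rfl := (H28.isInduced_refl_iff (Q := H30.qPlus F m) ⟨g, h1⟩ γ).1 h4
  have hc := (Int.units_eq_one_or _).resolve_left
    (mt (H28.preservesSingularClasses_plus_iff h5 ⟨g, h1⟩).2 h3)
  obtain ⟨k1, k2⟩ := H79.splitClassCount_graph hQ h5 (H30.two_ne_zero_iff_odd_card.2 hodd)
    (H28.card_plus m) (H28.even_plus m) (hγ2 ▸ pow_orderOf_eq_one _) hc
  rw [H79.DO_plus h5]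
  refine ⟨k1, fun h => k2 ?_⟩
  rw [H30.negOne_mem_kerDS_qPlus_iff hodd]
  rcases Nat.even_or_odd m with k | k
  · exact Or.inr k
  · have h6 : Fintype.card F % 4 = 1 := by
      have := Nat.odd_iff.1 hodd
      have := mt (And.intro k) h
      omega
    exact Or.inl (by rw [Nat.pow_mod, h6, one_pow]; rfl)

end Cfsg.Agent.S2718
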