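import Cfsg.Statements.S2719
import Cfsg.Agent.H79.GraphCount

set_option autoImplicit false
open Cfsg

namespace Cfsg.Agent.S2719

/-- Let T = PΩ⁻_{2m+2}(F) with m ≥ 3 and |F| = q odd (form with anisotropic binary part z₁² + a z₁ z₂ + b z₂²), G = Inndiag(T), and γ an involutory graph automorphism of T (an automorphism in the image of the semisimilarity group, not inner-diagonal, of order 2). Then the G-class of γ is either a single T-class or the union of exactly two T-classes, and it is the union of two unless m is even and q ≡ 1 (mod 4). -/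
theorem result {F : Type*} [Field F] [Fintype F] (hodd : Odd (Fintype.card F)) {m : ℕ} (hm : 3 ≤ m) (a b : F) (hab : (∀ z₁ z₂ : F, z₁ ^ 2 + a * z₁ * z₂ + b * z₂ ^ 2 = 0 → z₁ = 0 ∧ z₂ = 0)) (γ : MulAut (Cfsg.POmega F (Cfsg.quadFormMinus m F a b))) (hγ : Cfsg.IsGraphAutClassPOmegaMinus m a b γ) (hγ2 : orderOf γ = 2) :
    (Cfsg.splitClassCount (Cfsg.inndiagPOmegaMinus m F a b) (Cfsg.Inn (Cfsg.POmega F (Cfsg.quadFormMinus m F a b))) γ = 1 ∨ Cfsg.splitClassCount (Cfsg.inndiagPOmegaMinus m F a b) (Cfsg.Inn (Cfsg.POmega F (Cfsg.quadFormMinus m F a b))) γ = 2) ∧ (¬ (Even m ∧ Fintype.card F % 4 = 1) → Cfsg.splitClassCount (Cfsg.inndiagPOmegaMinus m F a b) (Cfsg.Inn (Cfsg.POmega F (Cfsg.quadFormMinus m F a b))) γ = 2) := by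
  have h5 := H28.five_le_minus (m := m) (by omega)
  have hQ := H30.qMinus_nondegenerate m hab
  obtain ⟨h1, h3, -⟩ := hγ
  rw [H79.DO_minus h5 hab] at h3 ⊢
  obtain ⟨s, rfl, hc⟩ := H79.graph_minus h5 hab
    (H28.gammaPOmega_eq (Q := H30.qMinus F m a b) ▸ h1) h3 hγ2
  obtain ⟨k1, k2⟩ := H79.splitClassCount_graph hQ h5 (H30.two_ne_zero_iff_odd_card.2 hodd)
    (H28.card_minus m) (H28.even_minus m) (orderOf_dvd_iff_pow_eq_one.1 hγ2.dvd) hc
  refine ⟨k1, fun h => k2 ?_⟩
  rw [H30.negOne_mem_kerDS_qMinus_iff hodd m hab]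
  rcases Nat.even_or_odd m with k | k
  · have h6 : Fintype.card F % 4 = 3 := by
      have := Nat.odd_iff.1 hodd
      have := mt (And.intro k) h
      omega
    obtain ⟨n, rfl⟩ := k
    exact Or.inl (by rw [pow_succ, ← two_mul, pow_mul, Nat.mul_mod, Nat.pow_mod, Nat.pow_mod _ 2, h6]; simp)
  · exact Or.inr k.add_one

end Cfsg.Agent.S2719
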