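import Cfsg.Statements.S2725
import Cfsg.Agent.H28.OutForms

set_option autoImplicit false
open Cfsg

namespace Cfsg.Agent.S2725

/-- Let T = PΩ⁺_{2m}(F) with m ≥ 4 and |F| = q odd. The inner-diagonal group G = Inndiag(T) (image of the class-preserving similarities) taken modulo the inner automorphism group T is cyclic of order 2 when m is odd and q ≡ 3 (mod 4), cyclic of order 4 when m is odd and q ≡ 1 (mod 4), and elementary abelian of order 4 when m is even. -/
theorem result {F : Type*} [Field F] [Fintype F] (hodd : Odd (Fintype.card F)) {m : ℕ} (hm : 4 ≤ m) :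
    ((Odd m ∧ Fintype.card F % 4 = 3) → (∃ φ : ↥(Cfsg.inndiagPOmegaPlus m F) →* Multiplicative (ZMod 2), Function.Surjective φ ∧ φ.ker = (Cfsg.Inn (Cfsg.POmega F (Cfsg.quadFormPlus m F))).subgroupOf (Cfsg.inndiagPOmegaPlus m F))) ∧ ((Odd m ∧ Fintype.card F % 4 = 1) → (∃ φ : ↥(Cfsg.inndiagPOmegaPlus m F) →* Multiplicative (ZMod 4), Function.Surjective φ ∧ φ.ker = (Cfsg.Inn (Cfsg.POmega F (Cfsg.quadFormPlus m F))).subgroupOf (Cfsg.inndiagPOmegaPlus m F))) ∧ (Even m → (∃ φ : ↥(Cfsg.inndiagPOmegaPlus m F) →* Multiplicative (ZMod 2 × ZMod 2), Function.Surjective φ ∧ φ.ker = (Cfsg.Inn (Cfsg.POmega F (Cfsg.quadFormPlus m F))).subgroupOf (Cfsg.inndiagPOmegaPlus m F))) := by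
  have hQ := H30.qPlus_nondegenerate (F := F) m
  have h2 := H79.two_ne_zero_of_odd_card hodd
  have h5 := H28.five_le_plus (m := m) (by omega)
  have h := H28.negOne_mem_plus_iff hodd m
  obtain ⟨x, h1, h3, h4⟩ := H28.exists_invol_plus h2 h5
  rw [H28.inndiagPOmegaPlus_eq h5]
  exact ⟨fun k => H28.inndiag_inn_small hQ h5 (H28.even_plus m) h2 fun l => h.1 l k,
    fun k => H28.inndiag_inn_cyclic hQ h5 (H28.even_plus m) h1 h2 (h.2 fun l => by omega) h3
      (h4.trans k.1.neg_one_pow),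
    fun k => H28.inndiag_inn_klein hQ h5 (H28.even_plus m) h1 h2
      (h.2 fun l => Nat.not_odd_iff_even.2 k l.1) h3 (h4.trans k.neg_one_pow)⟩

end Cfsg.Agent.S2725
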