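import Cfsg.Statements.S2735
import Cfsg.Agent.H79.DescStd
import Cfsg.Agent.S2694

set_option autoImplicit false
open Cfsg

namespace Cfsg.Agent.S2735

/-- Let T = Ω_{2m+1}(F) (m ≥ 3, |F| odd) and x a field automorphism of T of prime order r. Then an element y of the coset Inndiag(T)·x (y = δ x with δ induced by a similarity of the form) has order r if and only if y is conjugate to x by an element of Inndiag(T). (T has no graph or graph-field automorphisms.) -/
theorem result {F : Type*} [Field F] [Fintype F] (hodd : Odd (Fintype.card F)) {m : ℕ} (hm : 3 ≤ m) (x δ : MulAut (Cfsg.POmega F (Cfsg.quadFormOdd m F))) (hx : Cfsg.IsFieldAutClassPOmega (Cfsg.quadFormOdd m F) x) {r : ℕ} (hr : r.Prime) (hxr : orderOf x = r) (hδ : δ ∈ Cfsg.inndiagPOmegaOdd m F) :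
    orderOf (δ * x) = r ↔ Cfsg.IsConjUnder (Cfsg.inndiagPOmegaOdd m F) x (δ * x) := by
  have hQ := H30.qOdd_nondegenerate (H79.two_ne_zero_of_odd_card hodd) m
  have h5 := H28.five_le_odd (m := m) (by omega)
  obtain ⟨α, γ, e, h1⟩ := H79.exists_theta_of_field_odd hx
  rw [H79.DO_odd hQ h5] at hδ ⊢
  exact H79.lang_prime hQ h5 (H79.normal_DO hQ h5 (S2694.result hodd hm)) e h1 hr hxr hδ

end Cfsg.Agent.S2735
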