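import Cfsg.Statements.S2736
import Cfsg.Agent.H79.DescStd
import Cfsg.Agent.S2695

set_option autoImplicit false
open Cfsg

namespace Cfsg.Agent.S2736

/-- Let T = PΩ⁺_{2m}(F) with m ≥ 5 (dimension ≠ 8) and x a field automorphism or a graph-field automorphism of T of prime order r. Then an element y of the coset Inndiag(T)·x (y = δ x with δ induced by a class-preserving similarity) has order r if and only if y is conjugate to x by an element of Inndiag(T). -/
theorem result {F : Type*} [Field F] [Fintype F] {m : ℕ} (hm : 5 ≤ m) (x δ : MulAut (Cfsg.POmega F (Cfsg.quadFormPlus m F))) (hx : Cfsg.IsFieldAutClassPOmega (Cfsg.quadFormPlus m F) x ∨ Cfsg.IsGraphFieldAutClassPOmegaPlus m x) {r : ℕ} (hr : r.Prime) (hxr : orderOf x = r) (hδ : δ ∈ Cfsg.inndiagPOmegaPlus m F) :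
    orderOf (δ * x) = r ↔ Cfsg.IsConjUnder (Cfsg.inndiagPOmegaPlus m F) x (δ * x) := by
  have hQ := H30.qPlus_nondegenerate (F := F) m
  have h5 := H28.five_le_plus (m := m) (by omega)
  have hN := H79.normal_DO hQ h5 (S2695.result hm)
  rw [H79.DO_plus h5] at hδ ⊢
  rcases hx with hx | hx
  · obtain ⟨α, σ, e, h1⟩ := H79.exists_theta_of_field_plus hx
    exact H79.lang_prime hQ h5 hN e h1 hr hxr hδ
  · obtain ⟨α, σ, v, e, h1, -⟩ := H79.exists_theta_of_graphField_plus hx
    exact H79.lang_prime hQ h5 hN e (fun h => h1 ((one_mul _).symm.trans h)) hr hxr hδ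

end Cfsg.Agent.S2736
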