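import Cfsg.Statements.S2752
import Cfsg.Agent.H53.TwoF
import Cfsg.Agent.H53.KClass

set_option autoImplicit false
universe u
open Cfsg

namespace Cfsg.Agent.S2752

open Subgroup in
theorem centralizer_subgroupOf_eq {L : Type*} [Group L] {X N : Subgroup L} (h : X ≤ N) :
    centralizer ((X.subgroupOf N : Subgroup N) : Set N) = (centralizer (X : Set L)).subgroupOf N := by
  ext g
  rw [mem_subgroupOf, mem_centralizer_iff, mem_centralizer_iff]
  exact ⟨fun h1 x hx => congrArg Subtype.val (h1 ⟨x, h hx⟩ hx),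
    fun h1 x hx => Subtype.ext (h1 x hx)⟩

/-- Let M be an elementary abelian 2-subgroup of a finite group L and G a subgroup of L acting faithfully on M by conjugation (G normalizes M and meets C(M) trivially). Assume O₂(G) = 1, the symmetric group of degree 3 is not involved in G, and every non-abelian composition factor of G is a Suzuki group Sz(2^(2n+1)) or a group PSL₂(3^(2n+1)). Then every elementary abelian 2-subgroup A of G satisfies |M / C_M(A)| ≥ |A|² and |[M, A]| ≥ |A|². -/
theorem result {L : Type u} [Group L] [Finite L] (M G : Subgroup L) (hM : Cfsg.IsElementaryAbelian 2 M) (hGM : G ≤ Subgroup.normalizer (M : Set L)) (hf : G ⊓ Subgroup.centralizer (M : Set L) = ⊥) (ha : Cfsg.pCore 2 ↥G = ⊥) (hb : ¬ Cfsg.Involves (Equiv.Perm (Fin 3)) ↥G) (hc : Cfsg.IsCompositionKGroupWith Cfsg.IsSuzukiOrPSL2OddPowerThree ↥G) (A : Subgroup L) (hA : A ≤ G) (hAe : Cfsg.IsElementaryAbelian 2 A) : Nat.card A ^ 2 * Nat.card ↥(M ⊓ Subgroup.centralizer (A : Set L)) ≤ Nat.card M ∧ Nat.card A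 ^ 2 ≤ Nat.card ↥⁅M, A⁆ := by
  let N := M ⊔ G
  have hMN : M ≤ N := le_sup_left
  have hGN : G ≤ N := le_sup_right
  have hAN : A ≤ N := hA.trans hGN
  have : (M.subgroupOf N).Normal :=
    Subgroup.normal_subgroupOf_of_le_normalizer (sup_le Subgroup.le_normalizer hGM)
  have hV : IsElementaryAbelian 2 (M.subgroupOf N) :=
    ⟨H53.isMulCommutative_of_comm fun x hx y hy => Subtype.ext (H53.comm_of_mem hM.1 hx hy),
      fun x hx => Subtype.ext (hM.2 x hx)⟩
  set C := Subgroup.centralizer ((M.subgroupOf N : Subgroup N) : Set N) with hC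
  have hC' : C = (Subgroup.centralizer (M : Set L)).subgroupOf N := centralizer_subgroupOf_eq hMN
  let f : G →* N ⧸ C := (QuotientGroup.mk' C).comp (Subgroup.inclusion hGN)
  have hf1 : Function.Injective f := by
    rw [injective_iff_map_eq_one]
    intro g hg
    have h1 : Subgroup.inclusion hGN g ∈ C := (QuotientGroup.eq_one_iff _).1 hg
    rw [hC'] at h1
    exact Subtype.ext (Subgroup.mem_bot.1 (hf ▸ Subgroup.mem_inf.2 ⟨g.2, h1⟩))
  have hf2 : Function.Surjective f := by
    intro y
    obtain ⟨⟨y, hy⟩, rfl⟩ := QuotientGroup.mk_surjective y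
    obtain ⟨m, hm, g, hg, rfl⟩ := (H53.mem_sup_of_le_normalizer hGM).1 hy
    refine ⟨⟨g, hg⟩, ?_⟩
    have h1 : (⟨m, hMN hm⟩ : N) ∈ C := by
      rw [hC']
      exact fun x hx => H53.comm_of_mem hM.1 hx hm
    have h2 : (⟨m * g, hy⟩ : N) = ⟨m, hMN hm⟩ * ⟨g, hGN hg⟩ := rfl
    rw [h2, QuotientGroup.mk_mul, (QuotientGroup.eq_one_iff _).2 h1, one_mul]
    rfl
  let e := MulEquiv.ofBijective f ⟨hf1, hf2⟩
  obtain ⟨h1, h2⟩ := H53.offender_bound hV (e.symm.toMonoidHom.comp (QuotientGroup.mk' C))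
    (e.symm.surjective.comp (QuotientGroup.mk'_surjective C))
    (by
      ext x
      simp only [MonoidHom.mem_ker, MonoidHom.comp_apply, MulEquiv.coe_toMonoidHom,
        map_eq_one_iff _ e.symm.injective, QuotientGroup.mk'_apply, QuotientGroup.eq_one_iff]
      rfl) ha hb (H53.kg_of_compK hc) (A := A.subgroupOf N)
    (fun a ha => by
      rw [show a * a = 1 from Subtype.ext (H53.mul_self_of_elemAb hAe ha)]
      exact one_mem _)
  have h3 : C.relIndex (A.subgroupOf N) = Nat.card A := by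
    rw [hC', Subgroup.relIndex_subgroupOf hAN, ← Subgroup.inf_relIndex_right,
      ← Subgroup.relIndex_bot_left]
    congr 1
    rw [eq_bot_iff, ← hf]
    exact le_inf (inf_le_right.trans hA) inf_le_left
  rw [← hC, h3] at h1 h2
  rw [centralizer_subgroupOf_eq hAN, Subgroup.relIndex_subgroupOf hMN] at h1
  rw [← Subgroup.card_map_of_injective N.subtype_injective, Subgroup.map_commutator,
    Subgroup.map_subgroupOf_eq_of_le hMN, Subgroup.map_subgroupOf_eq_of_le hAN] at h2
  refine ⟨?_, h2⟩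
  rw [← H53.card_inf_mul_relIndex (Subgroup.centralizer (A : Set L)) M, inf_comm, mul_comm]
  exact Nat.mul_le_mul_left _ h1

end Cfsg.Agent.S2752
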