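import Cfsg.Statements.S2762
import Cfsg.Agent.H54.Qd

set_option autoImplicit false
open Cfsg

namespace Cfsg.Agent.S2762

/-- Structure of Qd over a finite field F of characteristic p (the affine subgroup of SL₃(F)): its largest normal p-subgroup is the group of translations (matrices with upper-left block the identity), the block-diagonal matrices form a complement isomorphic to SL₂(F), and the translation subgroup is a natural SL₂(F)-module for that complement. -/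
theorem result {F : Type*} [Field F] [Fintype F] {p : ℕ} [Fact p.Prime] [CharP F p] : (∀ M : ↥(Cfsg.qdOver F), M ∈ Cfsg.pCore p ↥(Cfsg.qdOver F) ↔ ((M : Matrix.SpecialLinearGroup (Fin 3) F) : Matrix (Fin 3) (Fin 3) F) 0 0 = 1 ∧ ((M : Matrix.SpecialLinearGroup (Fin 3) F) : Matrix (Fin 3) (Fin 3) F) 0 1 = 0 ∧ ((M : Matrix.SpecialLinearGroup (Fin 3) F) : Matrix (Fin 3) (Fin 3) F) 1 0 = 0 ∧ ((M : Matrix.SpecialLinearGroup (Fin 3) F) : Matrix (Fin 3) (Fin 3) F) 1 1 = 1) ∧ ∃ K : Subgroup ↥(Cfsg.qdOver F), (∀ M : ↥(Cfsg.qdOver F), M ∈ K ↔ ((M : Matrix.SpecialLinearGroup (Fin 3) F) : Matrix (Fin 3) (Fin 3) F) 0 2 = 0 ∧ ((M : Matrix.SpecialLinearGroup (Fin 3) F) : Matrix (Fin 3) (Fin 3) F) 1 2 = 0) ∧ K ⊓ Cfsg.pCore p ↥(Cfsg.qdOver F) = ⊥ ∧ K ⊔ Cfsg.pCore p ↥(Cfsg.qdOver F) = ⊤ ∧ Nonempty (↥K ≃* Matrix.SpecialLinearGroup (Fin 2) F) ∧ Cfsg.IsNaturalSL2Module F (Cfsg.pCore p ↥(Cfsg.qdOver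 F)) K := by
  rw [H54.Aff.pCore_eq_V (Q := Cfsg.qdOver F) p]
  refine ⟨fun M => Iff.rfl, H54.Aff.L _, fun M => Iff.rfl, H54.Aff.L_inf_V, H54.Aff.L_sup_V,
    ⟨H54.Aff.LEquiv⟩, Subgroup.le_normalizer_of_normal, (H54.Aff.LEquiv (Q := Cfsg.qdOver F)).toMonoidHom,
    H54.Aff.VAddEquiv, (H54.Aff.LEquiv (Q := Cfsg.qdOver F)).surjective, ?_, fun l v => ?_⟩
  · rw [H54.Aff.centralizer_V, ← H54.Aff.ker_lin]; rfl
  · refine ⟨⟨_, H54.Aff.V_normal.conj_mem _ v.2 l⟩, rfl, ?_⟩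
    have h := H54.Aff.conj_tr (l : Cfsg.qdOver F) (H54.Aff.e (v : Cfsg.qdOver F))
      (H54.Aff.f (v : Cfsg.qdOver F))
    rw [← H54.Aff.eq_un_of_mem_V v.2] at h
    change ![H54.Aff.e ((l : Cfsg.qdOver F) * (v : Cfsg.qdOver F) * (l : Cfsg.qdOver F)⁻¹),
      H54.Aff.f ((l : Cfsg.qdOver F) * (v : Cfsg.qdOver F) * (l : Cfsg.qdOver F)⁻¹)] =
      Matrix.mulVec !![H54.Aff.a (l : Cfsg.qdOver F), H54.Aff.b (l : Cfsg.qdOver F);
        H54.Aff.c (l : Cfsg.qdOver F), H54.Aff.d (l : Cfsg.qdOver F)]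
        ![H54.Aff.e (v : Cfsg.qdOver F), H54.Aff.f (v : Cfsg.qdOver F)]
    rw [h]
    ext i
    fin_cases i <;> simp [Matrix.mulVec, dotProduct, Fin.sum_univ_two]

end Cfsg.Agent.S2762
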