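import Cfsg.Statements.S2766
import Cfsg.Agent.H82.QdRec

set_option autoImplicit false
open Cfsg

namespace Cfsg.Agent.S2766

/-- Let p ≥ 5 be prime and G a maximal p-local subgroup of a finite group H (G is the normalizer of a nontrivial p-subgroup and lies in no other such normalizer). Suppose C_G(O_p(G)) ≤ O_p(G), G/K ≅ PSL₂(p^n) for some normal K and n ≥ 1, a Sylow p-subgroup S of G lies in exactly one maximal subgroup of G, and N_H(S) is not contained in G. Then G = G₀ × E for subgroups G₀ ≅ Qd(p^n) (the natural semidirect product of the plane over the field with p^n elements by SL₂) and E an elementary abelian p-group. -/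
theorem result {H : Type*} [Group H] [Finite H] {p : ℕ} [Fact p.Prime] (hp : 5 ≤ p) (G : Subgroup H) (hloc : ∃ R : Subgroup H, IsPGroup p ↥R ∧ R ≠ ⊥ ∧ G = Subgroup.normalizer (R : Set H)) (hmax : ∀ R : Subgroup H, IsPGroup p ↥R → R ≠ ⊥ → G ≤ Subgroup.normalizer (R : Set H) → Subgroup.normalizer (R : Set H) = G) (S : Sylow p ↥G) (hE₁ : Subgroup.centralizer (Cfsg.pCore p ↥G : Set ↥G) ≤ Cfsg.pCore p ↥G) (hE₂ : ∃! M : Subgroup ↥G, IsCoatom M ∧ (S : Subgroup ↥G) ≤ M) (K : Subgroup ↥G) [K.Normal] (F : Type) [Field F] [Fintype F] (n : ℕ) (hn : 1 ≤ n) (hF : Fintype.card F = p ^ n) (hE₃ : Nonempty (↥G ⧸ K ≃* Matrix.ProjectiveSpecialLinearGroup (Fin 2) F)) (hN : ¬ Subgroup.normalizer (((S : Subgroup ↥G).map G.subtype : Subgroup H) : Set H) ≤ G) : ∃ G₀ E : Subgroup H, Cfsg.IsInternalDirectProduct G₀ E G ∧ Cfsg.IsElementaryAbelian p E ∧ Nonempty (↥G₀ ≃* ↥(Cfsg.qdOver F)) := by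
  open Subgroup H82 H83 commutatorElement in
  have hp2 : p ≠ 2 := by omega
  have hR : ∀ R : Subgroup H, IsPGroup p R → R ≠ ⊥ → G ≤ normalizer (R : Set H) →
      ¬ normalizer (((S : Subgroup G).map G.subtype : Subgroup H) : Set H) ≤
        normalizer (R : Set H) := fun R h1 h2 h3 h4 => hN (h4.trans (hmax R h1 h2 h3).le)
  have hd : ∀ R : Subgroup (S : Subgroup G), R ≠ ⊥ → R.Characteristic →
      ¬ (R.map (S : Subgroup G).subtype).Normal := fun R h1 h2 h3 => by
    refine hR ((R.map (S : Subgroup G).subtype).map G.subtype)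
      (((S.isPGroup'.to_subgroup R).map _).map _) (fun h4 => h1 ?_) le_norm_map_subtype ?_
    · rwa [map_eq_bot_iff_of_injective _ G.subtype_injective,
        map_eq_bot_iff_of_injective _ (subtype_injective _)] at h4
    · let e := (S : Subgroup G).equivMapOfInjective _ G.subtype_injective
      have h4 : (R.map e.toMonoidHom).Characteristic := by
        refine characteristic_iff_le_comap.2 fun φ x hx => ?_
        obtain ⟨y, hy, rfl⟩ := hx
        exact ⟨_, (characteristic_iff_le_comap.1 h2 (e.trans (φ.trans e.symm))) hy, by simp⟩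
      have h5 := normalizer_le_norm_char (R.map e.toMonoidHom)
      rw [Subgroup.map_map] at h5 ⊢
      exact h5
  obtain ⟨π₀, hP₀⟩ := exists_PUe hF S hE₁ hE₂ K hE₃
  obtain ⟨m, h₀, hb⟩ := blk_of_no_char ⟨F, _, _, n, hF, π₀, hP₀⟩ hd
  obtain ⟨ρ₀, ψ₀, hN₀⟩ := hP₀.pn_of_clt hF h₀.clt h₀.nz
  rcases hb with hb | ⟨U, U₀, W, A, hb⟩
  swap
  · have := (hb.main hF hN₀ h₀).1
    omega
  have he : ∀ s ∈ (S : Subgroup G).map G.subtype, s ^ p = 1 := by
    rintro _ ⟨s, hs, rfl⟩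
    have := congrArg Subtype.val (hP₀.pow_eq_one_of_char hd ((hb.main hF hN₀ h₀).2.2 hp2).1 ⟨s, hs⟩)
    exact congrArg Subtype.val this
  have h := h₀.map G.subtype_injective
  have hP := PUe.map ⟨π₀, hP₀⟩ G.subtype_injective
  replace hb := hb.map G.subtype_injective
  rw [map_top_subtype] at h hP hb
  obtain ⟨π, hP⟩ := hP
  obtain ⟨ρ, ψ, hN'⟩ := hP.pn_of_clt hF h.clt h.nz
  have hB := (hb.main hF hN' h).1
  obtain ⟨x, hx, hxG⟩ := SetLike.not_le_iff_exists.1 hN
  have h' := h.cj x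
  rw [cj_eq_self hx] at h'
  have hQ : ∀ R : Subgroup H, R ≤ pCoreOf p G → G ≤ normalizer (R : Set H) → cj x R = R → R = ⊥ :=
    fun R h1 h2 h3 => by_contra fun h4 => hxG ((hmax R ((pCoreOf_isPGroup G).to_le h1) h4 h2).le
      (cj_eq_self_iff.1 h3))
  have hne : pCoreOf p G ≠ pCoreOf p (cj x G) := fun h1 => h.nz ((h.ctr_le.trans ((ZQ_le G).trans
    (hQ _ le_rfl (le_norm_pCoreOf G) ((cj_pCoreOf x G).trans h1.symm)).le)).trans bot_le)
  have h1 := hB.not_V_le hF hp2 h h' hne fun R h1 h2 => by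
    rw [← cj_ctr] at h1
    have h3 : cj x⁻¹ R ≤ ctr G := cj_le_iff.2 (by rwa [inv_inv])
    rw [← hmax _ (h.syl.isPGroup.to_le (h3.trans (h.ctr_G_le.trans inf_le_left)))
      (fun h4 => h2 (cj_eq_bot_iff.1 h4)) (norm_of_le_cent (h3.trans inf_le_right)),
      cj_normalizer, cj_cj_inv]
  have h2 := hQ _ (comm_le_left le_normalizer) (le_norm_comm (le_norm_pCoreOf G)
    (le_norm_pCoreOf G)) (by
      rw [cj_comm, cj_pCoreOf]
      exact le_antisymm (h.comm_Q_le h' h1) (h'.comm_Q_le h (h'.crit_symm h.V_le h1)))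
  obtain ⟨G₀, h3, h4⟩ := hB.qd_split hF hp2 h h2 he
  exact ⟨G₀, _, h3, isEA_iff.2 ⟨ctr_comm G, fun a ha => h.el a (h.ctr_G_le ha)⟩, h4⟩

end Cfsg.Agent.S2766
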