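import Cfsg.Statements.S2768
import Cfsg.Agent.H82.PUV

set_option autoImplicit false
open Cfsg

namespace Cfsg.Agent.S2768

open Subgroup H82 H83 in
theorem aux {G : Type*} [Group G] [Finite G] {p : ℕ} [Fact p.Prime] (S : Sylow p G)
    {J M : Subgroup G} (hM : M.Normal) (h : J = (S : Subgroup G) ⊓ M) :
    ∃ P : Sylow p (normalClosure (J : Set G)),
      (P : Subgroup (normalClosure (J : Set G))) = J.subgroupOf (normalClosure (J : Set G)) := by
  have h1 := (isSylowIn_top S).inf_normal (N := normalClosure (J : Set G)) le_top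
    (normalizer_eq_top_iff.2 inferInstance).ge
  have h2 : (S : Subgroup G) ⊓ normalClosure (J : Set G) = J := le_antisymm
    ((inf_le_inf_left _ (normalClosure_le_normal (h.le.trans inf_le_right))).trans h.ge)
    (le_inf (h.le.trans inf_le_left) le_normalClosure)
  rw [h2] at h1
  exact h1.exists_sylow

/-- Let G be a finite group and p a prime with C_G(O_p(G)) ≤ O_p(G), such that a Sylow p-subgroup S lies in exactly one maximal subgroup of G and G/K ≅ PSL₂(p^n) for some normal K and n ≥ 1. Put J̃(S) = C_S(Z(J(S))), where J(S) is generated by the abelian subgroups of S of largest order. If Z(S) is not normal in G, then J̃(S) is a Sylow p-subgroup of its normal closure ⟨J̃(S)^G⟩. -/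
theorem result {G : Type*} [Group G] [Finite G] {p : ℕ} [Fact p.Prime] (S : Sylow p G) (hE₁ : Subgroup.centralizer (Cfsg.pCore p G : Set G) ≤ Cfsg.pCore p G) (hE₂ : ∃! M : Subgroup G, IsCoatom M ∧ (S : Subgroup G) ≤ M) (K : Subgroup G) [K.Normal] (F : Type) [Field F] [Fintype F] (n : ℕ) (hn : 1 ≤ n) (hF : Fintype.card F = p ^ n) (hE₃ : Nonempty (G ⧸ K ≃* Matrix.ProjectiveSpecialLinearGroup (Fin 2) F)) (hZ : ¬ ((S : Subgroup G) ⊓ Subgroup.centralizer ((S : Subgroup G) : Set G)).Normal) : ∃ P : Sylow p ↥(Subgroup.normalClosure (((S : Subgroup G) ⊓ Subgroup.centralizer (Cfsg.centerThompsonAOf (S : Subgroup G) : Set G)) : Set G)), (P : Subgroup ↥(Subgroup.normalClosure (((S : Subgroup G) ⊓ Subgroup.centralizer (Cfsg.centerThompsonAOf (S : Subgroup G) : Set G)) : Set G))) = (((S : Subgroup G) ⊓ Subgroup.centralizer (Cfsg.centerThompsonAOf (S : Subgroup G) : Set G))).subgroupOf (Subgroup.normalClosure (((S : Subgroup G) ⊓ Subgroup.centralizer (Cfsg.centerThompsonAOf (S : Subgroup G) : Set G)) : Set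 G)) := by
  open Subgroup H82 H83 in
  obtain ⟨π, hP⟩ := exists_PUe hF S hE₁ hE₂ K hE₃
  rcases hP.baumann hF (fun h => hZ (normal_of_le_cent h)) with h1 | ⟨-, E, h1, h2, h3⟩
  · exact aux S (J := (S : Subgroup G) ⊓ centralizer (centerThompsonAOf (S : Subgroup G) : Set G))
      (normalizer_eq_top_iff.1 (top_le_iff.1 h1)) (by rw [← inf_assoc, inf_idem])
  · refine aux S (J := (S : Subgroup G) ⊓ centralizer (centerThompsonAOf (S : Subgroup G) : Set G))
      (normalizer_eq_top_iff.1 (top_le_iff.1 (le_norm_cent h1))) ?_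
    rw [h2, H83.centralizer_sup, ← inf_assoc, inf_of_le_left (le_cent_ctr _)]

end Cfsg.Agent.S2768
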