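import Cfsg.Statements.S2770
import Cfsg.Agent.H82.PUV

set_option autoImplicit false
open Cfsg

namespace Cfsg.Agent.S2770

/-- Let G be a finite group and p a prime with C_G(O_p(G)) ≤ O_p(G), S a Sylow p-subgroup lying in exactly one maximal subgroup of G, and G/K ≅ PSL₂(p^n) for some normal K and n ≥ 1. If Z(S) is not elementary abelian, then either ℧¹(Z(S)) (the subgroup generated by the p-th powers of the elements of Z(S)) is normal in G or C_S(Z(J(S))) is normal in G, J(S) being generated by the abelian subgroups of S of largest order. -/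
theorem result {G : Type*} [Group G] [Finite G] {p : ℕ} [Fact p.Prime] (S : Sylow p G) (hE₁ : Subgroup.centralizer (Cfsg.pCore p G : Set G) ≤ Cfsg.pCore p G) (hE₂ : ∃! M : Subgroup G, IsCoatom M ∧ (S : Subgroup G) ≤ M) (K : Subgroup G) [K.Normal] (F : Type) [Field F] [Fintype F] (n : ℕ) (hn : 1 ≤ n) (hF : Fintype.card F = p ^ n) (hE₃ : Nonempty (G ⧸ K ≃* Matrix.ProjectiveSpecialLinearGroup (Fin 2) F)) (h : ¬ Cfsg.IsElementaryAbelian p ((S : Subgroup G) ⊓ Subgroup.centralizer ((S : Subgroup G) : Set G))) : (Cfsg.powerClosure p 1 ((S : Subgroup G) ⊓ Subgroup.centralizer ((S : Subgroup G) : Set G))).Normal ∨ (((S : Subgroup G) ⊓ Subgroup.centralizer (Cfsg.centerThompsonAOf (S : Subgroup G) : Set G))).Normal := by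
  open Subgroup H82 H83 in
  obtain ⟨π, hP⟩ := exists_PUe hF S hE₁ hE₂ K hE₃
  by_cases hZ : ctr (S : Subgroup G) ≤ centralizer ((⊤ : Subgroup G) : Set G)
  · refine Or.inl (normal_of_le_cent ((closure_le _).2 ?_))
    rintro _ ⟨x, hx, rfl⟩
    exact pow_mem (hZ hx) _
  rcases hP.baumann hF hZ with h1 | ⟨h1, -⟩
  · exact Or.inr (normalizer_eq_top_iff.1 (top_le_iff.1 h1))
  · refine Or.inl (normal_of_le_cent ((closure_le _).2 ?_))
    rintro _ ⟨x, hx, rfl⟩
    rw [pow_one]
    exact (h1 x hx).2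

end Cfsg.Agent.S2770
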