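import Cfsg.Statements.S2779
import Cfsg.Agent.H82.NatBot

set_option autoImplicit false
open Cfsg

namespace Cfsg.Agent.S2779

/-- Let L act on the elementary abelian p-group V (inside a finite group, by conjugation, faithfully) as SL₂(F) on its natural module, F a field with p^n elements, and let S be a Sylow p-subgroup of L. Then [V, S, S] = 1; |V| = p^(2n) and |C_V(S)| = p^n; and for every nonidentity s ∈ S and every v ∈ V outside C_V(S): C_V(s) = C_V(S) = [V, S] = [V, s] = the subgroup generated by the commutators [v, t], t ∈ S. -/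
theorem result {G : Type*} [Group G] [Finite G] {p : ℕ} [Fact p.Prime] {F : Type*} [Field F] [Fintype F] (n : ℕ) (hF : Fintype.card F = p ^ n) (V L : Subgroup G) (hnat : Cfsg.IsNaturalSL2Module F V L) (hf : L ⊓ Subgroup.centralizer (V : Set G) = ⊥) (S : Sylow p ↥L) (T : Subgroup G) (hT : T = ((S : Subgroup ↥L).map L.subtype)) : ⁅⁅V, T⁆, T⁆ = ⊥ ∧ Nat.card V = p ^ (2 * n) ∧ Nat.card ↥(V ⊓ Subgroup.centralizer ((T : Subgroup G) : Set G)) = p ^ n ∧ ∀ s ∈ T, s ≠ 1 → (V ⊓ Subgroup.centralizer ({s} : Set G)) = (V ⊓ Subgroup.centralizer ((T : Subgroup G) : Set G)) ∧ ⁅V, T⁆ = (V ⊓ Subgroup.centralizer ((T : Subgroup G) : Set G)) ∧ ⁅V, Subgroup.zpowers s⁆ = (V ⊓ Subgroup.centralizer ((T : Subgroup G) : Set G)) ∧ ∀ v ∈ V, v ∉ Subgroup.centralizer (T : Set G) → Subgroup.closure {x : G | ∃ t ∈ T, x = v * t * v⁻¹ * t⁻¹} = (V ⊓ Subgroup.centralizer ((T : Subgroup G) : Set G)) := by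
  open Subgroup H82 in
  have hS := H8.isSylowIn_map_subtype S
  rw [← hT] at hS
  obtain ⟨ρ, ψ, hρ, h, hs⟩ := exists_natMap_std_of_isNatural hF hnat hS
  have hinj := h.injective hf
  rw [← h.ln_eq hs]
  have hcF : Nat.card F = p ^ n := Nat.card_eq_fintype_card.trans hF
  refine ⟨?_, ?_, ?_, fun s hsT hs1 => ?_⟩
  · rw [commutator_eq_bot_iff_le_centralizer]
    exact (h.commutator_le_ln hs).trans (h.ln_eq hs ▸ inf_le_right)
  · rw [← relIndex_bot_left, h.relIndex_eq, hcF, ← pow_mul, mul_comm]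
  · rw [← relIndex_bot_left, h.relIndex_ln', hcF]
  · have hρs : ρ ⟨s, hs.le hsT⟩ ≠ 1 := fun h1 =>
      hs1 (congrArg Subtype.val (hinj (h1.trans (map_one ρ).symm)))
    have h3 : h.ln ≤ ⁅V, zpowers s⁆ := by
      intro w hw
      obtain ⟨v, hv, he⟩ := h.exists_commutator_left hs (t := ⟨s, hs.le hsT⟩) hsT hρs hw
      rw [mem_bot, inv_mul_eq_one] at he
      rw [← he]
      exact commutator_mem_commutator hv (mem_zpowers s)
    have h4 : ⁅V, zpowers s⁆ ≤ ⁅V, T⁆ := commutator_mono le_rfl (zpowers_le.2 hsT)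
    refine ⟨?_, le_antisymm (h.commutator_le_ln hs) (h3.trans h4),
      le_antisymm (h4.trans (h.commutator_le_ln hs)) h3, fun v hv hvT => le_antisymm ?_ ?_⟩
    · ext v
      rw [mem_inf, mem_centralizer_singleton_iff]
      constructor
      · rintro ⟨hv, hc⟩
        refine (h.mem_ln_iff_of_ne hs (t := ⟨s, hs.le hsT⟩) hsT hρs hv).2 ?_
        rw [mem_bot, commutatorElement_eq_one_iff_mul_comm]
        exact hc
      · intro hv
        have := (h.mem_ln_iff_of_ne hs (t := ⟨s, hs.le hsT⟩) hsT hρs hv.1).1 hv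
        rw [mem_bot, commutatorElement_eq_one_iff_mul_comm] at this
        exact ⟨hv.1, this⟩
    · rw [closure_le]
      rintro _ ⟨t, ht, rfl⟩
      exact h.commutator_le_ln hs (commutator_mem_commutator hv ht)
    · intro w hw
      obtain ⟨t, ht, he⟩ := h.exists_commutator_right hs hv
        (fun h1 => hvT (h.ln_eq hs ▸ h1 : v ∈ V ⊓ _).2) hw
      rw [mem_bot, inv_mul_eq_one] at he
      exact subset_closure ⟨t, ht, he.symm⟩

end Cfsg.Agent.S2779
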