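import Cfsg.Statements.S2780
import Cfsg.Agent.H82.NatBot

set_option autoImplicit false
open Cfsg

namespace Cfsg.Agent.S2780

/-- Let L act on the elementary abelian p-group V (inside a finite group, faithfully) as SL₂(F) on its natural module, F a field with p^n elements, S a Sylow p-subgroup of L. Then: for every g ∈ L not normalizing S, V is the internal direct product of C_V(S) and C_V(gSg⁻¹); every nonidentity element of L of order prime to p acts on V without nonidentity fixed points; and C_V(S) and V/C_V(S) are irreducible for N_L(S): the only N_L(S)-invariant subgroups of C_V(S) are 1 and C_V(S), and the only N_L(S)-invariant subgroups between C_V(S) and V are those two. -/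
theorem result {G : Type*} [Group G] [Finite G] {p : ℕ} [Fact p.Prime] {F : Type*} [Field F] [Fintype F] (n : ℕ) (hF : Fintype.card F = p ^ n) (V L : Subgroup G) (hnat : Cfsg.IsNaturalSL2Module F V L) (hf : L ⊓ Subgroup.centralizer (V : Set G) = ⊥) (S : Sylow p ↥L) (T : Subgroup G) (hT : T = ((S : Subgroup ↥L).map L.subtype)) : (∀ g ∈ L, g ∉ Subgroup.normalizer (T : Set G) → Cfsg.IsInternalDirectProduct (V ⊓ Subgroup.centralizer ((T : Subgroup G) : Set G)) (V ⊓ Subgroup.centralizer ((T.map (MulAut.conj g).toMonoidHom : Subgroup G) : Set G)) V) ∧ (∀ x ∈ L, x ≠ 1 → (orderOf x).Coprime p → (V ⊓ Subgroup.centralizer ({x} : Set G)) = ⊥) ∧ (∀ U : Subgroup G, U ≤ (V ⊓ Subgroup.centralizer ((T : Subgroup G) : Set G)) → L ⊓ Subgroup.normalizer (T : Set G) ≤ Subgroup.normalizer (U : Set G) → U = ⊥ ∨ U = (V ⊓ Subgroup.centralizer ((T : Subgroup G) : Set G))) ∧ (∀ U : Subgroup G, (V ⊓ Subgroup.centralizer ((T : Subgroup G) : Set G)) ≤ U →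 U ≤ V → L ⊓ Subgroup.normalizer (T : Set G) ≤ Subgroup.normalizer (U : Set G) → U = (V ⊓ Subgroup.centralizer ((T : Subgroup G) : Set G)) ∨ U = V) := by
  open Subgroup H82 in
  have hS := H8.isSylowIn_map_subtype S
  rw [← hT] at hS
  obtain ⟨ρ, ψ, hρ, h, hs⟩ := exists_natMap_std_of_isNatural hF hnat hS
  have hinj := h.injective hf
  have hk : ∀ g : L, ρ g = 1 → (g : G) ∈ T := fun g hg => by
    rw [hinj (hg.trans (map_one ρ).symm)]; exact T.one_mem
  have hcomm := h.isMulCommutative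
  refine ⟨fun g hg hgT => ?_, fun x hx hx1 hxp => ?_, ?_, ?_⟩
  · have h1 : ρ ⟨g, hg⟩ ∉ BB F := fun h1 => hgT (hs.mem_normalizer hk h1)
    have h2 : V ⊓ centralizer ((T.map (MulAut.conj g).toMonoidHom : Subgroup G) : Set G) =
        H83.cj g h.ln := by
      rw [h.ln_eq hs, H83.cj_inf, H83.cj_centralizer, H83.cj_eq_self (h.norm hg)]
    rw [h2, ← h.ln_eq hs]
    have h3 : H83.cj g h.ln ≤ V := H83.cj_le_of_norm h.ln_le (h.norm hg)
    exact ⟨h.ln_le, h3, fun a ha b hb =>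
      congrArg Subtype.val (mul_comm' (⟨a, h.ln_le ha⟩ : V) ⟨b, h3 hb⟩),
      h.ln_inf_cj (g := ⟨g, hg⟩) h1, h.ln_sup_cj (g := ⟨g, hg⟩) h1⟩
  · rw [eq_bot_iff]
    rintro v ⟨hv, hc⟩
    rw [mem_bot]
    by_contra hv1
    have h1 : ψ v ≠ 0 := fun h1 => hv1 (mem_bot.1 ((h.ker v hv).1 h1))
    have h2 : ρ ⟨x, hx⟩ • ψ v = ψ v := by
      rw [h.smul_eq_iff _ hv, mem_bot, commutatorElement_eq_one_iff_mul_comm]
      exact mem_centralizer_singleton_iff.1 hc
    obtain ⟨y, t, he⟩ := exists_conj_uu_of_fixed h1 h2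
    have h3 := uu_pow_char hF t
    rw [← he, conj_pow, mul_inv_eq_one, mul_eq_left, ← map_pow, ← map_one ρ] at h3
    have h4 : x ^ p ^ 1 = 1 := by
      rw [pow_one]; exact congrArg Subtype.val (hinj h3)
    exact hx1 (H83.eq_one_of_ppow h4 hxp)
  · rw [← h.ln_eq hs]
    intro U hU hN
    by_cases hU1 : U = ⊥
    · exact Or.inl hU1
    right
    obtain ⟨u, hu, hu1⟩ := (U.bot_or_exists_ne_one).resolve_left hU1
    refine le_antisymm hU fun w hw => ?_
    by_cases hw1 : w = 1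
    · rw [hw1]; exact U.one_mem
    have key : ∀ w ∈ h.ln, w ≠ 1 → ψ w 0 ≠ 0 := fun w hw hw1 h0 =>
      hw1 (mem_bot.1 ((h.ker w hw.1).1 (vec2_ext h0 hw.2)))
    have ha := key u (hU hu) hu1
    have hb := key w hw hw1
    obtain ⟨g, hg⟩ := hρ (hh (ψ w 0 * (ψ u 0)⁻¹) (mul_ne_zero hb (inv_ne_zero ha)))
    have h1 := (mem_normalizer_iff.1 (hN ⟨g.2, hs.mem_normalizer hk (by rw [hg]; rfl)⟩) u).1 hu
    rwa [h.eq_of_eq (h.conj_mem g.2 (hU hu).1) hw.1] at h1
    rw [h.conj g u (hU hu).1, hg]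
    apply vec2_ext <;> simp only [SL2_smul_apply, ent]
    · field_simp
    · rw [(h.mem_ln.1 (hU hu)).2, (h.mem_ln.1 hw).2, mul_zero]
  · rw [← h.ln_eq hs]
    intro U hU hUV hN
    by_cases hU1 : U ≤ h.ln
    · exact Or.inl (le_antisymm hU1 hU)
    right
    obtain ⟨u, hu, hu1⟩ := not_forall₂.1 hU1 |>.imp fun _ hx => by simpa using hx
    refine le_antisymm hUV fun w hw => ?_
    by_cases hw1 : w ∈ h.ln
    · exact hU hw1
    have ha : ψ u 1 ≠ 0 := fun h0 => hu1 ⟨hUV hu, h0⟩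
    have hb : ψ w 1 ≠ 0 := fun h0 => hw1 ⟨hw, h0⟩
    obtain ⟨g, hg⟩ := hρ (hh (ψ u 1 * (ψ w 1)⁻¹) (mul_ne_zero ha (inv_ne_zero hb)))
    have h1 := (mem_normalizer_iff.1 (hN ⟨g.2, hs.mem_normalizer hk (by rw [hg]; rfl)⟩) u).1 hu
    have h2 := h.conj_mem g.2 (hUV hu)
    have h3 : (g * u * (g : G)⁻¹)⁻¹ * w ∈ h.ln := by
      refine ⟨V.mul_mem (V.inv_mem h2) hw, ?_⟩
      rw [h.map_mul _ (V.inv_mem h2) _ hw, h.map_inv h2, h.conj g u (hUV hu), hg, mem_line0]
      simp only [Pi.add_apply, Pi.neg_apply, SL2_smul_apply, ent]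
      field_simp
      ring
    have h4 := U.mul_mem h1 (hU h3)
    rwa [mul_inv_cancel_left] at h4

end Cfsg.Agent.S2780
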