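import Cfsg.Statements.S2781
import Cfsg.Agent.H82.SecMod
import Cfsg.Agent.H83.Base
import Cfsg.Agent.H8.Residual

set_option autoImplicit false
open Cfsg

namespace Cfsg.Agent.S2781

/-- Let H act faithfully by conjugation on the elementary abelian p-subgroup V of a finite group, let O^p(H) be the subgroup of H generated by its elements of order prime to p, and T a Sylow p-subgroup of O^p(H). If V is generated by the H-conjugates of C_V(T) (V is the smallest H-invariant subgroup containing C_V(T)), then V = [V, O^p(H)]·C_V(O^p(H)). -/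
theorem result {G : Type*} [Group G] [Finite G] {p : ℕ} [Fact p.Prime] (V H : Subgroup G) (hV : Cfsg.IsElementaryAbelian p V) (hHV : H ≤ Subgroup.normalizer (V : Set G)) (hf : H ⊓ Subgroup.centralizer (V : Set G) = ⊥) (R : Subgroup G) (hR : R = (Cfsg.pResidual p ↥H).map H.subtype) (S : Sylow p ↥R) (T : Subgroup G) (hT : T = ((S : Subgroup ↥R).map R.subtype)) (hgen : ∀ W : Subgroup G, H ≤ Subgroup.normalizer (W : Set G) → (V ⊓ Subgroup.centralizer ((T : Subgroup G) : Set G)) ≤ W → V ≤ W) : ⁅V, R⁆ ⊔ (V ⊓ Subgroup.centralizer ((R : Subgroup G) : Set G)) = V := by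
  rename_i hp
  have := hV.1
  have hRH : R ≤ H := hR ▸ Subgroup.map_subtype_le _
  have hHR : H ≤ Subgroup.normalizer (R : Set G) :=
    hR ▸ Subgroup.le_normalizer.trans (H8.normalizer_le_normalizer_pResidual H)
  have hS := H8.isSylowIn_map_subtype S
  rw [← hT] at hS
  refine le_antisymm (sup_le (H83.comm_le_left (hRH.trans hHV)) inf_le_left) (hgen _ ?_ ?_)
  · exact H83.le_norm_sup (H83.le_norm_comm hHV hHR) (H83.le_norm_inf hHV (H83.le_norm_cent hHR))
  · exact H82.inf_centralizer_le_commutator_sup (p := p)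
      (H83.isPGroup_iff.2 fun x hx => ⟨1, by rw [pow_one, hV.2 x hx]⟩) (hRH.trans hHV)
      ((Nat.Prime.coprime_iff_not_dvd hp.out).2 hS.not_dvd).symm

end Cfsg.Agent.S2781
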