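import Cfsg.Statements.S2788
import Cfsg.Agent.H82.LemAGrp

set_option autoImplicit false
open Cfsg

namespace Cfsg.Agent.S2788

/-- Let H act faithfully by conjugation on the elementary abelian p-subgroup V of a finite group with H ≅ SL₂(F), F a field with p^n elements, S a Sylow p-subgroup of H, and A ≤ S a subgroup of order at least 3 acting quadratically on V ([V, A, A] = 1). Then |V/C_V(a)| ≥ p^n for every nonidentity a ∈ A. -/
theorem result {G : Type*} [Group G] [Finite G] {p : ℕ} [Fact p.Prime] (V H : Subgroup G) (hV : Cfsg.IsElementaryAbelian p V) (hHV : H ≤ Subgroup.normalizer (V : Set G)) (hf : H ⊓ Subgroup.centralizer (V : Set G) = ⊥) {F : Type*} [Field F] [Fintype F] (n : ℕ) (hF : Fintype.card F = p ^ n) (hiso : Nonempty (↥H ≃* Matrix.SpecialLinearGroup (Fin 2) F)) (S : Sylow p ↥H) (T : Subgroup G) (hT : T = ((S : Subgroup ↥H).map H.subtype)) (A : Subgroup G) (hA : A ≤ T) (hA3 : 3 ≤ Nat.card A) (hquad : ⁅⁅V, A⁆, A⁆ = ⊥) : ∀ a ∈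 A, a ≠ 1 → p ^ n ≤ ((V ⊓ Subgroup.centralizer ({a} : Set G))).relIndex V := by
  open Subgroup H82 in
  intro a ha ha1
  obtain ⟨e⟩ := hiso
  obtain ⟨b, hb, rfl⟩ := hT ▸ hA ha
  obtain ⟨k, hk⟩ := H83.isPGroup_iff.1 S.isPGroup' b hb
  refine (lemA_grp hF hV.1 (isPGroup_of_exp hV.2) hHV
    (π := (QuotientGroup.mk' _).comp e.toMonoidHom)
    ((QuotientGroup.mk'_surjective _).comp e.surjective) (fun g hg => by
      rw [show g = 1 from Subtype.ext (mem_bot.1 (hf ▸ mem_inf.2 ⟨g.2, hg⟩)), map_one]) hk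
    fun h => ha1 ?_).1
  have h1 : e b ∈ center _ := (QuotientGroup.eq_one_iff _).1 h
  obtain ⟨g, t, ht⟩ := exists_conj_eq_uu hF (x := e b) (k := k) (by rw [← map_pow, hk, map_one])
  have h2 : uu t ∈ center _ := ht ▸ (inferInstance : (center _).Normal).conj_mem _ h1 g
  rw [uu_mem_center_iff.1 h2, uu_zero, mul_inv_eq_one, mul_eq_left, e.map_eq_one_iff] at ht
  rw [ht]
  rfl

end Cfsg.Agent.S2788
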