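import Cfsg.Statements.S2794
import Cfsg.Agent.H51.QdInv
import Cfsg.Agent.H51.ZJFun
import Cfsg.Agent.S1969

set_option autoImplicit false
open Cfsg

namespace Cfsg.Agent.S2794

/-- For an odd prime p and a finite group G, the group Qd(p) is not involved in G if and only if in every section K/R of G, for every Sylow p-subgroup S* of K/R, the centre of J(S*) (J generated by the abelian subgroups of largest order) controls strong fusion in K/R. -/
theorem result {G : Type*} [Group G] [Finite G] {p : ℕ} [Fact p.Prime] (hp : p ≠ 2) : ¬ Cfsg.Involves ↥(Cfsg.qd p) G ↔ ∀ (K R : Subgroup G) [hR : (R.subgroupOf K).Normal], ∀ T : Sylow p (K ⧸ R.subgroupOf K), Cfsg.ControlsStrongFusion p (Cfsg.centerThompsonAOf (T : Subgroup (K ⧸ R.subgroupOf K))) := by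
  have hW := H51.isCharPFunctor_zjFun (p := p) (e := 0) (dvd_zero p)
  constructor
  · intro h K R hR T
    rw [← H51.sInf_maxEA_zero, ← H51.inducedFunctor_zjFun]
    refine S1969.result _ hW (fun K R hR hc T => ?_) K R T
    rw [H51.inducedFunctor_zjFun]
    exact H51.zj_normal hp T (H51.isStronglyClosed_self _) 0 hc fun B _ hB =>
      H51.stableOn_of_isNormalizerPStable (H51.isNormalizerPStable_of_qdFree hp fun h' =>
        h (H54.involves_trans h' (H54.involves_section K R))) hB Subgroup.le_normalizer_of_normal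
  · rintro h ⟨K, R, hR, ⟨e⟩⟩
    obtain ⟨T⟩ : Nonempty (Sylow p (↥K ⧸ R.subgroupOf K)) := inferInstance
    have hT : Nontrivial (T : Subgroup (↥K ⧸ R.subgroupOf K)) :=
      (Subgroup.nontrivial_iff_ne_bot _).mpr (H54.Aff.sylow_ne_bot e T)
    have := H6.characteristic_of_isCharPFunctor hW T.isPGroup'
    have h1 := h K R T
    rw [← H51.sInf_maxEA_zero, ← H51.inducedFunctor_zjFun] at h1
    exact H54.Aff.not_controlsStrongFusion e T _ (hW.1 _ T.isPGroup' hT) h1

end Cfsg.Agent.S2794
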