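import Cfsg.Statements.S2800
import Cfsg.Agent.H54.Glaub

set_option autoImplicit false
open Cfsg

namespace Cfsg.Agent.S2800

open Subgroup

universe u

/-- The two local functors. -/
def L (i : Bool) (G : Type u) [Group G] (P : Subgroup G) : Subgroup G :=
  cond i (normalizer ((thompsonSubgroupOf 0 P : Subgroup G) : Set G))
    (centralizer ((P ⊓ centralizer (P : Set G) : Subgroup G) : Set G))

theorem key {p : ℕ} [hp : Fact p.Prime] (G : Type u) [Group G] [Finite G]
    (hE : p ≠ 2 ∨ ¬ Cfsg.Involves (Equiv.Perm (Fin 4)) G)
    (h : ∀ (i : Bool) (P : Sylow p G), HasNormalPComplement p (L i G P))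
    (hC : centralizer (pCore p G : Set G) ≤ pCore p G) : HasNormalPComplement p G := by
  obtain ⟨P⟩ : Nonempty (Sylow p G) := inferInstance
  have hL : ∀ i, (P : Subgroup G) ≤ L i G P → L i G P ≤ P := fun i hi =>
    ((H85.isSyl_top P).eq_of_le (H56.isPGroup_of_hnpc (H85.pCore_isPGroup p G) hC
      ((H85.pCore_le_sylow P).trans hi) le_normalizer_of_normal (h i P)) hi le_top).le
  have hJ := hL true (le_normalizer.trans (H51.normalizer_le_normalizer_thompsonSubgroupOf 0 _))
  have hZ := hL false (le_centralizer_iff.1 inf_le_right)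
  have htop : ⊤ ≤ (P : Subgroup G) := by
    by_cases hp2 : p = 2
    · subst hp2
      exact H54.le_of_perm_four_free (dvd_zero 2) (H85.isSyl_top P) (H54.charIn_top_iff.2 hC)
        (fun h => hE.resolve_left (fun h => h rfl) (H82.involves_of_involves_subgroup h))
        (inf_le_right.trans hJ) (inf_le_right.trans hZ)
    · exact H54.le_of_odd hp2 (dvd_zero p) (H85.isSyl_top P) (H54.charIn_top_iff.2 hC) P.2
        (inf_le_right.trans hJ) (inf_le_right.trans hZ)
  exact H8.hasNormalPComplement_of_isPGroup ((P.2.to_le htop).of_equiv topEquiv)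


/-- Let S be a Sylow p-subgroup of the finite group G and J(S) the subgroup generated by the abelian subgroups of S of largest order. Suppose p is odd, or the symmetric group of degree 4 is not involved in G. If both C_G(Z(S)) and N_G(J(S)) have normal p-complements, then G has a normal p-complement. -/
theorem result {G : Type*} [Group G] [Finite G] {p : ℕ} [Fact p.Prime] (S : Sylow p G) (h : p ≠ 2 ∨ ¬ Cfsg.Involves (Equiv.Perm (Fin 4)) G) (hC : Cfsg.HasNormalPComplement p ↥(Subgroup.centralizer (((S : Subgroup G) ⊓ Subgroup.centralizer ((S : Subgroup G) : Set G) : Subgroup G) : Set G))) (hN : Cfsg.HasNormalPComplement p ↥(Subgroup.normalizer ((Cfsg.thompsonSubgroupAOf (S : Subgroup G)) : Set G))) : Cfsg.HasNormalPComplement p G := by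
  refine H6.npc_of_localFunctors L ?_ ?_ ?_
    (fun G _ => p ≠ 2 ∨ ¬ Cfsg.Involves (Equiv.Perm (Fin 4)) G)
    (fun _ _ h _ => h.imp_right fun h h' => h (H82.involves_of_involves_subgroup h'))
    (fun _ _ h _ _ => h.imp_right fun h h' => h (H82.involves_of_involves_quotient h'))
    (fun G _ _ hE h _ hC _ _ => key G hE h hC) G h S ?_
  · rintro (_ | _) G G' _ _ _ f hf hk P hP
    · exact H6.centralizer_center_map f hf hk P hP
    · change normalizer _ = (normalizer _).map f
      rw [← H6.map_thompsonSubgroupOf (H6.injOn_of_coprime_ker hk hP),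
        H6.normalizer_map_of_coprime_ker hf hk (hP.to_le (H51.thompsonSubgroupOf_le 0 P))]
  · rintro (_ | _) G _ _ H Q hQ
    · change centralizer _ = (centralizer _).subgroupOf H
      rw [← H51.map_inf_centralizer H.subtype_injective, H6.centralizer_map_subtype_subgroupOf]
    · change normalizer _ = (normalizer _).subgroupOf H
      rw [← H51.map_thompsonSubgroupOf 0 Q H.subtype_injective,
        H6.normalizer_map_subtype_subgroupOf]
  · rintro (_ | _) G _ _ P hP hP1
    · refine ⟨center P, inferInstance, ?_, ?_⟩
      · have : Nontrivial P := (nontrivial_iff_ne_bot P).mpr hP1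
        have := hP.center_nontrivial
        exact (nontrivial_iff_ne_bot _).mp this
      · rw [H6.map_center_eq_inf]
        exact centralizer_le_normalizer _
    · refine ⟨thompsonSubgroup 0 P, H51.thompsonSubgroup_characteristic 0 P, ?_, le_rfl⟩
      intro h
      apply (H54.isConjugacyFunctor_thompson (dvd_zero p) P hP).2.1 hP1
      change (thompsonSubgroup 0 P).map P.subtype = ⊥
      rw [h, Subgroup.map_bot]
  · rintro (_ | _)
    · exact hC
    · rw [H51.thompsonSubgroupAOf_eq] at hN
      exact hN

end Cfsg.Agent.S2800
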