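import Cfsg.Statements.S2808
import Cfsg.Agent.H82.GN

set_option autoImplicit false
universe u
open Cfsg

namespace Cfsg.Agent.S2808

/-- Let p be a prime and S a finite p-group with J(S) generated by the abelian subgroups of largest order, Z(J(S)) its centre and J̃(S) = C_S(Z(J(S))). Put S₀ = [Φ(S), S]·Φ(Φ(S)) if p = 2, S₀ = [[Φ(S), S], S]·Φ(Φ(S)) if p = 3, and S₀ = [Φ(S), S]·℧¹(S) if p > 3. If [Z(J(S)), S] ≠ 1 or S₀ ≠ 1, then S has nontrivial characteristic subgroups S₁ ≤ Z(S) and S₂ ≤ J̃(S), with S₂ characteristic in J̃(S), such that in every finite group G containing S as a Sylow p-subgroup with C_G(O_p(G)) ≤ O_p(G), S in exactly one maximal subgroup of G, and G/K ≅ PSL₂(p^n) for some normal K and n ≥ 1, at least one of S₁, S₂ is normal. -/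
theorem result {S : Type u} [Group S] [Finite S] {p : ℕ} [Fact p.Prime] (hS : IsPGroup p S) (S₀ : Subgroup S) (hS₀ : S₀ = if p = 2 then ⁅frattini S, (⊤ : Subgroup S)⁆ ⊔ (frattini ↥(frattini S)).map (frattini S).subtype else if p = 3 then ⁅⁅frattini S, (⊤ : Subgroup S)⁆, (⊤ : Subgroup S)⁆ ⊔ (frattini ↥(frattini S)).map (frattini S).subtype else ⁅frattini S, (⊤ : Subgroup S)⁆ ⊔ Cfsg.powerClosure p 1 (⊤ : Subgroup S)) (h : ⁅Cfsg.thompsonSubgroupA S ⊓ Subgroup.centralizer (Cfsg.thompsonSubgroupA S : Set S), (⊤ : Subgroup S)⁆ ≠ ⊥ ∨ S₀ ≠ ⊥) : ∃ S₁ S₂ : Subgroup S, S₁ ≠ ⊥ ∧ S₂ ≠ ⊥ ∧ S₁.Characteristic ∧ S₂.Characteristic ∧ S₁ ≤ Subgroup.center S ∧ S₂ ≤ Subgroup.centralizer ((Cfsg.thompsonSubgroupA S ⊓ Subgroup.centralizer (Cfsg.thompsonSubgroupA S : Set S) : Subgroup S) : Set S) ∧ (S₂.subgroupOf (Subgroup.centralizer ((Cfsg.thompsonSubgroupA S ⊓ Subgroup.centralizer (Cfsg.thompsonSubgroupA S : Set S) : Subgroup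 S) : Set S))).Characteristic ∧ ∀ (G : Type u) [Group G] [Finite G] (τ : S →* G), Function.Injective τ → (∃ P : Sylow p G, (P : Subgroup G) = τ.range) → Subgroup.centralizer (Cfsg.pCore p G : Set G) ≤ Cfsg.pCore p G → (∃! M : Subgroup G, IsCoatom M ∧ τ.range ≤ M) → (∃ (K : Subgroup G) (_ : K.Normal) (F : Type) (_ : Field F) (_ : Fintype F) (n : ℕ), 1 ≤ n ∧ Fintype.card F = p ^ n ∧ Nonempty (G ⧸ K ≃* Matrix.ProjectiveSpecialLinearGroup (Fin 2) F)) → (S₁.map τ).Normal ∨ (S₂.map τ).Normal := by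
  open Subgroup H82 H83 in
  have : Nontrivial S := by
    by_contra h1
    have := not_nontrivial_iff_subsingleton.1 h1
    exact h.elim (fun h => h (Subsingleton.elim _ _)) fun h => h (Subsingleton.elim _ _)
  rcases gn_main hS with ⟨S₁, S₂, h1, h2, h3, h4, h5, h6, h7, -, h9⟩ |
    ⟨h1, h2, h3, h4, h5, h6, h7, h8⟩
  · refine ⟨S₁, S₂, h1, h2, h3, h4, h5, h6, h7, ?_⟩
    rintro G _ _ τ hτ ⟨P, hP⟩ h10 h11 ⟨K, _, F, _, _, n, -, hF, h12⟩
    rw [← hP] at h11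
    exact h9 G τ hτ ⟨F, _, _, n, hF, hP ▸ exists_PUe hF P h10 h11 K h12⟩
  exfalso
  have k1 : frattini S ≤ center S → ⁅frattini S, (⊤ : Subgroup S)⁆ = ⊥ := fun h =>
    comm_eq_bot_iff.2 (le_cent_symm (by rwa [coe_top, centralizer_univ]))
  have k2 : (frattini ↥(frattini S)).map (frattini S).subtype = ⊥ :=
    le_bot_iff.1 ((H3.map_frattini_le_iff (hS.to_subgroup _)).2
      ⟨comm_le_of_cent (isEA_iff.1 h4).1, h4.2⟩)
  refine h.elim (fun h => h ?_) fun h => h ?_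
  · rw [h2]; exact comm_eq_bot_iff.2 (le_cent_ctr _)
  rw [hS₀]
  split_ifs with h9 h10
  · rw [k1 (h5 h9), k2, sup_idem]
  · rw [k2, sup_bot_eq, eq_bot_iff]
    refine (commutator_mono (commutator_le.2 fun x hx y _ =>
      Subgroup.mem_upperCentralSeries_succ_iff.1 (h6 h10 hx) y) le_rfl).trans
      (commutator_le.2 fun x hx y _ => Subgroup.mem_upperCentralSeries_succ_iff.1 hx y)
  · have h11 := (Fact.out : p.Prime)
    have h12 : 3 < p := by
      have := h11.two_le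
      omega
    rw [k1 (h7 h12).1, bot_sup_eq, eq_bot_iff]
    exact powerClosure_le.2 fun x _ => (h7 h12).2 ▸ Monoid.pow_exponent_eq_one x

end Cfsg.Agent.S2808
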