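import Cfsg.Statements.S2856
import Cfsg.Agent.H84.SpeAmalgam

set_option autoImplicit false
open Cfsg

namespace Cfsg.Agent.S2856

/-- Let (M₁, M₂) be an amalgam pair in X satisfying the rank-two standing hypothesis (characteristic p, the normalizers in M₁ and in M₂ of a Sylow p-subgroup of M₁ ∩ M₂ equal and contained in M₁ ∩ M₂, and strongly p-embedded residues), λ a vertex of the coset graph, L_λ the subgroup of its stabilizer generated by the p-elements, Q_λ = O_p of the stabilizer, O^p(L_λ) the subgroup of L_λ generated by its elements of order prime to p, and V_λ^{(k)} the subgroup generated by the Z_μ over the vertices μ at distance at most k from λ (Z_μ being generated by the Ω₁(Z(S)), S a Sylow p-subgroup of the stabilizer of μ). If n ≥ 1 and V_λ^{(n)} ≤ Q_λ, then O^p(L_λ) does not centralize V_λ^{(n)}/[V_λ^{(n)}, Q_λ], that is, [V_λ^{(n)}, O^p(L_λ)] is not contained in [V_λ^{(n)}, Q_λ]. -/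
theorem result {X : Type*} [Group X] {p : ℕ} [Fact p.Prime] (M₁ M₂ : Subgroup X) (h : Cfsg.IsSpeAmalgamPair p M₁ M₂) (lam : Cfsg.CosetVertex M₁ M₂) (n : ℕ) (hn : 1 ≤ n) (V : Subgroup X) (hV : V = Cfsg.vertexVIter p M₁ M₂ n lam) (hVQ : V ≤ Cfsg.vertexQ p lam) : ¬ ⁅V, ((Cfsg.pResidual p ↥(Cfsg.pElementClosure p (MulAction.stabilizer X lam))).map (Cfsg.pElementClosure p (MulAction.stabilizer X lam)).subtype)⁆ ≤ ⁅V, Cfsg.vertexQ p lam⁆ := by
  intro hc
  have hP0 := H84.charP_of h.1
  have hgen := h.1.1.1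
  obtain ⟨μ, hμ⟩ := H84.exists_adj lam
  have hP := hP0.edge hμ
  have hN := (H84.normEq_of h).edge hμ
  have := hP.finA
  obtain ⟨m, rfl⟩ : ∃ m, n = m + 1 := ⟨n - 1, by omega⟩
  set A := MulAction.stabilizer X lam with hA
  set B := MulAction.stabilizer X μ with hB
  set Q := Cfsg.vertexQ p lam with hQ
  set U := Cfsg.vertexVIter p M₁ M₂ m μ with hU
  have hUV : U ≤ V := hV ▸ H84.vertexVIter_le_of_adj hgen hμ
  have hBU : B ≤ Subgroup.normalizer (U : Set X) := H84.le_normalizer_vertexVIter p m μ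
  have hAV : A ≤ Subgroup.normalizer (V : Set X) := hV ▸ H84.le_normalizer_vertexVIter p _ lam
  have hQA : Q ≤ A := H84.pCoreOf_le p A
  have hQB : Q ≤ B := hP.pCoreOf_le
  have hAQ : A ≤ Subgroup.normalizer (Q : Set X) := H84.le_normalizer_pCoreOf p A
  have hAZ : A ≤ Subgroup.normalizer (Cfsg.vertexZ p lam : Set X) :=
    H84.le_normalizer_sylowCenterClosure A
  have hAC : A ≤ Subgroup.normalizer ((⁅V, Q⁆ : Subgroup X) : Set X) :=
    H84.le_normalizer_commutator hAV hAQ
  have hZV : Cfsg.vertexZ p lam ≤ V := hV ▸ H84.vertexZ_le_vertexVIter (by simp)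
  have hCV : ⁅V, Q⁆ ≤ V := H84.commutator_le_left_of_le_normalizer (hQA.trans hAV)
  set W := U ⊔ Cfsg.vertexZ p lam ⊔ ⁅V, Q⁆ with hW
  have hWV : W ≤ V := sup_le (sup_le hUV hZV) hCV
  have hAW : A ≤ Subgroup.normalizer (W : Set X) := by
    apply H84.le_of_resOf_le hP hN
    · apply H84.le_normalizer_of_commutator_le
      rw [Subgroup.commutator_comm]
      exact ((Subgroup.commutator_mono hWV le_rfl).trans hc).trans le_sup_right
    · exact H84.le_normalizer_sup (H84.le_normalizer_sup (inf_le_right.trans hBU)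
        (inf_le_left.trans hAZ)) (inf_le_left.trans hAC)
  have hVW : V ≤ W := by
    rw [hV]
    apply H84.vertexVIter_succ_le hgen (le_sup_right.trans le_sup_left)
    intro ν hν
    obtain ⟨g, hg, rfl⟩ := H84.exists_smul_eq_of_adj hμ hν
    rw [← H84.cj_vertexVIter]
    refine le_trans ?_ (H84.cj_eq_of_mem_normalizer (hAW hg)).le
    exact Subgroup.map_mono (le_sup_left.trans le_sup_left)
  have hQfin := H98.finite_of_le hQA
  have hQnil : Group.IsNilpotent Q := (H84.isPGroup_pCoreOf p A).isNilpotent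
  have hCU : ⁅V, Q⁆ ≤ U := by
    apply H84.le_of_le_sup_commutator hQnil (hUV.trans hVQ) (hQB.trans hBU) (hCV.trans hVQ)
    refine (Subgroup.commutator_mono hVW le_rfl).trans ?_
    have hn : Q ≤ Subgroup.normalizer ((U ⊔ ⁅⁅V, Q⁆, Q⁆ : Subgroup X) : Set X) :=
      H84.le_normalizer_sup (hQB.trans hBU)
        (H84.le_normalizer_commutator (hQA.trans hAC) Subgroup.le_normalizer)
    apply H84.commutator_sup_le
    · apply H84.commutator_sup_le
      · exact (H84.commutator_le_left_of_le_normalizer (hQB.trans hBU)).trans le_sup_left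
      · exact H84.commutator_le_of_le_centralizer (H84.sylowCenterClosure_le_centralizer A)
      · exact (hUV.trans hVQ).trans hn
      · exact (hZV.trans hVQ).trans hn
    · exact le_sup_right
    · exact ((sup_le hUV hZV).trans hVQ).trans hn
    · exact (hCV.trans hVQ).trans hn
  have hAU : A ≤ Subgroup.normalizer (U : Set X) := by
    apply H84.le_of_resOf_le hP hN
    · apply H84.le_normalizer_of_commutator_le
      rw [Subgroup.commutator_comm]
      exact ((Subgroup.commutator_mono hUV le_rfl).trans hc).trans hCU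
    · exact inf_le_right.trans hBU
  have hU0 : U = ⊥ :=
    H84.IsAmalgamPair.eq_bot hP.am ((hUV.trans hVQ).trans (le_inf hQA hQB)) hAU hBU
  apply hP.symm.sylowCenterClosure_ne_bot
  exact le_bot_iff.mp (hU0 ▸ H84.vertexZ_le_vertexVIter (δ := μ) (μ := μ) (by simp))

end Cfsg.Agent.S2856
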