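import Cfsg.Statements.S2857
import Cfsg.Agent.H84.SpeAmalgam

set_option autoImplicit false
open Cfsg

namespace Cfsg.Agent.S2857

/-- Let (M₁, M₂) be an amalgam pair in X satisfying the rank-two standing hypothesis (characteristic p, the normalizers in M₁ and in M₂ of a Sylow p-subgroup of M₁ ∩ M₂ equal and contained in M₁ ∩ M₂, and strongly p-embedded residues), λ a vertex of the coset graph, L_λ the subgroup of its stabilizer generated by the p-elements, Q_λ = O_p of the stabilizer, O^p(L_λ) the subgroup of L_λ generated by its elements of order prime to p, and V_λ^{(k)} the subgroup generated by the Z_μ over the vertices μ at distance at most k from λ (Z_μ being generated by the Ω₁(Z(S)), S a Sylow p-subgroup of the stabilizer of μ). If n ≥ 2 and V_λ^{(n)} ≤ Q_λ, then O^p(L_λ) does not centralize V_λ^{(n)}/V_λ^{(n-2)}, that is, [V_λ^{(n)}, O^p(L_λ)] is not contained in V_λ^{(n-2)}. -/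
theorem result {X : Type*} [Group X] {p : ℕ} [Fact p.Prime] (M₁ M₂ : Subgroup X) (h : Cfsg.IsSpeAmalgamPair p M₁ M₂) (lam : Cfsg.CosetVertex M₁ M₂) (n : ℕ) (hn : 2 ≤ n) (hVQ : Cfsg.vertexVIter p M₁ M₂ n lam ≤ Cfsg.vertexQ p lam) : ¬ ⁅Cfsg.vertexVIter p M₁ M₂ n lam, ((Cfsg.pResidual p ↥(Cfsg.pElementClosure p (MulAction.stabilizer X lam))).map (Cfsg.pElementClosure p (MulAction.stabilizer X lam)).subtype)⁆ ≤ Cfsg.vertexVIter p M₁ M₂ (n - 2) lam := by
  intro hc
  have hP0 := H84.charP_of h.1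
  have hgen := h.1.1.1
  obtain ⟨μ, hμ⟩ := H84.exists_adj lam
  have hP := hP0.edge hμ
  have hN := (H84.normEq_of h).edge hμ
  obtain ⟨m, rfl⟩ : ∃ m, n = m + 1 + 1 := ⟨n - 2, by omega⟩
  rw [show m + 1 + 1 - 2 = m by omega] at hc
  have hUV := H84.vertexVIter_le_of_adj hgen (p := p) (n := m + 1) hμ
  have hVU := H84.vertexVIter_le_of_adj hgen (p := p) (n := m) hμ.symm
  have hBU := H84.le_normalizer_vertexVIter p (m + 1) μ
  have hAU : MulAction.stabilizer X lam ≤
      Subgroup.normalizer (Cfsg.vertexVIter p M₁ M₂ (m + 1) μ : Set X) := by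
    apply H84.le_of_resOf_le hP hN
    · apply H84.le_normalizer_of_commutator_le
      rw [Subgroup.commutator_comm]
      exact ((Subgroup.commutator_mono hUV le_rfl).trans hc).trans hVU
    · exact inf_le_right.trans hBU
  have hU0 : Cfsg.vertexVIter p M₁ M₂ (m + 1) μ = ⊥ :=
    H84.IsAmalgamPair.eq_bot hP.am
      ((hUV.trans hVQ).trans (le_inf (H84.pCoreOf_le p _) hP.pCoreOf_le)) hAU hBU
  apply hP.symm.sylowCenterClosure_ne_bot
  exact le_bot_iff.mp (hU0 ▸ H84.vertexZ_le_vertexVIter (δ := μ) (μ := μ) (by simp))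

end Cfsg.Agent.S2857
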