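import Cfsg.Statements.S2951
import Cfsg.Agent.H84.JMain

set_option autoImplicit false
open Cfsg

namespace Cfsg.Agent.S2951

/-- Let G be a finite group of characteristic 2 type in which every 2-local subgroup is solvable and the centralizer of Ω₁(Z(S)) lies in N_G(S) for every Sylow 2-subgroup S; suppose O₂(G) = 1, fix a Sylow 2-subgroup S and a 2-local subgroup M containing N_G(J(S)) (J the Thompson subgroup generated by the elementary abelian 2-subgroups of largest order), and put Z = Ω₁(Z(S)). Let T ≤ S be maximal (for the order of a largest elementary abelian subgroup, then the order of J(T), then the order of T) among the nontrivial 2-subgroups of M lying in a 2-local subgroup not inside M, K a J(T)-component not contained in M with J(T) the Thompson subgroup of every Sylow 2-subgroup of N_G(W_K) containing J(T), and O₂(⟨K, T⟩) ≠ 1, L a maximal 2-local subgroup containing ⟨K, J(T)⟩ (there is only one),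 and Z₀ = Ω₁(Z(J(T))). Then Z₀ ∩ W_K ≠ 1, and one of: Z = Z₀ has order 2; Z = Z₀ has order 4 and T = S; Ω₁(Z(T)) = Z₀ has order 4 and C_L(Z₀) has index 2 in N_G(Z₀). -/
theorem result {G : Type*} [Group G] [Finite G] (hL : Cfsg.IsCharacteristicTwoType G) (hN : ∀ N : Subgroup G, Cfsg.IsTwoLocal N → Group.IsSolvable ↥N)
    (hZ : ∀ S : Sylow 2 G, Subgroup.centralizer (Cfsg.omegaCenterOf (S : Subgroup G) : Set G) ≤ Subgroup.normalizer ((S : Subgroup G) : Set G)) (hO : Cfsg.pCore 2 G = ⊥) (S : Sylow 2 G) (M : Subgroup G) (hM : Cfsg.IsTwoLocal M)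
    (hMJ : Subgroup.normalizer (Cfsg.thompsonSubgroupOf 2 (S : Subgroup G) : Set G) ≤ M) (T : Subgroup G) (hT : T ∈ Cfsg.maxStraddlingTwoSubgroups M)
    (hTS : T ≤ (S : Subgroup G)) (K : Subgroup G) (hK : K ∈ Cfsg.jComponentsOutside M T)
    (L : Subgroup G) (hLmax : Cfsg.IsMaximalTwoLocal L) (hKL : K ⊔ Cfsg.thompsonSubgroupOf 2 T ≤ L)
    (Z Z₀ : Subgroup G) (hZdef : Z = Cfsg.omegaCenterOf (S : Subgroup G)) (hZ₀ : Z₀ = Cfsg.omegaCenterOf (Cfsg.thompsonSubgroupOf 2 T)) :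
    Z₀ ⊓ Cfsg.wOf K ≠ ⊥ ∧
      ((Z = Z₀ ∧ Nat.card ↥Z₀ = 2) ∨ (Z = Z₀ ∧ Nat.card ↥Z₀ = 4 ∧ T = (S : Subgroup G)) ∨
        (Cfsg.omegaCenterOf T = Z₀ ∧ Nat.card ↥Z₀ = 4 ∧
          (L ⊓ Subgroup.centralizer (Z₀ : Set G)).relIndex (Subgroup.normalizer (Z₀ : Set G)) = 2)) := by
  have h : H84.Str M T := ⟨⟨hL, hN, hZ⟩, ⟨S, hMJ⟩, hT⟩
  obtain ⟨L₀, g⟩ := h.exists_good hK
  obtain rfl := g.eq_of_max hLmax hKL
  obtain ⟨K₂, L₂, p⟩ := g.exists_pair h.z hO
  subst hZdef hZ₀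
  obtain ⟨w, h1, h2, h3⟩ := H84.jc_exists_w h.isPGroup g.jc
  refine ⟨fun e => h3 (Subgroup.mem_bot.mp (e.le ⟨h1, h2⟩)), ?_⟩
  rcases p.card_om with h4 | h4
  · refine Or.inl ⟨H53.eq_of_le_of_card_le ((g.om_le h.z hTS).trans (H84.om_le_om_JJ T)) ?_, h4⟩
    refine h4.le.trans ((Subgroup.one_lt_card_iff_ne_bot _).mpr ?_)
    exact H84.omegaOne_ctr_ne_bot S.isPGroup' fun e => h.ne_bot (le_bot_iff.mp (e ▸ hTS))
  · rcases hTS.eq_or_lt with e | hlt
    · exact Or.inr (Or.inl ⟨e ▸ p.om_eq, h4, e⟩)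
    · exact Or.inr (Or.inr ⟨p.om_eq, h4, g.relIndex_two h.z S hlt h4⟩)

end Cfsg.Agent.S2951
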