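import Cfsg.Statements.S2953
import Cfsg.Agent.H84.JMain

set_option autoImplicit false
open Cfsg

namespace Cfsg.Agent.S2953

theorem aux {G : Type*} [Group G] [Finite G] {T K₁ L₁ K₂ L₂ : Subgroup G}
    (p : H84.Pair T K₁ L₁ K₂ L₂) {P : Subgroup G} (hP : P = K₁ ⊔ T) :
    Subgroup.centralizer (Cfsg.pCoreOf 2 P : Set G) ≤ Cfsg.pCoreOf 2 P ∧ Cfsg.IsSylowTwoIn T P ∧
      (Cfsg.pCoreOf 2 P).relIndex P = 6 ∧ ¬ ⁅P, P⁆ ≤ Cfsg.pCoreOf 2 P ∧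
      ⁅Cfsg.omegaCenterOf T, P⁆ ≠ ⊥ ∧
      ∃ L : Subgroup G, Cfsg.IsMaximalTwoLocal L ∧ P ≤ L ∧ Cfsg.IsSylowTwoIn T L ∧
        ∀ L' : Subgroup G, Cfsg.IsMaximalTwoLocal L' → P ≤ L' → L' = L := by
  subst hP
  exact ⟨p.g₁.char p.z, H84.isSylowTwoIn_iff.mpr p.g₁.sylIn_sup, p.g₁.six p.z p.norm,
    p.g₁.not_comm_le, fun e => p.not_central
      (H84.le_centralizer_comm.mp (Subgroup.commutator_eq_bot_iff_le_centralizer.mp e)),
    L₁, p.g₁.max, p.g₁.sup_le_L, H84.isSylowTwoIn_iff.mpr p.g₁.syl,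
    fun L' h1 h2 => p.g₁.eq_of_max h1 ((sup_le_sup_left (H84.JJ_le T) _).trans h2)⟩

/-- Let G be a finite group of characteristic 2 type in which every 2-local subgroup is solvable and the centralizer of Ω₁(Z(S)) lies in N_G(S) for every Sylow 2-subgroup S; suppose O₂(G) = 1, fix a Sylow 2-subgroup S and a 2-local subgroup M containing N_G(J(S)) (J the Thompson subgroup generated by the elementary abelian 2-subgroups of largest order). Let T be maximal (for the order of a largest elementary abelian subgroup, then the order of J(T), then the order of T) among the nontrivial 2-subgroups of M lying in a 2-local subgroup not inside M. Then there are two distinct J(T)-components K₁, K₂ such that, with Pᵢ = ⟨Kᵢ, T⟩: C_G(O₂(Pᵢ)) ≤ O₂(Pᵢ), T is a Sylow 2-subgroup of Pᵢ, O₂(Pᵢ) has index 6 in Pᵢ with Pᵢ/O₂(Pᵢ) non-abelian, [Ω₁(Z(T)), Pᵢ] ≠ 1, O₂(⟨P₁, P₂⟩) = 1, and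 each Pᵢ lies in exactly one maximal 2-local subgroup Lᵢ of G, in which T is a Sylow 2-subgroup. -/
theorem result {G : Type*} [Group G] [Finite G] (hL : Cfsg.IsCharacteristicTwoType G) (hN : ∀ N : Subgroup G, Cfsg.IsTwoLocal N → Group.IsSolvable ↥N)
    (hZ : ∀ S : Sylow 2 G, Subgroup.centralizer (Cfsg.omegaCenterOf (S : Subgroup G) : Set G) ≤ Subgroup.normalizer ((S : Subgroup G) : Set G)) (hO : Cfsg.pCore 2 G = ⊥) (S : Sylow 2 G) (M : Subgroup G) (hM : Cfsg.IsTwoLocal M)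
    (hMJ : Subgroup.normalizer (Cfsg.thompsonSubgroupOf 2 (S : Subgroup G) : Set G) ≤ M) (T : Subgroup G) (hT : T ∈ Cfsg.maxStraddlingTwoSubgroups M) :
    ∃ K₁ K₂ : Subgroup G, K₁ ≠ K₂ ∧ Cfsg.IsJComponent T K₁ ∧ Cfsg.IsJComponent T K₂ ∧
      Cfsg.pCoreOf 2 ((K₁ ⊔ T) ⊔ (K₂ ⊔ T)) = ⊥ ∧
      ∀ P ∈ [K₁ ⊔ T, K₂ ⊔ T],
        Subgroup.centralizer (Cfsg.pCoreOf 2 P : Set G) ≤ Cfsg.pCoreOf 2 P ∧ Cfsg.IsSylowTwoIn T P ∧
        (Cfsg.pCoreOf 2 P).relIndex P = 6 ∧ ¬ ⁅P, P⁆ ≤ Cfsg.pCoreOf 2 P ∧ ⁅Cfsg.omegaCenterOf T, P⁆ ≠ ⊥ ∧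
        ∃ L : Subgroup G, Cfsg.IsMaximalTwoLocal L ∧ P ≤ L ∧ Cfsg.IsSylowTwoIn T L ∧
          ∀ L' : Subgroup G, Cfsg.IsMaximalTwoLocal L' → P ≤ L' → L' = L := by
  have h : H84.Str M T := ⟨⟨hL, hN, hZ⟩, ⟨S, hMJ⟩, hT⟩
  obtain ⟨K, hK⟩ := h.outside_nonempty
  obtain ⟨L, g⟩ := h.exists_good hK
  obtain ⟨K₂, L₂, p⟩ := g.exists_pair h.z hO
  refine ⟨K, K₂, fun e => p.ne (e ▸ g.le), g.jc, p.g₂.jc, p.eq_bot (H84.isPGroup_pCoreOf 2 _)
    (le_sup_left.trans (H84.le_normalizer_pCoreOf 2 _))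
    ((le_sup_left.trans le_sup_right).trans (H84.le_normalizer_pCoreOf 2 _)), fun P hP => ?_⟩
  simp only [List.mem_cons, List.not_mem_nil, or_false] at hP
  rcases hP with e | e
  · exact aux p e
  · exact aux p.symm e

end Cfsg.Agent.S2953
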