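import Cfsg.Statements.S3084
import Cfsg.Agent.H78.Cliff

set_option autoImplicit false
open Cfsg

namespace Cfsg.Agent.S3084
open Cfsg.Agent.H78.Cl Subgroup

section
variable {K : Type*} [Group K] {U : Type*} [AddCommGroup U] [Module (ZMod 2) U] [Fintype U]
  {A : Type} [Ring A] [Algebra (ZMod 3) A] [Nontrivial A] (ρ : Representation (ZMod 2) K U) (e : U → A)

/-- A unit induces a linear map. -/
def Ind (g : Aˣ) (k : K) : Prop := ∀ u, ∃ ε, g * e u = s ε • (e (ρ k u) * g)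

variable {ρ e}

theorem Ind.mul {g g' : Aˣ} {k k' : K} (h : Ind ρ e g k) (h' : Ind ρ e g' k') :
    Ind ρ e (g * g') (k * k') := fun u => by
  obtain ⟨a, ha⟩ := h' u
  obtain ⟨b, hb⟩ := h (ρ k' u)
  refine ⟨a + b, ?_⟩
  rw [Units.val_mul, mul_assoc, ha, mul_smul_comm, ← mul_assoc, hb, smul_mul_assoc, smul_smul, s_add,
    map_mul, mul_assoc]
  rfl

theorem Ind.inv {g : Aˣ} {k : K} (h : Ind ρ e g k) : Ind ρ e g⁻¹ k⁻¹ := fun u => by
  obtain ⟨a, ha⟩ := h (ρ k⁻¹ u)
  refine ⟨a, ?_⟩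
  rw [← Module.End.mul_apply, ← map_mul, mul_inv_cancel, map_one, Module.End.one_apply] at ha
  rw [← Units.inv_mul_cancel_left g (e (ρ k⁻¹ u) * _), ← mul_assoc (g : A), ha, smul_mul_assoc,
    mul_smul_comm, smul_smul, s_sq, one_smul, Units.mul_inv_cancel_right]

variable (ρ e) in
/-- The units inducing elements of `K`. -/
def RR : Subgroup Aˣ where
  carrier := {g | ∃ k, Ind ρ e g k}
  one_mem' := ⟨1, fun u => ⟨0, by simp [s_zero]⟩⟩
  mul_mem' := fun ⟨_, h⟩ ⟨_, h'⟩ => ⟨_, h.mul h'⟩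
  inv_mem' := fun ⟨_, h⟩ => ⟨_, h.inv⟩

variable {β : U →ₗ[ZMod 2] U →ₗ[ZMod 2] ZMod 2} (h : Tw β e) (hρ : Function.Injective ρ)
include h hρ

theorem Ind.uniq {g : Aˣ} {k k' : K} (h1 : Ind ρ e g k) (h2 : Ind ρ e g k') : k = k' :=
  hρ (LinearMap.ext fun u => by
    obtain ⟨a, ha⟩ := h1 u
    obtain ⟨b, hb⟩ := h2 u
    rw [ha, ← smul_mul_assoc, ← smul_mul_assoc, Units.mul_left_inj] at hb
    exact h.inj hb)

/-- The projection onto `K`. -/
noncomputable def pr : RR ρ e →* K :=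
  MonoidHom.mk' (fun g => g.2.choose) fun a b =>
    Ind.uniq h hρ (a * b).2.choose_spec (a.2.choose_spec.mul b.2.choose_spec)

theorem pr_iff {g : RR ρ e} {k : K} : pr h hρ g = k ↔ Ind ρ e g k :=
  ⟨fun hk => hk ▸ g.2.choose_spec, Ind.uniq h hρ g.2.choose_spec⟩

theorem ex_rep (g : (pr h hρ).ker) : ∃ w ε, ((g : RR ρ e) : Aˣ) = s ε • e w :=
  h.of_sign (Units.ne_zero _) fun u => by simpa using (pr_iff h hρ).1 g.2 u

/-- The map onto the vector space. -/
noncomputable def ch : (pr h hρ).ker →* Multiplicative U :=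
  MonoidHom.mk' (fun g => Multiplicative.ofAdd (ex_rep h hρ g).choose) fun a b => by
    obtain ⟨x, hx⟩ := (ex_rep h hρ a).choose_spec
    obtain ⟨y, hy⟩ := (ex_rep h hρ b).choose_spec
    obtain ⟨z, hz⟩ := (ex_rep h hρ (a * b)).choose_spec
    generalize (ex_rep h hρ (a * b)).choose = w at hz ⊢
    generalize (ex_rep h hρ a).choose = u at hx ⊢
    generalize (ex_rep h hρ b).choose = v at hy ⊢
    rw [coe_mul, coe_mul, Units.val_mul, hx, hy, smul_mul_smul_comm, h.mul, smul_smul, ← s_add,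
      ← s_add] at hz
    rw [← ofAdd_add, h.inj hz]

theorem ch_spec (g : (pr h hρ).ker) : ∃ ε, ((g : RR ρ e) : Aˣ) = s ε • e (ch h hρ g).toAdd :=
  (ex_rep h hρ g).choose_spec

theorem ch_eq {g : (pr h hρ).ker} {ε : ZMod 2} {w : U} (hg : ((g : RR ρ e) : Aˣ) = s ε • e w) :
    ch h hρ g = Multiplicative.ofAdd w := by
  obtain ⟨x, hx⟩ := ch_spec h hρ g
  rw [← h.inj (hx.symm.trans hg)]; rfl

theorem ex_el (w : U) (ε : ZMod 2) : ∃ g : (pr h hρ).ker, ((g : RR ρ e) : Aˣ) = s ε • e w := by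
  have h1 : s ε • e w * (s ε * s (β w w)) • e w = 1 := by
    rw [smul_mul_smul_comm, h.sq, smul_smul, ← mul_assoc, s_sq, one_mul, s_sq, one_smul]
  have h2 : (s ε * s (β w w)) • e w * s ε • e w = 1 := by
    rw [smul_mul_smul_comm, h.sq, smul_smul, mul_right_comm (s ε), s_sq, one_mul, s_sq, one_smul]
  have h3 : Ind ρ e ⟨_, _, h1, h2⟩ 1 := fun u => ⟨β w u + β u w, by
    simp only [map_one, Module.End.one_apply, smul_mul_assoc, mul_smul_comm]
    rw [h.comm, smul_comm]⟩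
  exact ⟨⟨⟨_, 1, h3⟩, (pr_iff h hρ).2 h3⟩, rfl⟩

theorem ext3 {a b : (pr h hρ).ker} (k : (((a : RR ρ e) : Aˣ) : A) = ((b : RR ρ e) : Aˣ)) : a = b :=
  Subtype.ext (Subtype.ext (Units.ext k))

theorem comm_iff (a b : (pr h hρ).ker) : a * b = b * a ↔
    β (ch h hρ a).toAdd (ch h hρ b).toAdd + β (ch h hρ b).toAdd (ch h hρ a).toAdd = 0 := by
  obtain ⟨x, hx⟩ := ch_spec h hρ a
  obtain ⟨y, hy⟩ := ch_spec h hρ b
  have h1 : (((a * b : (pr h hρ).ker) : RR ρ e) : Aˣ) = s (β (ch h hρ a).toAdd (ch h hρ b).toAdd +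
      β (ch h hρ b).toAdd (ch h hρ a).toAdd) • ((((b * a : (pr h hρ).ker) : RR ρ e) : Aˣ) : A) := by
    simp only [coe_mul, Units.val_mul, hx, hy, smul_mul_smul_comm]
    rw [h.comm, smul_comm, mul_comm (s x)]
  refine ⟨fun k => s_eq_one _ ?_, fun k => ext3 h hρ (by rw [h1, k, s_zero, one_smul])⟩
  have := Fact.mk Nat.prime_three
  rw [k] at h1
  exact smul_left_injective (ZMod 3) (Units.ne_zero _) (h1.symm.trans (one_smul _ _).symm)

theorem ker_ch : (ch h hρ).ker = center (pr h hρ).ker := by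
  ext a
  rw [MonoidHom.mem_ker, mem_center_iff]
  refine ⟨fun k b => by rw [comm_iff, k]; simp, fun k => ?_⟩
  by_contra k1
  obtain ⟨v, hv⟩ := h.nd (ch h hρ a).toAdd k1
  obtain ⟨b, hb⟩ := ex_el h hρ v 0
  have := (comm_iff h hρ b a).1 (k b)
  rw [ch_eq h hρ hb, toAdd_ofAdd, hv] at this
  exact one_ne_zero this

theorem xs [Nontrivial U] : ∃ z : (pr h hρ).ker, H49.XS (⊤ : Subgroup (pr h hρ).ker) z := by
  obtain ⟨z, hz⟩ := ex_el h hρ 0 1
  rw [h.zero, s_one, neg_smul, one_smul] at hz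
  have h1 : ∀ a : (pr h hρ).ker, ch h hρ a = 1 → a = 1 ∨ a = z := fun a k => by
    obtain ⟨x, hx⟩ := ch_spec h hρ a
    rw [k, toAdd_one, h.zero] at hx
    rcases z2 x with rfl | rfl
    · exact Or.inl (ext3 h hρ (by rw [hx, s_zero, one_smul]; rfl))
    · exact Or.inr (ext3 h hρ (by rw [hx, s_one, hz, neg_smul, one_smul]))
  refine ⟨z, mem_top _, fun k => ?_, ext3 h hρ (by simp [hz]), fun x _ => ext3 h hρ (by simp [hz]),
    fun x _ k => h1 x ?_, fun x _ y _ => ?_, ?_⟩
  · rw [k] at hz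
    refine smul_one_ne (A := A) (c := 2) (by decide) ?_
    rw [two_smul]
    exact add_eq_zero_iff_eq_neg.2 hz
  · rw [← MonoidHom.mem_ker, ker_ch, mem_center_iff]
    exact fun y => (k y (mem_top _)).symm
  · rcases h1 ((y * x)⁻¹ * (x * y)) (by
      rw [map_mul, map_inv, map_mul, map_mul, mul_comm (ch h hρ y), inv_mul_cancel]) with k | k
    · exact Or.inl (inv_mul_eq_one.1 k).symm
    · exact Or.inr (inv_mul_eq_iff_eq_mul.1 k)
  · obtain ⟨u, hu⟩ := exists_ne (0 : U)
    obtain ⟨v, hv⟩ := h.nd u hu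
    obtain ⟨a, ha⟩ := ex_el h hρ u 0
    obtain ⟨b, hb⟩ := ex_el h hρ v 0
    refine ⟨b, mem_top _, a, mem_top _, fun k => ?_⟩
    rw [comm_iff, ch_eq h hρ ha, ch_eq h hρ hb, toAdd_ofAdd, toAdd_ofAdd, hv] at k
    exact one_ne_zero k

end


/-- Let K be a group acting faithfully and linearly on a finite-dimensional vector space U of dimension 2n ≥ 2 over the field with two elements, preserving a quadratic form q whose polar bilinear form is non-degenerate and which vanishes on some n-dimensional subspace (a non-singular form of plus type). Then there is a finite group R with a normal extraspecial 2-subgroup Q of order 2^(2n+1), an isomorphism of R/Q with K, and a surjective homomorphism χ from Q onto (the additive group of) U with kernel the centre of Q, such that χ carries conjugation by any r in R to the action of the image of r in K, and an element a of Q squares to the identity exactly when q vanishes at χ(a). -/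
theorem result {K : Type*} [Group K] {U : Type*} [AddCommGroup U] [Module (ZMod 2) U] [Module.Finite (ZMod 2) U] (n : ℕ) (hn1 : 1 ≤ n) (hn : Module.finrank (ZMod 2) U = 2 * n) (ρ : Representation (ZMod 2) K U) (hρ : Function.Injective ρ) (q : QuadraticForm (ZMod 2) U) (hq : ∀ (k : K) (u : U), q (ρ k u) = q u) (hnd : (QuadraticMap.polarBilin q).Nondegenerate) (hplus : ∃ W : Submodule (ZMod 2) U, Module.finrank (ZMod 2) ↥W = n ∧ ∀ w ∈ W, q w = 0) : ∃ (R : Type) (_ : Group R) (_ : Finite R) (Q : Subgroup R) (hN : Q.Normal) (e : R ⧸ Q ≃* K) (χ : ↥Q →* Multiplicative U), Cfsg.IsExtraspecial 2 ↥Q ∧ Nat.card ↥Q = 2 ^ (2 * n + 1) ∧ Function.Surjective χ ∧ χ.ker = Subgroup.center ↥Q ∧ (∀ (r : R) (a : ↥Q), χ ⟨r * a * r⁻¹, hN.conj_mem (a : R) a.2 r⟩ = Multiplicative.ofAdd (ρ (e (r : R ⧸ Q)) (Multiplicative.toAdd (χ a)))) ∧ ∀ a : ↥Q, a * a = 1 ↔ q (Multiplicative.toAdd (χ a)) = 0 := by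
  have hU : Nat.card U = 2 ^ (2 * n) := by
    have := Module.finite_of_finite (ZMod 2) (M := U)
    rw [Module.natCard_eq_pow_finrank (K := ZMod 2), hn, Nat.card_zmod]
  have := Module.finite_of_finite (ZMod 2) (M := U)
  let _ := Fintype.ofFinite U
  have : Nontrivial U := Module.nontrivial_of_finrank_pos (R := ZMod 2) (by omega)
  obtain ⟨β, hβ⟩ := LinearMap.BilinMap.toQuadraticMap_surjective q
  have b1 : ∀ u, β u u = q u := fun u => by rw [← hβ]; rfl
  have b2 : ∀ u v, β u v + β v u = q (u + v) - q u - q v := fun u v => by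
    simp only [← b1, map_add, LinearMap.add_apply]; ring
  obtain ⟨A, _, _, _, _, e, h⟩ := exists_tw β (fun u hu => by
    by_contra k
    push Not at k
    refine hu (hnd.1 u fun v => ?_)
    rw [QuadraticMap.polarBilin_apply_apply, QuadraticMap.polar, ← b2, add_comm]
    exact (z2 _).resolve_right (k v)) (by
    rw [← Nat.card_eq_fintype_card, hU, pow_mul]
    push_cast
    rw [show (4 : ZMod 3) = 1 from rfl, one_pow]
    decide)
  have hs : Function.Surjective (pr h hρ) := fun k => by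
    obtain ⟨g, hg⟩ := h.exists_lift (ρ k) (fun u => by rw [b1, b1, hq])
      fun u v => by rw [b2, b2, ← map_add, hq, hq, hq]
    exact ⟨⟨g, k, hg⟩, (pr_iff h hρ).2 hg⟩
  have hc : Function.Surjective (ch h hρ) := fun w => by
    obtain ⟨g, hg⟩ := ex_el h hρ w.toAdd 0
    exact ⟨g, ch_eq h hρ hg⟩
  obtain ⟨z, hz⟩ := xs h hρ
  have hx := hz.isExtraspecial_top
  refine ⟨RR ρ e, inferInstance, inferInstance, (pr h hρ).ker, inferInstance,
    QuotientGroup.quotientKerEquivOfSurjective _ hs, ch h hρ, hx, ?_, hc, ker_ch h hρ, fun r a => ?_,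
    fun a => ?_⟩
  · rw [← (ch h hρ).ker.card_mul_index, index_ker, MonoidHom.range_eq_top.2 hc, card_top, ker_ch, hx.2,
      pow_succ']
    exact congrArg _ hU
  · obtain ⟨x, hx⟩ := ch_spec h hρ a
    obtain ⟨y, hy⟩ := (pr_iff h hρ).1 (rfl : pr h hρ r = _) (ch h hρ a).toAdd
    refine ch_eq h hρ (ε := x + y) ?_
    simp only [coe_mul, coe_inv, Units.val_mul]
    rw [hx, mul_smul_comm, hy, smul_mul_assoc, smul_mul_assoc, Units.mul_inv_cancel_right, smul_smul, s_add]
    rfl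
  · obtain ⟨x, hx⟩ := ch_spec h hρ a
    have h1 : ((((a * a : (pr h hρ).ker) : RR ρ e) : Aˣ) : A) = s (q (ch h hρ a).toAdd) • 1 := by
      simp only [coe_mul, Units.val_mul, hx, smul_mul_smul_comm]
      rw [h.sq, s_sq, one_smul, b1]
    refine ⟨fun k => s_eq_one _ ?_, fun k => ext3 h hρ (by rw [h1, k, s_zero, one_smul]; rfl)⟩
    have := Fact.mk Nat.prime_three
    rw [k] at h1
    exact smul_left_injective (ZMod 3) (one_ne_zero (α := A)) (h1.symm.trans (one_smul _ _).symm)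

end Cfsg.Agent.S3084
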