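import Cfsg.Statements.S3085
import Mathlib

set_option autoImplicit false
open Cfsg

namespace Cfsg.Agent.S3085

open Subgroup

structure XS (Q : Type*) [Group Q] (z : Q) : Prop where
  cen : ∀ a, z * a = a * z
  sq : z * z = 1
  ne : z ≠ 1
  comm : ∀ a b, a * b = b * a ∨ a * b = z * (b * a)
  of_cen : ∀ c, (∀ a, c * a = a * c) → c = 1 ∨ c = z

variable {Q : Type*} [Group Q] {z : Q}

theorem XS.anti (h : XS Q z) {a b : Q} (hab : a * b ≠ b * a) : a * b = z * (b * a) :=
  (h.comm a b).resolve_left hab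

theorem XS.mul_comm_of_not (h : XS Q z) {a b v : Q} (ha : a * v ≠ v * a) (hb : b * v ≠ v * b) :
    a * b * v = v * (a * b) := by
  have h1 := h.anti ha
  have h2 := h.anti hb
  calc a * b * v = a * (z * (v * b)) := by rw [mul_assoc, h2]
    _ = z * (a * v) * b := by rw [← mul_assoc, ← h.cen a]; group
    _ = (z * z) * (v * a) * b := by rw [h1]; group
    _ = v * (a * b) := by rw [h.sq]; group

theorem not_comm_left {a b v : Q} (ha : a * v = v * a) (hb : b * v ≠ v * b) :
    a * b * v ≠ v * (a * b) := by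
  intro hh
  apply hb
  have : a * (b * v) = a * (v * b) := by
    rw [← mul_assoc, hh, ← mul_assoc, ← mul_assoc, ha]
  exact mul_left_cancel this

theorem not_comm_right {a b v : Q} (ha : a * v ≠ v * a) (hb : b * v = v * b) :
    a * b * v ≠ v * (a * b) := by
  intro hh
  apply ha
  have : (a * v) * b = (v * a) * b := by
    rw [mul_assoc, ← hb, ← mul_assoc, hh, mul_assoc]
  exact mul_right_cancel this

open Classical in
noncomputable def tvHom (h : XS Q z) (v : Q) (hv : v * v = z) : Q →* Q :=
  MonoidHom.mk' (fun x => if x * v = v * x then x else x * v) (by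
    intro a b
    by_cases ha : a * v = v * a <;> by_cases hb : b * v = v * b
    · have : a * b * v = v * (a * b) := by rw [mul_assoc, hb, ← mul_assoc, ha, mul_assoc]
      simp only [ha, hb, this, if_true]
    · simp only [ha, hb, not_comm_left ha hb, if_true, if_false]
      rw [mul_assoc]
    · simp only [ha, hb, not_comm_right ha hb, if_true, if_false]
      rw [mul_assoc a v b, ← hb, mul_assoc]
    · simp only [ha, hb, h.mul_comm_of_not ha hb, if_true, if_false]
      have h2 := h.anti hb
      have h3 : v * b = z * (b * v) := by rw [h2, ← mul_assoc, h.sq, one_mul]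
      calc a * b = a * b * (z * z) := by rw [h.sq, mul_one]
        _ = a * (z * b) * (v * v) := by rw [h.cen b, hv]; group
        _ = a * (z * (b * v)) * v := by group
        _ = a * v * (b * v) := by rw [← h3]; group)

open Classical in
theorem tvHom_apply (h : XS Q z) (v : Q) (hv : v * v = z) (x : Q) :
    tvHom h v hv x = if x * v = v * x then x else x * v := rfl

theorem tvHom_inj (h : XS Q z) (v : Q) (hv : v * v = z) : Function.Injective (tvHom h v hv) := by
  rw [injective_iff_map_eq_one]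
  intro x hx
  rw [tvHom_apply] at hx
  split_ifs at hx with h1
  · exact hx
  · exfalso; apply h1
    have : x = v⁻¹ := eq_inv_of_mul_eq_one_left hx
    rw [this]; group

noncomputable def tv [Finite Q] (h : XS Q z) (v : Q) (hv : v * v = z) : MulAut Q :=
  MulEquiv.ofBijective (tvHom h v hv) (Finite.injective_iff_bijective.mp (tvHom_inj h v hv))

theorem tv_pos [Finite Q] (h : XS Q z) {v : Q} (hv : v * v = z) {x : Q} (hx : x * v = v * x) :
    tv h v hv x = x := by
  change tvHom h v hv x = x
  rw [tvHom_apply, if_pos hx]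

theorem tv_neg [Finite Q] (h : XS Q z) {v : Q} (hv : v * v = z) {x : Q} (hx : x * v ≠ v * x) :
    tv h v hv x = x * v := by
  change tvHom h v hv x = x * v
  rw [tvHom_apply, if_neg hx]

theorem tv_sq [Finite Q] (h : XS Q z) {v : Q} (hv : v * v = z) :
    tv h v hv * tv h v hv = MulAut.conj v := by
  ext x
  simp only [MulAut.mul_apply, MulAut.conj_apply]
  by_cases hx : x * v = v * x
  · rw [tv_pos h hv hx, tv_pos h hv hx, ← hx]; group
  · rw [tv_neg h hv hx, tv_neg h hv (not_comm_right hx rfl)]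
    have h2 := h.anti hx
    have h3 : v * x = z * (x * v) := by rw [h2, ← mul_assoc, h.sq, one_mul]
    rw [h3, mul_assoc x v v, hv, ← h.cen x]; group

theorem tv_comm [Finite Q] (h : XS Q z) {u v : Q} (hu : u * u = z) (hv : v * v = z)
    (huv : u * v = v * u) : tv h u hu * tv h v hv = tv h v hv * tv h u hu := by
  ext x
  simp only [MulAut.mul_apply]
  by_cases hx : x * v = v * x <;> by_cases hy : x * u = u * x
  · rw [tv_pos h hv hx, tv_pos h hu hy, tv_pos h hv hx]
  · rw [tv_pos h hv hx, tv_neg h hu hy, tv_pos h hv]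
    rw [mul_assoc, huv, ← mul_assoc, hx, mul_assoc]
  · rw [tv_neg h hv hx, tv_pos h hu hy, tv_neg h hv hx, tv_pos h hu]
    rw [mul_assoc, ← huv, ← mul_assoc, hy, mul_assoc]
  · rw [tv_neg h hv hx, tv_neg h hu hy, tv_neg h hu (not_comm_right hy huv.symm),
      tv_neg h hv (not_comm_right hx huv), mul_assoc, mul_assoc, huv]

theorem conj_swap (φ : MulAut Q) (a : Q) : φ * MulAut.conj a = MulAut.conj (φ a) * φ := by
  ext x; simp

theorem cen_of_conj {a : Q} (h : MulAut.conj a = 1) (x : Q) : a * x = x * a := by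
  have := congrArg (fun f : MulAut Q => f x) h
  simp only [MulAut.conj_apply, MulAut.one_apply] at this
  rwa [mul_inv_eq_iff_eq_mul] at this

theorem XS.sq_cen (h : XS Q z) (a x : Q) : a * a * x = x * (a * a) := by
  by_cases ha : a * x = x * a
  · rw [mul_assoc, ha, ← mul_assoc, ha, mul_assoc]
  · exact h.mul_comm_of_not ha ha

theorem XS.cen_sq (h : XS Q z) {c : Q} (hc : ∀ a, c * a = a * c) : c * c = 1 := by
  rcases h.of_cen c hc with rfl | rfl
  · simp
  · exact h.sq

/-- centrality as triviality of the inner automorphism -/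
theorem conj_eq_one_of_cen {a : Q} (h : ∀ x, a * x = x * a) : MulAut.conj a = 1 := by
  ext x; simp [h x]

theorem XS.conj_comm (h : XS Q z) (a b : Q) :
    MulAut.conj a * MulAut.conj b = MulAut.conj b * MulAut.conj a := by
  rw [← map_mul, ← map_mul]
  rcases h.comm a b with h1 | h1
  · rw [h1]
  · rw [h1, map_mul, conj_eq_one_of_cen h.cen, one_mul]

theorem main [Finite Q] (h : XS Q z) (L : Subgroup (MulAut Q)) (hL : (Cfsg.Inn Q).IsComplement' L)
    (v e₁ e₂ : Q) (hv : v * v = z) (h1 : e₁ * e₁ = 1) (h2 : e₂ * e₂ = 1) (h12 : e₁ * e₂ = e₂ * e₁)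
    (h1v : e₁ * v = v * e₁) (h2v : e₂ * v = v * e₂)
    (n1 : ¬ ∀ x, e₁ * x = x * e₁) (n2 : ¬ ∀ x, e₂ * x = x * e₂)
    (n12 : ¬ ∀ x, e₁ * e₂ * x = x * (e₁ * e₂)) : False := by
  have hdisj : ∀ a : Q, MulAut.conj a ∈ L → MulAut.conj a = 1 := fun a ha =>
    (Subgroup.disjoint_def.mp hL.disjoint) ⟨a, rfl⟩ ha
  have hlift : ∀ (u : Q) (hu : u * u = z), ∃ w : Q, MulAut.conj w * tv h u hu ∈ L := by
    intro u hu
    obtain ⟨⟨⟨_, a, rfl⟩, l⟩, hl⟩ := (hL.existsUnique (tv h u hu)).exists
    refine ⟨a⁻¹, ?_⟩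
    rw [← hl]
    simp only [map_inv, inv_mul_cancel_left]
    exact l.2
  have hnc : ∀ {u : Q}, u * u = z → ¬ ∀ x, u * x = x * u := fun {u} hu hc =>
    h.ne (by rw [← hu]; exact h.cen_sq hc)
  obtain ⟨w, hw⟩ := hlift v hv
  -- w does not commute with v
  have hwv : w * v ≠ v * w := by
    intro hc
    have h3 := L.mul_mem hw hw
    have h4 : MulAut.conj w * tv h v hv * (MulAut.conj w * tv h v hv) = MulAut.conj (w * w * v) := by
      rw [mul_assoc, ← mul_assoc (tv h v hv), conj_swap, tv_pos h hv hc, mul_assoc, tv_sq, map_mul,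
        map_mul, mul_assoc]
    rw [h4] at h3
    have h5 := hdisj _ h3
    rw [map_mul, conj_eq_one_of_cen (h.sq_cen w), one_mul] at h5
    exact hnc hv (cen_of_conj h5)
  -- w commutes with every v * e
  have key : ∀ e : Q, e * e = 1 → e * v = v * e → (¬ ∀ x, e * x = x * e) →
      w * (v * e) = (v * e) * w := by
    intro e he hev hne
    have hu : v * e * (v * e) = z := by
      rw [mul_assoc, ← mul_assoc e, hev, mul_assoc, he, mul_one, hv]
    have huv : v * e * v = v * (v * e) := by rw [mul_assoc, hev]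
    obtain ⟨a, ha⟩ := hlift (v * e) hu
    have h3 := L.mul_mem (L.mul_mem ha hw) (L.inv_mem (L.mul_mem hw ha))
    have e1 : MulAut.conj a * tv h (v * e) hu * (MulAut.conj w * tv h v hv) =
        MulAut.conj (a * tv h (v * e) hu w) * (tv h (v * e) hu * tv h v hv) := by
      rw [mul_assoc, ← mul_assoc (tv h (v * e) hu), conj_swap, map_mul]; group
    have e2 : MulAut.conj w * tv h v hv * (MulAut.conj a * tv h (v * e) hu) =
        MulAut.conj (w * tv h v hv a) * (tv h (v * e) hu * tv h v hv) := by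
      rw [mul_assoc, ← mul_assoc (tv h v hv), conj_swap, map_mul, tv_comm h hu hv huv]; group
    rw [e1, e2] at h3
    have e3 : MulAut.conj (a * tv h (v * e) hu w) * (tv h (v * e) hu * tv h v hv) *
        (MulAut.conj (w * tv h v hv a) * (tv h (v * e) hu * tv h v hv))⁻¹ =
        MulAut.conj ((a * tv h (v * e) hu w) * (w * tv h v hv a)⁻¹) := by
      rw [map_mul (MulAut.conj) (a * _), map_inv]; group
    rw [e3] at h3
    have h5 := hdisj _ h3
    rw [map_mul, map_inv, mul_inv_eq_one, map_mul, map_mul] at h5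
    by_contra hwu
    rw [tv_neg h hu hwu, map_mul, ← mul_assoc, h.conj_comm a w, mul_assoc, mul_right_inj] at h5
    by_cases hav : a * v = v * a
    · rw [tv_pos h hv hav, mul_eq_left] at h5
      exact hnc hu (cen_of_conj h5)
    · rw [tv_neg h hv hav, map_mul, map_mul, mul_right_inj, mul_eq_left] at h5
      exact hne (cen_of_conj h5)
  have k1 := key e₁ h1 h1v n1
  have k2 := key e₂ h2 h2v n2
  have k3 := key (e₁ * e₂) (by rw [mul_assoc, ← mul_assoc e₂, ← h12, mul_assoc, h2, mul_one, h1])
    (by rw [mul_assoc, h2v, ← mul_assoc, h1v, mul_assoc]) n12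
  apply hwv
  have c1 : Commute w (v * e₁) := k1
  have c2 : Commute w (v * e₂) := k2
  have c3 : Commute w (v * (e₁ * e₂)) := k3
  have c4 := (c1.mul_right c2).mul_right c3.inv_right
  have : v * e₁ * (v * e₂) * (v * (e₁ * e₂))⁻¹ = v := by
    rw [mul_assoc v e₁, ← mul_assoc e₁ v, h1v]; group
  rw [this] at c4
  exact c4

theorem exists_XS [Finite Q] (hQ : Cfsg.IsExtraspecial 2 Q) : ∃ z : Q, XS Q z := by
  obtain ⟨⟨_, _, hc⟩, hZ⟩ := hQ
  obtain ⟨z, hz, huniq⟩ := (Nat.card_eq_two_iff' (1 : center Q)).mp hZ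
  have hof : ∀ c ∈ center Q, c = 1 ∨ c = z := by
    intro c hc
    by_cases h1 : c = 1
    · exact Or.inl h1
    · right
      have := huniq ⟨c, hc⟩ (fun h => h1 (congrArg Subtype.val h))
      exact congrArg Subtype.val this
  have hz1 : (z : Q) ≠ 1 := fun h => hz (Subtype.ext h)
  refine ⟨z, fun a => (mem_center_iff.mp z.2 a).symm, ?_, hz1, ?_, ?_⟩
  · rcases hof _ (mul_mem z.2 z.2) with h | h
    · exact h
    · exact absurd (mul_eq_left.mp h) hz1
  · intro a b
    have : a * b * a⁻¹ * b⁻¹ ∈ center Q := by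
      rw [← hc]; exact commutator_mem_commutator (mem_top a) (mem_top b)
    rcases hof _ this with h | h
    · left; rw [mul_inv_eq_one, mul_inv_eq_iff_eq_mul] at h; exact h
    · right; rw [← h]; group
  · intro c hc
    exact hof c (mem_center_iff.mpr fun g => (hc g).symm)


/-- Let Q be an extraspecial 2-group of order 2^(2n+1) with n ≥ 3 that is of plus type (it contains an elementary abelian subgroup of order 2^(n+1)). Then the group of inner automorphisms of Q has no complement in the full automorphism group of Q: the extension of the inner automorphism group (elementary abelian of order 2^(2n)) by the outer automorphism group (the orthogonal group of plus type) does not split. -/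
theorem result {Q : Type*} [Group Q] [Finite Q] (n : ℕ) (hn : 3 ≤ n) (hQ : Cfsg.IsExtraspecial 2 Q) (hcard : Nat.card Q = 2 ^ (2 * n + 1)) (hplus : ∃ E : Subgroup Q, Cfsg.IsElementaryAbelian 2 E ∧ Nat.card ↥E = 2 ^ (n + 1)) (L : Subgroup (MulAut Q)) : ¬ (Cfsg.Inn Q).IsComplement' L := by
  intro hL
  obtain ⟨z, h⟩ := exists_XS hQ
  obtain ⟨E, ⟨hEc, hE2⟩, hEn⟩ := hplus
  have hE : ∀ a ∈ E, ∀ b ∈ E, a * b = b * a := fun a ha b hb => setLike_mul_comm ha hb
  have hE2' : ∀ a ∈ E, a * a = 1 := fun a ha => by rw [← sq]; exact hE2 a ha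
  -- an element of order four
  have hv : ∃ v : Q, v * v = z := by
    by_contra hno
    push Not at hno
    have hsq : ∀ a : Q, a * a = 1 := fun a =>
      (h.of_cen _ (h.sq_cen a)).resolve_right (hno a)
    have hcomm : ∀ a b : Q, a * b = b * a := by
      intro a b
      have h1 : ∀ a : Q, a⁻¹ = a := fun a => inv_eq_of_mul_eq_one_left (hsq a)
      rw [← h1 (a * b), mul_inv_rev, h1, h1]
    have hc : commutator Q = ⊥ := by
      rw [commutator_def, Subgroup.commutator_eq_bot_iff_le_centralizer]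
      intro a _ b _
      exact hcomm b a
    have := hQ.2
    rw [← hQ.1.2.2, hc] at this
    simp at this
  obtain ⟨v, hv⟩ := hv
  classical
  -- the centraliser of v in E
  let C : Subgroup Q := E ⊓ Subgroup.centralizer {v}
  have hC : ∀ a, a ∈ C ↔ a ∈ E ∧ a * v = v * a := fun a => by
    simp [C, Subgroup.mem_centralizer_singleton_iff]
  have hidx : (C.subgroupOf E).index ≤ 2 := by
    by_cases hall : ∀ a ∈ E, a * v = v * a
    · have : C.subgroupOf E = ⊤ := by
        rw [Subgroup.subgroupOf_eq_top]; intro a ha; exact (hC a).mpr ⟨ha, hall a ha⟩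
      rw [this]; simp
    · push Not at hall
      obtain ⟨a, haE, hav⟩ := hall
      apply le_of_eq
      rw [Subgroup.index_eq_two_iff]
      refine ⟨⟨a, haE⟩, fun b => ?_⟩
      simp only [Subgroup.mem_subgroupOf, hC, Subgroup.coe_mul, b.2, mul_mem b.2 haE, true_and]
      by_cases hb : (b : Q) * v = v * b
      · exact Or.inr ⟨hb, not_comm_left hb hav⟩
      · exact Or.inl ⟨h.mul_comm_of_not hb hav, hb⟩
  have hCcard : 8 ≤ Nat.card C := by
    have h1 := (C.subgroupOf E).card_mul_index
    rw [Nat.card_congr (Subgroup.subgroupOfEquivOfLe (show C ≤ E from inf_le_left)).toEquiv, hEn] at h1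
    have h2 : 2 ^ 4 ≤ 2 ^ (n + 1) := Nat.pow_le_pow_right (by norm_num) (by omega)
    have h3 : Nat.card C * (C.subgroupOf E).index ≤ Nat.card C * 2 := Nat.mul_le_mul_left _ hidx
    omega
  have hout : ∀ s : Finset Q, s.card ≤ 4 → ∃ a ∈ C, a ∉ s := by
    intro s hs
    by_contra hno
    push Not at hno
    have : (C : Set Q).ncard ≤ (s : Set Q).ncard := Set.ncard_le_ncard hno s.finite_toSet
    rw [Set.ncard_coe_finset] at this
    have h2 : (C : Set Q).ncard = Nat.card C := rfl
    omega
  obtain ⟨e₁, he₁, n₁⟩ := hout {1, z} (Finset.card_le_two.trans (by norm_num))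
  obtain ⟨e₂, he₂, n₂⟩ := hout {1, z, e₁, e₁ * z} Finset.card_le_four
  simp only [Finset.mem_insert, Finset.mem_singleton, not_or] at n₁ n₂
  obtain ⟨h1E, h1v⟩ := (hC _).mp he₁
  obtain ⟨h2E, h2v⟩ := (hC _).mp he₂
  refine main h L hL v e₁ e₂ hv (hE2' _ h1E) (hE2' _ h2E) (hE _ h1E _ h2E) h1v h2v ?_ ?_ ?_
  · intro hc; rcases h.of_cen _ hc with h3 | h3
    · exact n₁.1 h3
    · exact n₁.2 h3
  · intro hc; rcases h.of_cen _ hc with h3 | h3
    · exact n₂.1 h3
    · exact n₂.2.1 h3
  · intro hc; rcases h.of_cen _ hc with h3 | h3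
    · apply n₂.2.2.1
      have := hE2' _ h1E
      rw [← h3] at this
      exact (mul_left_cancel this).symm
    · apply n₂.2.2.2
      rw [← h3, ← mul_assoc, hE2' _ h1E, one_mul]

end Cfsg.Agent.S3085
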