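import Cfsg.Statements.S3106
import Cfsg.Agent.H20.A5C3
import Cfsg.Agent.H51.Constraint
import Cfsg.Agent.H3.Cores

set_option autoImplicit false
open Cfsg

namespace Cfsg.Agent.S3106

/-- Let X be a finite nonsolvable 2-constrained group with no nontrivial normal subgroup of odd order and of sectional 2-rank at most 4, and suppose X/O₂(X) contains a subgroup isomorphic to the alternating group of degree 5. Then O₂(X) is elementary abelian of order 16, or O₂(X) is a central product of a quaternion group of order 8 and a dihedral group of order 8 (it has order 32 and is generated by two elementwise-commuting subgroups, one quaternion of order 8 and one dihedral of order 8, meeting in the centre). -/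
theorem result {X : Type*} [Group X] [Finite X] (hns : ¬ Group.IsSolvable X) (hc : Cfsg.IsPConstrained 2 X) (hO : Cfsg.oddCore X = ⊥)
    (h4 : Cfsg.SectionalPRankLE 2 4 X)
    (hQ : ∃ A : Subgroup (X ⧸ Cfsg.pCore 2 X), Nonempty (↥A ≃* ↥(alternatingGroup (Fin 5)))) :
    (Cfsg.IsElementaryAbelian 2 (Cfsg.pCore 2 X) ∧ Nat.card ↥(Cfsg.pCore 2 X) = 16) ∨
      (Nat.card ↥(Cfsg.pCore 2 X) = 32 ∧ ∃ A B : Subgroup ↥(Cfsg.pCore 2 X),
        Nonempty (↥A ≃* QuaternionGroup 2) ∧ Nonempty (↥B ≃* DihedralGroup 4) ∧ (∀ a ∈ A, ∀ b ∈ B, a * b = b * a) ∧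
          A ⊔ B = ⊤ ∧ A ⊓ B = Subgroup.center ↥(Cfsg.pCore 2 X)) := by
  have := Fact.mk Nat.prime_two
  obtain ⟨A, ⟨e⟩⟩ := hQ
  have hcT := (H51.isPConstrained_iff_of_bot hO).1 hc
  have hp := H3.pCore_isPGroup 2 X
  have hsec : H69.SecLE 16 X := H69.secLE_of_sectional h4
  clear hns hc hO h4
  generalize_proofs nT at *
  generalize pCore 2 X = T at *
  set Y : Subgroup X := A.comap (QuotientGroup.mk' T) with hY
  have hTY : T ≤ Y := fun x hx => by
    show (QuotientGroup.mk' T) x ∈ A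
    rw [show (QuotientGroup.mk' T) x = 1 from (QuotientGroup.eq_one_iff x).2 hx]
    exact A.one_mem
  let φ : Y →* alternatingGroup (Fin 5) :=
    e.toMonoidHom.comp (((QuotientGroup.mk' T).comp Y.subtype).codRestrict A fun y => y.2)
  have hφ : Function.Surjective φ := fun a => by
    obtain ⟨x, hx⟩ := QuotientGroup.mk'_surjective T (e.symm a).1
    refine ⟨⟨x, show (QuotientGroup.mk' T) x ∈ A from hx ▸ (e.symm a).2⟩, ?_⟩
    exact e.eq_symm_apply.1 (Subtype.ext hx)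
  have hk : ∀ y : Y, y ∈ T.subgroupOf Y ↔ φ y = 1 := fun y => by
    refine ⟨fun h => ?_, fun h => ?_⟩
    · exact e.map_eq_one_iff.2 (Subtype.ext ((QuotientGroup.eq_one_iff y.1).2 h))
    · exact (QuotientGroup.eq_one_iff y.1).1 (congrArg Subtype.val (e.map_eq_one_iff.1 h))
  have lift : ∀ (a : alternatingGroup (Fin 5)) (m : ℕ), a ^ m = 1 →
      ∃ (σ : Y) (k : ℕ), σ ^ m = 1 ∧ φ σ = a ^ 2 ^ k := fun a m ha => by
    obtain ⟨y, rfl⟩ := hφ a
    obtain ⟨k, hk'⟩ := hp ⟨_, (hk (y ^ m)).2 (by rw [map_pow, ha])⟩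
    refine ⟨y ^ 2 ^ k, k, ?_, map_pow _ _ _⟩
    rw [← pow_mul, mul_comm, pow_mul]
    exact Subtype.ext (congrArg (fun x : T => (x : X)) hk')
  have nt : ∀ (a : alternatingGroup (Fin 5)) (m k : ℕ), Odd m → a ^ m = 1 → a ^ 2 ^ k = 1 → a = 1 :=
    fun a m k hm h1 h2 => Subgroup.mem_bot.1 (H61.Con.mem_of_coprime (H := ⊥)
      (Nat.Coprime.pow_left k (Nat.coprime_two_left.2 hm)) h2 h1)
  let a : alternatingGroup (Fin 5) := ⟨finRotate 5, Equiv.Perm.mem_alternatingGroup.2 (by decide)⟩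
  let b : alternatingGroup (Fin 5) := 
    ⟨Equiv.swap 1 4 * Equiv.swap 2 3, Equiv.Perm.mem_alternatingGroup.2 (by decide)⟩
  let c : alternatingGroup (Fin 5) := 
    ⟨Equiv.swap 0 1 * Equiv.swap 1 2, Equiv.Perm.mem_alternatingGroup.2 (by decide)⟩
  obtain ⟨σ, k, s5, hσ⟩ := lift a 5 (by decide)
  obtain ⟨s, l, s3, hs⟩ := lift c 3 (by decide)
  obtain ⟨t, ht⟩ := hφ b
  have hs5 : IsSimpleGroup (alternatingGroup (Fin 5)) := alternatingGroup.isSimpleGroup (by simp)
  have hker : T.subgroupOf Y = φ.ker := Subgroup.ext hk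
  have h : H20.A5C.Hyp (T.subgroupOf Y) σ t s := by
    refine ⟨inferInstance, hp.of_equiv (Subgroup.subgroupOfEquivOfLe hTY).symm, fun N hN hle => ?_,
      H69.secLE_subgroup_iff.2 fun K N _ h => hsec K N h, s5, (hk _).2 ?_, (hk _).2 ?_, s3,
      fun h => ?_, ?_⟩
    · rw [← Subgroup.comap_map_eq_self (f := φ) (H := N) (hker ▸ hle)]
      rcases (hN.map _ hφ).eq_bot_or_eq_top with k | k <;> rw [k]
      exacts [Or.inl hker.symm, Or.inr (Subgroup.comap_top _)]
    · rw [map_mul, map_mul, map_mul, map_inv, hσ, ht, ← conj_pow,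
        show b * a * b⁻¹ = a⁻¹ by decide, inv_pow, inv_mul_cancel]
    · rw [map_pow, ht]; decide
    · exact absurd (nt c 3 l (by decide) (by decide) (hs ▸ (hk s).1 h)) (by decide)
    · by_contra h
      push Not at h
      have h1 : σ.1 ∈ T := hcT fun x hx =>
        (mul_inv_eq_iff_eq_mul.1 (congrArg Subtype.val (h ⟨x, hTY hx⟩ hx))).symm
      exact absurd (nt a 5 k (by decide) (by decide) (hσ ▸ (hk σ).1 h1)) (by decide)
  have hcard : Nat.card (T.subgroupOf Y) = Nat.card T :=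
    Nat.card_congr (Subgroup.subgroupOfEquivOfLe hTY).toEquiv
  rcases H20.A5C.good_aux _ Y _ σ t s rfl h with ⟨h1, h2, -⟩ | ⟨z, zT, z2, z1, zc, h1, h2, h3⟩
  · have h3 : ∀ x ∈ T, x ^ 2 = 1 := fun x hx => congrArg Subtype.val (h2 ⟨x, hTY hx⟩ hx)
    exact Or.inl ⟨⟨⟨⟨fun x y => Subtype.ext (H61.Con.comm_of_sq h3 _ x.2 _ y.2)⟩⟩, h3⟩, hcard ▸ h1⟩
  refine Or.inr ⟨hcard ▸ h1, ?_⟩
  let w : T := ⟨z.1, zT⟩
  have w2 : w ^ 2 = 1 := Subtype.ext (congrArg (fun x : Y => (x : X)) z2)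
  have tr : ∀ (x : T) (y : Y), (x : X) = y → (x ∈ Subgroup.zpowers w ↔ y ∈ Subgroup.zpowers z) :=
    fun x y hxy => by
      rw [H61.Con.mem_zp w2, H61.Con.mem_zp z2]
      simp only [Subtype.ext_iff, hxy]
      rfl
  refine H20.A5C.ident (MulAut.conjNormal σ.1) (fun x => ?_) w2
    (fun h => z1 (Subtype.ext (congrArg (fun x : T => (x : X)) h)))
    (fun g => Subtype.ext (congrArg (fun x : Y => (x : X)) (zc ⟨g, hTY g.2⟩)))
    (Subtype.ext (mul_inv_eq_iff_eq_mul.2 (congrArg Subtype.val (zc σ)))) (hcard ▸ h1)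
    (fun x => (tr _ _ rfl).2 (h2 ⟨x, hTY x.2⟩ x.2))
    (fun x hx => (tr _ _ rfl).2 (h3 ⟨x, hTY x.2⟩ x.2 ((tr _ _ rfl).1 hx))) ?_
  · have : MulAut.conjNormal (H := T) (σ.1 ^ 5) x = x := by
      rw [show σ.1 ^ 5 = 1 from congrArg Subtype.val s5, map_one]; rfl
    rwa [map_pow] at this
  · by_contra h
    push Not at h
    have := H69.card_le_of_secLE hsec (K := T) (N := ⊥) fun x hx => congrArg Subtype.val (h ⟨x, hx⟩)
    rw [← hcard, h1, Subgroup.card_bot] at this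
    omega

end Cfsg.Agent.S3106
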