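import Cfsg.Statements.S3117
import Cfsg.Agent.H89.Inv3a

set_option autoImplicit false
open Cfsg

namespace Cfsg.Agent.S3117

open Subgroup H89.Inv3

universe u

variable {L : Type*} [Group L] [Group.IsPerfect L]

/-- restriction of an action to an invariant subgroup -/
@[reducible] def resG {Y : Type*} [Group Y] [MulDistribMulAction L Y] (K : Subgroup Y)
    (h : ∀ (l : L), ∀ x ∈ K, l • x ∈ K) : MulDistribMulAction L K where
  smul l x := ⟨l • x.1, h l _ x.2⟩
  one_smul x := Subtype.ext (one_smul L x.1)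
  mul_smul l m x := Subtype.ext (mul_smul l m x.1)
  smul_mul l x y := Subtype.ext (smul_mul' l x.1 y.1)
  smul_one l := Subtype.ext (smul_one l)

theorem step {Y : Type u} [Group Y] [Finite Y] [MulDistribMulAction L Y] (h2 : IsPGroup 2 Y)
    (h4 : {y : Y | y * y = 1}.ncard ≤ 4)
    (ih : ∀ K : Subgroup Y, (∀ (l : L), ∀ x ∈ K, l • x ∈ K) → K ≠ ⊤ → ∀ x ∈ K, ∀ l : L, l • x = x)
    (y : Y) (l : L) : l • y = y := by
  classical
  by_contra k0
  obtain ⟨C, hC⟩ : ∃ C : Subgroup Y, ∀ x, x ∈ C ↔ ∀ l : L, l • x = x :=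
    ⟨FixedPoints.subgroup L Y, fun x => Iff.rfl⟩
  have yC : y ∉ C := fun k => k0 ((hC y).1 k l)
  have top : ∀ K : Subgroup Y, (∀ (l : L), ∀ x ∈ K, l • x ∈ K) → ¬ K ≤ C → K = ⊤ :=
    fun K h k => by_contra fun e => k fun x hx => (hC x).2 (ih K h e x hx)
  have stab : ¬ ∀ (l : L) (x : Y), x⁻¹ * l • x ∈ C := fun h => by
    let d : L →* Y := MonoidHom.mk' (fun l => y⁻¹ * l • y) fun l m => by
      have := (hC _).1 (h m y) l
      rw [smul_mul', smul_inv'] at this
      rw [mul_smul, ← this]; group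
    haveI := h2.isNilpotent
    exact k0 (inv_mul_eq_one.1 (triv_solv d inferInstance l)).symm
  have gen : ∀ K : Subgroup Y, (∀ (l : L) (x : Y), x⁻¹ * l • x ∈ K) → K = ⊤ := fun K h => by
    have := top (closure {z | ∃ (l : L) (x : Y), z = x⁻¹ * l • x}) (fun m z hz => by
      induction hz using closure_induction with
      | mem z hz =>
        obtain ⟨l, x, rfl⟩ := hz
        exact subset_closure ⟨m * l * m⁻¹, m • x, by simp [smul_mul', mul_smul]⟩
      | one => rw [smul_one]; exact one_mem _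
      | mul a b _ _ ha hb => rw [smul_mul']; exact mul_mem ha hb
      | inv a _ ha => rw [smul_inv']; exact inv_mem ha) fun k =>
        stab fun l x => k (subset_closure ⟨l, x, rfl⟩)
    exact eq_top_iff.2 (this ▸ (closure_le K).2 fun _ ⟨l, x, e⟩ => e ▸ h l x)
  have CT : C ≠ ⊤ := fun e => yC (e ▸ mem_top y)
  have nrm : ∀ x, ∀ c ∈ C, x * c * x⁻¹ ∈ C := by
    haveI := h2.isNilpotent
    have := top (normalizer (C : Set Y)) (fun l x hx => mem_normalizer_fintype fun c hc => by
      have k := (hC _).1 ((mem_normalizer_iff.1 hx c).1 hc) l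
      rw [smul_mul', smul_mul', smul_inv', (hC c).1 hc] at k
      exact k ▸ (mem_normalizer_iff.1 hx c).1 hc)
      (Group.normalizerCondition_of_isNilpotent C (lt_top_iff_ne_top.2 CT)).not_ge
    exact fun x c hc => (mem_normalizer_iff.1 (this ▸ mem_top x) c).1 hc
  have cen : ∀ c ∈ C, ∀ x, Commute c x := fun c hc x => by
    have := gen (centralizer {c}) fun l x => mem_centralizer_singleton_iff.2 (by
      have k := (hC _).1 (nrm x c hc) l
      rw [smul_mul', smul_mul', smul_inv', (hC c).1 hc] at k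
      calc x⁻¹ * l • x * c = x⁻¹ * (l • x * c * (l • x)⁻¹) * l • x := by group
        _ = _ := by rw [k]; group)
    exact (mem_centralizer_singleton_iff.1 (this ▸ mem_top x)).symm
  have sq : ∀ x : Y, x * x ∈ C := fun x => by
    haveI := h2.isNilpotent
    obtain ⟨M, hM, -⟩ := (eq_top_or_exists_le_coatom C).resolve_left CT
    haveI : M.Normal := (Group.normalizerCondition_of_isNilpotent (G := Y)).normal_of_coatom M hM
    have MS : ∀ z : Y, z * z ∈ M := fun z => by
      by_contra k
      obtain ⟨n, hn⟩ := h2.to_quotient M (z : Y ⧸ M)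
      have z1 : M ⊔ zpowers (z * z) = ⊤ := hM.2 _ (lt_of_le_of_ne le_sup_left fun e =>
        k (e ▸ mem_sup_right (mem_zpowers _)))
      obtain ⟨m, hm, _, ⟨i, rfl⟩, e⟩ := mem_sup_of_normal_left.1 (z1 ▸ mem_top z)
      have e1 : (z : Y ⧸ M) ^ (2 * i - 1) = 1 := by
        have := congrArg (QuotientGroup.mk' M) e
        simp only [map_mul, map_zpow, QuotientGroup.mk'_apply, (QuotientGroup.eq_one_iff m).2 hm,
          one_mul] at this
        rw [zpow_sub_one, zpow_mul, zpow_two, this, mul_inv_cancel]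
      have e2 : orderOf (z : Y ⧸ M) ∣ 1 := by
        obtain ⟨j, -, e3⟩ := (Nat.dvd_prime_pow Nat.prime_two).1 (orderOf_dvd_of_pow_eq_one hn)
        have e4 := orderOf_dvd_iff_zpow_eq_one.2 e1
        rcases j with _ | j
        · rw [e3]; rfl
        · rw [e3] at e4
          have := (Int.natCast_dvd_natCast.2 (dvd_pow_self 2 (Nat.succ_ne_zero j))).trans e4
          omega
      have := (QuotientGroup.eq_one_iff z).1 (orderOf_eq_one_iff.1 (Nat.dvd_one.1 e2))
      exact k (mul_mem this this)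
    by_contra k
    have := top (closure {z | ∃ x : Y, z = x * x}) (fun m z hz => by
      induction hz using closure_induction with
      | mem z hz =>
        obtain ⟨x, rfl⟩ := hz
        exact subset_closure ⟨m • x, smul_mul' _ _ _⟩
      | one => rw [smul_one]; exact one_mem _
      | mul a b _ _ ha hb => rw [smul_mul']; exact mul_mem ha hb
      | inv a _ ha => rw [smul_inv']; exact inv_mem ha) fun e => k (e (subset_closure ⟨x, rfl⟩))
    exact hM.1 (eq_top_iff.2 (this ▸ (closure_le M).2 fun _ ⟨x, e⟩ => e ▸ MS x))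
  have cm : ∀ a b : Y, a⁻¹ * b⁻¹ * a * b ∈ C := fun a b => by
    rw [show a⁻¹ * b⁻¹ * a * b = (a⁻¹ * a⁻¹) * ((a * b⁻¹) * (a * b⁻¹)) * (b * b) by group]
    exact mul_mem (mul_mem (sq _) (sq _)) (sq _)
  have sm : ∀ a b : Y, a * b * (a * b) = (a * a) * (b * b) * (b⁻¹ * a⁻¹ * b * a) := fun a b => by
    calc a * b * (a * b) = a * a * b * ((a⁻¹ * b⁻¹ * a * b)⁻¹ * b) := by group
      _ = _ := by rw [(cen _ (inv_mem (cm a b)) b).eq]; group
  have cm2 : ∀ a b : Y, (a⁻¹ * b⁻¹ * a * b) * (a⁻¹ * b⁻¹ * a * b) = 1 := fun a b => by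
    calc _ = a⁻¹ * ((a⁻¹ * b⁻¹ * a * b) * a) * (a⁻¹ * b⁻¹ * a * b) := by
          rw [(cen _ (cm a b) a).eq]; group
      _ = (a * a)⁻¹ * b⁻¹ * ((a * a) * b) := by group
      _ = 1 := by rw [(cen _ (sq a) b).eq]; group
  have sq2 : ∀ a b c : Y, a ∈ C → b ∈ C → a * b * c * (a * b * c) = a * a * (b * b) * (c * c) :=
    fun a b c ha hb => by
      calc _ = a * (b * c * a) * (b * c) := by group
        _ = a * a * b * (c * b) * c := by rw [← (cen a ha _).eq]; group
        _ = _ := by rw [← (cen b hb c).eq]; group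
  have e4 : ∀ x : Y, x * x * (x * x) = 1 := fun x => by
    let K : Subgroup Y :=
      { carrier := {x | x * x * (x * x) = 1}
        one_mem' := by simp
        inv_mem' := fun {a} ha => by
          change _ = _ at ha ⊢
          rw [← mul_inv_rev, ← mul_inv_rev, ha, inv_one]
        mul_mem' := fun {a b} ha hb => by
          change _ = _ at ha hb ⊢
          rw [sm a b, sq2 _ _ _ (sq a) (sq b), ha, hb, cm2]; simp }
    have := gen K fun l x => by
      change _ = _
      rw [sm x⁻¹ (l • x), ← smul_mul', (hC _).1 (sq x), show x⁻¹ * x⁻¹ * (x * x) = 1 by group, one_mul, cm2]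
    exact (this ▸ mem_top x : x ∈ K)
  have inv : ∀ x : Y, x * x = 1 → x ∈ C := fun x hx => (hC x).2 fun l =>
    small {y : Y | y * y = 1} (Set.toFinite _) h4 (fun l y hy => by
      change _ = _ at hy ⊢
      rw [← smul_mul', hy, smul_one]) l hx
  let W : Subgroup Y :=
    { carrier := {x | x * x = 1}
      one_mem' := by simp
      inv_mem' := fun {a} ha => by
        change _ = _ at ha ⊢
        rw [← mul_inv_rev, ha, inv_one]
      mul_mem' := fun {a b} ha hb => by
        change _ = _ at ha hb ⊢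
        have := sq2 a b 1 (inv a ha) (inv b hb)
        simpa [ha, hb] using this }
  have sp : H2.Sp2 W := ⟨fun z hz => cen z (inv z hz), fun z hz => hz, e4⟩
  let D : Subgroup Y :=
    { carrier := {x | ∃ c ∈ C, x = c * c}
      one_mem' := ⟨1, one_mem _, by simp⟩
      inv_mem' := by
        rintro _ ⟨c, hc, rfl⟩
        exact ⟨c⁻¹, inv_mem hc, mul_inv_rev _ _⟩
      mul_mem' := by
        rintro _ _ ⟨a, ha, rfl⟩ ⟨b, hb, rfl⟩
        exact ⟨a * b, mul_mem ha hb, by simpa using (sq2 a b 1 ha hb).symm⟩ }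
  obtain ⟨V, _, _, π, -, h1, h2', h3, -⟩ := H38.exists_section (1 : MulAut Y) ⊤ C
    (fun _ _ => mem_top _) (fun _ hx => hx) (fun x _ y _ => cm x y)
  obtain ⟨U, _, _, ζ, -, k1, k2, k3, -⟩ := H38.exists_section (1 : MulAut Y) W D
    (fun _ hx => hx) (fun _ hx => hx) (fun x hx y _ => by rw [sp.cm_left hx]; exact one_mem _)
  have hc := H38.card_of_additive (by rintro _ ⟨c, -, rfl⟩; exact e4 c) k1 k2 k3
  simp only [mem_top, true_and, forall_const] at h1 h2' h3
  choose s hs using h3
  have πi : ∀ x, π x⁻¹ = - π x := fun x =>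
    H38.additive_inv (M := ⊤) (fun x _ y _ => h1 x y) (mem_top x)
  have eq : ∀ x y, π x = π y ↔ x⁻¹ * y ∈ C := fun x y => by
    rw [← h2', h1, πi, neg_add_eq_zero]
  have hQ : ∀ x, ζ (s (π x) * s (π x)) = ζ (x * x) := fun x => by
    have k := (eq x _).1 (hs (π x)).symm
    generalize s (π x) = w at k
    rw [show w = 1 * (x⁻¹ * w) * x by rw [one_mul, (cen _ k x).eq]; group,
      sq2 _ _ _ (one_mem _) k, one_mul, one_mul, k1 _ (e4 _) _ (e4 _),
      (k2 _ (e4 _)).2 ⟨_, k, rfl⟩, zero_add]
  have hpol : ∀ x y, ζ (x * y * (x * y)) - ζ (x * x) - ζ (y * y) = ζ (y⁻¹ * x⁻¹ * y * x) := by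
    intro x y
    rw [sp.sq_mul, k1 _ (mul_mem (sp.sq x) (sp.sq y)) _ (sp.cm_mem y x),
      k1 _ (sp.sq x) _ (sp.sq y)]
    abel
  have act : ∀ (l : L) x, π (l • s (π x)) = π (l • x) := fun l x => (eq _ _).2 (by
    have k := (eq _ _).1 (hs (π x))
    rw [← smul_inv', ← smul_mul', (hC _).1 k]; exact k)
  letI : DistribMulAction L V :=
    { smul := fun l v => π (l • s v)
      one_smul := fun v => by change π (1 • s v) = v; rw [one_smul, hs]
      mul_smul := fun l m v => by
        change π ((l * m) • s v) = π (l • s (π (m • s v))); rw [act, mul_smul]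
      smul_zero := fun l => by
        change π (l • s 0) = 0
        rw [(hC _).1 ((h2' _).1 (hs 0)), hs]
      smul_add := fun l a b => by
        change π (l • s (a + b)) = π (l • s a) + π (l • s b)
        rw [← h1, ← smul_mul', ← act l (s a * s b), h1, hs, hs] }
  refine yC ((h2' y).1 (core (L := L) (W := U)
    (fun v => by rw [← hs v, two_nsmul, ← h1, h2']; exact sq _)
    (fun c => by
      obtain ⟨z, hz, rfl⟩ := k3 c
      rw [two_nsmul, ← k1 z hz z hz, sp.exp z hz, H38.additive_one k1]) (fun v => ζ (s v * s v))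
    ((k2 _ (e4 _)).2 ⟨_, (h2' _).1 (hs 0), rfl⟩)
    (fun a a' b => by
      rw [← hs a, ← hs a', ← hs b]
      generalize s a = x
      generalize s a' = x'
      generalize s b = y
      simp only [← h1, hQ]
      rw [hpol, hpol, hpol, sp.cm_mul_right, k1 _ (sp.cm_mem _ _) _ (sp.cm_mem _ _)])
    (fun v hv => ?_) ?_ (fun l v => ?_) (fun v hv => ?_) _))
  · obtain ⟨c, hc, e⟩ := (k2 _ (sp.sq _)).1 hv
    rw [← hs v, h2']
    have := inv (1 * c⁻¹ * s v) (by rw [sq2 _ _ _ (one_mem _) (inv_mem hc), e]; group)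
    rwa [one_mul, C.mul_mem_cancel_left (inv_mem hc)] at this
  · have : Nat.card W ≤ 4 := h4
    have : 0 < Nat.card D := Nat.card_pos
    nlinarith
  · change ζ (s (π (l • s v)) * s (π (l • s v))) = _
    rw [hQ, ← smul_mul', (hC _).1 (sq _)]
  · let K : Subgroup Y :=
      { carrier := {x | ∀ l : L, π (l • x) = π x}
        one_mem' := fun l => by rw [smul_one]
        inv_mem' := fun {a} ha l => by rw [smul_inv', πi, πi, ha]
        mul_mem' := fun {a b} ha hb l => by rw [smul_mul', h1, h1, ha, hb] }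
    by_contra v0
    have := top K (fun l x hx m => by rw [← mul_smul, hx, hx]) fun k =>
      v0 ((hs v).symm.trans ((h2' _).2 (k fun l => (hv l).trans (hs v).symm)))
    exact stab fun l x => (eq _ _).1 ((this ▸ mem_top x : x ∈ K) l).symm

theorem all (n : ℕ) : ∀ (Y : Type u) [Group Y] [Finite Y] [MulDistribMulAction L Y],
    Nat.card Y = n → IsPGroup 2 Y → {y : Y | y * y = 1}.ncard ≤ 4 → ∀ (y : Y) (l : L),
    l • y = y := by
  induction n using Nat.strong_induction_on with
  | _ n ih =>
    intro Y _ _ _ hn h2 h4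
    refine step h2 h4 fun K hK hT x hx l => ?_
    letI := resG K hK
    refine congrArg Subtype.val (ih _ ?_ K rfl (h2.to_subgroup K) (le_trans ?_ h4) ⟨x, hx⟩ l)
    · rw [← hn, ← card_top (G := Y)]
      exact Set.Finite.card_lt_card (Set.toFinite _)
        (SetLike.coe_ssubset_coe.2 (lt_top_iff_ne_top.2 hT))
    · exact Set.ncard_le_ncard_of_injOn Subtype.val (fun a ha => congrArg Subtype.val ha)
        Subtype.val_injective.injOn (Set.toFinite _)

/-- If X is a finite 2-group containing exactly three involutions, then the automorphism group of X is solvable. -/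
theorem result {X : Type*} [Group X] [Finite X] (h2 : IsPGroup 2 X) (h3 : Nat.card {x : X // orderOf x = 2} = 3) : Group.IsSolvable (MulAut X) := by
  obtain ⟨n, hn⟩ := WellFoundedLT.antitone_chain_condition (derivedSeries_antitone (MulAut X))
  have e : ⁅derivedSeries (MulAut X) n, derivedSeries (MulAut X) n⁆ = derivedSeries (MulAut X) n :=
    (hn (n + 1) n.le_succ).symm
  haveI := isPerfect_iff.2 e
  refine ⟨n, eq_bot_iff.2 fun φ hφ => MulEquiv.ext fun x =>
    all (L := derivedSeries (MulAut X) n) _ X rfl h2 ?_ x ⟨φ, hφ⟩⟩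
  refine (Set.ncard_le_ncard (t := insert 1 {x : X | orderOf x = 2}) (fun y hy => ?_)
    (Set.toFinite _)).trans ((Set.ncard_insert_le _ _).trans (Nat.succ_le_succ h3.le))
  by_cases k : y = 1
  · exact Or.inl k
  · exact Or.inr (orderOf_eq_prime ((pow_two y).trans hy) k)

end Cfsg.Agent.S3117
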