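import Cfsg.Statements.S3356
import Cfsg.Agent.H61.HalfTrans
import Cfsg.Agent.H5.Semiregular

set_option autoImplicit false
open Cfsg

namespace Cfsg.Agent.S3356

/-- Let G be a finite 3/2-transitive permutation group: G acts faithfully and transitively on a finite set, the point stabilizers are non-trivial, and for each point a all orbits of G_a on the remaining points have the same size. Suppose G has a regular normal subgroup N and G is not a Frobenius group (some two-point stabilizer is non-trivial). Then N is an elementary abelian p-group for some prime p, and every non-trivial normal subgroup of G contains N (so N is the unique minimal normal subgroup). -/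
theorem result {G Ω : Type*} [Group G] [Finite G]
    [MulAction G Ω] [FaithfulSMul G Ω] [Finite Ω] (htrans : MulAction.IsPretransitive G Ω)
    (hne : ∀ a : Ω, MulAction.stabilizer G a ≠ ⊥)
    (hhalf : ∀ a b c : Ω, b ≠ a → c ≠ a →
      Nat.card (MulAction.orbit (MulAction.stabilizer G a) b) = Nat.card (MulAction.orbit (MulAction.stabilizer G a) c))
    (N : Subgroup G) [hN : N.Normal] (hNt : MulAction.IsPretransitive N Ω) (hNr : ∀ a : Ω, MulAction.stabilizer N a = ⊥)
    (hnotF : ∃ a b : Ω, a ≠ b ∧ MulAction.stabilizer G a ⊓ MulAction.stabilizer G b ≠ ⊥) :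
    (∃ p : ℕ, p.Prime ∧ IsMulCommutative N ∧ ∀ x ∈ N, x ^ p = 1) ∧
    (∀ M : Subgroup G, M.Normal → M ≠ ⊥ → N ≤ M) := by
  obtain ⟨a, b, hab, hne2⟩ := hnotF
  have hfree : ∀ x ∈ N, ∀ c : Ω, x • c = c → x = 1 := by
    intro x hx c hc
    have : (⟨x, hx⟩ : N) ∈ MulAction.stabilizer N c := hc
    rw [hNr, Subgroup.mem_bot] at this
    exact congrArg Subtype.val this
  have heq : ∀ u ∈ N, ∀ v ∈ N, u • a = v • a → u = v := fun u hu v hv e =>
    (inv_mul_eq_one.mp (hfree _ (N.mul_mem (N.inv_mem hv) hu) a (by
      rw [mul_smul, e, inv_smul_smul]))).symm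
  let _ := H5.conjAction (MulAction.stabilizer G a) N Subgroup.le_normalizer_of_normal
  have hco : ∀ (g : MulAction.stabilizer G a) (u : N), (g • u).1 • a = g.1 • u.1 • a :=
    fun g u => by
      change (g.1 * u.1 * g.1⁻¹) • a = _
      rw [mul_smul, mul_smul, inv_smul_eq_iff.mpr (MulAction.mem_stabilizer_iff.mp g.2).symm]
  have hf : ∀ h : MulAction.stabilizer G a, (∀ y : N, h • y = y) → h = 1 := fun h hh =>
    Subtype.ext (eq_of_smul_eq_smul (α := Ω) fun c => by
      obtain ⟨u, rfl⟩ := hNt.exists_smul_eq a c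
      change h.1 • u.1 • a = (1 : G) • u.1 • a
      rw [← hco, hh, one_smul])
  have hm : ∀ y : N, y ≠ 1 → (MulAction.stabilizer (MulAction.stabilizer G a) y).index =
      (MulAction.stabilizer (MulAction.stabilizer G a) b).index := by
    intro y hy
    have : MulAction.stabilizer (MulAction.stabilizer G a) y =
        MulAction.stabilizer (MulAction.stabilizer G a) (y.1 • a) := by
      ext g
      exact ⟨fun hg => (hco g y).symm.trans (congrArg (fun u : N => u.1 • a) hg),
        fun hg => Subtype.ext (heq _ (g • y).2 _ y.2 ((hco g y).trans hg))⟩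
    rw [this, MulAction.index_stabilizer, MulAction.index_stabilizer, ← Nat.card_coe_set_eq,
      ← Nat.card_coe_set_eq]
    exact hhalf a _ _ (fun e => hy (Subtype.ext (hfree _ y.2 a e))) hab.symm
  have hns : (MulAction.stabilizer (MulAction.stabilizer G a) b).index ≠
      Nat.card (MulAction.stabilizer G a) := by
    intro e
    have e' := (MulAction.stabilizer (MulAction.stabilizer G a) b).index_mul_card
    rw [e] at e'
    replace e := Subgroup.eq_bot_of_card_eq _
      (Nat.eq_of_mul_eq_mul_left Nat.card_pos (e'.trans (mul_one _).symm))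
    refine hne2 (eq_bot_iff.mpr fun g hg => ?_)
    have : (⟨g, hg.1⟩ : MulAction.stabilizer G a) ∈
      MulAction.stabilizer (MulAction.stabilizer G a) b := hg.2
    rw [e, Subgroup.mem_bot] at this
    exact congrArg Subtype.val this
  have : Nontrivial N := by
    obtain ⟨u, hu⟩ := hNt.exists_smul_eq a b
    exact ⟨⟨u, 1, fun e => hab (by rw [← hu, e, one_smul])⟩⟩
  obtain ⟨hcomm, p, hp, hpow⟩ := H61.elementary_of_half hf hm hns
  refine ⟨⟨p, hp, ⟨⟨hcomm⟩⟩, fun x hx => congrArg Subtype.val (hpow ⟨x, hx⟩)⟩, fun M hM hM1 => ?_⟩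
  rcases H61.irreducible_of_half hf hm hns (M.subgroupOf N)
    (fun h u hu => hM.conj_mem _ hu h.1) with h | h
  · exfalso
    refine hM1 (eq_bot_iff.mpr fun x hx => ?_)
    have hc : ∀ y ∈ N, x * y = y * x := fun y hy =>
      Subgroup.commute_of_normal_of_disjoint M N hM hN
        (Subgroup.subgroupOf_eq_bot.mp h) x y hx hy
    obtain ⟨u, hu⟩ := hNt.exists_smul_eq a (x • a)
    have hxu : x = u.1 := eq_of_smul_eq_smul (α := Ω) fun c => by
      obtain ⟨v, rfl⟩ := hNt.exists_smul_eq a c
      change x • v.1 • a = u.1 • v.1 • a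
      rw [← mul_smul, hc _ v.2, mul_smul, ← hu, ← mul_smul u.1,
        show u.1 * v.1 = v.1 * u.1 from congrArg Subtype.val (hcomm u v), mul_smul]
      rfl
    have : u ∈ M.subgroupOf N := (hxu ▸ hx : u.1 ∈ M)
    rw [h, Subgroup.mem_bot] at this
    rw [hxu, this]
    exact Subgroup.one_mem _
  · exact Subgroup.subgroupOf_eq_top.mp h

end Cfsg.Agent.S3356
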