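import Cfsg.Statements.S3357
import Cfsg.Agent.H91.FrobElem

set_option autoImplicit false
open Cfsg

namespace Cfsg.Agent.S3357

/-- Let G be a finite group that occurs as a Frobenius complement. Then G has a faithful irreducible representation over an algebraic closure of the rationals in which no non-identity element of G has 1 as an eigenvalue: there are n ≥ 1 and an injective homomorphism ρ from G to GL(n) over that field, with no invariant subspace other than 0 and the whole space, such that for g ≠ 1 the only vector fixed by ρ(g) is 0. -/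
theorem result {G : Type*} [Group G] [Finite G]
    (hFC : ∃ (L : Type) (_ : Group L) (_ : Finite L) (H : Subgroup L), Cfsg.IsFrobeniusComplement H ∧ Nonempty (G ≃* H)) :
    ∃ (n : ℕ) (ρ : G →* GL (Fin n) (AlgebraicClosure ℚ)), 0 < n ∧ Function.Injective ρ ∧
      (∀ W : Submodule (AlgebraicClosure ℚ) (Fin n → AlgebraicClosure ℚ),
        (∀ g : G, ∀ w ∈ W, ((ρ g : GL (Fin n) (AlgebraicClosure ℚ)) : Matrix (Fin n) (Fin n) (AlgebraicClosure ℚ)).mulVec w ∈ W) → W = ⊥ ∨ W = ⊤) ∧
      ∀ g : G, g ≠ 1 → ∀ v : Fin n → AlgebraicClosure ℚ,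
        ((ρ g : GL (Fin n) (AlgebraicClosure ℚ)) : Matrix (Fin n) (Fin n) (AlgebraicClosure ℚ)).mulVec v = v → v = 0 := by
  classical
  have hex : ∃ n : ℕ, ∃ ρ : G →* Matrix (Fin n) (Fin n) (AlgebraicClosure ℚ), 0 < n ∧
      ∀ h : G, h ≠ 1 → ∀ v, (ρ h).mulVec v = v → v = 0 :=
    (H91.IsFC.hasIntFPF hFC).exists_matrix _ fun r hr =>
      (mul_eq_zero.mp hr).resolve_left (Nat.cast_ne_zero.mpr Nat.card_pos.ne')
  obtain ⟨ρ, hn, h⟩ := Nat.find_spec hex
  refine ⟨_, ρ.toHomUnits, hn, (injective_iff_map_eq_one _).mpr fun g hg => ?_, fun W hW => ?_, h⟩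
  · by_contra h1
    have h2 : ρ g = 1 := congrArg Units.val hg
    exact one_ne_zero (congrFun (h g h1 1 (by rw [h2, Matrix.one_mulVec])) ⟨0, hn⟩)
  · by_contra h1
    push Not at h1
    let σ : G →* Module.End (AlgebraicClosure ℚ) W :=
      { toFun := fun g => (Matrix.toLin' (ρ g)).restrict (hW g)
        map_one' := by ext; simp
        map_mul' := fun a b => LinearMap.ext fun w => Subtype.ext (by
          change (ρ (a * b)).mulVec w = (ρ a).mulVec ((ρ b).mulVec w)
          rw [map_mul, Matrix.mulVec_mulVec]) }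
    let b := Module.finBasis (AlgebraicClosure ℚ) W
    refine Nat.find_min hex (m := Module.finrank (AlgebraicClosure ℚ) W) ?_
      ⟨(LinearMap.toMatrixAlgEquiv b).toMonoidHom.comp σ, ?_, fun g hg v hv => ?_⟩
    · simpa using Submodule.finrank_lt h1.2
    · exact Nat.pos_of_ne_zero fun e => h1.1 (Submodule.finrank_eq_zero.mp e)
    · obtain ⟨w, rfl⟩ := b.equivFun.surjective v
      have h2 : σ g w = w := b.equivFun.injective (by
        rw [← hv]
        exact (LinearMap.toMatrix_mulVec_repr b b (σ g) w).symm)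
      rw [show w = 0 from Subtype.ext (h g hg w (congrArg Subtype.val h2)), map_zero]

end Cfsg.Agent.S3357
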