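import Cfsg.Statements.S3358
import Cfsg.Agent.H91.FCStruct

set_option autoImplicit false
open Cfsg

namespace Cfsg.Agent.S3358

theorem conj_pow_eq {G : Type*} [Group G] {a b : G} {r : ℕ} (h : a⁻¹ * b * a = b ^ r) (k : ℕ) :
    (a ^ k)⁻¹ * b * a ^ k = b ^ r ^ k := by
  induction k with
  | zero => simp
  | succ k ih =>
    rw [pow_succ r, pow_mul', ← h, pow_succ a, mul_inv_rev]
    calc _ = a⁻¹ * ((a ^ k)⁻¹ * b * a ^ k) * a := by group
      _ = _ := by rw [ih]; simpa using (conj_pow (a := a⁻¹) (b := b) (i := r ^ k)).symm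

theorem card_le {G : Type*} [Group G] {a b : G} {n m r : ℕ} (hn : 0 < n) (hm : 0 < m)
    (ha : a ^ n = 1) (hb : b ^ m = 1) (h : a⁻¹ * b * a = b ^ r)
    (hgen : Subgroup.closure {a, b} = ⊤) : Finite G ∧ Nat.card G ≤ n * m := by
  have h1 : ∀ g k, (∃ i j : ℕ, g = a ^ i * b ^ j) → ∃ i j : ℕ, g * a ^ k = a ^ i * b ^ j := by
    rintro _ k ⟨i, j, rfl⟩
    refine ⟨i + k, r ^ k * j, ?_⟩
    rw [pow_mul, ← conj_pow_eq h]
    have := conj_pow (a := (a ^ k)⁻¹) (b := b) (i := j)
    rw [inv_inv] at this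
    rw [this]
    group
  have h2 : ∀ g k, (∃ i j : ℕ, g = a ^ i * b ^ j) → ∃ i j : ℕ, g * b ^ k = a ^ i * b ^ j := by
    rintro _ k ⟨i, j, rfl⟩
    exact ⟨i, j + k, by rw [pow_add, mul_assoc]⟩
  have hinv : ∀ {c : G} {l : ℕ}, 0 < l → c ^ l = 1 → c⁻¹ = c ^ (l - 1) := fun {c l} hl hc => by
    rw [inv_eq_iff_mul_eq_one, ← pow_succ', Nat.sub_add_cancel hl, hc]
  have h3 : ∀ g, ∃ i j : ℕ, g = a ^ i * b ^ j := fun g => by
    have hg : g ∈ Subgroup.closure {a, b} := hgen ▸ Subgroup.mem_top g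
    induction hg using Subgroup.closure_induction_right with
    | one => exact ⟨0, 0, by simp⟩
    | mul_right g _ y hy ih =>
      rcases hy with rfl | rfl
      · simpa using h1 g 1 ih
      · simpa using h2 g 1 ih
    | mul_inv_cancel g _ y hy ih =>
      rcases hy with rfl | rfl
      · rw [hinv hn ha]; exact h1 g _ ih
      · rw [hinv hm hb]; exact h2 g _ ih
  have h4 : Function.Surjective fun p : Fin n × Fin m => a ^ (p.1 : ℕ) * b ^ (p.2 : ℕ) := fun g => by
    obtain ⟨i, j, rfl⟩ := h3 g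
    exact ⟨(⟨i % n, Nat.mod_lt _ hn⟩, ⟨j % m, Nat.mod_lt _ hm⟩), by
      simp only [← pow_eq_pow_mod _ ha, ← pow_eq_pow_mod _ hb]⟩
  exact ⟨Finite.of_surjective _ h4, by simpa using Nat.card_le_card_of_surjective _ h4⟩

theorem aux {G : Type*} [Group G] [Finite G] [IsZGroup G] (hG : H91.HasIntFPF G) :
    ∃ n m r : ℕ, 0 < n ∧ 0 < m ∧ Nat.Coprime (r - 1) m ∧ Nat.Coprime n m ∧ 1 ≤ r ∧
      r ^ (n / ∏ p ∈ n.primeFactors, p) % m = 1 % m ∧
      Nonempty (G ≃* PresentedGroup
        ({FreeGroup.of (0 : Fin 2) ^ n, FreeGroup.of (1 : Fin 2) ^ m,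
          (FreeGroup.of (0 : Fin 2))⁻¹ * FreeGroup.of 1 * FreeGroup.of 0 * (FreeGroup.of (1 : Fin 2) ^ r)⁻¹} :
          Set (FreeGroup (Fin 2)))) := by
  obtain ⟨H, hH⟩ := Subgroup.exists_right_complement'_of_coprime
    (IsZGroup.coprime_commutator_index G)
  have h1 : Abelianization G ≃* H := hH.symm.QuotientMulEquiv
  obtain ⟨x, hx⟩ := (Subgroup.isCyclic_iff_exists_zpowers_eq_top H).mp
    (isCyclic_of_surjective _ h1.surjective)
  obtain ⟨y, hy⟩ := (Subgroup.isCyclic_iff_exists_zpowers_eq_top _).mp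
    (IsZGroup.isCyclic_commutator G)
  subst hx
  have hnorm : (Subgroup.zpowers y).Normal := hy ▸ inferInstance
  obtain ⟨r, hr⟩ := mem_powers_iff_mem_zpowers.mpr
    (hnorm.conj_mem' _ (Subgroup.mem_zpowers y) x)
  have hr' : x⁻¹ * y * x = y ^ (r + orderOf y) := by
    rw [pow_add, pow_orderOf_eq_one, mul_one]; exact hr.symm
  have hr1 : 1 ≤ r + orderOf y := le_add_left (orderOf_pos y)
  generalize r + orderOf y = s at hr' hr1
  have hgen : Subgroup.closure {x, y} = ⊤ := by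
    rw [Set.insert_eq, Subgroup.closure_union, ← Subgroup.zpowers_eq_closure,
      ← Subgroup.zpowers_eq_closure, hy, sup_comm, hH.sup_eq_top]
  have hcard : orderOf x * orderOf y = Nat.card G := by
    rw [← Nat.card_zpowers, ← Nat.card_zpowers, hy, mul_comm, hH.card_mul]
  refine ⟨orderOf x, orderOf y, s, orderOf_pos x, orderOf_pos y, ?_, ?_, hr1, ?_, ?_⟩
  · let N := Subgroup.zpowers (y ^ (s - 1))
    have hN : N.Normal := ⟨by
      rintro _ ⟨k, rfl⟩ g
      obtain ⟨l, hl⟩ := hnorm.conj_mem _ (Subgroup.mem_zpowers y) g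
      refine ⟨l * k, ?_⟩
      simp only at hl ⊢
      rw [← conj_zpow, ← conj_pow, ← hl]
      group⟩
    have h2 : commutator G ≤ N := by
      rw [← Subgroup.Normal.quotient_commutative_iff_commutator_le]
      have h3 : (x : G ⧸ N) * y = y * x := by
        rw [← QuotientGroup.mk_mul, ← QuotientGroup.mk_mul, QuotientGroup.eq, mul_inv_rev, mul_assoc,
          ← mul_assoc x⁻¹, ← mul_assoc, mul_assoc _ (x⁻¹ * y), hr']
        convert Subgroup.mem_zpowers (y ^ (s - 1)) using 1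
        rw [inv_mul_eq_iff_eq_mul, ← pow_succ', Nat.sub_add_cancel hr1]
      have h4 : Subgroup.closure {(x : G ⧸ N), (y : G ⧸ N)} = ⊤ := by
        rw [← Subgroup.map_top_of_surjective _ (QuotientGroup.mk'_surjective N), ← hgen,
          MonoidHom.map_closure, Set.image_pair]
        rfl
      have h5 := Subgroup.isMulCommutative_closure (k := {(x : G ⧸ N), (y : G ⧸ N)}) (by
        rintro _ (rfl | rfl) _ (rfl | rfl)
        exacts [rfl, h3, h3.symm, rfl])
      rw [h4] at h5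
      exact ⟨⟨fun a b => congrArg Subtype.val (h5.is_comm.comm ⟨a, trivial⟩ ⟨b, trivial⟩)⟩⟩
    exact mem_zpowers_pow_iff.mp (h2 (hy ▸ Subgroup.mem_zpowers y))
  · have := IsZGroup.coprime_commutator_index G
    rw [hH.symm.index_eq_card, ← hy, Nat.card_zpowers, Nat.card_zpowers] at this
    exact this.symm
  · have hd : ∏ p ∈ (orderOf x).primeFactors, p ∣ orderOf x := Nat.prod_primeFactors_dvd _
    have h2 := orderOf_pow_orderOf_div (orderOf_pos x).ne' hd
    have h3 := conj_pow_eq hr' (orderOf x / ∏ p ∈ (orderOf x).primeFactors, p)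
    generalize x ^ (orderOf x / ∏ p ∈ (orderOf x).primeFactors, p) = w at h2 h3
    have h4 : Subgroup.centralizer {y} ⊓ Subgroup.zpowers w = Subgroup.zpowers w := by
      refine Subgroup.eq_of_le_of_card_ge inf_le_right (Nat.le_of_dvd Nat.card_pos ?_)
      rw [Nat.card_zpowers, h2]
      refine Finset.prod_primes_dvd _ (fun p hp => (Nat.prime_of_mem_primeFactors hp).prime)
        fun p hp => ?_
      have h5 := orderOf_pow_orderOf_div (x := w) (orderOf_pos w).ne'
        (h2 ▸ Finset.dvd_prod_of_mem _ hp)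
      rw [← h5]
      refine Subgroup.orderOf_dvd_natCard _ ⟨?_, pow_mem (Subgroup.mem_zpowers w) _⟩
      exact Subgroup.mem_centralizer_singleton_iff.mpr (hG.commute_of_prime_order
        (h5.symm ▸ Nat.prime_of_mem_primeFactors hp)
        (Subgroup.normalizer_eq_top (Subgroup.zpowers y) ▸ Subgroup.mem_top _))
    have h5 : w * y = y * w := Subgroup.mem_centralizer_singleton_iff.mp
      (h4.ge (Subgroup.mem_zpowers w)).1
    rw [mul_assoc, ← h5, inv_mul_cancel_left] at h3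
    exact pow_eq_pow_iff_modEq.mp (h3.symm.trans (pow_one y).symm)
  · let rels : Set (FreeGroup (Fin 2)) :=
      {FreeGroup.of (0 : Fin 2) ^ orderOf x, FreeGroup.of (1 : Fin 2) ^ orderOf y,
        (FreeGroup.of (0 : Fin 2))⁻¹ * FreeGroup.of 1 * FreeGroup.of 0 * (FreeGroup.of (1 : Fin 2) ^ s)⁻¹}
    let f : PresentedGroup rels →* G := PresentedGroup.toGroup (f := ![x, y]) (by
      rintro _ (rfl | rfl | rfl)
      · simp
      · simp
      · simp [hr'])
    have f0 : f (PresentedGroup.of 0) = x := PresentedGroup.toGroup.of _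
    have f1 : f (PresentedGroup.of 1) = y := PresentedGroup.toGroup.of _
    have hrel : ∀ r ∈ rels, PresentedGroup.mk rels r = 1 := fun r hr => PresentedGroup.one_of_mem hr
    have r0 := hrel _ (Or.inl rfl)
    have r1 := hrel _ (Or.inr (Or.inl rfl))
    have r2 := hrel _ (Or.inr (Or.inr rfl))
    simp only [map_pow, map_mul, map_inv, mul_inv_eq_one] at r0 r1 r2
    obtain ⟨h2, h3⟩ := card_le (orderOf_pos x) (orderOf_pos y) r0 r1 r2 (by
      rw [← PresentedGroup.closure_range_of]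
      congr 1
      ext g
      simp [Fin.exists_fin_two, eq_comm, PresentedGroup.of])
    have hs : Function.Surjective f := by
      rw [← MonoidHom.range_eq_top, eq_top_iff, ← hgen, Subgroup.closure_le]
      rintro _ (rfl | rfl)
      exacts [⟨_, f0⟩, ⟨_, f1⟩]
    exact ⟨(MulEquiv.ofBijective f (hs.bijective_of_nat_card_le (hcard ▸ h3))).symm⟩

def v4 : DihedralGroup 2 →* Equiv.Perm (Fin 4) :=
  MonoidHom.mk' (fun x => if x = DihedralGroup.r 0 then 1 else if x = DihedralGroup.r 1 then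
    Equiv.swap 0 1 else if x = DihedralGroup.sr 0 then Equiv.swap 2 3 else
    Equiv.swap 0 1 * Equiv.swap 2 3) (by decide)

/-- Structure of solvable Frobenius complements. Let G be a finite solvable group that occurs as a Frobenius complement. Then G has a normal subgroup G₀ such that G/G₀ is isomorphic to a subgroup of Sym(4) (G₀ is the kernel of a homomorphism to Sym(4)), all Sylow subgroups of G₀ are cyclic, and G₀ has a presentation ⟨x, y | x^n = 1, y^m = 1, x⁻¹ y x = y^r⟩ with n, m ≥ 1, gcd(r − 1, m) = gcd(n, m) = 1 and r^(n/n′) ≡ 1 (mod m), where n′ is the product of the distinct primes dividing n. -/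
theorem result {G : Type*} [Group G] [Finite G] (hsol : Group.IsSolvable G)
    (hFC : ∃ (L : Type) (_ : Group L) (_ : Finite L) (H : Subgroup L), Cfsg.IsFrobeniusComplement H ∧ Nonempty (G ≃* H)) :
    ∃ G₀ : Subgroup G, G₀.Normal ∧
      (∃ f : G →* Equiv.Perm (Fin 4), f.ker = G₀) ∧
      (∀ (p : ℕ) [Fact p.Prime] (P : Sylow p G₀), IsCyclic P) ∧
      ∃ n m r : ℕ, 0 < n ∧ 0 < m ∧ Nat.Coprime (r - 1) m ∧ Nat.Coprime n m ∧ 1 ≤ r ∧
        r ^ (n / ∏ p ∈ n.primeFactors, p) % m = 1 % m ∧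
        Nonempty (G₀ ≃* PresentedGroup
          ({FreeGroup.of (0 : Fin 2) ^ n, FreeGroup.of (1 : Fin 2) ^ m,
            (FreeGroup.of (0 : Fin 2))⁻¹ * FreeGroup.of 1 * FreeGroup.of 0 * (FreeGroup.of (1 : Fin 2) ^ r)⁻¹} :
            Set (FreeGroup (Fin 2)))) := by
  have hG := H91.IsFC.hasIntFPF hFC
  suffices h : ∃ f : G →* Equiv.Perm (Fin 4), IsZGroup f.ker by
    obtain ⟨f, hf⟩ := h
    exact ⟨f.ker, inferInstance, ⟨f, rfl⟩, fun _ _ _ => inferInstance, aux (hG.subgroup _)⟩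
  rcases hG.solvable with h | ⟨φ, -, h2⟩ | ⟨φ, -, h2⟩
  · exact ⟨1, inferInstance⟩
  · refine ⟨v4.comp φ, ?_⟩
    rwa [MonoidHom.ker_comp_of_injective _ _ ((injective_iff_map_eq_one v4).mpr (by decide))]
  · exact ⟨φ, h2⟩

end Cfsg.Agent.S3358
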