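import Cfsg.Statements.S3359
import Cfsg.Agent.H91.FCStruct

set_option autoImplicit false
open Cfsg

namespace Cfsg.Agent.S3359

/-- Structure of non-solvable Frobenius complements. Let G be a finite non-solvable group that occurs as a Frobenius complement. Then G has a normal subgroup G₀ of index 1 or 2 which is the direct product of a subgroup isomorphic to SL(2,5) and a subgroup M of order prime to 30 all of whose Sylow subgroups are cyclic. -/
theorem result {G : Type*} [Group G] [Finite G] (hns : ¬ Group.IsSolvable G)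
    (hFC : ∃ (L : Type) (_ : Group L) (_ : Finite L) (H : Subgroup L), Cfsg.IsFrobeniusComplement H ∧ Nonempty (G ≃* H)) :
    ∃ G₀ : Subgroup G, G₀.Normal ∧ (G₀.index = 1 ∨ G₀.index = 2) ∧
      ∃ S M : Subgroup G, S ⊔ M = G₀ ∧ S ⊓ M = ⊥ ∧ (∀ s ∈ S, ∀ x ∈ M, s * x = x * s) ∧
        Nonempty (S ≃* Matrix.SpecialLinearGroup (Fin 2) (ZMod 5)) ∧
        (∀ (p : ℕ) [Fact p.Prime] (P : Sylow p M), IsCyclic P) ∧ (Nat.card M).Coprime 30 := by
  have hG := H91.IsFC.hasIntFPF hFC
  obtain ⟨f, φ, hf, h1, h2, hZ⟩ := hG.nonsolvable hns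
  have hz : orderOf (f (-1)) = 2 := by
    rw [orderOf_injective f hf]
    exact orderOf_eq_prime (by simp) H91.sl25_neg_one_ne
  have hzN : f (-1) ∈ φ.ker := by
    have h3 : (-1 : H91.SL25) ∈ (φ.comp f).ker := by
      rcases H91.normal_sl25 (φ.comp f).ker with h | h
      · exact h ▸ Subgroup.mem_top _
      · have h3 := (φ.comp f).ker.card_mul_index
        rw [Subgroup.index_ker, h1, H91.card_sl25, nat_card_alternatingGroup,
          Nat.card_eq_fintype_card (α := Fin 5), Fintype.card_fin,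
          show Nat.factorial 5 / 2 = 60 from rfl] at h3
        rw [Subgroup.eq_of_le_of_card_ge h (by rw [H91.card_center_sl25]; omega)]
        exact H91.mem_center_sl25.mpr (Or.inr rfl)
    exact h3
  let P : Sylow 2 φ.ker := default
  have hmin : (Nat.card φ.ker).minFac = 2 :=
    (Nat.minFac_eq_two_iff _).mpr (hz ▸ Subgroup.orderOf_dvd_natCard _ hzN)
  have hc := IsCyclic.isComplement' hmin (P := P) inferInstance
  generalize (MonoidHom.transferSylow P _).ker = K at hc
  have hcop : (Nat.card K).Coprime 2 := by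
    rw [← hc.index_eq_card]
    exact ((Nat.Prime.coprime_iff_not_dvd Nat.prime_two).mpr P.not_dvd_index).symm
  have hM : K.map φ.ker.subtype ≤ φ.ker := Subgroup.map_subtype_le K
  have hbot : f.range ⊓ K.map φ.ker.subtype = ⊥ := by
    rw [eq_bot_iff]
    rintro _ ⟨⟨s, rfl⟩, hs⟩
    rcases H91.mem_center_sl25.mp (Subgroup.mem_center_iff.mpr fun t =>
      hf (by rw [map_mul, map_mul, h2 _ (hM hs)]) : s ∈ Subgroup.center _) with rfl | rfl
    · simp
    · have h3 := Subgroup.orderOf_dvd_natCard _ hs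
      rw [hz, H3.card_map_subtype] at h3
      exact absurd (Nat.Coprime.eq_one_of_dvd hcop.symm h3) (by norm_num)
  refine ⟨(alternatingGroup (Fin 5)).comap φ, inferInstance, ?_, f.range, K.map φ.ker.subtype,
    le_antisymm (sup_le ?_ fun m hm => ?_) fun g hg => ?_, hbot, ?_,
    ⟨(MonoidHom.ofInjective hf).symm⟩, fun p _ Q => ?_, ?_⟩
  · rw [← Nat.dvd_prime Nat.prime_two, Subgroup.index_comap, ← alternatingGroup.index_eq_two (α := Fin 5)]
    exact Subgroup.relIndex_dvd_index_of_normal _ _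
  · rintro _ ⟨s, rfl⟩
    exact (h1 ▸ ⟨s, rfl⟩ : φ (f s) ∈ alternatingGroup (Fin 5))
  · rw [Subgroup.mem_comap, MonoidHom.mem_ker.mp (hM hm)]
    exact one_mem _
  · obtain ⟨s, hs⟩ : φ g ∈ (φ.comp f).range := h1 ▸ hg
    have h3 : (f s)⁻¹ * g ∈ φ.ker := by
      rw [MonoidHom.mem_ker, map_mul, map_inv, ← hs]
      simp
    obtain ⟨⟨k, q⟩, hk⟩ := hc.2 ⟨_, h3⟩
    have h4 : ((q : φ.ker) : G) ∈ f.range := by
      have h5 : ¬ 4 ∣ orderOf ((q : φ.ker) : G) := hG.not_four_dvd (i := f H91.slI) (j := f H91.slJ)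
        (by rw [orderOf_injective f hf, H91.orderOf_slI])
        (fun e => H91.slI_mul_slJ_ne (hf (by rwa [map_mul, map_mul]))) (h2 _ q.1.2 _) (h2 _ q.1.2 _)
      obtain ⟨n, hn⟩ := P.isPGroup'.exists_orderOf_eq_pow q
      rw [← Subgroup.orderOf_coe, ← Subgroup.orderOf_coe] at hn
      rcases n with _ | _ | n
      · rw [orderOf_eq_one_iff.mp hn]; exact one_mem _
      · rw [hG.involution_unique hz hn]; exact ⟨_, rfl⟩
      · exact absurd ⟨2 ^ n, by rw [hn]; ring⟩ h5
    have h5 : g = f s * (((k : φ.ker) : G) * ((q : φ.ker) : G)) :=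
      (inv_mul_eq_iff_eq_mul.mp (congrArg Subtype.val hk).symm)
    rw [h5]
    exact mul_mem (Subgroup.mem_sup_left ⟨s, rfl⟩)
      (mul_mem (Subgroup.mem_sup_right ⟨k, k.2, rfl⟩) (Subgroup.mem_sup_left h4))
  · rintro _ ⟨s, rfl⟩ x hx
    exact (h2 x (hM hx) s).symm
  · have := IsZGroup.of_injective (Subgroup.inclusion_injective hM)
    infer_instance
  · have key : ∀ (p : ℕ) (s : H91.SL25), p.Prime → orderOf s = p →
        (Nat.card (K.map φ.ker.subtype)).Coprime p := by
      intro p s hp hs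
      have := Fact.mk hp
      refine ((Nat.Prime.coprime_iff_not_dvd hp).mpr fun hd => ?_).symm
      obtain ⟨m, hm⟩ := exists_prime_orderOf_dvd_card' p hd
      rw [← Subgroup.orderOf_coe] at hm
      obtain ⟨k, hk⟩ := hG.mem_zpowers_of_commute hp hm
        (by rw [orderOf_injective f hf, hs]) (h2 _ (hM m.2) s)
      have h3 : (m : G) ∈ f.range ⊓ K.map φ.ker.subtype := ⟨⟨s ^ k, by rw [map_zpow]; exact hk⟩, m.2⟩
      rw [hbot, Subgroup.mem_bot] at h3
      rw [h3, orderOf_one] at hm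
      exact hp.one_lt.ne hm
    have : Fact (Nat.Prime 3) := ⟨Nat.prime_three⟩
    exact Nat.Coprime.mul_right (Nat.Coprime.mul_right (m := 2) (n := 3)
      (key 2 (-1) Nat.prime_two ((orderOf_injective f hf _).symm.trans hz))
      (key 3 _ Nat.prime_three (orderOf_eq_prime H91.slX_pow H91.slX_ne_one)))
      (key 5 _ (by norm_num) (orderOf_eq_prime H91.slY_pow H91.slY_ne_one))

end Cfsg.Agent.S3359
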