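import Cfsg.Statements.S3362
import Cfsg.Agent.H57.M12Cert

set_option autoImplicit false
open Cfsg

namespace Cfsg.Agent.S3362

open Cfsg.Agent.H43 Cfsg.Agent.H57.M12Cert

theorem toPerm_eq {n : ℕ} {o : Net} (ho : o.ok n = true) (g : Equiv.Perm (Fin n))
    (h : ∀ a : Fin n, tb (o.app F1 (Nat.shiftLeft 1 a)) (g a) = true) : o.toPerm n = g :=
  Equiv.ext fun a => (Net.mov_app (rep_F1 n) ho _).apply_of_tb a.2 (g a).2 (h a)

/-- An explicit construction of the Mathieu groups of degrees 11 and 12. On the points 0, …, 11 let s = (3 4 5)(6 7 8)(9 10 11), t = (3 6 9)(4 7 10)(5 8 11), u = (4 6 5 9)(7 8 11 10), v = (4 7 5 11)(6 10 9 8), w = (4 10 5 8)(6 11 9 7), x₁ = (0 3)(6 7)(8 10)(9 11), x₂ = (0 1)(6 9)(7 10)(8 11), x₃ = (1 2)(6 11)(7 9)(8 10) (each written as a product of transpositions). Then the group M₁₂ generated by all eight permutations is sharply 5-transitive on the 12 points and has order 95040,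 and the group M₁₁ generated by the first seven has order 7920 and is the stabilizer of the point 2 in M₁₂. -/
theorem result
    (s t u v w x₁ x₂ x₃ : Equiv.Perm (Fin 12))
    (hs : s = Equiv.swap (3 : Fin 12) 5 * Equiv.swap (3 : Fin 12) 4 * Equiv.swap (6 : Fin 12) 8 * Equiv.swap (6 : Fin 12) 7 * Equiv.swap (9 : Fin 12) 11 * Equiv.swap (9 : Fin 12) 10) (ht : t = Equiv.swap (3 : Fin 12) 9 * Equiv.swap (3 : Fin 12) 6 * Equiv.swap (4 : Fin 12) 10 * Equiv.swap (4 : Fin 12) 7 * Equiv.swap (5 : Fin 12) 11 * Equiv.swap (5 : Fin 12) 8)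
    (hu : u = Equiv.swap (4 : Fin 12) 9 * Equiv.swap (4 : Fin 12) 5 * Equiv.swap (4 : Fin 12) 6 * Equiv.swap (7 : Fin 12) 10 * Equiv.swap (7 : Fin 12) 11 * Equiv.swap (7 : Fin 12) 8) (hv : v = Equiv.swap (4 : Fin 12) 11 * Equiv.swap (4 : Fin 12) 5 * Equiv.swap (4 : Fin 12) 7 * Equiv.swap (6 : Fin 12) 8 * Equiv.swap (6 : Fin 12) 9 * Equiv.swap (6 : Fin 12) 10) (hw : w = Equiv.swap (4 : Fin 12) 8 * Equiv.swap (4 : Fin 12) 5 * Equiv.swap (4 : Fin 12) 10 * Equiv.swap (6 : Fin 12) 7 * Equiv.swap (6 : Fin 12) 9 * Equiv.swap (6 : Fin 12) 11)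
    (hx₁ : x₁ = Equiv.swap (0 : Fin 12) 3 * Equiv.swap (6 : Fin 12) 7 * Equiv.swap (8 : Fin 12) 10 * Equiv.swap (9 : Fin 12) 11) (hx₂ : x₂ = Equiv.swap (0 : Fin 12) 1 * Equiv.swap (6 : Fin 12) 9 * Equiv.swap (7 : Fin 12) 10 * Equiv.swap (8 : Fin 12) 11)
    (hx₃ : x₃ = Equiv.swap (1 : Fin 12) 2 * Equiv.swap (6 : Fin 12) 11 * Equiv.swap (7 : Fin 12) 9 * Equiv.swap (8 : Fin 12) 10)
    (M₁₂ M₁₁ : Subgroup (Equiv.Perm (Fin 12))) (hM₁₂ : M₁₂ = Subgroup.closure {s, t, u, v, w, x₁, x₂, x₃})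
    (hM₁₁ : M₁₁ = Subgroup.closure {s, t, u, v, w, x₁, x₂}) :
    MulAction.IsMultiplyPretransitive M₁₂ (Fin 12) 5 ∧ (∀ y : Fin 5 ↪ Fin 12, MulAction.stabilizer M₁₂ y = ⊥) ∧
    Nat.card M₁₂ = 95040 ∧ Nat.card M₁₁ = 7920 ∧
    M₁₁ = M₁₂ ⊓ MulAction.stabilizer (Equiv.Perm (Fin 12)) (2 : Fin 12) := by
  have e1 : m_g1.toPerm 12 = s := toPerm_eq m_g1_ok _ (by rw [hs]; decide +kernel)
  have e2 : m_g2.toPerm 12 = t := toPerm_eq m_g2_ok _ (by rw [ht]; decide +kernel)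
  have e3 : m_g3.toPerm 12 = u := toPerm_eq m_g3_ok _ (by rw [hu]; decide +kernel)
  have e4 : m_g4.toPerm 12 = v := toPerm_eq m_g4_ok _ (by rw [hv]; decide +kernel)
  have e5 : m_g5.toPerm 12 = w := toPerm_eq m_g5_ok _ (by rw [hw]; decide +kernel)
  have e6 : m_g6.toPerm 12 = x₁ := toPerm_eq m_g6_ok _ (by rw [hx₁]; decide +kernel)
  have e7 : m_g7.toPerm 12 = x₂ := toPerm_eq m_g7_ok _ (by rw [hx₂]; decide +kernel)
  have e8 : m_g8.toPerm 12 = x₃ := toPerm_eq m_g8_ok _ (by rw [hx₃]; decide +kernel)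
  have h12 : M₁₂ = grp 12 m_O := by
    rw [hM₁₂, grp]
    congr 1
    ext g
    simp [m_O, e1, e2, e3, e4, e5, e6, e7, e8, eq_comm]
  have h11 : M₁₁ = grp 12 k_O := by
    rw [hM₁₁, grp]
    congr 1
    ext g
    simp [k_O, e1, e2, e3, e4, e5, e6, e7, eq_comm]
  have c12 : Nat.card M₁₂ = 95040 := h12 ▸ m_card
  have c11 : Nat.card M₁₁ = 7920 := h11 ▸ k_card
  let y₀ : Fin 5 ↪ Fin 12 := ⟨![0, 5, 10, 9, 11], by decide⟩
  have hy₀ : MulAction.stabilizer M₁₂ y₀ = ⊥ := by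
    rw [eq_bot_iff]
    intro g hg
    have hg' : ∀ i, (g : Equiv.Perm (Fin 12)) (y₀ i) = y₀ i := fun i =>
      DFunLike.congr_fun (MulAction.mem_stabilizer_iff.1 hg) i
    have h0 : (g : Equiv.Perm (Fin 12)) ∈ grp 12 m_E0 := by rw [← m_eq, ← h12]; exact g.2
    have h1 : (g : Equiv.Perm (Fin 12)) ∈ grp 12 m_E1 := by rw [← m_stab0]; exact ⟨h0, hg' 0⟩
    have h2 : (g : Equiv.Perm (Fin 12)) ∈ grp 12 m_E2 := by rw [← m_stab1]; exact ⟨h1, hg' 1⟩
    have h3 : (g : Equiv.Perm (Fin 12)) ∈ grp 12 m_E3 := by rw [← m_stab2]; exact ⟨h2, hg' 2⟩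
    have h4 : (g : Equiv.Perm (Fin 12)) ∈ grp 12 m_E4 := by rw [← m_stab3]; exact ⟨h3, hg' 3⟩
    have h5 : (g : Equiv.Perm (Fin 12)) ∈ grp 12 m_E5 := by rw [← m_stab4]; exact ⟨h4, hg' 4⟩
    rw [m_E5, grp_nil] at h5
    exact Subtype.ext h5
  have horb : MulAction.orbit M₁₂ y₀ = Set.univ := by
    apply Set.eq_of_subset_of_ncard_le (Set.subset_univ _)
    have h1 := MulAction.index_stabilizer M₁₂ y₀
    have h2 : (MulAction.stabilizer M₁₂ y₀).index = 95040 := by rw [hy₀, Subgroup.index_bot, c12]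
    refine le_of_eq_of_le ?_ (h2.symm.trans h1).le
    rw [Set.ncard_univ, Nat.card_eq_fintype_card, Fintype.card_embedding_eq]
    decide
  have htr : MulAction.IsMultiplyPretransitive M₁₂ (Fin 12) 5 :=
    (MulAction.isPretransitive_iff_orbit_eq_univ y₀).2 horb
  refine ⟨htr, fun y => ?_, c12, c11, ?_⟩
  · obtain ⟨g, rfl⟩ := htr.exists_smul_eq y₀ y
    refine (MulAction.stabilizer_smul_eq_stabilizer_map_conj g y₀).trans ?_
    rw [Subgroup.map_eq_bot_iff_of_injective _ (MulAut.conj g).injective]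
    exact hy₀
  · have h1 : MulAction.IsPretransitive M₁₂ (Fin 12) :=
      MulAction.is_one_pretransitive_iff.1
        (MulAction.isMultiplyPretransitive_of_le (n := 5) (by norm_num) (by simp))
    have h2 := card_inf_stab_mul M₁₂ (2 : Fin 12)
    rw [MulAction.orbit_eq_univ, Set.ncard_univ, c12, Nat.card_eq_fintype_card (α := Fin 12),
      Fintype.card_fin] at h2
    refine Subgroup.eq_of_le_of_card_ge ?_ (by rw [c11]; omega)
    rw [hM₁₁, hM₁₂]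
    refine le_inf (Subgroup.closure_mono (by intro g; simp; tauto)) ?_
    rw [Subgroup.closure_le]
    intro g hg
    simp only [Set.mem_insert_iff, Set.mem_singleton_iff] at hg
    rcases hg with rfl | rfl | rfl | rfl | rfl | rfl | rfl <;>
      (change _ = _; subst_vars; decide)

end Cfsg.Agent.S3362
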