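import Cfsg.Statements.S3374
import Cfsg.Agent.H91.FrobComp
import Cfsg.Agent.H91.SL25

set_option autoImplicit false
open Cfsg

namespace Cfsg.Agent.S3374

instance : Fact (Nat.Prime 11) := ⟨by norm_num⟩

def X : Matrix.SpecialLinearGroup (Fin 2) (ZMod 11) := ⟨!![0, 10; 1, 10], by decide⟩

def Y : Matrix.SpecialLinearGroup (Fin 2) (ZMod 11) := ⟨!![0, 3; 7, 7], by decide⟩

theorem pow_eq_one (A : Matrix.SpecialLinearGroup (Fin 2) (ZMod 11)) {v : Fin 2 → ZMod 11}
    (hv : v ≠ 0) (h : A.1.mulVec v = v) : A ^ 11 = 1 := by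
  have h1 : (A.1 - 1).det = 0 := Matrix.exists_mulVec_eq_zero_iff.mp
    ⟨v, hv, by rw [Matrix.sub_mulVec, h, Matrix.one_mulVec, sub_self]⟩
  have h2 := A.2
  rw [Matrix.det_fin_two] at h1 h2
  simp only [Matrix.sub_apply, Matrix.one_apply_eq, Matrix.one_apply_ne (zero_ne_one' (Fin 2)),
    Matrix.one_apply_ne (one_ne_zero' (Fin 2)), sub_zero] at h1
  have h3 : (A.1 - 1) ^ 2 = 0 := by
    ext i j
    fin_cases i <;> fin_cases j <;> simp [sq, Matrix.mul_apply, Fin.sum_univ_two]
    · linear_combination -h1 + (A.1 0 0 - 1) * (h2 - h1)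
    · linear_combination A.1 0 1 * (h2 - h1)
    · linear_combination A.1 1 0 * (h2 - h1)
    · linear_combination -h1 + (A.1 1 1 - 1) * (h2 - h1)
  refine Subtype.ext ?_
  have h4 := sub_pow_char_of_commute 11 (Commute.one_right A.1)
  rw [pow_eq_zero_of_le (by norm_num) h3, one_pow, eq_comm, sub_eq_zero] at h4
  simpa using h4

/-- SL(2,5) occurs as a Frobenius complement: there is a finite group L with a subgroup H isomorphic to SL(2,5) which is a non-trivial proper subgroup meeting each conjugate gHg⁻¹ with g outside H trivially. -/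
theorem result :
    ∃ (L : Type) (_ : Group L) (_ : Finite L) (H : Subgroup L),
      Cfsg.IsFrobeniusComplement H ∧ Nonempty (H ≃* Matrix.SpecialLinearGroup (Fin 2) (ZMod 5)) := by
  obtain ⟨f, hf, -⟩ := H91.exists_hom_sl25 (x := X) (y := Y) (by decide) (by decide) (by decide)
    (by decide) (by decide)
  have : Nontrivial H91.SL25 := ⟨⟨_, _, H91.sl25_neg_one_ne⟩⟩
  refine (H91.isFC_of_matrix (Matrix.SpecialLinearGroup.coeMonoidHom.comp f)
    fun a ha v hv => ?_).symm_form
  by_contra h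
  have h1 := orderOf_dvd_of_pow_eq_one (pow_eq_one (f a) h hv)
  rw [orderOf_injective f hf] at h1
  have h2 := orderOf_dvd_natCard a
  rw [H91.card_sl25] at h2
  exact ha (orderOf_eq_one_iff.mp (Nat.eq_one_of_dvd_coprimes (by norm_num) h1 h2))

end Cfsg.Agent.S3374
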