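import Cfsg.Statements.S3375
import Cfsg.Agent.H61.InvAut

set_option autoImplicit false
open Cfsg

namespace Cfsg.Agent.S3375

/-- Let γ be an automorphism of order 2 of a finite group H. (i) If γ fixes only the identity, then H is abelian and γ inverts every element. (ii) If γ has exactly two fixed points and H has a subgroup of index 2, then H has a γ-invariant abelian subgroup of index 2 on which γ acts by inversion. -/
theorem result {H : Type*} [Group H] [Finite H] (γ : MulAut H) (hγ : orderOf γ = 2) :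
    ((∀ h : H, γ h = h → h = 1) → (∀ a b : H, a * b = b * a) ∧ ∀ h : H, γ h = h⁻¹) ∧
    ((Nat.card {h : H // γ h = h} = 2 ∧ ∃ M : Subgroup H, M.index = 2) →
      ∃ A : Subgroup H, A.index = 2 ∧ IsMulCommutative A ∧ (∀ a ∈ A, γ a ∈ A) ∧ ∀ a ∈ A, γ a = a⁻¹) := by
  have hinv : Function.Involutive γ := by
    intro x
    have : γ ^ 2 = 1 := by rw [← hγ, pow_orderOf_eq_one]
    rw [← MulAut.mul_apply, ← pow_two, this, MulAut.one_apply]
  refine ⟨fun h => ?_, ?_⟩
  · have hf : MonoidHom.FixedPointFree γ := h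
    exact ⟨fun a b => hf.commute_all_of_involutive hinv a b,
      fun x => congrFun (hf.coe_eq_inv_of_involutive hinv) x⟩
  · rintro ⟨h2, M, hM⟩
    obtain ⟨A, hA, hA'⟩ := H61.exists_invariant_index_two γ hinv M hM
    have h3 := H61.inverts_of_invariant_index_two γ hinv h2.le A hA hA'
    exact ⟨A, hA, ⟨⟨fun a b => Subtype.ext (H61.comm_of_aut_inverts γ h3 _ a.2 _ b.2)⟩⟩,
      fun a ha => (hA' a).mpr ha, h3⟩

end Cfsg.Agent.S3375
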