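import Cfsg.Statements.S3377
import Cfsg.Agent.H29.Pres235

set_option autoImplicit false
open Cfsg

namespace Cfsg.Agent.S3377

/-- The alternating group of degree 5 has the presentation ⟨x, y | x³ = 1, y⁵ = 1, (xy)² = 1⟩: the group so presented is isomorphic to Alt(5). -/
theorem result :
    Nonempty (PresentedGroup ({FreeGroup.of (0 : Fin 2) ^ 3, FreeGroup.of (1 : Fin 2) ^ 5,
        (FreeGroup.of (0 : Fin 2) * FreeGroup.of 1) ^ 2} : Set (FreeGroup (Fin 2))) ≃* alternatingGroup (Fin 5)) := by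
  open Cfsg.Agent.H29 in
  set rels : Set (FreeGroup (Fin 2)) := {FreeGroup.of (0 : Fin 2) ^ 3, FreeGroup.of (1 : Fin 2) ^ 5,
        (FreeGroup.of (0 : Fin 2) * FreeGroup.of 1) ^ 2} with hrels
  let s : PresentedGroup rels := PresentedGroup.of 0
  let t : PresentedGroup rels := PresentedGroup.of 1
  have hs : s ^ 3 = 1 := PresentedGroup.one_of_mem (rels := rels) (by simp [hrels] :
    FreeGroup.of (0 : Fin 2) ^ 3 ∈ rels)
  have ht : t ^ 5 = 1 := PresentedGroup.one_of_mem (rels := rels) (by simp [hrels] :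
    FreeGroup.of (1 : Fin 2) ^ 5 ∈ rels)
  have hst : (s * t) ^ 2 = 1 := PresentedGroup.one_of_mem (rels := rels) (by simp [hrels] :
    (FreeGroup.of (0 : Fin 2) * FreeGroup.of 1) ^ 2 ∈ rels)
  let f : Fin 2 → alternatingGroup (Fin 5) := ![a5x * a5a, a5a⁻¹]
  have hf : ∀ r ∈ rels, FreeGroup.lift f r = 1 := by
    intro r hr
    simp only [hrels, Set.mem_insert_iff, Set.mem_singleton_iff] at hr
    rcases hr with rfl | rfl | rfl
    · simpa [f] using a5xa_pow
    · simpa [f] using a5a_pow
    · simpa [f, pow_two] using a5x_mul_self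
  have ht1 : t⁻¹ ≠ 1 := by
    intro h
    have := congrArg (PresentedGroup.toGroup hf) h
    rw [map_inv, PresentedGroup.toGroup.of, map_one] at this
    exact a5a_ne_one (by simpa [f] using this)
  obtain ⟨e⟩ := nonempty_closure_mulEquiv_A5 (x := s * t) (a := t⁻¹) (by rw [← pow_two, hst])
    (by rw [inv_pow, ht, inv_one]) (by rw [mul_inv_cancel_right, hs]) ht1
  have htop : Subgroup.closure {s * t, t⁻¹} = ⊤ := by
    rw [eq_top_iff, ← PresentedGroup.closure_range_of, Subgroup.closure_le]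
    have h1 : s * t ∈ Subgroup.closure {s * t, t⁻¹} := Subgroup.subset_closure (by simp)
    have h2 : t⁻¹ ∈ Subgroup.closure {s * t, t⁻¹} := Subgroup.subset_closure (by simp)
    rintro _ ⟨i, rfl⟩
    fin_cases i
    · simpa using Subgroup.mul_mem _ h1 h2
    · simpa using Subgroup.inv_mem _ h2
  exact ⟨Subgroup.topEquiv.symm.trans ((MulEquiv.subgroupCongr htop.symm).trans e)⟩

end Cfsg.Agent.S3377
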