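import Cfsg.Statements.S3379
import Cfsg.Agent.H90.Metacyclic

set_option autoImplicit false
open Cfsg

namespace Cfsg.Agent.S3379

open scoped commutatorElement in

/-- Let G be a finite group all of whose Sylow subgroups are cyclic. Then G is generated by two elements x and y of coprime orders n and m with x⁻¹yx = y^r, where gcd(r − 1, m) = 1 and r^n ≡ 1 (mod m). -/
theorem result {G : Type*} [Group G] [Finite G]
    (hZ : ∀ (p : ℕ) [Fact p.Prime] (P : Sylow p G), IsCyclic (P : Subgroup G)) :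
    ∃ (x y : G) (n m r : ℕ), Subgroup.closure {x, y} = ⊤ ∧ orderOf x = n ∧ orderOf y = m ∧
      x⁻¹ * y * x = y ^ r ∧ Nat.Coprime (r - 1) m ∧ Nat.Coprime n m ∧ 1 ≤ r ∧ r ^ n % m = 1 % m := by
  have : IsZGroup G := ⟨fun p hp P => @hZ p ⟨hp⟩ P⟩
  have hc : IsCyclic (commutator G) := IsZGroup.isCyclic_commutator G
  obtain ⟨H, hH⟩ := Subgroup.exists_right_complement'_of_coprime (IsZGroup.coprime_commutator_index G)
  have hHc : IsCyclic H := by
    have : IsCyclic (G ⧸ commutator G) := IsZGroup.isCyclic_abelianization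
    exact (hH.symm.QuotientMulEquiv).isCyclic.1 this
  obtain ⟨y, hy⟩ := (Subgroup.isCyclic_iff_exists_zpowers_eq_top _).1 hc
  obtain ⟨x, rfl⟩ := (Subgroup.isCyclic_iff_exists_zpowers_eq_top _).1 hHc
  have hxy : Subgroup.closure {x, y} = ⊤ := by
    rw [H90.closure_pair_eq_sup, hy, sup_comm, hH.sup_eq_top]
  have h1 : x⁻¹ * y * x ∈ Subgroup.zpowers y := by
    rw [hy]
    simpa using (inferInstance : (commutator G).Normal).conj_mem y (hy ▸ Subgroup.mem_zpowers y) x⁻¹
  obtain ⟨r, hr⟩ := H90.exists_nat_pow_of_mem_zpowers h1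
  have hr' : x⁻¹ * y * x = y ^ (r + orderOf y) := by rw [pow_add, pow_orderOf_eq_one, mul_one, hr]
  have hpos := orderOf_pos y
  refine ⟨x, y, _, _, r + orderOf y, hxy, rfl, rfl, hr', ?_, ?_, by omega, ?_⟩
  · have h2 : Subgroup.closure {y⁻¹, x⁻¹} = ⊤ := by
      rw [H90.closure_pair_eq_sup, Subgroup.zpowers_inv, Subgroup.zpowers_inv, sup_comm,
        ← H90.closure_pair_eq_sup, hxy]
    have h3 := H90.commutator_eq_zpowers hc h2
    have h4 : ⁅y⁻¹, x⁻¹⁆ = y ^ (r + orderOf y - 1) := by
      have : y ^ (r + orderOf y) = y * y ^ (r + orderOf y - 1) := by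
        rw [← pow_succ']; congr 1; omega
      rw [commutatorElement_def, inv_inv, inv_inv, mul_assoc, mul_assoc, ← mul_assoc x⁻¹, hr',
        this, inv_mul_cancel_left]
    rw [h4, ← hy] at h3
    exact mem_zpowers_pow_iff.1 (h3 ▸ Subgroup.mem_zpowers y)
  · have h2 := IsZGroup.coprime_commutator_index G
    rw [hH.symm.index_eq_card, ← hy, Nat.card_zpowers, Nat.card_zpowers] at h2
    exact h2.symm
  · have h2 : ∀ k : ℕ, (x ^ k)⁻¹ * y * x ^ k = y ^ (r + orderOf y) ^ k := by
      intro k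
      induction k with
      | zero => simp
      | succ k ih =>
        have h3 := conj_pow (i := (r + orderOf y) ^ k) (a := x⁻¹) (b := y)
        rw [inv_inv, hr', ← pow_mul, ← pow_succ', ← ih] at h3
        rw [h3, pow_succ]
        group
    have h3 := h2 (orderOf x)
    rw [pow_orderOf_eq_one, inv_one, one_mul, mul_one] at h3
    exact (pow_eq_pow_iff_modEq.1 ((pow_one y).trans h3)).symm

end Cfsg.Agent.S3379
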