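import Cfsg.Statements.S3380
import Cfsg.Agent.H9.SelfCent
import Cfsg.Agent.H7.PBasic

set_option autoImplicit false
open Cfsg

namespace Cfsg.Agent.S3380

section
variable {K V G : Type*} [Field K] [AddCommGroup V] [Module K V] [Group G] (ρ : G →* (V ≃ₗ[K] V))

/-- fixed space -/
def Fx (x : G) : Submodule K V := LinearMap.eqLocus (ρ x : V →ₗ[K] V) LinearMap.id

theorem mem_Fx {x : G} {v : V} : v ∈ Fx ρ x ↔ ρ x v = v := Iff.rfl

theorem map_Fx (g x : G) : (Fx ρ x).map (ρ g : V →ₗ[K] V) = Fx ρ (g * x * g⁻¹) := by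
  ext v
  rw [Submodule.mem_map_equiv, mem_Fx, mem_Fx, map_mul, map_mul, map_inv, LinearEquiv.mul_apply,
    LinearEquiv.mul_apply, LinearEquiv.eq_symm_apply]
  rfl

theorem pow_fix {x : G} {v : V} (h : v ∈ Fx ρ x) (n : ℕ) : ρ (x ^ n) v = v := by
  induction n with
  | zero => simp
  | succ n ih => rw [pow_succ, map_mul, LinearEquiv.mul_apply, (mem_Fx ρ).1 h, ih]

/-- norm operator -/
def Nm (p : ℕ) (x : G) : V →ₗ[K] V := ∑ j ∈ Finset.range p, (ρ (x ^ j) : V →ₗ[K] V)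

theorem Nm_apply (p : ℕ) (x : G) (v : V) : Nm ρ p x v = ∑ j ∈ Finset.range p, ρ (x ^ j) v := by
  simp [Nm, LinearMap.sum_apply]

theorem Nm_mem {p : ℕ} {x : G} (h : x ^ p = 1) (v : V) : Nm ρ p x v ∈ Fx ρ x := by
  rw [mem_Fx, Nm_apply, map_sum]
  have h1 := Finset.sum_range_succ' (fun j => ρ (x ^ j) v) p
  rw [Finset.sum_range_succ, h, pow_zero, add_right_cancel_iff] at h1
  rw [h1]
  exact Finset.sum_congr rfl fun j _ => by rw [pow_succ', map_mul, LinearEquiv.mul_apply]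

theorem Nm_mem' (p : ℕ) {x y : G} (h : Commute y x) {v : V} (hv : v ∈ Fx ρ y) :
    Nm ρ p x v ∈ Fx ρ y := by
  rw [Nm_apply]
  refine Submodule.sum_mem _ fun j _ => ?_
  rw [mem_Fx, ← LinearEquiv.mul_apply, ← map_mul, (h.pow_right j).eq, map_mul,
    LinearEquiv.mul_apply, (mem_Fx ρ).1 hv]

end

/-- Let a finite p-group G act faithfully and irreducibly on a non-trivial finite vector space V over the field with q elements (q prime), and suppose G is not cyclic, generalized quaternion, dihedral or semidihedral. Then G has a subgroup H of index p and V is the direct sum of p subspaces, each invariant under H, on none of which H acts faithfully, and which every element of G outside H permutes in a single p-cycle. -/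
theorem result
    (q : ℕ) [Fact q.Prime] {V : Type*} [AddCommGroup V] [Module (ZMod q) V] [Finite V] [Nontrivial V]
    {G : Type*} [Group G] [Finite G] (p : ℕ) [Fact p.Prime] (hG : IsPGroup p G)
    (ρ : G →* (V ≃ₗ[ZMod q] V)) (hρ : Function.Injective ρ)
    (hirr : ∀ W : Submodule (ZMod q) V, (∀ g : G, ∀ w ∈ W, ρ g w ∈ W) → W = ⊥ ∨ W = ⊤)
    (hnc : ¬ IsCyclic G) (hnq : ∀ n : ℕ, ¬ Nonempty (G ≃* QuaternionGroup n))
    (hnd : ∀ n : ℕ, ¬ Nonempty (G ≃* DihedralGroup n)) (hnsd : ¬ Cfsg.IsQuasiDihedral G) :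
    ∃ (H : Subgroup G) (W : Fin p → Submodule (ZMod q) V), H.index = p ∧
      iSup W = ⊤ ∧ iSupIndep W ∧
      (∀ h ∈ H, ∀ i, ∀ w ∈ W i, ρ h w ∈ W i) ∧
      (∀ i, ∃ h ∈ H, h ≠ 1 ∧ ∀ w ∈ W i, ρ h w = w) ∧
      ∀ g : G, g ∉ H → ∃ σ : Equiv.Perm (Fin p), orderOf σ = p ∧ ∀ i, (W i).map (ρ g : V →ₗ[ZMod q] V) = W (σ i) := by
  have hp : p.Prime := Fact.out
  have : NeZero p := ⟨hp.ne_zero⟩
  obtain ⟨E, hE, hc, hEp⟩ : ∃ E : Subgroup G, E.Normal ∧ Nat.card E = p ^ 2 ∧ ∀ e ∈ E, e ^ p = 1 := by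
    by_contra hcon
    push Not at hcon
    rcases H9.isCyclic_or_MC_of_no_normal_sq hG (fun E h1 _ h2 => hcon E h1 h2) with
      h | ⟨rfl, a, b, n, h, -⟩
    · exact hnc h
    obtain ⟨c, hc, ⟨h2, h3⟩ | ⟨h2, h3⟩ | ⟨hn, h2, h3⟩⟩ := h.normalize
    · obtain ⟨e⟩ := hc.equiv_dihedral h2 h3
      exact hnd _ ⟨Subgroup.topEquiv.symm.trans e⟩
    · obtain ⟨e⟩ := hc.equiv_quaternion h2 h3
      exact hnq _ ⟨Subgroup.topEquiv.symm.trans e⟩
    · exact hnsd (hc.isQuasiDihedral_top hn h2 h3)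
  have hcen : ∀ z ∈ Subgroup.center G, z ≠ 1 → Fx ρ z = ⊥ := fun z hz h1 => by
    refine (hirr _ fun g w hw => ?_).resolve_right fun h2 => h1 (hρ ?_)
    · rw [mem_Fx, ← LinearEquiv.mul_apply, ← map_mul, ← Subgroup.mem_center_iff.1 hz g, map_mul,
        LinearEquiv.mul_apply, (mem_Fx ρ).1 hw]
    · ext v
      exact ((mem_Fx ρ).1 (h2 ▸ Submodule.mem_top)).trans (by simp)
  obtain ⟨z, hzE, hz, hzo⟩ := H7.exists_mem_center_orderOf hG (M := E) (by
    rintro rfl
    rw [Subgroup.card_bot] at hc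
    exact absurd hc (by nlinarith [hp.one_lt]))
  have hzp : z ^ p = 1 := hzo ▸ pow_orderOf_eq_one z
  have hz1 : ∀ j : ℕ, ¬ p ∣ j → z ^ j ≠ 1 := fun j hj h => hj (hzo ▸ orderOf_dvd_of_pow_eq_one h)
  have hzc : ∀ g : G, Commute g z := fun g => Subgroup.mem_center_iff.1 hz g
  have hp0 : (p : ZMod q) ≠ 0 := fun h => by
    have h1 : q = p := ((Nat.prime_dvd_prime_iff_eq Fact.out hp).1 ((ZMod.natCast_eq_zero_iff _ _).1 h))
    let _ : MulAction G V := MulAction.compHom V ρ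
    obtain ⟨b, hb, hb0⟩ := hG.exists_fixed_point_of_prime_dvd_card_of_fixed_point V (a := 0) (by
      rw [Module.natCard_eq_pow_finrank (K := ZMod q), Nat.card_zmod]
      exact (dvd_of_eq h1.symm).trans (dvd_pow_self _ Module.finrank_pos.ne')) (fun g => map_zero (ρ g))
    have h2 : b ∈ Fx ρ z := hb z
    rw [hcen z hz (by simpa using hz1 1 (by simpa using hp.ne_one))] at h2
    exact hb0 h2.symm
  have : (Subgroup.zpowers z).Normal := ⟨fun x hx g => by
    rwa [Subgroup.mem_center_iff.1 (Subgroup.zpowers_le.2 hz hx) g, mul_inv_cancel_right]⟩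
  obtain ⟨e, heE, hez, -, hce⟩ := H7.exists_central_mod hG (N := Subgroup.zpowers z) (M := E)
    (fun h => by
      have := Subgroup.card_le_of_le h
      rw [hc, Nat.card_zpowers, hzo] at this
      nlinarith [hp.one_lt])
  have hep : ∀ i : ℕ, (e * z ^ i) ^ p = 1 := fun i => hEp _ (mul_mem heE (pow_mem hzE _))
  have hk : ∀ g : G, ∃ k : Fin p, g * e * g⁻¹ = e * z ^ (k : ℕ) := fun g => by
    classical
    have h1 := inv_mem (hce g)
    rw [mem_zpowers_iff_mem_range_orderOf, hzo] at h1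
    obtain ⟨k, hk, h2⟩ := Finset.mem_image.1 h1
    refine ⟨⟨k, Finset.mem_range.1 hk⟩, ?_⟩
    rw [((hzc e).pow_right k).eq, h2, commutatorElement_def]
    group
  have hsum : ∀ v : V, ∑ i ∈ Finset.range p, Nm ρ p (e * z ^ i) v = (p : ZMod q) • v := fun v => by
    simp only [Nm_apply]
    rw [Finset.sum_comm, Finset.sum_eq_single 0]
    · simp [Nat.cast_smul_eq_nsmul]
    · intro j hj hj0
      have h1 := Nm_mem ρ (x := z ^ j) (p := p) (by rw [← pow_mul, mul_comm, pow_mul, hzp, one_pow])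
        (ρ (e ^ j) v)
      rw [hcen _ (pow_mem hz j) (hz1 j fun h =>
        absurd (Nat.le_of_dvd (by omega) h) (by simpa using hj)), Submodule.mem_bot, Nm_apply] at h1
      rw [← h1]
      refine Finset.sum_congr rfl fun i _ => ?_
      rw [← LinearEquiv.mul_apply, ← map_mul, ((hzc e).pow_right i).mul_pow, ← pow_mul, ← pow_mul,
        mul_comm j, ((hzc _).pow_right _).eq]
    · simp [hp.ne_zero]
  have htop : (⨆ i : Fin p, Fx ρ (e * z ^ (i : ℕ))) = ⊤ := by
    rw [eq_top_iff]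
    intro v _
    rw [← Submodule.smul_mem_iff _ hp0, ← hsum]
    exact Submodule.sum_mem _ fun i hi => Submodule.mem_iSup_of_mem ⟨i, Finset.mem_range.1 hi⟩
      (Nm_mem ρ (hep i) v)
  have he1 : ∀ i : ℕ, e * z ^ i ≠ 1 := fun i h =>
    hez (eq_inv_of_mul_eq_one_left h ▸ inv_mem (Subgroup.npow_mem_zpowers z i))
  let φ : G →* G :=
    { toFun := fun g => e⁻¹ * (g * e * g⁻¹)
      map_one' := by simp
      map_mul' := fun g g' => by
        obtain ⟨k, h1⟩ := hk g'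
        calc _ = e⁻¹ * (g * (g' * e * g'⁻¹) * g⁻¹) := by group
          _ = e⁻¹ * (g * e * (z ^ (k : ℕ) * g⁻¹)) := by rw [h1]; group
          _ = _ := by rw [← ((hzc g⁻¹).pow_right k).eq, h1]; group }
  have hφ : ∀ g, g ∈ φ.ker ↔ g * e * g⁻¹ = e := fun g => inv_mul_eq_one.trans eq_comm
  refine ⟨φ.ker, fun i => Fx ρ (e * z ^ (i : ℕ)), ?_, htop, fun i => ?_, fun h hh i w hw => ?_,
    fun i => ⟨_, (hφ _).2 ?_, he1 i, fun w hw => hw⟩, fun g hg => ?_⟩
  · rw [Subgroup.index_ker]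
    have h1 : φ.range ≤ Subgroup.zpowers z := by
      rintro _ ⟨g, rfl⟩
      obtain ⟨k, h1⟩ := hk g
      change e⁻¹ * (g * e * g⁻¹) ∈ _
      rw [h1, inv_mul_cancel_left]
      exact Subgroup.npow_mem_zpowers _ _
    have h2 := Subgroup.card_dvd_of_le h1
    rw [Nat.card_zpowers, hzo] at h2
    refine ((Nat.dvd_prime hp).1 h2).resolve_left fun h3 => ?_
    rw [Subgroup.card_eq_one, MonoidHom.range_eq_bot_iff] at h3
    have h4 : e ∈ Subgroup.center G := Subgroup.mem_center_iff.2 fun g =>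
      mul_inv_eq_iff_eq_mul.1 ((hφ g).1 (by simp [h3]))
    refine bot_ne_top (α := Submodule (ZMod q) V) ?_
    rw [← htop, eq_comm, iSup_eq_bot]
    exact fun i => hcen _ (mul_mem h4 (pow_mem hz _)) (he1 i)
  · rw [Submodule.disjoint_def]
    intro w hw hw'
    have h1 : (⨆ (j : Fin p) (_ : j ≠ i), Fx ρ (e * z ^ (j : ℕ))) ≤
        LinearMap.ker (Nm ρ p (e * z ^ (i : ℕ))) := by
      refine iSup₂_le fun j hj v hv => ?_
      have h1 := (mem_Fx ρ).1 (Nm_mem ρ (hep i) v)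
      have h2 := (mem_Fx ρ).1 (Nm_mem' ρ p (x := e * z ^ (i : ℕ)) (by
        exact ((Commute.refl e).mul_right ((hzc e).pow_right _)).mul_left
          (((hzc e).pow_right _).symm.mul_right ((Commute.refl z).pow_pow _ _))) hv)
      have h3 : Nm ρ p (e * z ^ (i : ℕ)) v ∈ Fx ρ ((z ^ (j : ℕ))⁻¹ * z ^ (i : ℕ)) := by
        have h3 : (z ^ (j : ℕ))⁻¹ * z ^ (i : ℕ) = (e * z ^ (j : ℕ))⁻¹ * (e * z ^ (i : ℕ)) := by group
        rw [mem_Fx, h3, map_mul, LinearEquiv.mul_apply, h1, map_inv]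
        exact (LinearEquiv.symm_apply_eq _).2 h2.symm
      rwa [hcen _ (mul_mem (inv_mem (pow_mem hz _)) (pow_mem hz _)) (fun h4 => hj (Fin.ext
        (pow_injOn_Iio_orderOf (by simp [hzo]) (by simp [hzo]) (inv_mul_eq_one.1 h4))))] at h3
    have h2 := h1 hw'
    rw [LinearMap.mem_ker, Nm_apply, Finset.sum_congr rfl fun j _ => pow_fix ρ hw j] at h2
    simpa [← Nat.cast_smul_eq_nsmul (ZMod q), hp0] using h2
  · have h1 : h * (e * z ^ (i : ℕ)) * h⁻¹ = e * z ^ (i : ℕ) := by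
      calc _ = h * e * (z ^ (i : ℕ) * h⁻¹) := by group
        _ = _ := by rw [← ((hzc h⁻¹).pow_right i).eq, ← mul_assoc, (hφ h).1 hh]
    beta_reduce
    rw [← h1, ← map_Fx]
    exact Submodule.mem_map_of_mem hw
  · rw [((hzc e).pow_right i).eq]
    calc _ = z ^ (i : ℕ) * e * (z ^ (i : ℕ))⁻¹ := by group
      _ = e := by rw [← ((hzc e).pow_right i).eq, mul_inv_cancel_right]
  · obtain ⟨k, h1⟩ := hk g
    refine ⟨Equiv.addRight k, orderOf_eq_prime ?_ fun h2 => hg ((hφ g).2 ?_), fun i => ?_⟩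
    · have h2 := card_nsmul_eq_zero (x := k)
      rw [Fintype.card_fin] at h2
      ext x
      simp [h2]
    · have h3 : k = 0 := by simpa using congrArg (fun σ : Equiv.Perm (Fin p) => σ 0) h2
      simp [h1, h3]
    · rw [map_Fx, Equiv.coe_addRight]
      beta_reduce
      rw [Fin.val_add, ← pow_eq_pow_mod _ hzp, add_comm, pow_add,
        ← mul_assoc e, ← h1]
      congr 1
      calc _ = g * e * (z ^ (i : ℕ) * g⁻¹) := by group
        _ = _ := by rw [← ((hzc g⁻¹).pow_right i).eq, ← mul_assoc]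

end Cfsg.Agent.S3380
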