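import Cfsg.Statements.S3381
import Cfsg.Agent.H61.RegLin

set_option autoImplicit false
open Cfsg

namespace Cfsg.Agent.S3381

theorem count {V I : Type*} [AddCommGroup V] [Finite V] [Finite I] (F : I → AddSubgroup V)
    (a : ℕ) (ha : ∀ t, Nat.card (F t) = a)
    (hex : ∀ v : V, v ≠ 0 → ∃ t, v ∈ F t)
    (hu : ∀ v : V, v ≠ 0 → ∀ s t, v ∈ F s → v ∈ F t → s = t) :
    Nat.card V - 1 = Nat.card I * (a - 1) := by
  classical
  have := Fintype.ofFinite I
  have hb : Function.Bijective
      (fun x : Σ t : I, {v : F t // v ≠ 0} => (⟨x.2.1.1, fun e => x.2.2 (Subtype.ext e)⟩ :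
        {v : V // v ≠ 0})) := by
    constructor
    · rintro ⟨s, ⟨v, hv⟩, hv0⟩ ⟨t, ⟨w, hw⟩, hw0⟩ e
      obtain rfl : v = w := congrArg Subtype.val e
      obtain rfl : s = t := hu v (fun e => hv0 (Subtype.ext e)) _ _ hv hw
      rfl
    · rintro ⟨v, hv⟩
      obtain ⟨t, ht⟩ := hex v hv
      exact ⟨⟨t, ⟨v, ht⟩, fun e => hv (congrArg Subtype.val e)⟩, rfl⟩
  rw [← H61.natCard_ne (0 : V), ← Nat.card_congr (Equiv.ofBijective _ hb), Nat.card_sigma,
    Finset.sum_congr rfl fun t _ => (H61.natCard_ne (0 : F t)).trans (congrArg (· - 1) (ha t))]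
  simp

theorem aux {G V : Type*} [Group G] [Finite G] [AddCommGroup V] [Finite V] [Nontrivial V]
    [DistribMulAction G V] (hf : ∀ g : G, (∀ v : V, g • v = v) → g = 1)
    (hq : (∀ v : V, v + v = 0) ∨ ∀ v : V, v + v = 0 → v = 0)
    (hstab : ∀ v : V, v ≠ 0 → Nat.card (MulAction.stabilizer G v) = 2)
    (z : G) (hz : orderOf z = 2) (hzc : z ∈ Subgroup.center G) :
    ∃ a : ℕ, 1 < a ∧ Nat.card V = a * a ∧
      Nat.card {g : G // orderOf g = 2 ∧ g ∉ Subgroup.center G} = a + 1 := by
  classical
  have hsq : ∀ t : G, orderOf t = 2 → t * t = 1 := fun t ht => by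
    rw [← pow_two, ← ht, pow_orderOf_eq_one]
  have hne : ∀ t : G, orderOf t = 2 → t ≠ 1 := fun t ht e => by
    rw [e, orderOf_one] at ht
    omega
  have huniq : ∀ v : V, v ≠ 0 → ∀ s t : G, s ≠ 1 → t ≠ 1 → s • v = v → t • v = v → s = t := by
    intro v hv s t hs ht hsv htv
    obtain ⟨x, -, hx⟩ := (Nat.card_eq_two_iff' (1 : MulAction.stabilizer G v)).mp (hstab v hv)
    exact congrArg Subtype.val ((hx ⟨s, hsv⟩ fun e => hs (congrArg Subtype.val e)).trans
      (hx ⟨t, htv⟩ fun e => ht (congrArg Subtype.val e)).symm)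
  have hex : ∀ v : V, v ≠ 0 → ∃ t : G, orderOf t = 2 ∧ t • v = v := fun v hv => by
    obtain ⟨t, ht⟩ := exists_prime_orderOf_dvd_card' (G := MulAction.stabilizer G v) 2
      (by rw [hstab v hv])
    exact ⟨t.1, by rw [Subgroup.orderOf_coe, ht], t.2⟩
  have hneg : ∀ z : G, orderOf z = 2 → z ∈ Subgroup.center G → ∀ v : V, z • v = -v := by
    intro z hz hzc
    have hc := Subgroup.mem_center_iff.mp hzc
    have hzz : ∀ v : V, z • z • v = v := fun v => by rw [← mul_smul, hsq z hz, one_smul]
    have key : ∀ u : V, z • u = u → u = 0 := by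
      intro u hu
      by_contra hu0
      obtain ⟨w, hw⟩ : ∃ w : V, z • w ≠ w := by
        by_contra hh
        push Not at hh
        exact hne z hz (hf z hh)
      rcases hq with hq | hq
      · obtain ⟨t, ht, htw⟩ := hex w (by rintro rfl; exact hw (smul_zero z))
        have h1 : w + z • w ≠ 0 := fun e => hw (by
          rw [eq_neg_of_add_eq_zero_right e, neg_eq_of_add_eq_zero_right (hq w)])
        refine hw (huniq _ h1 t z (hne t ht) (hne z hz) ?_ ?_ ▸ htw)
        · rw [smul_add, ← mul_smul, hc, mul_smul, htw]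
        · rw [smul_add, hzz, add_comm]
      · have h1 : z • (w - z • w) = -(w - z • w) := by rw [smul_sub, hzz, neg_sub]
        have h0 : w - z • w ≠ 0 := fun e => hw (sub_eq_zero.mp e).symm
        set y := w - z • w
        have h2 : u + y ≠ 0 := fun e => h0 (hq y (by
          have := congrArg (z • ·) e
          simp only [smul_add, hu, h1, smul_zero] at this
          rw [← e] at this
          have := add_left_cancel this
          nth_rewrite 1 [← this]
          exact neg_add_cancel y))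
        obtain ⟨t, ht, htw⟩ := hex _ h2
        have h3 : t • (u + -y) = u + -y := by
          rw [← h1, ← hu, ← smul_add, ← mul_smul, hc, mul_smul, htw]
        have h4 : t • u = u := by
          rw [← sub_eq_zero]
          apply hq
          have := congrArg₂ (· + ·) htw h3
          simp only [smul_add, smul_neg] at this
          rw [← sub_eq_zero] at this
          rw [← this]
          abel
        rw [huniq u hu0 t z (hne t ht) (hne z hz) h4 hu, smul_add, hu, h1] at htw
        have := add_left_cancel htw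
        refine h0 (hq y ?_)
        nth_rewrite 1 [← this]
        exact neg_add_cancel y
    intro v
    exact eq_neg_of_add_eq_zero_right (key _ (by rw [smul_add, hzz, add_comm]))
  have hz' := hneg z hz hzc
  have hq' : ∀ v : V, v + v = 0 → v = 0 := by
    refine hq.resolve_left fun hq => hne z hz (hf z fun v => ?_)
    rw [hz', neg_eq_of_add_eq_zero_right (hq v)]
  have hc := Subgroup.mem_center_iff.mp hzc
  let I := {g : G // orderOf g = 2 ∧ g ∉ Subgroup.center G}
  let F : G → AddSubgroup V := fun t =>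
    { carrier := {v | t • v = v}
      zero_mem' := smul_zero t
      add_mem' := fun {a b} ha hb => by
        change t • (a + b) = a + b
        rw [smul_add, ha, hb]
      neg_mem' := fun {a} ha => by
        change t • (-a) = -a
        rw [smul_neg, ha] }
  have hexI : ∀ v : V, v ≠ 0 → ∃ t : I, t.1 • v = v := fun v hv => by
    obtain ⟨t, ht, htv⟩ := hex v hv
    refine ⟨⟨t, ht, fun h => hv (hq' v ?_)⟩, htv⟩
    nth_rewrite 1 [← htv]
    rw [hneg t ht h, neg_add_cancel]
  let σ : I → I := fun t => ⟨z * t.1, orderOf_eq_prime (by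
      rw [Commute.mul_pow (hc t.1).symm, pow_two, pow_two, hsq z hz, hsq _ t.2.1, one_mul])
      (fun e => t.2.2 (by rw [eq_inv_of_mul_eq_one_right e]; exact Subgroup.inv_mem _ hzc)),
    fun h => t.2.2 ((Subgroup.mul_mem_cancel_left _ hzc).mp h)⟩
  have hσ : ∀ t, σ (σ t) = t := fun t => Subtype.ext (by
    change z * (z * t.1) = t.1
    rw [← mul_assoc, hsq z hz, one_mul])
  have hadd : ∀ s t : I, s ≠ t → Function.Injective fun p : F s.1 × F t.1 => p.1.1 + p.2.1 := by
    rintro s t hst ⟨a, b⟩ ⟨a', b'⟩ e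
    change a.1 + b.1 = a'.1 + b'.1 at e
    have e1 : (a - a').1 = (b' - b).1 := by
      rw [AddSubgroup.coe_sub, AddSubgroup.coe_sub, sub_eq_sub_iff_add_eq_add, e, add_comm]
    have e2 : (a - a').1 = 0 := by
      by_contra h0
      exact hst (Subtype.ext (huniq _ h0 _ _ (hne _ s.2.1) (hne _ t.2.1) (a - a').2
        (e1 ▸ (b' - b).2)))
    rw [e2] at e1
    exact Prod.ext (sub_eq_zero.mp (Subtype.ext e2)) (sub_eq_zero.mp (Subtype.ext e1.symm)).symm
  have hle : ∀ s t : I, s ≠ t → Nat.card (F s.1) * Nat.card (F t.1) ≤ Nat.card V :=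
    fun s t hst => by
      rw [← Nat.card_prod]
      exact Nat.card_le_card_of_injective _ (hadd s t hst)
  have hσne : ∀ t, t ≠ σ t := fun t e => hne z hz (by
    have : t.1 = z * t.1 := congrArg Subtype.val e
    exact mul_eq_right.mp this.symm)
  have heq : ∀ t : I, Nat.card (F t.1) * Nat.card (F (σ t).1) = Nat.card V := by
    intro t
    rw [← Nat.card_prod]
    refine Nat.card_eq_of_bijective _ ⟨hadd t _ (hσne t), fun v => ?_⟩
    have hinj : Function.Injective fun v : V => v + v := fun a b e => by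
      rw [← sub_eq_zero]
      apply hq'
      change a + a = b + b at e
      rw [sub_add_sub_comm, e, sub_self]
    obtain ⟨w, rfl⟩ := Finite.injective_iff_surjective.mp hinj v
    have htt : t.1 • t.1 • w = w := by rw [← mul_smul, hsq _ t.2.1, one_smul]
    refine ⟨(⟨w + t.1 • w, ?_⟩, ⟨w - t.1 • w, ?_⟩), ?_⟩
    · change t.1 • (w + t.1 • w) = _
      rw [smul_add, htt, add_comm]
    · change (z * t.1) • (w - t.1 • w) = _
      rw [mul_smul, smul_sub, htt, hz', neg_sub]
    · change w + t.1 • w + (w - t.1 • w) = w + w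
      abel
  have hgt : ∀ t : I, 1 < Nat.card (F t.1) := fun t => by
    by_contra h
    have h1 : F t.1 = ⊥ := AddSubgroup.eq_bot_of_card_le _ (by omega)
    refine t.2.2 (?_ : t.1 ∈ Subgroup.center G)
    have : z * t.1 = 1 := hf _ fun v => by
      have h2 : v + t.1 • v ∈ F t.1 := by
        change t.1 • (v + t.1 • v) = _
        rw [smul_add, ← mul_smul, hsq _ t.2.1, one_smul, add_comm]
      rw [h1, AddSubgroup.mem_bot] at h2
      rw [mul_smul, hz', neg_eq_of_add_eq_zero_left h2]
    rw [eq_inv_of_mul_eq_one_right this]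
    exact Subgroup.inv_mem _ hzc
  have hall : ∀ t : I, Nat.card (F t.1) * Nat.card (F t.1) = Nat.card V := by
    intro t
    have i1 := Finite.one_lt_card_iff_nontrivial.mp (hgt t)
    have i2 := Finite.one_lt_card_iff_nontrivial.mp (hgt (σ t))
    obtain ⟨a, ha⟩ := exists_ne (0 : F t.1)
    obtain ⟨b, hb⟩ := exists_ne (0 : F (σ t).1)
    have hab : a.1 + b.1 ≠ 0 := fun e => ha (congrArg Prod.fst (hadd t _ (hσne t)
      (a₁ := (a, b)) (a₂ := (0, 0)) (by simpa using e)))
    obtain ⟨s, hs⟩ := hexI _ hab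
    have h1 : s ≠ t := by
      rintro rfl
      exact hb (congrArg Prod.snd (hadd s _ (hσne s) (a₁ := (a, b)) (a₂ := (⟨_, hs⟩, 0))
        (by simp)))
    have h2 : s ≠ σ t := by
      rintro rfl
      exact ha (congrArg Prod.fst (hadd t _ (hσne t) (a₁ := (a, b)) (a₂ := (0, ⟨_, hs⟩))
        (by simp)))
    have h3 : σ s ≠ t := fun e => h2 (by rw [← e, hσ])
    have h4 : σ s ≠ σ t := fun e => h1 (by rw [← hσ s, e, hσ])
    have e1 := heq t
    have e2 := heq s
    have l1 := hle _ _ h1
    have l2 := hle _ _ h2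
    have l3 := hle _ _ h3
    have l4 := hle _ _ h4
    have p1 := hgt s
    have p2 := hgt (σ s)
    have c1 : Nat.card (F t.1) ≤ Nat.card (F (σ s).1) :=
      Nat.le_of_mul_le_mul_left (e2 ▸ l1) (by omega)
    have c2 : Nat.card (F (σ t).1) ≤ Nat.card (F (σ s).1) :=
      Nat.le_of_mul_le_mul_left (e2 ▸ l2) (by omega)
    have c3 : Nat.card (F (σ s).1) ≤ Nat.card (F (σ t).1) :=
      Nat.le_of_mul_le_mul_left (by rw [e1, mul_comm]; exact l3) (zero_lt_one.trans (hgt t))
    have c4 : Nat.card (F (σ s).1) ≤ Nat.card (F t.1) :=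
      Nat.le_of_mul_le_mul_right (e1 ▸ l4) (zero_lt_one.trans (hgt (σ t)))
    rw [← e1, show Nat.card (F (σ t).1) = Nat.card (F t.1) by omega]
  obtain ⟨v₀, hv₀⟩ := exists_ne (0 : V)
  obtain ⟨t₀, -⟩ := hexI v₀ hv₀
  refine ⟨Nat.card (F t₀.1), hgt t₀, (hall t₀).symm, ?_⟩
  have hcount : Nat.card V - 1 = Nat.card I * (Nat.card (F t₀.1) - 1) :=
    count (fun t : I => F t.1) _
      (fun t => Nat.mul_self_inj.mp ((hall t).trans (hall t₀).symm)) hexI
      fun v hv s t hs ht => Subtype.ext (huniq v hv _ _ (hne _ s.2.1) (hne _ t.2.1) hs ht)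
  rw [← hall t₀] at hcount
  obtain ⟨r, hr⟩ : ∃ r, Nat.card (F t₀.1) = r + 1 := ⟨_, (Nat.succ_pred_eq_of_pos Nat.card_pos).symm⟩
  have h1 := hgt t₀
  rw [hr] at hcount h1 ⊢
  rw [show (r + 1) * (r + 1) = (r + 1 + 1) * r + 1 by ring] at hcount
  exact (Nat.eq_of_mul_eq_mul_right (show 0 < r by omega) hcount).symm


/-- Let G be a finite group acting faithfully and linearly on a non-trivial finite vector space V over the field with q elements (q prime) so that every non-zero vector has a stabilizer of order 2, and suppose G has a central involution. Then V has q^(2r) elements for some r and G contains exactly q^r + 1 non-central involutions. -/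
theorem result
    (q : ℕ) [Fact q.Prime] {V : Type*} [AddCommGroup V] [Module (ZMod q) V] [Finite V] [Nontrivial V]
    {G : Type*} [Group G] [Finite G] (ρ : G →* (V ≃ₗ[ZMod q] V)) (hρ : Function.Injective ρ)
    (hstab : ∀ v : V, v ≠ 0 → Nat.card {g : G // ρ g v = v} = 2)
    (z : G) (hz : orderOf z = 2) (hzc : z ∈ Subgroup.center G) :
    ∃ r : ℕ, Nat.card V = q ^ (2 * r) ∧
      Nat.card {g : G // orderOf g = 2 ∧ g ∉ Subgroup.center G} = q ^ r + 1 := by
  let _ : DistribMulAction G V := DistribMulAction.compHom V ρ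
  obtain ⟨a, ha, h1, h2⟩ := aux (G := G) (V := V)
    (fun g hg => hρ (by rw [map_one]; exact LinearEquiv.ext hg)) (by
      by_cases hq : (2 : ZMod q) = 0
      · exact Or.inl fun v => by rw [← two_smul (ZMod q), hq, zero_smul]
      · exact Or.inr fun v hv => by
          rw [← two_smul (ZMod q)] at hv
          exact (smul_eq_zero.mp hv).resolve_left hq) hstab z hz hzc
  have e : Nat.card V = Nat.card (ZMod q) ^ Module.finrank (ZMod q) V :=
    Module.natCard_eq_pow_finrank
  rw [Nat.card_zmod] at e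
  obtain ⟨r, -, hr⟩ := (Nat.dvd_prime_pow Fact.out).mp (show a ∣ q ^ Module.finrank (ZMod q) V from
    e ▸ h1 ▸ dvd_mul_right a a)
  exact ⟨r, by rw [h1, hr, two_mul, pow_add], by rw [h2, hr]⟩

end Cfsg.Agent.S3381
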