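import Cfsg.Statements.S3383
import Cfsg.Agent.H91.FrobPack
import Cfsg.Agent.H61.RegLin2

set_option autoImplicit false
open Cfsg

namespace Cfsg.Agent.S3383

/-- Let H be a Frobenius complement in a finite group L and K the Frobenius kernel (as a subgroup). Then K is characteristic in L, and every normal subgroup of L either contains K or is contained in K. -/
theorem result {L : Type*} [Group L] [Finite L]
    (H : Subgroup L) (hH : Cfsg.IsFrobeniusComplement H)
    (K : Subgroup L) (hK : (K : Set L) = Cfsg.frobeniusKernel H) :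
    K.Characteristic ∧ ∀ N : Subgroup L, N.Normal → K ≤ N ∨ N ≤ K := by
  have hn := H91.frob_normal hH hK.symm
  refine ⟨Subgroup.characteristic_iff_map_le.mpr fun φ => H61.le_of_coprime_index _ _ ?_,
    fun N hN => ?_⟩
  · rw [Subgroup.card_map_of_injective φ.injective,
      (H91.frob_isComplement' hH hK.symm).symm.index_eq_card]
    exact H91.frob_coprime hH hK.symm
  · by_cases h : N ≤ K
    · exact Or.inr h
    left
    obtain ⟨x, hx, hxK⟩ := SetLike.not_le_iff_exists.mp h
    have hinj : Function.Injective fun k : K =>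
        (⟨k.1 * (x * k.1⁻¹ * x⁻¹), K.mul_mem k.2 (hn.conj_mem _ (K.inv_mem k.2) x)⟩ : K) := by
      intro a b hab
      have e : a.1 * (x * a.1⁻¹ * x⁻¹) = b.1 * (x * b.1⁻¹ * x⁻¹) := congrArg Subtype.val hab
      by_contra hne
      refine hxK (H91.frob_mem_of_commute_kernel hH hK.symm (x := b.1⁻¹ * a.1)
        (K.mul_mem (K.inv_mem b.2) a.2) (fun h => hne (Subtype.ext (inv_mul_eq_one.mp h).symm)) ?_)
      change x * (b.1⁻¹ * a.1) = b.1⁻¹ * a.1 * x
      calc x * (b.1⁻¹ * a.1) = b.1⁻¹ * (b.1 * (x * b.1⁻¹ * x⁻¹)) * x * a.1 := by group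
        _ = _ := by rw [← e]; group
    intro k hk
    obtain ⟨a, ha⟩ := Finite.injective_iff_surjective.mp hinj ⟨k, hk⟩
    have e : a.1 * (x * a.1⁻¹ * x⁻¹) = k := congrArg Subtype.val ha
    rw [← e, ← mul_assoc, ← mul_assoc]
    exact N.mul_mem (hN.conj_mem x hx a.1) (N.inv_mem hx)

end Cfsg.Agent.S3383
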