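import Cfsg.Statements.S3733
import Mathlib
import Cfsg.Agent.H4.Coprime

set_option autoImplicit false
open Cfsg

namespace Cfsg.Agent.S3733

open Subgroup
open scoped IsMulCommutative

theorem norm_fixed {A V : Type*} [Group A] [Fintype A] [CommGroup V] (φ : A →* MulAut V)
    (B : Subgroup A) [DecidablePred (· ∈ B)] (v : V) {b : A} (hb : b ∈ B) :
    φ b (∏ a ∈ Finset.univ.filter (· ∈ B), φ a v) = ∏ a ∈ Finset.univ.filter (· ∈ B), φ a v := by
  rw [map_prod]
  refine Finset.prod_bij (fun a _ => b * a) ?_ ?_ ?_ ?_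
  · intro a ha
    simp only [Finset.mem_filter, Finset.mem_univ, true_and] at ha ⊢
    exact B.mul_mem hb ha
  · intro a _ a' _ h
    exact mul_left_cancel h
  · intro c hc
    simp only [Finset.mem_filter, Finset.mem_univ, true_and] at hc ⊢
    exact ⟨b⁻¹ * c, B.mul_mem (B.inv_mem hb) hc, by group⟩
  · intro a _
    rw [map_mul]; rfl

/-- Let A and V be subgroups of a finite group with V abelian and nontrivial and A normalizing V. Suppose a nonempty finite family of proper subgroups of A partitions A: every non-identity element of A lies in exactly one member. If the number of members minus one is coprime to the order of V, then some member B of the family has a non-identity fixed point on V, that is V ∩ C(B) ≠ 1. -/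
theorem result {G : Type*} [Group G] [Finite G] (A V : Subgroup G) (hVab : IsMulCommutative V) (hV : V ≠ ⊥) (hAV : A ≤ Subgroup.normalizer (V : Set G)) (𝒜 : Finset (Subgroup G)) (hne : 𝒜.Nonempty) (hprop : ∀ B ∈ 𝒜, B < A) (hpart : ∀ a ∈ A, a ≠ 1 → ∃! B, B ∈ 𝒜 ∧ a ∈ B) (hk : (𝒜.card - 1).Coprime (Nat.card V)) : ∃ B ∈ 𝒜, V ⊓ Subgroup.centralizer (B : Set G) ≠ ⊥ := by
  classical
  by_contra hcon
  push Not at hcon
  haveI := Fintype.ofFinite A
  let φ : A →* MulAut V := V.normalizerMonoidHom.comp (inclusion hAV)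
  have hφ : ∀ (a : A) (v : V), ((φ a v : V) : G) = a * v * (a : G)⁻¹ := fun a v => rfl
  have hfix : ∀ B ∈ 𝒜, ∀ w : V, (∀ b : A, (b : G) ∈ B → φ b w = w) → w = 1 := by
    intro B hB w hw
    have : (w : G) ∈ V ⊓ centralizer (B : Set G) := by
      refine ⟨w.2, fun b hb => ?_⟩
      have h1 := congrArg Subtype.val (hw ⟨b, (hprop B hB).le hb⟩ hb)
      rw [hφ] at h1
      simp only at h1
      rw [← mul_inv_eq_iff_eq_mul]; exact h1
    rw [hcon B hB, mem_bot] at this
    exact Subtype.ext this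
  apply hV
  rw [eq_bot_iff]
  intro v hv
  set w : V := ⟨v, hv⟩
  have h1 : ∀ B ∈ 𝒜, ∏ a ∈ Finset.univ.filter (· ∈ B.subgroupOf A), φ a w = 1 :=
    fun B hB => hfix B hB _ fun b hb => norm_fixed φ (B.subgroupOf A) w (mem_subgroupOf.mpr hb)
  obtain ⟨B₀, hB₀⟩ := hne
  have h2 : ∏ a ∈ Finset.univ.filter (· ∈ (⊤ : Subgroup A)), φ a w = 1 :=
    hfix B₀ hB₀ _ fun b _ => norm_fixed φ ⊤ w (mem_top b)
  have h3 : ∏ B ∈ 𝒜, ∏ a ∈ Finset.univ.filter (· ∈ B.subgroupOf A), φ a w = 1 :=
    Finset.prod_eq_one h1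
  simp only [Finset.prod_filter] at h3
  rw [Finset.prod_comm] at h3
  simp only [mem_top, Finset.filter_true] at h2
  rw [← Finset.mul_prod_erase _ _ (Finset.mem_univ (1 : A))] at h2 h3
  have h4 : ∀ a ∈ Finset.univ.erase (1 : A),
      (∏ B ∈ 𝒜, if a ∈ B.subgroupOf A then φ a w else 1) = φ a w := by
    intro a ha
    have ha1 : (a : G) ≠ 1 := fun h => (Finset.mem_erase.mp ha).1 (Subtype.ext h)
    obtain ⟨B, ⟨hB, haB⟩, huniq⟩ := hpart a a.2 ha1
    rw [Finset.prod_eq_single_of_mem B hB]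
    · rw [if_pos (mem_subgroupOf.mpr haB)]
    · intro C hC hne
      rw [if_neg]
      intro h
      exact hne (huniq C ⟨hC, mem_subgroupOf.mp h⟩)
  rw [Finset.prod_congr rfl h4] at h3
  simp only [one_mem, if_true, Finset.prod_const, map_one, MulAut.one_apply] at h2 h3
  have hpos : 0 < 𝒜.card := Finset.card_pos.mpr ⟨B₀, hB₀⟩
  have h5 : w ^ (𝒜.card - 1) = 1 := by
    have : w ^ 𝒜.card = w ^ (𝒜.card - 1) * w := by
      rw [← pow_succ]; congr 1; omega
    rw [this, mul_assoc, h2, mul_one] at h3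
    exact h3
  have h6 : orderOf w ∣ 1 := by
    rw [← hk]
    exact Nat.dvd_gcd (orderOf_dvd_of_pow_eq_one h5) (orderOf_dvd_natCard w)
  have h7 : w = 1 := orderOf_eq_one_iff.mp (Nat.dvd_one.mp h6)
  exact mem_bot.mpr (congrArg Subtype.val h7)

end Cfsg.Agent.S3733
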