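import Cfsg.Statements.S3734
import Mathlib
import Cfsg.Agent.H4.CoprimeGen

set_option autoImplicit false
open Cfsg

namespace Cfsg.Agent.S3734

open Subgroup

theorem le_normalizer_iSup {X : Type*} [Group X] {ι : Sort*} {B : Subgroup X} (f : ι → Subgroup X)
    (h : ∀ i, B ≤ normalizer (f i : Set X)) : B ≤ normalizer ((⨆ i, f i : Subgroup X) : Set X) := by
  intro b hb
  rw [H4.mem_normalizer_iff_conj_smul, H4.conj_smul_eq_map, Subgroup.map_iSup]
  congr 1
  funext i
  exact H4.mem_normalizer_iff_conj_smul.mp (h i hb)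

/-- Let A and G be subgroups of a finite group with A abelian, A normalizing G and the orders of A and G coprime. Then G is generated by the fixed-point subgroups C_G(B) of those subgroups B of A for which A/B is cyclic (that is, A = ⟨B, a⟩ for some a), and [G, A] is generated by the commutator subgroups [C_G(B), A] over the same subgroups B. -/
theorem result {X : Type*} [Group X] [Finite X] (A G : Subgroup X) (hAab : IsMulCommutative A) (hAG : A ≤ Subgroup.normalizer (G : Set X)) (hcop : (Nat.card A).Coprime (Nat.card G)) : (⨆ B ∈ {B : Subgroup X | B ≤ A ∧ ∃ a ∈ A, B ⊔ Subgroup.zpowers a = A}, G ⊓ Subgroup.centralizer (B : Set X)) = G ∧ (⨆ B ∈ {B : Subgroup X | B ≤ A ∧ ∃ a ∈ A, B ⊔ Subgroup.zpowers a = A}, ⁅G ⊓ Subgroup.centralizer (B : Set X), A⁆) = ⁅G, A⁆ := by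
  have hs : Group.IsSolvable A := H4.isSolvable_of_isMulCommutative A
  have hAC : ∀ B, B ≤ A → A ≤ normalizer ((G ⊓ centralizer (B : Set X) : Subgroup X) : Set X) :=
    fun B hB => H4.le_normalizer_inf hAG
      (H4.le_normalizer_centralizer
        ((H4.le_normalizer_of_le_of_isMulCommutative hB).trans (centralizer_le_normalizer _)))
  refine ⟨le_antisymm (iSup₂_le fun B _ => inf_le_left) ?_, le_antisymm ?_ ?_⟩
  · refine H4.le_of_centralizer_cocyclic_le hAG hcop fun B hB hc => ?_
    exact le_iSup₂_of_le B ⟨hB, hc⟩ le_rfl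
  · exact iSup₂_le fun B _ => commutator_mono inf_le_left le_rfl
  · set H := ⨆ B ∈ {B : Subgroup X | B ≤ A ∧ ∃ a ∈ A, B ⊔ Subgroup.zpowers a = A},
      ⁅G ⊓ Subgroup.centralizer (B : Set X), A⁆ with hH
    have hAH : A ≤ normalizer (H : Set X) :=
      le_normalizer_iSup _ fun B => le_normalizer_iSup _ fun hB =>
        H4.le_normalizer_commutator (hAC B hB.1) le_normalizer
    have hCH : G ⊓ centralizer (A : Set X) ≤ normalizer (H : Set X) := by
      refine le_normalizer_iSup _ fun B => le_normalizer_iSup _ fun hB => ?_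
      refine H4.le_normalizer_commutator ?_ (inf_le_right.trans (centralizer_le_normalizer _))
      exact (inf_le_inf_left G (centralizer_le (SetLike.coe_subset_coe.mpr hB.1))).trans le_normalizer
    have hG : G ≤ H ⊔ (G ⊓ centralizer (A : Set X)) := by
      refine H4.le_of_centralizer_cocyclic_le hAG hcop fun B hB hc => ?_
      have h1 := H4.commutator_sup_centralizer (hAC B hB)
        (H4.coprime_of_le_right hcop inf_le_left) (Or.inl hs)
      rw [← h1]
      refine sup_le_sup (le_iSup₂_of_le B ⟨hB, hc⟩ le_rfl) ?_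
      exact inf_le_inf_right _ inf_le_left
    refine (H4.commutator_le_of_mul_centralizer (N := H) fun k hk => ?_).trans
      (H4.commutator_le_left_of_le_normalizer hAH)
    obtain ⟨n, hn, c, hc, rfl⟩ := (H4.mem_sup_iff_of_le_normalizer hCH).mp (hG hk)
    exact ⟨n, hn, c, hc.2, rfl⟩

end Cfsg.Agent.S3734
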