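import Cfsg.Statements.S3735
import Mathlib
import Cfsg.Agent.H4.CoprimeAction
import Cfsg.Agent.H8.SylowIn
import Cfsg.Agent.H7.PBasic

set_option autoImplicit false
open Cfsg

namespace Cfsg.Agent.S3735

open Subgroup Pointwise

theorem inv_conj {G : Type*} [Group G] {A K : Subgroup G} {h : G} (hh : h ∈ normalizer (A : Set G))
    (hK : A ≤ normalizer (K : Set G)) :
    A ≤ normalizer ((MulAut.conj h • K : Subgroup G) : Set G) := by
  rw [H8.normalizer_conj_smul]
  calc A = MulAut.conj h • A := (H8.mem_normalizer_iff_conj_smul_eq.mp hh).symm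
    _ ≤ _ := pointwise_smul_le_pointwise_smul_iff.mpr hK

/-- minimal nontrivial `A`-invariant subgroups of `V`. -/
def Mn {G : Type*} [Group G] (A V M : Subgroup G) : Prop :=
  M ≤ V ∧ A ≤ normalizer (M : Set G) ∧ M ≠ ⊥ ∧
    ∀ K, K ≤ M → A ≤ normalizer (K : Set G) → K = ⊥ ∨ K = M

theorem Mn.conj {G : Type*} [Group G] {A V M : Subgroup G} (hM : Mn A V M) {h : G}
    (hh : h ∈ normalizer (A : Set G)) (hV : h ∈ normalizer (V : Set G)) :
    Mn A V (MulAut.conj h • M) := by
  refine ⟨?_, inv_conj hh hM.2.1, ?_, ?_⟩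
  · calc MulAut.conj h • M ≤ MulAut.conj h • V := pointwise_smul_le_pointwise_smul_iff.mpr hM.1
      _ = V := H8.mem_normalizer_iff_conj_smul_eq.mp hV
  · intro h0
    apply hM.2.2.1
    rw [← H8.conj_inv_smul_conj_smul M h, h0, smul_bot]
  · intro K hK hAK
    have h1 : MulAut.conj h⁻¹ • K ≤ M := by
      rw [← H8.conj_inv_smul_conj_smul M h]
      exact pointwise_smul_le_pointwise_smul_iff.mpr hK
    rcases hM.2.2.2 _ h1 (inv_conj (inv_mem hh) hAK) with h2 | h2
    · left
      rw [← H8.conj_smul_conj_inv_smul K h, h2, smul_bot]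
    · right
      rw [← h2, H8.conj_smul_conj_inv_smul]

theorem exists_mn {G : Type*} [Group G] [Finite G] {A V W : Subgroup G} (hWV : W ≤ V)
    (hAW : A ≤ normalizer (W : Set G)) (hW : W ≠ ⊥) : ∃ M, Mn A V M ∧ M ≤ W := by
  obtain ⟨M, ⟨h1, h2, h3⟩, hmin⟩ := (wellFounded_lt (α := Subgroup G)).has_min
    {M | M ≤ W ∧ A ≤ normalizer (M : Set G) ∧ M ≠ ⊥} ⟨W, le_rfl, hAW, hW⟩
  refine ⟨M, ⟨h1.trans hWV, h2, h3, fun K hK hAK => ?_⟩, h1⟩
  by_cases hK0 : K = ⊥
  · exact Or.inl hK0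
  · right
    by_contra hne
    exact hmin K ⟨hK.trans h1, hAK, hK0⟩ (lt_of_le_of_ne hK hne)

/-- Clifford's Theorem for actions on finite abelian groups, first part. Let H and V be subgroups of a finite group with V abelian and H normalizing V, and let A be a normal subgroup of H. If every H-invariant subgroup of V has an H-invariant complement in V, then every A-invariant subgroup of V has an A-invariant complement in V. -/
theorem result {G : Type*} [Group G] [Finite G] (H A V : Subgroup G) (hVab : IsMulCommutative V) (hHV : H ≤ Subgroup.normalizer (V : Set G)) (hAH : A ≤ H) (hAn : H ≤ Subgroup.normalizer (A : Set G)) (hss : ∀ U : Subgroup G, U ≤ V → H ≤ Subgroup.normalizer (U : Set G) → ∃ W : Subgroup G, W ≤ V ∧ H ≤ Subgroup.normalizer (W : Set G) ∧ U ⊓ W = ⊥ ∧ U ⊔ W = V) (U : Subgroup G) (hUV : U ≤ V) (hAU : A ≤ Subgroup.normalizer (U : Set G)) : ∃ W : Subgroup G, W ≤ V ∧ A ≤ Subgroup.normalizer (W : Set G) ∧ U ⊓ W = ⊥ ∧ U ⊔ W = V := by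
  obtain ⟨W, ⟨hWV, hAW, hUW⟩, -, hmax⟩ := H7.exists_max_ge
    (fun W : Subgroup G => W ≤ V ∧ A ≤ normalizer (W : Set G) ∧ U ⊓ W = ⊥) (A := ⊥)
    ⟨bot_le, le_normalizer_of_normal, inf_bot_eq _⟩
  refine ⟨W, hWV, hAW, hUW, le_antisymm (sup_le hUV hWV) ?_⟩
  have hnorm : ∀ {K L : Subgroup G}, K ≤ V → L ≤ V → K ≤ normalizer (L : Set G) := by
    intro K L hK hL
    refine le_trans (fun k hk => ?_) (centralizer_le_normalizer _)
    exact fun l hl => (H7.commute_of_mem hVab (hL hl) (hK hk)).eq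
  -- every minimal invariant subgroup lies in `U ⊔ W`
  have hMn : ∀ M, Mn A V M → M ≤ U ⊔ W := by
    intro M hM
    rcases hM.2.2.2 ((U ⊔ W) ⊓ M) inf_le_right
      (H4.le_normalizer_inf (H4.le_normalizer_sup hAU hAW) hM.2.1) with h | h
    · have h1 : W ⊔ M = W := by
        refine hmax _ ⟨sup_le hWV hM.1, H4.le_normalizer_sup hAW hM.2.1, ?_⟩ le_sup_left
        rw [eq_bot_iff]
        rintro x ⟨hxU, hx⟩
        obtain ⟨w, hw, m, hm, rfl⟩ := (H4.mem_sup_iff_of_le_normalizer (hnorm hM.1 hWV)).mp hx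
        have : m ∈ (U ⊔ W) ⊓ M := by
          refine ⟨?_, hm⟩
          have : m = w⁻¹ * (w * m) := by group
          rw [this]
          exact (U ⊔ W).mul_mem ((U ⊔ W).inv_mem (mem_sup_right hw)) (mem_sup_left hxU)
        rw [h, mem_bot] at this
        subst this
        rw [← hUW]
        exact ⟨hxU, by simpa using hw⟩
      exact (le_sup_right.trans h1.le).trans le_sup_right
    · rw [← h]; exact inf_le_left
  set S := sSup {M | Mn A V M} with hS
  have hSV : S ≤ V := sSup_le fun M hM => hM.1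
  have hHS : H ≤ normalizer (S : Set G) := by
    intro h hh
    apply H8.mem_normalizer_of_conj_smul_le
    rw [pointwise_smul_subset_iff]
    refine sSup_le fun M hM => ?_
    rw [← pointwise_smul_subset_iff]
    exact le_sSup (hM.conj (hAn hh) (hHV hh))
  obtain ⟨W₀, hW₀V, hHW₀, h1, h2⟩ := hss S hSV hHS
  by_cases hW₀ : W₀ = ⊥
  · rw [hW₀, sup_bot_eq] at h2
    rw [← h2]
    exact sSup_le hMn
  · obtain ⟨M, hM, hMW⟩ := exists_mn hW₀V (hAH.trans hHW₀) hW₀
    exfalso
    apply hM.2.2.1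
    rw [eq_bot_iff, ← h1]
    exact le_inf (le_sSup hM) hMW

end Cfsg.Agent.S3735
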