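import Cfsg.Statements.S3738
import Cfsg.Agent.H3.Rank2Three

set_option autoImplicit false
open Cfsg

namespace Cfsg.Agent.S3738

open Subgroup Cfsg.Agent.H63 Cfsg.Agent.H67 Cfsg.Agent.H3

/-- Let d be a non-identity 3-element of a finite group and P a 2-subgroup normalized by d on which ⟨d⟩ acts faithfully (no non-identity power of d centralizes P) and without non-identity fixed points (C_P(d) = 1). If every abelian subgroup of P has 2-rank at most 2, then d has order 3. -/
theorem result {X : Type*} [Group X] [Finite X] (d : X) (n : ℕ) (hn : 1 ≤ n) (hd : orderOf d = 3 ^ n) (P : Subgroup X) (hP : IsPGroup 2 P) (hdP : d ∈ Subgroup.normalizer (P : Set X)) (hfaith : Subgroup.zpowers d ⊓ Subgroup.centralizer (P : Set X) = ⊥) (hfpf : P ⊓ Subgroup.centralizer {d} = ⊥) (hrank : ∀ V : Subgroup X, V ≤ P → IsMulCommutative V → Cfsg.PRankLE 2 2 V) : orderOf d = 3 := by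
  have h3 : IsPGroup 3 (zpowers d) := isPGroup_of_card_eq_pow (by rw [Nat.card_zpowers, hd])
  have := card_le_three_of_rank_two inferInstance h3 hP (zpowers_le.2 hdP) hfaith
    (by rwa [centralizer_zpowers]) fun E hE he => by
      have := hrank E hE (elemAb_comm he) ⊤ (by haveI := elemAb_comm he; infer_instance)
        fun a _ => Subtype.ext (elemAb_pow he a.2)
      rwa [card_top] at this
  rw [Nat.card_zpowers, hd] at this
  rw [hd]
  obtain rfl : n = 1 := by
    by_contra h
    have := Nat.pow_le_pow_right (show 0 < 3 by norm_num) (show 2 ≤ n by omega)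
    omega
  rfl

end Cfsg.Agent.S3738
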