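import Cfsg.Statements.S3739
import Cfsg.Agent.H3.Rank2Three

set_option autoImplicit false
open Cfsg

namespace Cfsg.Agent.S3739

open Subgroup Cfsg.Agent.H63 Cfsg.Agent.H67 Cfsg.Agent.H3

/-- Let G be a finite group with C_G(O₂(G)) ≤ O₂(G) containing an element of order 6, and let d be a non-identity 3-element of G normalizing a nontrivial elementary abelian 2-subgroup W with C_W(d) = 1. Then G has an elementary abelian subgroup of order 8. -/
theorem result {G : Type*} [Group G] [Finite G] (hchar : Subgroup.centralizer (Cfsg.pCore 2 G : Set G) ≤ Cfsg.pCore 2 G) (hsix : ∃ g : G, orderOf g = 6) (d : G) (hd1 : d ≠ 1) (hd : IsPGroup 3 ↥(Subgroup.zpowers d)) (W : Subgroup G) (hW : Cfsg.IsElementaryAbelian 2 W) (hW1 : W ≠ ⊥) (hdW : d ∈ Subgroup.normalizer (W : Set G)) (hfpf : W ⊓ Subgroup.centralizer {d} = ⊥) : ∃ E : Subgroup G, Cfsg.IsElementaryAbelian 2 E ∧ Nat.card E = 8 := by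
  haveI : Fact (Nat.Prime 3) := ⟨Nat.prime_three⟩
  by_contra hn
  have hr : ∀ E : Subgroup G, IsElementaryAbelian 2 E → Nat.card E ≤ 4 := by
    intro E hE
    by_contra h
    obtain ⟨k, hk⟩ := elemAb_card hE
    have : 3 ≤ k := by
      by_contra h'
      have := Nat.pow_le_pow_right two_pos (show k ≤ 2 by omega)
      omega
    obtain ⟨B, hB, hB8⟩ := exists_le_card_pow (p := 2) (m := 3) (X := E) (hk ▸ pow_dvd_pow 2 this)
    exact hn ⟨B, elemAb_of_le hE hB, hB8⟩
  have hDW : zpowers d ≤ N[W] := zpowers_le.2 hdW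
  have hfp : W ⊓ C[zpowers d] = ⊥ := by rwa [centralizer_zpowers]
  have hsub : ∀ V ≤ W, V ≠ ⊥ → zpowers d ≤ N[V] → Nat.card V = 4 := by
    intro V hV hV0 hn
    obtain ⟨k, hk⟩ := elemAb_card (elemAb_of_le hW hV)
    have h4 := hr V (elemAb_of_le hW hV)
    have h1 : Nat.card V ≠ 1 := fun e => hV0 (card_eq_one.1 e)
    have h2 : Nat.card V ≠ 2 := fun e => hV0 (eq_bot_iff.2 (hfp ▸ le_inf hV
      (le_centralizer_iff.1 (le_cent_of_card_two e hn))))
    rw [hk] at h4 h1 h2 ⊢
    have : k < 3 := by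
      by_contra h
      have := Nat.pow_le_pow_right two_pos (not_lt.1 h)
      omega
    interval_cases k <;> omega
  have hW4 := hsub W le_rfl hW1 hDW
  have hirr : ∀ V ≤ W, V ≠ ⊥ → zpowers d ≤ N[V] → V = W := fun V hV hV0 hn =>
    eq_of_le_of_card_le hV (by rw [hW4, hsub V hV hV0 hn])
  have hinv : ∀ E : Subgroup G, IsElementaryAbelian 2 E → E ≤ C[W] → E ≤ W := fun E hE h => by
    have := eq_of_le_of_card_le (le_sup_right : W ≤ E ⊔ W)
      (by rw [hW4]; exact hr _ (elemAb_sup hE hW h))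
    rw [this]; exact le_sup_left
  rw [pCore_eq_top_form Nat.prime_two] at hchar
  set Q := O[{2}]((⊤ : Subgroup G)) with hQ
  have hQn : ∀ A : Subgroup G, A ≤ N[Q] := fun A => le_top.trans (piCoreOf_normalIn _ _).norm
  have hQp : IsPGroup 2 Q := isPGroup_pCoreOf Nat.prime_two _
  have hQ0 : Q ≠ ⊥ := fun e => hW1 (eq_bot_iff.2 (by
    rw [e, H67.centralizer_bot] at hchar; exact le_top.trans hchar))
  have hWQ : W ≤ Q := by
    have h1 := inf_centralizer_ne_bot_of_isPGroup Nat.prime_two (elemAb_isPGroup hW) hQp (hQn W) hQ0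
    obtain ⟨y, hy, hy2⟩ := exists_orderOf_eq_prime Nat.prime_two
      (dvd_card_of_isPGroup Nat.prime_two (hQp.to_le inf_le_left) h1)
    have hyW := hinv _ (elemAb_zpowers (hy2 ▸ pow_orderOf_eq_one y)) (zpowers_le.2 hy.2)
      (mem_zpowers y)
    have := hirr (W ⊓ Q) inf_le_left (ne_bot_of_mem ⟨hyW, hy.1⟩ (fun e => by
      rw [e, orderOf_one] at hy2; omega)) (le_normalizer_inf hDW (hQn _))
    exact this ▸ inf_le_right
  have hZ : omegaOne 2 Z[Q] = W := hirr _ (hinv _ (elemAb_omegaOne_center 2 Q)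
    ((omegaOne_center_le_centralizer 2 Q).trans (H67.centralizer_anti hWQ)))
    (omegaOne_center_ne_bot Nat.prime_two hQp hQ0)
    ((hQn _).trans (normalizer_le_normalizer_omegaOne_center 2 Q))
  have hWn : ∀ A : Subgroup G, A ≤ N[W] := fun A => by
    rw [← hZ]; exact (hQn _).trans (normalizer_le_normalizer_omegaOne_center 2 Q)
  have hQW : Q ≤ C[W] := by
    rw [← hZ]; exact le_centralizer_iff.1 (omegaOne_center_le_centralizer 2 Q)
  have fpf : ∀ a : G, W ⊓ C1[a] = ⊥ → Q ⊓ C1[a] = ⊥ := by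
    intro a ha
    by_contra h1
    obtain ⟨y, hy, hy2⟩ := exists_orderOf_eq_prime Nat.prime_two
      (dvd_card_of_isPGroup Nat.prime_two (hQp.to_le inf_le_left) h1)
    have hyW := hinv _ (elemAb_zpowers (hy2 ▸ pow_orderOf_eq_one y)) (zpowers_le.2 (hQW hy.1))
      (mem_zpowers y)
    have : y ∈ W ⊓ C1[a] := ⟨hyW, hy.2⟩
    rw [ha, mem_bot] at this
    rw [this, orderOf_one] at hy2; omega
  have faith : ∀ A : Subgroup G, IsPGroup 3 A → A ⊓ C[Q] = ⊥ := fun A hA =>
    isPi_eq_bot (isPi_of_le (isPi_piCoreOf {2} ⊤) (inf_le_right.trans hchar))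
      (isPi_of_le (isPi_compl_of_isPGroup Nat.prime_three hA (by norm_num)) inf_le_left)
  have hd3 : Nat.card (zpowers d) = 3 := by
    have h1 := card_le_three_of_rank_two inferInstance hd hQp (hQn _) (faith _ hd)
      (by rw [centralizer_zpowers]; exact fpf d hfpf) fun E _ he => hr E he
    exact le_antisymm h1 (Nat.le_of_dvd Nat.card_pos
      (dvd_card_of_isPGroup Nat.prime_three hd (zpowers_ne_bot.2 hd1)))
  -- an element of order 3 centralizing `W`
  obtain ⟨g, hg⟩ := hsix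
  have he : 3 ∣ Nat.card C[W] := by
    have he3 : Nat.card (zpowers (g ^ 2)) = 3 := by
      rw [Nat.card_zpowers, orderOf_pow' _ two_ne_zero, hg]; rfl
    have ht2 : orderOf (g ^ 3) = 2 := by rw [orderOf_pow' _ three_ne_zero, hg]; rfl
    have htt : (g ^ 3) ^ 2 = 1 := ht2 ▸ pow_orderOf_eq_one _
    have het : zpowers (g ^ 2) ≤ C[zpowers (g ^ 3)] := by
      rw [centralizer_zpowers, zpowers_le, mem_centralizer_singleton_iff]; group
    obtain ⟨N, hNW, hN2, hNe⟩ : ∃ N ≤ W, Nat.card N = 2 ∧ zpowers (g ^ 2) ≤ N[N] := by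
      by_cases hc : zpowers (g ^ 3) ≤ C[W]
      · exact ⟨_, hinv _ (elemAb_zpowers htt) hc, by rw [Nat.card_zpowers, ht2],
          le_normalizer_of_le_centralizer het⟩
      · refine ⟨W ⊓ C[zpowers (g ^ 3)], inf_le_left, ?_, le_normalizer_inf (hWn _)
          (le_normalizer_centralizer (le_normalizer_of_le_centralizer het))⟩
        have h1 := inf_centralizer_ne_bot_of_isPGroup Nat.prime_two
          (elemAb_isPGroup (elemAb_zpowers htt)) (elemAb_isPGroup hW) (hWn _) hW1
        have h2 := card_lt_of_lt (lt_of_le_of_ne (inf_le_left : W ⊓ C[zpowers (g ^ 3)] ≤ W)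
          fun e => hc (le_centralizer_iff.1 (e ▸ inf_le_right)))
        have h3 := dvd_card_of_isPGroup Nat.prime_two ((elemAb_isPGroup hW).to_le inf_le_left) h1
        have : 0 < Nat.card ↥(W ⊓ C[zpowers (g ^ 3)]) := Nat.card_pos
        omega
    have := le_cent_of_card_four hW4 hNW hN2 (hWn _) hNe
      (normalIn_of_isMulCommutative (elemAb_comm hW) hNW).norm (by rw [he3]; decide)
    rw [← he3]; exact card_dvd_of_le' this
  obtain ⟨T, hT, hdT⟩ := exists_syl_ge (le_top : zpowers d ≤ ⊤) hd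
  have hT0 := hall_inf_normal hT (⟨le_top, le_normalizer_centralizer (hWn ⊤)⟩ : C[W] ⊴ ⊤)
  have hT0n : T ⊓ C[W] ⊴ T := inf_centralizer_normalIn (hWn T)
  have h1 := inf_centralizer_ne_bot_of_isNilpotent (syl_isPGroup hT).isNilpotent hT0n
    (syl_ne_bot hT0 he)
  obtain ⟨e, ⟨⟨heT, heW⟩, heC⟩, he3⟩ := exists_orderOf_eq_prime Nat.prime_three
    (dvd_card_of_isPGroup Nat.prime_three ((syl_isPGroup hT).to_le (inf_le_left.trans inf_le_left)) h1)
  have he1 : e ≠ 1 := fun h => by rw [h, orderOf_one] at he3; omega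
  have hEe := elemAb_zpowers (he3 ▸ pow_orderOf_eq_one e : e ^ 3 = 1)
  have hde : zpowers d ≤ C[zpowers e] :=
    le_centralizer_iff.1 ((zpowers_le.2 heC).trans (H67.centralizer_anti hdT))
  have hA := elemAb_sup (elemAb_of_card_prime Nat.prime_three hd3) hEe hde
  have hdW' : d ∉ C[W] := fun h => hW1 (by
    rw [← hfpf]; exact (inf_eq_left.2 (mem_centralizer_iff_le.1 h)).symm)
  have hnc : ¬ IsCyclic ↥(zpowers d ⊔ zpowers e) := fun h => by
    have h3 := (elemAb_isCyclic_iff hA).1 h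
    have := eq_of_le_of_card_le (le_sup_right : zpowers e ≤ zpowers d ⊔ zpowers e)
      (by rwa [Nat.card_zpowers, he3])
    exact hdW' ((this.ge.trans (zpowers_le.2 heW)) (mem_sup_left (mem_zpowers d)))
  have hQe : Q ≤ C[zpowers e] := by
    refine coprime_abelian_gen_cent1 (elemAb_comm hA) hnc (hQn _) (isPi_coprime'
      (isPi_compl_of_isPGroup Nat.prime_three (elemAb_isPGroup hA) (by norm_num))
      (isPi_piCoreOf _ _)) fun a ha ha1 => ?_
    obtain ⟨x, hx, y, hy, rfl⟩ := (mem_sup_of_le_normalizer (le_normalizer_of_le_centralizer hde)).1 ha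
    by_cases hx1 : x = 1
    · rw [hx1, one_mul] at ha1 ⊢
      rw [← zpowers_eq_of_card_prime (by rw [Nat.card_zpowers, he3]; exact Nat.prime_three) hy ha1,
        centralizer_zpowers]
      exact inf_le_right
    · rw [fpf (x * y) ?_]
      · exact bot_le
      rw [eq_bot_iff, ← hfp, ← zpowers_eq_of_card_prime (hd3 ▸ Nat.prime_three) hx hx1,
        centralizer_zpowers]
      rintro w ⟨hw, hw'⟩
      refine ⟨hw, mem_centralizer_singleton_iff.2 ?_⟩
      have e1 := mem_centralizer_singleton_iff.1 hw'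
      have e2 := (zpowers_le.2 heW : zpowers e ≤ C[W]) hy w hw
      calc w * x = w * (x * y) * y⁻¹ := by group
        _ = x * w := by rw [e1, mul_assoc x, ← e2]; group
  have := faith _ (elemAb_isPGroup hEe)
  rw [inf_eq_left.2 (le_centralizer_iff.1 hQe), zpowers_eq_bot] at this
  exact he1 this

end Cfsg.Agent.S3739
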