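import Cfsg.Statements.S3740
import Cfsg.Agent.H77.PSL2
import Cfsg.Agent.H53.SL2
import Cfsg.Agent.S2427

set_option autoImplicit false
open Cfsg

namespace Cfsg.Agent.S3740

open Cfsg.Agent.H77

open Cfsg.Agent.H53

lemma four_conj {F : Type*} [Field F] (h3 : (3 : F) = 0) {A B : SL2 F}
    (hA : (A : M2 F).trace = 2) (hB : (B : M2 F).trace = 2)
    (hAB : ((A * B : SL2 F) : M2 F).trace = -2) :
    A * B * A * A = B * (A * B * A) ∧ A * B * A * (A * B * A) = -1 ∧
      ∀ x : SL2 F, (x : M2 F).trace = 2 → ((A * x : SL2 F) : M2 F).trace = -2 →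
        ((B * x : SL2 F) : M2 F).trace = -2 → x * A = A * B ∨ A * x = B * A := by
  have hl : ((A * B : SL2 F) : M2 F).trace - 2 = -1 := by rw [hAB]; linear_combination -h3
  obtain ⟨P, hP, h1, h2⟩ := SL2_pair_normal_form hA hB (by
    rw [show (A * B).1.trace - 2 = -1 from hl]; simp)
  rw [show (A * B).1.trace - 2 = -1 from hl] at h2
  obtain ⟨u, hu⟩ : ∃ u : SL2 F, (u : M2 F) = !![1, 1; 0, 1] :=
    ⟨⟨_, by simp [Matrix.det_fin_two]⟩, rfl⟩
  obtain ⟨l, hl'⟩ : ∃ u : SL2 F, (u : M2 F) = !![1, 0; -1, 1] :=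
    ⟨⟨_, by simp [Matrix.det_fin_two]⟩, rfl⟩
  let Q : GL2 F := Matrix.GeneralLinearGroup.mkOfDetNeZero P hP
  have eA : glConj Q u = A := by
    apply Matrix.SpecialLinearGroup.toGL_injective
    rw [toGL_glConj, mul_inv_eq_iff_eq_mul]
    rw [← hu] at h1
    exact Units.ext h1.symm
  have eB : glConj Q l = B := by
    apply Matrix.SpecialLinearGroup.toGL_injective
    rw [toGL_glConj, mul_inv_eq_iff_eq_mul]
    rw [← hl'] at h2
    exact Units.ext h2.symm
  have e1 : u * l * u * u = l * (u * l * u) := by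
    rw [sl_ext_iff, m2_ext_iff]
    simp [hu, hl']
  have e2 : u * l * u * (u * l * u) = -1 := by
    rw [sl_ext_iff, m2_ext_iff]
    simp [hu, hl']
  refine ⟨?_, ?_, fun x hx hAx hBx => ?_⟩
  · simp only [← eA, ← eB, ← glConj_mul', e1]
  · simp only [← eA, ← eB, ← glConj_mul', e2]
    exact glConj_isScal _ (sl_isScal_iff.mpr (Or.inr rfl))
  · obtain ⟨y, rfl⟩ : ∃ y, glConj Q y = x := ⟨glConj Q⁻¹ x, by
      rw [← glConj_mul, mul_inv_cancel, glConj_of_isScal (isScal_iff_smul.mpr ⟨1, by simp⟩)]⟩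
    rw [← eA] at hAx
    rw [← eB] at hBx
    rw [← glConj_mul', trace_glConj] at hAx hBx
    rw [trace_glConj] at hx
    have hd := y.det_coe
    rw [Matrix.det_fin_two] at hd
    simp only [sl_coe_mul, Matrix.trace_fin_two, m2_mul_apply, hu, hl', Matrix.of_apply,
      Matrix.cons_val', Matrix.cons_val_zero, Matrix.cons_val_one, Matrix.cons_val_fin_one]
      at hx hAx hBx
    have y10 : (y : M2 F) 1 0 = -1 := by linear_combination hAx - hx - h3
    have y01 : (y : M2 F) 0 1 = 1 := by linear_combination -hBx + hx + h3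
    have y11 : (y : M2 F) 1 1 = 2 - (y : M2 F) 0 0 := by linear_combination hx
    have y00 : (y : M2 F) 0 0 * ((y : M2 F) 0 0 - 2) = 0 := by
      rw [y10, y01, y11] at hd
      linear_combination -hd
    simp only [← eA, ← eB, ← glConj_mul']
    rcases mul_eq_zero.mp y00 with h | h
    · left
      congr 1
      rw [sl_ext_iff, m2_ext_iff]
      simp only [sl_coe_mul, m2_mul_apply, hu, hl', Matrix.of_apply, Matrix.cons_val',
        Matrix.cons_val_zero, Matrix.cons_val_one, Matrix.cons_val_fin_one, y10, y01, y11, h]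
      refine ⟨by ring, by ring, by ring, by ring⟩
    · right
      congr 1
      have h' : (y : M2 F) 0 0 = 2 := by linear_combination h
      rw [sl_ext_iff, m2_ext_iff]
      simp only [sl_coe_mul, m2_mul_apply, hu, hl', Matrix.of_apply, Matrix.cons_val',
        Matrix.cons_val_zero, Matrix.cons_val_one, Matrix.cons_val_fin_one, y10, y01, y11, h']
      refine ⟨by ring, by ring, by ring, by ring⟩

/-- Let F be a finite field of odd characteristic p and let a be a p-element of SL₂(F) normalizing a subgroup R of order prime to p with [R, a] ≠ 1. Then p = 3, R is a quaternion group of order 8, and R⟨a⟩ is isomorphic to SL₂(3). -/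
theorem result (F : Type) [Field F] [Fintype F] {p : ℕ} [Fact p.Prime] [CharP F p] (hp : p ≠ 2) (a : Matrix.SpecialLinearGroup (Fin 2) F) (ha : IsPGroup p ↥(Subgroup.zpowers a)) (R : Subgroup (Matrix.SpecialLinearGroup (Fin 2) F)) (hR : (Nat.card R).Coprime p) (haR : a ∈ Subgroup.normalizer (R : Set (Matrix.SpecialLinearGroup (Fin 2) F))) (hnt : ⁅R, Subgroup.zpowers a⁆ ≠ ⊥) : p = 3 ∧ Nonempty (↥R ≃* QuaternionGroup 2) ∧ Nonempty (↥(R ⊔ Subgroup.zpowers a) ≃* Matrix.SpecialLinearGroup (Fin 2) (ZMod 3)) := by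
  have hpp : p.Prime := Fact.out
  have hRp : ∀ r ∈ R, r ^ p = 1 → r = 1 := by
    intro r hr h
    have h1 : orderOf r ∣ Nat.gcd (Nat.card R) p :=
      Nat.dvd_gcd (Subgroup.orderOf_dvd_natCard R hr) (orderOf_dvd_of_pow_eq_one h)
    rw [hR.gcd_eq_one] at h1
    exact orderOf_eq_one_iff.mp (Nat.dvd_one.mp h1)
  have hta : (a : M2 F).trace = 2 := by
    obtain ⟨k, hk⟩ := ha ⟨a, Subgroup.mem_zpowers a⟩
    exact SL2_trace_of_pow (p := p) (k := k) (congrArg Subtype.val hk)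
  have hap : a ^ p = 1 := SL2_pow_eq_one_of_trace p hta
  obtain ⟨r₀, hr₀, hr₀a⟩ : ∃ r ∈ R, r * a * r⁻¹ ≠ a := by
    by_contra h
    push Not at h
    apply hnt
    rw [Subgroup.commutator_eq_bot_iff_le_centralizer]
    intro r hr
    rw [Subgroup.zpowers_eq_closure, Subgroup.centralizer_closure]
    exact sl_mem_cent_iff_conj.mpr (h r hr)
  have ha1 : a ≠ 1 := by rintro rfl; simp at hr₀a
  set N := Subgroup.normalizer (R : Set (SL2 F)) with hN
  have hRN : R ≤ N := Subgroup.le_normalizer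
  let π := QuotientGroup.mk' (R.subgroupOf N)
  have hπ : ∀ z : N, π z = 1 ↔ (z : SL2 F) ∈ R := fun z => by
    rw [← MonoidHom.mem_ker, QuotientGroup.ker_mk', Subgroup.mem_subgroupOf]
  obtain ⟨a', ha'⟩ : ∃ a' : N, (a' : SL2 F) = a := ⟨⟨a, haR⟩, rfl⟩
  have hoa : orderOf (π a') = p := by
    refine orderOf_eq_prime (by rw [← map_pow, show a' ^ p = 1 from Subtype.ext (ha' ▸ hap :), map_one]) ?_
    exact fun h => ha1 (hRp a (ha' ▸ (hπ a').mp h) hap)
  have hord : ∀ (z : N) (j : ℕ), ¬ p ∣ j → π z = π a' ^ j → p ∣ orderOf (z : SL2 F) := by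
    intro z j hj hz
    rw [Subgroup.orderOf_coe]
    refine dvd_trans ?_ (orderOf_map_dvd π z)
    rw [hz, Nat.Coprime.orderOf_pow (by rw [hoa]; exact (Nat.Prime.coprime_iff_not_dvd hpp).mpr hj),
      hoa]
  obtain ⟨c, hc, hc'⟩ : ∃ c : R → N, (∀ r, π (c r) = π a') ∧
      ∀ r : R, (c r : SL2 F) = r * a * (r : SL2 F)⁻¹ :=
    ⟨fun r => ⟨r, hRN r.2⟩ * a' * ⟨r, hRN r.2⟩⁻¹, fun r => by
      simp only [map_mul, map_inv, (hπ ⟨r, hRN r.2⟩).mpr r.2, one_mul, inv_one, mul_one],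
      fun r => by rw [← ha']; rfl⟩
  have hct : ∀ r : R, ((c r : SL2 F) : M2 F).trace = 2 := fun r => by
    rw [hc', ← hta]
    exact (sl_trace_of_isConj (g := a) (isConj_iff.mpr ⟨(r : SL2 F), rfl⟩)).symm
  have hcp : ∀ r : R, (c r : SL2 F) ^ p = 1 := fun r => SL2_pow_eq_one_of_trace p (hct r)
  have hp2 : ¬ p ∣ 2 := fun h => hp ((Nat.prime_dvd_prime_iff_eq hpp Nat.prime_two).mp h)
  have hne : ∀ r s : R, (c r : SL2 F) ≠ c s →
      (((c r : SL2 F) * c s : SL2 F) : M2 F).trace = -2 := by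
    intro r s hrs
    have h1 := SL2_disc_of_dvd_orderOf (isOfFinOrder_of_finite _)
      (hord (c r * c s) 2 hp2 (by rw [map_mul, hc, hc, pow_two]))
    have h2 : (((c r : SL2 F) * c s : SL2 F) : M2 F).trace ^ 2 = 2 ^ 2 := by
      rw [sub_eq_zero] at h1; rw [show (2 : F) ^ 2 = 4 by norm_num]; exact h1
    refine (sq_eq_sq_iff_eq_or_eq_neg.mp h2).resolve_left fun h => hrs ?_
    have h3 : Commute (c r : SL2 F) (c s) := SL2_comm_of_trace (hct r) (hct s) (sub_eq_zero.mpr h)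
    rw [← mul_inv_eq_one]
    refine hRp _ ((hπ (c r * (c s)⁻¹)).mp (by rw [map_mul, map_inv, hc, hc, mul_inv_cancel])) ?_
    rw [h3.inv_right.mul_pow, inv_pow, hcp, hcp, inv_one, mul_one]
  have hc1 : (c 1 : SL2 F) = a := by rw [hc']; simp
  obtain ⟨B, hB⟩ : ∃ B : SL2 F, B = (c ⟨r₀, hr₀⟩ : SL2 F) := ⟨_, rfl⟩
  have hBt : (B : M2 F).trace = 2 := by rw [hB]; exact hct _
  have hBa : a ≠ B := fun h => hr₀a (by rw [hB, hc'] at h; exact h.symm)
  have hBR : B * a⁻¹ ∈ R := by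
    rw [hB, ← ha', ← Subgroup.coe_inv, ← Subgroup.coe_mul]
    exact (hπ (c ⟨r₀, hr₀⟩ * a'⁻¹)).mp (by rw [map_mul, map_inv, hc, mul_inv_cancel])
  obtain ⟨rfl, ⟨e⟩⟩ := SL2_pair_three hp hap (B := B) (by rw [hB]; exact hcp ⟨r₀, hr₀⟩) (fun h => by
      obtain ⟨k, hk⟩ := h ⟨B * a⁻¹, mul_mem (Subgroup.subset_closure (by simp))
        (inv_mem (Subgroup.subset_closure (by simp)))⟩
      have := hRp _ hBR (SL2_pow_eq_one_of_trace p (SL2_trace_of_pow (p := p) (k := k)
        (congrArg Subtype.val hk)))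
      exact hBa (mul_inv_eq_one.mp this).symm)
    (by rw [hB, ← ha', ← Subgroup.coe_mul]; exact hord (a' * c ⟨r₀, hr₀⟩) 2 hp2 (by rw [map_mul, hc, pow_two]))
    (fun h3 => by
      rw [hB, ← ha', ← Subgroup.coe_pow, ← Subgroup.coe_mul]
      exact hord (a' ^ 2 * c ⟨r₀, hr₀⟩) 3
        (fun h => h3 ((Nat.prime_dvd_prime_iff_eq hpp Nat.prime_three).mp h))
        (by rw [map_mul, hc, map_pow, pow_succ (π a') 2]))
  set K := Subgroup.closure ({a, B} : Set (SL2 F)) with hK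
  have haK : a ∈ K := Subgroup.subset_closure (by simp)
  have hBK : B ∈ K := Subgroup.subset_closure (by simp)
  have h3 : (3 : F) = 0 := by exact_mod_cast CharP.cast_eq_zero F 3
  obtain ⟨f1, f2, f3⟩ := four_conj h3 hta hBt (by
    have := hne 1 ⟨r₀, hr₀⟩ (by rwa [hc1, ← hB]); rwa [hc1, ← hB] at this)
  have hm : (-1 : SL2 F) ∈ K := by
    rw [← f2]
    exact mul_mem (mul_mem (mul_mem haK hBK) haK) (mul_mem (mul_mem haK hBK) haK)
  have hπ3 : π a' * π a' * π a' = 1 := by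
    rw [← pow_three', ← map_pow, show a' ^ 3 = 1 from Subtype.ext (ha' ▸ hap :), map_one]
  have hRK : R ≤ K := by
    intro r hr
    obtain ⟨k, hkK, hkR, hk⟩ : ∃ k ∈ K, k ∈ R ∧ k * a * k⁻¹ = c ⟨r, hr⟩ := by
      by_cases h1 : a = c ⟨r, hr⟩
      · exact ⟨1, one_mem _, one_mem _, by simpa using h1⟩
      by_cases h2 : B = c ⟨r, hr⟩
      · refine ⟨a * B * a, mul_mem (mul_mem haK hBK) haK,
          by
          rw [hB, ← ha', ← Subgroup.coe_mul, ← Subgroup.coe_mul]
          exact (hπ (a' * c ⟨r₀, hr₀⟩ * a')).mp (by rw [map_mul, map_mul, hc, hπ3]), ?_⟩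
        rw [← h2, f1]; group
      rcases f3 _ (hct ⟨r, hr⟩) (by have := hne 1 ⟨r, hr⟩ (by rwa [hc1]); rwa [hc1] at this)
        (by rw [hB] at h2 ⊢; exact hne _ _ h2) with h | h
      · refine ⟨a * a * B, mul_mem (mul_mem haK haK) hBK,
          by
          rw [hB, ← ha', ← Subgroup.coe_mul, ← Subgroup.coe_mul]
          exact (hπ (a' * a' * c ⟨r₀, hr₀⟩)).mp (by rw [map_mul, map_mul, hc, hπ3]), ?_⟩
        rw [eq_mul_inv_of_mul_eq h]
        calc a * a * B * a * (a * a * B)⁻¹ = a * (a * B * a * a) * (a * B * a)⁻¹ * a⁻¹ := by group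
          _ = a * B * a⁻¹ := by rw [f1]; group
      · refine ⟨B * a * a, mul_mem (mul_mem hBK haK) haK,
          by
          rw [hB, ← ha', ← Subgroup.coe_mul, ← Subgroup.coe_mul]
          exact (hπ (c ⟨r₀, hr₀⟩ * a' * a')).mp (by rw [map_mul, map_mul, hc, hπ3]), ?_⟩
        rw [eq_inv_mul_of_mul_eq h]
        calc B * a * a * a * (B * a * a)⁻¹ = a⁻¹ * (a * B * a * a) * (a * B * a)⁻¹ * a := by group
          _ = a⁻¹ * (B * a) := by rw [f1]; group
    have hcomm : k⁻¹ * r ∈ Subgroup.centralizer ({a} : Set (SL2 F)) := by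
      rw [sl_mem_cent_iff_conj]
      calc k⁻¹ * r * a * (k⁻¹ * r)⁻¹ = k⁻¹ * (r * a * r⁻¹) * k := by group
        _ = a := by rw [← hc' ⟨r, hr⟩, ← hk]; group
    have hsc : IsScal ((k⁻¹ * r : SL2 F) : M2 F) := by
      have hmem : k⁻¹ * r ∈ R := mul_mem (inv_mem hkR) hr
      by_cases hreg : IsReg (k⁻¹ * r)
      · have ha2 : ¬ IsScal (a : M2 F) := fun h => by
          have := sl_sq_eq_one_of_isScal h
          rw [pow_succ, this, one_mul] at hap
          exact ha1 hap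
        have := hreg.of_mem_cent ha2 (Subgroup.mem_centralizer_singleton_iff.mpr
          (Subgroup.mem_centralizer_singleton_iff.mp hcomm).symm)
        exact absurd (by rw [hta]; norm_num) this
      · have h1 := hRp _ (pow_mem hmem 2) (by
          rw [← pow_mul]; exact sl_pow_eq_one_of_not_isReg 3 hreg)
        rw [← pm_eq_one_iff, pm_eq_one_iff']
        by_contra hc
        push Not at hc
        have := SL2_comm_of_sq (two_ne_zero_of_ne hp) h1
        have := pm_eq_one_iff'.mp (pm_eq_one_iff.mpr (sl_mem_center_iff.mp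
          (Subgroup.mem_center_iff.mpr this)))
        tauto
    rw [show r = k * (k⁻¹ * r) by group]
    refine mul_mem hkK ?_
    rcases pm_eq_one_iff'.mp (pm_eq_one_iff.mpr hsc) with h | h <;> rw [h]
    exacts [one_mem _, hm]
  have hKN : K ≤ N := (Subgroup.closure_le _).mpr (by
    rintro x (rfl | rfl)
    exacts [haR, by rw [hB]; exact (c ⟨r₀, hr₀⟩).2])
  have hKe : R ⊔ Subgroup.zpowers a = K := by
    refine le_antisymm (sup_le hRK (Subgroup.zpowers_le.mpr haK)) ((Subgroup.closure_le _).mpr ?_)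
    have h1 : a ∈ R ⊔ Subgroup.zpowers a := Subgroup.mem_sup_right (Subgroup.mem_zpowers a)
    rintro x (rfl | rfl)
    · exact h1
    · rw [hB, hc']
      exact mul_mem (mul_mem (Subgroup.mem_sup_left hr₀) h1) (inv_mem (Subgroup.mem_sup_left hr₀))
  refine ⟨rfl, ?_, hKe ▸ ⟨e⟩⟩
  have hnor : (R.subgroupOf K).Normal := (Subgroup.normal_subgroupOf_iff_le_normalizer hRK).mpr hKN
  obtain ⟨c24, -, -, ⟨eq⟩, -, hnorm⟩ := Cfsg.Agent.S2427.result
  let e1 : R ≃* (R.subgroupOf K).map e.toMonoidHom :=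
    (Subgroup.subgroupOfEquivOfLe hRK).symm.trans (e.subgroupMap _)
  have hcen : ¬ (R.subgroupOf K).map e.toMonoidHom ≤ Subgroup.center _ := fun h => by
    have h1 := Subgroup.mem_center_iff.mp (h ⟨⟨r₀, hRK hr₀⟩, hr₀, rfl⟩) (e ⟨a, haK⟩)
    have h2 := congrArg Subtype.val (e.injective (by rw [map_mul, map_mul]; exact h1 :
      e (⟨a, haK⟩ * ⟨r₀, hRK hr₀⟩) = e (⟨r₀, hRK hr₀⟩ * ⟨a, haK⟩)))
    exact hr₀a (by rw [mul_inv_eq_iff_eq_mul]; exact h2.symm)
  rcases hnorm _ (hnor.map e.toMonoidHom e.surjective) with h | h | h | h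
  · exact absurd (h ▸ bot_le) hcen
  · rw [Nat.card_congr e1.toEquiv, h, Subgroup.card_top, c24] at hR
    norm_num at hR
  · exact absurd h.le hcen
  · exact ⟨e1.trans ((MulEquiv.subgroupCongr h).trans eq)⟩

end Cfsg.Agent.S3740
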