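import Cfsg.Statements.S3741
import Mathlib
import Cfsg.Agent.H89.Pairing

set_option autoImplicit false
open Cfsg

namespace Cfsg.Agent.S3741

/-- Let A and B be subgroups of a finite p-group with [A, B] ≤ A ∩ B and [A, B] of order at most p. Then |A : C_A(B)| = |B : C_B(A)|. -/
theorem result {G : Type*} [Group G] [Finite G] {p : ℕ} [Fact p.Prime] (hG : IsPGroup p G) (A B : Subgroup G) (hAB : ⁅A, B⁆ ≤ A ⊓ B) (hcard : Nat.card ↥⁅A, B⁆ ≤ p) : (A ⊓ Subgroup.centralizer (B : Set G)).relIndex A = (B ⊓ Subgroup.centralizer (A : Set G)).relIndex B := by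
  have hp : p.Prime := Fact.out
  rw [Subgroup.inf_relIndex_left, Subgroup.inf_relIndex_left]
  have hdvd : Nat.card ↥⁅A, B⁆ = 1 ∨ Nat.card ↥⁅A, B⁆ = p := by
    rcases (hG.to_subgroup ⁅A, B⁆).card_eq_or_dvd with h | h
    · exact Or.inl h
    · exact Or.inr (le_antisymm hcard (Nat.le_of_dvd Nat.card_pos h))
  have hcyc : IsCyclic ↥⁅A, B⁆ := by
    rcases hdvd with h | h
    · exact isCyclic_of_card_dvd_prime (p := p) (h ▸ one_dvd p)
    · exact isCyclic_of_prime_card h
  have key : ∀ C : Subgroup G, ⁅A, B⁆ ≤ C → C ≤ Subgroup.normalizer ((⁅A, B⁆ : Subgroup G) : Set G) →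
      C ≤ Subgroup.centralizer ((⁅A, B⁆ : Subgroup G) : Set G) := by
    intro C h1 h2
    rcases hdvd with h | h
    · rw [Subgroup.card_eq_one.mp h]
      intro c _ z hz
      rw [Subgroup.mem_bot.mp hz, one_mul, mul_one]
    · have hn : (⁅A, B⁆.subgroupOf C).Normal := (Subgroup.normal_subgroupOf_iff_le_normalizer h1).mpr h2
      have := H89.le_center_of_normal_of_card_prime (hG.to_subgroup C) (N := ⁅A, B⁆.subgroupOf C)
        (by rw [Nat.card_congr (Subgroup.subgroupOfEquivOfLe h1).toEquiv, h])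
      intro c hc z hz
      exact (congrArg Subtype.val (Subgroup.mem_center_iff.mp (this (show (⟨z, h1 hz⟩ : C) ∈
        ⁅A, B⁆.subgroupOf C from hz)) ⟨c, hc⟩)).symm
  exact H89.relIndex_centralizer_eq le_rfl
    (key A (hAB.trans inf_le_left) (Subgroup.normalizer_commutator_ge_left A B))
    (key B (hAB.trans inf_le_right) (Subgroup.normalizer_commutator_ge_right A B))

end Cfsg.Agent.S3741
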