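import Cfsg.Statements.S3743
import Cfsg.Agent.H1.Zipper
import Cfsg.Agent.H3.Cores

set_option autoImplicit false
open Cfsg
open scoped Pointwise

namespace Cfsg.Agent.S3743

/-- In a finite group G, every subnormal nilpotent subgroup lies in the Fitting subgroup F(G), and, for a set of primes π, every subnormal subgroup all of whose prime divisors lie in π lies in O_π(G). -/
theorem result {G : Type*} [Group G] [Finite G] (A : Subgroup G) (hA : A.IsSubnormal) : (Group.IsNilpotent A → A ≤ Cfsg.fittingSubgroup G) ∧ ∀ π : Set ℕ, (∀ p : ℕ, p.Prime → p ∣ Nat.card A → p ∈ π) → A ≤ Cfsg.piCore π G := by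
  refine ⟨fun h => H1.le_fitting_of_isSubnormal hA h, fun π hπ => ?_⟩
  obtain ⟨N, hAN, -, hN, hP⟩ := H1.SnIn.exists_normal_ge
    (fun B : Subgroup G => ∀ p : ℕ, p.Prime → p ∣ Nat.card B → p ∈ π)
    (fun B g hB => by
      have : Nat.card (MulAut.conj g • B : Subgroup G) = Nat.card B :=
        Subgroup.card_map_of_injective (MulAut.conj g).injective
      rw [this]; exact hB)
    (fun B C hB hC hBC _ =>
      H3.pi_card_of_dvd (H3.card_sup_dvd_of_le_normalizer hBC) (H3.pi_card_mul hB hC))
    (H1.SnIn.of_isSubnormal hA) hπ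
  haveI : N.Normal := Subgroup.normalizer_eq_top_iff.mp (top_le_iff.mp hN)
  exact hAN.trans (H3.le_piCore hP)

end Cfsg.Agent.S3743
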