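import Cfsg.Statements.S3746
import Cfsg.Agent.H52.Quasisimple
import Cfsg.Agent.H1.Subnormal

set_option autoImplicit false
open Cfsg

namespace Cfsg.Agent.S3746

/-- Let Z ≤ Z(G) be a central subgroup of a finite group G and E a subgroup of G containing Z whose image E/Z is a component of G/Z (subnormal and quasisimple). Then the derived subgroup [E, E] is a component of G. -/
theorem result {G : Type*} [Group G] [Finite G] (Z : Subgroup G) (hZ : Z ≤ Subgroup.center G) [Z.Normal] (E : Subgroup G) (hZE : Z ≤ E) (hE : Cfsg.IsComponent (E.map (QuotientGroup.mk' Z))) : Cfsg.IsComponent ⁅E, E⁆ := by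
  have hcomap : (E.map (QuotientGroup.mk' Z)).comap (QuotientGroup.mk' Z) = E := by
    rw [Subgroup.comap_map_eq, QuotientGroup.ker_mk', sup_eq_left.mpr hZE]
  have hEs : E.IsSubnormal := by
    rw [← hcomap]; exact hE.1.comap _
  have hZc : ∀ K : Subgroup G, ⁅K, Z⁆ = ⊥ := by
    intro K
    rw [H52.commutator_eq_bot_iff_forall]
    intro a _ b hb
    exact Subgroup.mem_center_iff.mp (hZ hb) a
  have hmap : (⁅E, E⁆ : Subgroup G).map (QuotientGroup.mk' Z) = E.map (QuotientGroup.mk' Z) := by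
    rw [Subgroup.map_commutator, H52.IsComponent.commutator_self hE]
  have hE' : E = ⁅E, E⁆ ⊔ Z := by
    conv_lhs => rw [← hcomap, ← hmap, Subgroup.comap_map_eq, QuotientGroup.ker_mk']
  have hp : ⁅⁅E, E⁆, ⁅E, E⁆⁆ = ⁅E, E⁆ := by
    conv_rhs => rw [hE']
    rw [H52.commutator_sup_sup_of_commute (hZc _), hZc Z, sup_bot_eq]
  refine ⟨?_, ?_⟩
  · refine H1.SnIn.isSubnormal (H1.SnIn.trans (H1.SnIn.of_normal (Subgroup.commutator_le_self E)
      (Subgroup.normalizer_commutator_ge_left E E)) (H1.SnIn.of_isSubnormal hEs))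
  · refine H52.isQuasisimple_of_map (QuotientGroup.mk' Z) hp ?_ (hmap ▸ hE.2)
    rw [QuotientGroup.ker_mk']
    exact H52.commutator_eq_bot_symm (H52.commutator_eq_bot_mono (hZc _) le_rfl inf_le_right)

end Cfsg.Agent.S3746
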