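import Cfsg.Statements.S3747
import Cfsg.Agent.H52.Quasisimple
import Cfsg.Agent.H1.Zipper

set_option autoImplicit false
open Cfsg

namespace Cfsg.Agent.S3747

theorem center_sSup_eq_bot {G : Type*} [Group G] (S : Set (Subgroup G)) (hS : S.Finite)
    (h : ∀ K ∈ S, IsComponent K ∧ K ⊓ Subgroup.centralizer (K : Set G) = ⊥) :
    sSup S ⊓ Subgroup.centralizer ((sSup S : Subgroup G) : Set G) = ⊥ := by
  induction S, hS using Set.Finite.induction_on with
  | empty => simp
  | @insert A S hA _ ih =>
    have hc : ⁅A, sSup S⁆ = ⊥ := by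
      apply H52.commutator_sSup_right_eq_bot
      intro B hB
      exact H52.IsComponent.commutator_eq_bot_of_ne (h A (Set.mem_insert _ _)).1
        (h B (Set.mem_insert_of_mem _ hB)).1 (fun e => hA (e ▸ hB))
    rw [sSup_insert, H52.center_sup_of_commute hc, (h A (Set.mem_insert _ _)).2,
      ih (fun K hK => h K (Set.mem_insert_of_mem _ hK)), sup_bot_eq]

theorem normalClosure_eq {G : Type*} [Group G] (K : Subgroup G) :
    Subgroup.normalClosure (K : Set G) =
      sSup {L | ∃ g : G, L = K.map (MulAut.conj g).toMonoidHom} := by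
  apply le_antisymm
  · rw [Subgroup.normalClosure, Subgroup.closure_le]
    intro x hx
    obtain ⟨a, ha, hc⟩ := Group.mem_conjugatesOfSet_iff.mp hx
    obtain ⟨g, rfl⟩ := isConj_iff.mp hc
    exact (le_sSup (s := {L | ∃ g : G, L = K.map (MulAut.conj g).toMonoidHom}) ⟨g, rfl⟩)
      ⟨a, ha, rfl⟩
  · apply sSup_le
    rintro _ ⟨g, rfl⟩ _ ⟨a, ha, rfl⟩
    exact Subgroup.normalClosure_normal.conj_mem _ (Subgroup.subset_normalClosure ha) g

theorem partA {G : Type*} [Group G] [Finite G] (K : Subgroup G) (hK : Cfsg.IsComponent K)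
    (hZ : Subgroup.center ↥K = ⊥) : (Subgroup.normalClosure (K : Set G) ≠ ⊥ ∧
      ∀ N : Subgroup G, N.Normal → N ≤ Subgroup.normalClosure (K : Set G) →
        N = ⊥ ∨ N = Subgroup.normalClosure (K : Set G)) := by
  refine ⟨fun h => H52.IsComponent.ne_bot hK (le_bot_iff.mp (h ▸ Subgroup.le_normalClosure)), ?_⟩
  intro N hN hle
  rcases H52.IsComponent.le_or_commutator_eq_bot_of_normal hK N with h | h
  · exact Or.inr (le_antisymm hle (Subgroup.normalClosure_le_normal h))
  · left
    have h1 : Subgroup.normalClosure (K : Set G) ≤ Subgroup.centralizer (N : Set G) :=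
      Subgroup.normalClosure_le_normal (Subgroup.commutator_eq_bot_iff_le_centralizer.mp h)
    have h2 := center_sSup_eq_bot {L | ∃ g : G, L = K.map (MulAut.conj g).toMonoidHom}
      (Set.toFinite _) (by
        rintro _ ⟨g, rfl⟩
        refine ⟨H52.IsComponent.conj hK g, ?_⟩
        rw [eq_bot_iff]
        rintro _ ⟨⟨a, ha, rfl⟩, hc⟩
        have : (⟨a, ha⟩ : K) ∈ Subgroup.center K := by
          rw [Subgroup.mem_center_iff]
          intro b
          apply Subtype.ext
          apply (MulAut.conj g).injective
          have := hc _ ⟨b, b.2, rfl⟩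
          push_cast
          rw [map_mul, map_mul]
          exact this
        rw [hZ, Subgroup.mem_bot] at this
        rw [show a = 1 from congrArg Subtype.val this, map_one]
        exact Subgroup.one_mem _)
    rw [← normalClosure_eq] at h2
    rw [eq_bot_iff, ← h2]
    exact le_inf hle (Subgroup.le_centralizer_iff.mp h1)

/-- Let G be a finite group. (a) If K is a component of G with trivial centre, then the normal closure of K in G is a minimal normal subgroup of G. (b) If the Fitting subgroup of G is trivial, then the layer E(G) is generated by the minimal normal subgroups of G. -/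
theorem result {G : Type*} [Group G] [Finite G] : (∀ K : Subgroup G, Cfsg.IsComponent K → Subgroup.center ↥K = ⊥ → (Subgroup.normalClosure (K : Set G) ≠ ⊥ ∧ ∀ N : Subgroup G, N.Normal → N ≤ Subgroup.normalClosure (K : Set G) → N = ⊥ ∨ N = Subgroup.normalClosure (K : Set G))) ∧ (Cfsg.fittingSubgroup G = ⊥ → sSup {N : Subgroup G | N ≠ ⊥ ∧ N.Normal ∧ ∀ N' : Subgroup G, N'.Normal → N' ≤ N → N' = ⊥ ∨ N' = N} = Cfsg.layer G) := by
  refine ⟨partA, fun hF => le_antisymm ?_ ?_⟩
  · apply sSup_le
    rintro N ⟨hN1, hN, hmin⟩
    obtain ⟨L, ⟨hL1, hLs, hLN⟩, hLmin⟩ := exists_minimal_of_wellFoundedLT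
      (fun L : Subgroup G => L ≠ ⊥ ∧ L.IsSubnormal ∧ L ≤ N) ⟨N, hN1, hN.isSubnormal, le_rfl⟩
    haveI : IsSimpleGroup L := by
      haveI : Nontrivial L := (Subgroup.nontrivial_iff_ne_bot L).mpr hL1
      refine ⟨fun M hM => ?_⟩
      by_cases hM1 : M = ⊥
      · exact Or.inl hM1
      right
      have h1 : M.map L.subtype ≠ ⊥ := fun h =>
        hM1 ((Subgroup.map_eq_bot_iff_of_injective _ L.subtype_injective).mp h)
      have h2 : (M.map L.subtype).IsSubnormal :=
        ((H1.SnIn.map_subtype hM.isSubnormal).trans (H1.SnIn.of_isSubnormal hLs)).isSubnormal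
      have h3 := hLmin ⟨h1, h2, (Subgroup.map_subtype_le M).trans hLN⟩ (Subgroup.map_subtype_le M)
      rw [eq_top_iff]
      intro x _
      obtain ⟨y, hy, hyx⟩ := h3 x.2
      exact (Subtype.ext hyx : y = x) ▸ hy
    have hna : ¬ IsMulCommutative L := by
      intro hc
      apply hL1
      rw [eq_bot_iff, ← hF]
      refine H1.le_fitting_of_isSubnormal hLs ?_
      letI : CommGroup L := { (inferInstance : Group L) with mul_comm := hc.is_comm.comm }
      exact CommGroup.isNilpotent
    have hLc : IsComponent L := ⟨hLs, H52.isQuasisimple_of_isSimpleGroup hna⟩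
    haveI := H52.layer_normal (G := G)
    rcases hmin (Subgroup.normalClosure (L : Set G)) inferInstance
      (Subgroup.normalClosure_le_normal hLN) with h | h
    · exact absurd (le_bot_iff.mp (h ▸ Subgroup.le_normalClosure)) hL1
    · rw [← h]
      exact Subgroup.normalClosure_le_normal (H52.IsComponent.le_layer hLc)
  · rw [H52.layer_le_iff]
    intro K hK
    have hZ : Subgroup.center K = ⊥ := by
      rw [← Subgroup.map_eq_bot_iff_of_injective _ K.subtype_injective, eq_bot_iff, ← hF]
      refine H1.le_fitting_of_isSubnormal ?_ ?_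
      · exact ((H1.SnIn.map_subtype (Subgroup.Normal.isSubnormal inferInstance)).trans
          (H1.SnIn.of_isSubnormal hK.1)).isSubnormal
      · haveI : Group.IsNilpotent (Subgroup.center K) := by
          letI : CommGroup (Subgroup.center K) :=
            { (inferInstance : Group (Subgroup.center K)) with
              mul_comm := fun a b => Subtype.ext (Subgroup.mem_center_iff.mp b.2 a) }
          exact CommGroup.isNilpotent
        exact Group.nilpotent_of_mulEquiv
          ((Subgroup.center K).equivMapOfInjective K.subtype K.subtype_injective)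
    obtain ⟨h1, h2⟩ := partA K hK hZ
    exact Subgroup.le_normalClosure.trans (le_sSup ⟨h1, inferInstance, h2⟩)

end Cfsg.Agent.S3747
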