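import Cfsg.Statements.S3748
import Cfsg.Agent.H1.Subnormal
import Cfsg.Agent.H3.Fitting

set_option autoImplicit false
open Cfsg

namespace Cfsg.Agent.S3748

open scoped Pointwise in
theorem partA {G : Type*} [Group G] [Finite G] (M : Subgroup G) (hM : M ≠ ⊤)
    (hprim : ∀ N : Subgroup G, N ≤ M → M ≤ Subgroup.normalizer (N : Set G) → N ≠ ⊥ →
      Subgroup.normalizer (N : Set G) = M) (L : Subgroup G) (hL : L.IsSubnormal) (hLM : L ≤ M) :
    L = ⊥ := by
  by_contra hne
  let S : Set (Subgroup G) := {U | H1.SnIn U ⊤ ∧ U ≤ M}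
  have hK : H1.SnIn (sSup S) ⊤ := H1.SnIn.sSup (fun U hU => hU.1)
  have hKM : sSup S ≤ M := sSup_le (fun U hU => hU.2)
  have hLK : L ≤ sSup S := le_sSup ⟨H1.SnIn.of_isSubnormal hL, hLM⟩
  have hN : M ≤ Subgroup.normalizer ((sSup S : Subgroup G) : Set G) := by
    refine H1.le_normalizer_sSup_of_conj (fun x hx U hU => le_sSup ⟨?_, ?_⟩)
    · exact hU.1.conj_of_mem (Subgroup.mem_top x)
    · exact H1.conj_smul_le_of_mem hU.2 hx
  have hKne : sSup S ≠ ⊥ := fun h => hne (le_bot_iff.mp (h ▸ hLK))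
  have hNM := hprim _ hKM hN hKne
  have hKtop : sSup S ≠ ⊤ := fun h => hM (top_le_iff.mp (h ▸ hKM))
  obtain ⟨K, hlt, hKn, hKs⟩ := hK.exists_lt hKtop
  rw [hNM] at hKn
  exact absurd (le_sSup (s := S) ⟨hKs, hKn⟩) (not_le_of_gt hlt)

/-- Call a proper subgroup M of G primitive when M = N_G(N) for every non-trivial normal subgroup N of M. If M is a primitive subgroup of the finite group G, then no non-trivial subnormal subgroup of G is contained in M; in particular M ∩ F(G) = 1. -/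
theorem result {G : Type*} [Group G] [Finite G] (M : Subgroup G) (hM : M ≠ ⊤) (hprim : ∀ N : Subgroup G, N ≤ M → M ≤ Subgroup.normalizer (N : Set G) → N ≠ ⊥ → Subgroup.normalizer (N : Set G) = M) : (∀ L : Subgroup G, L.IsSubnormal → L ≤ M → L = ⊥) ∧ M ⊓ Cfsg.fittingSubgroup G = ⊥ := by
  refine ⟨partA M hM hprim, partA M hM hprim _ ?_ inf_le_left⟩
  haveI := H3.fitting_normal G
  haveI := H3.fitting_isNilpotent G
  have h1 : H1.SnIn (M ⊓ Cfsg.fittingSubgroup G) (Cfsg.fittingSubgroup G) :=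
    H1.SnIn.of_isNilpotent inf_le_right
  have h2 : H1.SnIn (Cfsg.fittingSubgroup G) ⊤ :=
    H1.SnIn.of_normal le_top (by rw [Subgroup.normalizer_eq_top])
  exact (h1.trans h2).isSubnormal

end Cfsg.Agent.S3748
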