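import Cfsg.Statements.S3749
import Cfsg.Agent.H1.Subnormal
import Cfsg.Agent.H3.Fitting
import Cfsg.Agent.H4.CoprimeAction
import Cfsg.Agent.H8.SylowIn

set_option autoImplicit false
open Cfsg

namespace Cfsg.Agent.S3749

/-- Call a proper subgroup M of G primitive when M = N_G(N) for every non-trivial normal subgroup N of M. Let M be a primitive subgroup of the finite group G, p a prime with O_p(M) ≠ 1, and N a normal subgroup of G with M ∩ N = 1. Then p does not divide the order of N; for every prime q there is exactly one Sylow q-subgroup of N normalized by M; and if the order of N has at least two prime divisors then M is not a maximal subgroup of G. -/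
theorem result {G : Type*} [Group G] [Finite G] (M : Subgroup G) (hM : M ≠ ⊤) (hprim : ∀ N : Subgroup G, N ≤ M → M ≤ Subgroup.normalizer (N : Set G) → N ≠ ⊥ → Subgroup.normalizer (N : Set G) = M) {p : ℕ} [Fact p.Prime] (hOp : Cfsg.pCore p ↥M ≠ ⊥) (N : Subgroup G) [N.Normal] (hMN : M ⊓ N = ⊥) : ¬ p ∣ Nat.card N ∧ (∀ q : ℕ, [Fact q.Prime] → ∃! Q : Sylow q ↥N, M ≤ Subgroup.normalizer ((Q : Subgroup ↥N).map N.subtype : Set G)) ∧ ((∃ q r : ℕ, q.Prime ∧ r.Prime ∧ q ≠ r ∧ q ∣ Nat.card N ∧ r ∣ Nat.card N) → ¬ IsCoatom M) := by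
  classical
  have hp : p.Prime := Fact.out
  set P : Subgroup G := (Cfsg.pCore p M).map M.subtype with hPdef
  have hPM : P ≤ M := Subgroup.map_subtype_le _
  have hPp : IsPGroup p P := H3.map_pCore_isPGroup M
  have hMP : M ≤ Subgroup.normalizer (P : Set G) :=
    le_trans Subgroup.le_normalizer (H3.normalizer_le_normalizer_map_pCore M)
  have hPne : P ≠ ⊥ := by
    intro h
    apply hOp
    exact (Subgroup.map_eq_bot_iff_of_injective _ M.subtype_injective).mp h
  have hNP := hprim P hPM hMP hPne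
  have hC : N ⊓ Subgroup.centralizer (P : Set G) = ⊥ := by
    rw [eq_bot_iff, ← hMN]
    refine le_inf (le_trans inf_le_right ?_) inf_le_left
    rw [← hNP]; exact Subgroup.centralizer_le_normalizer _
  have hnormN : ∀ X : Subgroup G, X ≤ Subgroup.normalizer (N : Set G) := fun X => by
    rw [Subgroup.normalizer_eq_top]; exact le_top
  have ha : ¬ p ∣ Nat.card N := by
    intro hd
    obtain ⟨S, hS, hPS⟩ := H8.exists_isSylowIn_ge (H := ⊤) hPp le_top
    have h1 := hS.inf_of_le_normalizer (hnormN ⊤)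
    rw [top_inf_eq] at h1
    have hne : S ⊓ N ≠ ⊥ := by
      intro h
      have h2 := h1.not_dvd
      rw [h, Subgroup.relIndex_bot_left] at h2
      exact h2 hd
    haveI : Group.IsNilpotent S := hS.isPGroup.isNilpotent
    have h3 := H3.inf_centralizer_ne_bot_of_isNilpotent (N := S ⊓ N) (K := S) inferInstance inf_le_left
      (H4.le_normalizer_inf Subgroup.le_normalizer (hnormN S)) hne
    apply h3
    rw [eq_bot_iff, ← hC]
    exact inf_le_inf inf_le_right (H3.centralizer_anti hPS)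
  have hcop : (Nat.card P).Coprime (Nat.card N) :=
    H3.coprime_card_of_isPGroup hPp ((Nat.Prime.coprime_iff_not_dvd hp).mpr ha)
  have hsolv : Group.IsSolvable P ∨ Group.IsSolvable N := Or.inl (H4.isSolvable_of_isPGroup hPp)
  have huniq : ∀ (q : ℕ) [Fact q.Prime] (Q Q' : Sylow q N),
      P ≤ Subgroup.normalizer ((Q : Subgroup N).map N.subtype : Set G) →
      P ≤ Subgroup.normalizer ((Q' : Subgroup N).map N.subtype : Set G) → Q = Q' := by
    intro q _ Q Q' hQ hQ'
    obtain ⟨c, hc, hcQ⟩ := H4.invariant_sylow_conj (hnormN P) hcop hsolv Q Q' hQ hQ'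
    have : (c : G) ∈ N ⊓ Subgroup.centralizer (P : Set G) := ⟨c.2, hc⟩
    rw [hC, Subgroup.mem_bot] at this
    have hc1 : c = 1 := Subtype.ext this
    subst hc1
    simpa using hcQ
  have hb : ∀ q : ℕ, [Fact q.Prime] → ∃! Q : Sylow q ↥N,
      M ≤ Subgroup.normalizer ((Q : Subgroup ↥N).map N.subtype : Set G) := by
    intro q _
    obtain ⟨Q, hQ⟩ := H4.exists_invariant_sylow (hnormN P) hcop hsolv q
    refine ⟨Q, ?_, fun Q' hQ' => huniq q Q' Q (hPM.trans hQ') hQ⟩
    intro m hm
    have hS := H8.isSylowIn_map_subtype Q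
    have hS' := hS.conj_smul_of_mem_normalizer (hnormN ⊤ (Subgroup.mem_top m))
    obtain ⟨Q', hQ'⟩ := H8.isSylowIn_iff_exists_sylow.mp hS'
    have hPQ' : P ≤ Subgroup.normalizer ((Q' : Subgroup N).map N.subtype : Set G) := by
      have e : ((Q' : Subgroup N).map N.subtype : Set G) =
        ((Q' : Subgroup N).map N.subtype : Subgroup G) := rfl
      rw [e, hQ', H8.normalizer_conj_smul]
      have hm' := H8.mem_normalizer_iff_conj_smul_eq.mp (hMP hm)
      rw [← hm']
      exact Subgroup.pointwise_smul_le_pointwise_smul_iff.mpr hQ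
    have := huniq q Q' Q hPQ' hQ
    subst this
    exact H8.mem_normalizer_iff_conj_smul_eq.mpr hQ'.symm
  refine ⟨ha, hb, ?_⟩
  rintro ⟨q, r, hq, hr, hqr, hqd, hrd⟩ hco
  haveI : Fact q.Prime := ⟨hq⟩
  obtain ⟨Q, hQ, -⟩ := hb q
  have hS := H8.isSylowIn_map_subtype Q
  set Q₀ : Subgroup G := (Q : Subgroup N).map N.subtype with hQ₀
  have hlt : M < Q₀ ⊔ M := by
    refine lt_of_le_of_ne le_sup_right (fun h => ?_)
    have h1 : Q₀ ≤ M ⊓ N := le_inf (h ▸ le_sup_left) hS.le
    rw [hMN, le_bot_iff] at h1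
    have h2 := hS.not_dvd
    rw [h1, Subgroup.relIndex_bot_left] at h2
    exact h2 hqd
  have htop := hco.2 _ hlt
  have hNQ : N ≤ Q₀ := by
    intro n hn
    have : n ∈ Q₀ ⊔ M := htop ▸ Subgroup.mem_top n
    obtain ⟨k, hk, a, ha, rfl⟩ := (H4.mem_sup_iff_of_le_normalizer hQ).mp this
    have h1 : a ∈ M ⊓ N := ⟨ha, by simpa using N.mul_mem (N.inv_mem (hS.le hk)) hn⟩
    rw [hMN, Subgroup.mem_bot] at h1
    simpa [h1] using hk
  obtain ⟨k, hk⟩ := (IsPGroup.to_le hS.isPGroup hNQ).exists_card_eq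
  rw [hk] at hrd
  exact hqr ((Nat.prime_dvd_prime_iff_eq hr hq).mp (hr.dvd_of_dvd_pow hrd)).symm

end Cfsg.Agent.S3749
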