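import Cfsg.Statements.S3750
import Cfsg.Agent.S3748
import Cfsg.Agent.H52.FStar
import Cfsg.Agent.H4.CoprimeAction

set_option autoImplicit false
open Cfsg

namespace Cfsg.Agent.S3750

/-- Call a proper subgroup M of G primitive when M = N_G(N) for every non-trivial normal subgroup N of M. Let M be a primitive subgroup of the finite group G and N a normal subgroup of G with M ∩ F*(N) ≠ 1. Then F(G) = 1 and F*(N) = F*(G) = E(G); in particular every minimal normal subgroup of G is contained in N. -/
theorem result {G : Type*} [Group G] [Finite G] (M : Subgroup G) (hM : M ≠ ⊤) (hprim : ∀ N : Subgroup G, N ≤ M → M ≤ Subgroup.normalizer (N : Set G) → N ≠ ⊥ → Subgroup.normalizer (N : Set G) = M) (N : Subgroup G) [N.Normal] (hMF : M ⊓ (Cfsg.generalizedFittingSubgroup ↥N).map N.subtype ≠ ⊥) : Cfsg.fittingSubgroup G = ⊥ ∧ (Cfsg.generalizedFittingSubgroup ↥N).map N.subtype = Cfsg.generalizedFittingSubgroup G ∧ Cfsg.generalizedFittingSubgroup G = Cfsg.layer G ∧ ∀ K : Subgroup G, K.Normal → K ≠ ⊥ → (∀ K' : Subgroup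 G, K'.Normal → K' ≤ K → K' = ⊥ ∨ K' = K) → K ≤ N := by
  set F : Subgroup G := (Cfsg.generalizedFittingSubgroup N).map N.subtype with hF
  have hnormN : ∀ (X Y : Subgroup G) [Y.Normal], X ≤ Subgroup.normalizer (Y : Set G) := fun X Y _ => by
    rw [Subgroup.normalizer_eq_top]; exact le_top
  have hNsn : N.IsSubnormal := Subgroup.Normal.isSubnormal inferInstance
  have hFeq : F = Cfsg.generalizedFittingSubgroup G ⊓ N := H52.map_fstar_subtype_of_subnormal hNsn
  haveI := H52.fstar_normal (G := G)
  haveI hFn : F.Normal := by rw [hFeq]; infer_instance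
  have hFN : F ≤ N := Subgroup.map_subtype_le _
  have hM1 := hprim (M ⊓ F) inf_le_left (H4.le_normalizer_inf Subgroup.le_normalizer (hnormN M F)) hMF
  have hC : Subgroup.centralizer (F : Set G) = ⊥ := by
    refine S3748.partA M hM hprim _ (Subgroup.Normal.isSubnormal inferInstance) ?_
    rw [← hM1]
    exact le_trans (H3.centralizer_anti inf_le_right) (Subgroup.centralizer_le_normalizer _)
  have hCN : ∀ K : Subgroup G, ⁅K, N⁆ = ⊥ → K = ⊥ := by
    intro K hK
    rw [eq_bot_iff, ← hC]
    exact le_trans (Subgroup.commutator_eq_bot_iff_le_centralizer.mp hK) (H3.centralizer_anti hFN)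
  haveI := H3.fitting_normal G
  have hFit : Cfsg.fittingSubgroup G = ⊥ := by
    apply hCN
    by_contra hne
    have h1 : Cfsg.fittingSubgroup G ⊓ N ≠ ⊥ := by
      intro h
      exact hne (le_bot_iff.mp (h ▸ Subgroup.commutator_le_inf _ _))
    have h2 := H3.inf_centralizer_ne_bot_of_isNilpotent (N := Cfsg.fittingSubgroup G ⊓ N)
      (K := Cfsg.fittingSubgroup G) (H3.fitting_isNilpotent G) inf_le_left (hnormN _ _) h1
    apply h2
    rw [eq_bot_iff, ← hC, hFeq]
    intro x hx
    have hx' : x ∈ Subgroup.centralizer (Cfsg.generalizedFittingSubgroup G : Set G) := by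
      rw [H52.centralizer_fstar_eq]; exact ⟨hx.1.1, hx.2⟩
    exact H3.centralizer_anti inf_le_left hx'
  have hE : Cfsg.generalizedFittingSubgroup G = Cfsg.layer G := by
    refine le_antisymm ?_ H52.layer_le_fstar
    intro x hx
    obtain ⟨e, he, f, hf, rfl⟩ := H52.mem_fstar_iff.mp hx
    rw [hFit, Subgroup.mem_bot] at hf
    simpa [hf] using he
  have hEN : Cfsg.layer G ≤ N := by
    refine H52.layer_le_iff.mpr (fun L hL => ?_)
    rcases H52.IsComponent.le_or_commutator_eq_bot_of_normal hL N with h | h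
    · exact h
    · exact absurd (hCN L h) (H52.IsComponent.ne_bot hL)
  refine ⟨hFit, ?_, hE, ?_⟩
  · rw [hFeq, hE]; exact inf_eq_left.mpr hEN
  · intro K hK hKne hmin
    rcases hmin (K ⊓ N) inferInstance inf_le_left with h | h
    · exact absurd (hCN K (le_bot_iff.mp (h ▸ Subgroup.commutator_le_inf _ _))) hKne
    · exact inf_eq_left.mp h

end Cfsg.Agent.S3750
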