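import Cfsg.Statements.S3751
import Cfsg.Agent.H93.MaxLocal

set_option autoImplicit false
open Cfsg

namespace Cfsg.Agent.S3751

/-- Two distinct subgroups M₁, M₂ of G form a primitive pair when, for {i, j} = {1, 2}, every non-trivial normal subgroup A of M_i contained in M₁ ∩ M₂ satisfies N_{M_j}(A) = M₁ ∩ M₂; the pair has characteristic p when moreover C_{M_i}(O_p(M_i)) ≤ O_p(M_i) for both i and O_p(M₁)O_p(M₂) ≤ M₁ ∩ M₂. Let G be a finite group, p a prime dividing its order, with O_p(G) = 1 and every p-local subgroup of characteristic p. Then either G has a primitive pair of characteristic p, or every maximal p-local subgroup M of G is strongly p-embedded in G: M is a proper subgroup, p divides its order, and for every g ∉ M the order of M ∩ gMg⁻¹ is prime to p. -/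
theorem result {G : Type*} [Group G] [Finite G] {p : ℕ} [Fact p.Prime] (hloc : Cfsg.IsOfLocalCharacteristic p G) (hOp : Cfsg.pCore p G = ⊥) : (∃ M₁ M₂ : Subgroup G, M₁ ≠ M₂ ∧ (∀ A : Subgroup G, A ≠ ⊥ → A ≤ M₁ ⊓ M₂ → (M₁ ≤ Subgroup.normalizer (A : Set G) → M₂ ⊓ Subgroup.normalizer (A : Set G) = M₁ ⊓ M₂) ∧ (M₂ ≤ Subgroup.normalizer (A : Set G) → M₁ ⊓ Subgroup.normalizer (A : Set G) = M₁ ⊓ M₂)) ∧ Subgroup.centralizer (Cfsg.pCore p ↥M₁ : Set ↥M₁) ≤ Cfsg.pCore p ↥M₁ ∧ Subgroup.centralizer (Cfsg.pCore p ↥M₂ : Set ↥M₂) ≤ Cfsg.pCore p ↥M₂ ∧ (Cfsg.pCore p ↥M₁).map M₁.subtype ⊔ (Cfsg.pCore p ↥M₂).map M₂.subtype ≤ M₁ ⊓ M₂) ∨ (∀ M : Subgroup G, (∃ T : Subgroup G, IsPGroup p T ∧ T ≠ ⊥ ∧ M = Subgroup.normalizer (T : Set G)) → (∀ L : Subgroup G, (∃ T : Subgroup G, IsPGroup p T ∧ T ≠ ⊥ ∧ L = Subgroup.normalizer (T : Set G)) → M ≤ L → L = M) → M ≠ ⊤ ∧ p ∣ Nat.card M ∧ ∀ g : G, g ∉ M → ¬ p ∣ Nat.card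 ↥(M ⊓ M.map (MulAut.conj g).toMonoidHom)) := by
  by_cases h : ∃ M₁ M₂ : Subgroup G, H93.Edge p M₁ M₂
  · obtain ⟨M₁, M₂, h⟩ := h
    refine Or.inl ⟨M₁, M₂, h.ne, fun A hA hle => ⟨fun hn => le_antisymm
      (le_inf (h.primL A hA hle hn) inf_le_left) (le_inf inf_le_right (inf_le_left.trans hn)),
      fun hn => le_antisymm (le_inf inf_le_left (h.primR A hA hle hn))
        (le_inf inf_le_left (inf_le_right.trans hn))⟩,
      (H84.charP_iff _).mpr h.charL, (H84.charP_iff _).mpr h.charR,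
      sup_le (le_inf (H84.pCoreOf_le p M₁) h.leL) (le_inf h.leR (H84.pCoreOf_le p M₂))⟩
  · refine Or.inr (fun M hM hmax => ⟨H93.IsPLoc.ne_top hOp hM, H93.IsPLoc.dvd_card hM,
      fun g hg hd => h ?_⟩)
    obtain ⟨M₁, M₂, -, -, h⟩ := H93.exists_edge_of_dvd hloc ⟨hM, hmax⟩ hg hd
    exact ⟨M₁, M₂, h⟩

end Cfsg.Agent.S3751
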