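import Cfsg.Statements.S3752
import Cfsg.Agent.H93.Pair

set_option autoImplicit false
open Cfsg

namespace Cfsg.Agent.S3752

open Subgroup
open scoped Pointwise commutatorElement

theorem le_map_pCore_of_le_map_fitting {G : Type*} [Group G] [Finite G] {p : ℕ} [Fact p.Prime]
    {B X : Subgroup G} (hX : IsPGroup p X) (h : X ≤ (fittingSubgroup B).map B.subtype) :
    X ≤ pCoreOf p B := by
  have hXB : X ≤ B := h.trans (map_subtype_le _)
  have h1 : X.subgroupOf B ≤ fittingSubgroup B := by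
    intro x hx
    obtain ⟨y, hy, e⟩ := h hx
    have : y = x := Subtype.ext e
    rwa [← this]
  have h2 := H3.le_pCore_of_le_fitting hX.comap_subtype h1
  intro x hx
  exact ⟨⟨x, hXB hx⟩, h2 hx, rfl⟩

theorem bender_key {M : Type*} [Group M] [Finite M]
    (hC : centralizer (fittingSubgroup M : Set M) ≤ fittingSubgroup M) (B : Subgroup M)
    (hFB : fittingSubgroup M ≤ B) {p q : ℕ} [hp : Fact p.Prime] [hq : Fact q.Prime] (hpq : p ≠ q)
    (P R : Subgroup M) (hP : IsPGroup p P) (hR : IsPGroup q R) (hPB : P ≤ B) (hRB : R ≤ B)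
    (hBP : B ≤ normalizer (P : Set M)) (hBR : B ≤ normalizer (R : Set M))
    (hCP : centralizer (P : Set M) ≤ B) : R ≤ pCore q M := by
  haveI := H3.fitting_normal M
  have hn : ∀ (X Y : Subgroup M) [Y.Normal], X ≤ normalizer (Y : Set M) := fun X Y _ => by
    rw [normalizer_eq_top]; exact le_top
  have hqp : q.Coprime p := (Nat.coprime_primes hq.out hp.out).mpr hpq.symm
  have h1 : P ≤ centralizer ((fittingSubgroup M ⊓ pPrimeCore p M : Subgroup M) : Set M) := by
    rw [← commutator_eq_bot_iff_le_centralizer]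
    exact H52.commutator_eq_bot_of_isPGroup_of_coprime hP
      (H3.coprime_card_of_le inf_le_right (H3.pPrimeCore_coprime p M)) (hn _ _)
      (inf_le_left.trans (hFB.trans hBP))
  have h2 : R ≤ centralizer (pCore p M : Set M) := by
    rw [← commutator_eq_bot_iff_le_centralizer]
    exact H52.commutator_eq_bot_of_isPGroup_of_coprime hR
      (H3.coprime_card_of_isPGroup (H3.pCore_isPGroup p M) hqp.symm) (hn _ _)
      (H3.pCore_le_fitting.trans (hFB.trans hBR))
  have h3 : centralizer ((fittingSubgroup M ⊓ pPrimeCore p M : Subgroup M) : Set M) ⊓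
      centralizer (pCore p M : Set M) ≤ fittingSubgroup M := by
    refine le_trans ?_ hC
    conv_rhs => rw [H52.fitting_eq_pCore_sup_inf (p := p)]
    rw [H3.centralizer_sup, inf_comm]
  have hFF : fittingSubgroup M ≤ (fittingSubgroup B).map B.subtype :=
    H3.le_map_fitting (H3.fitting_isNilpotent M) hFB (hn _ _)
  have hPF : P ≤ (fittingSubgroup B).map B.subtype :=
    H3.le_map_fitting hP.isNilpotent hPB hBP
  have hPO : P ≤ pCoreOf p B := H84.le_pCoreOf hPB hBP hP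
  have key : ∀ g : M, MulAut.conj g • R ≤ centralizer (P : Set M) := by
    intro g
    have hX : MulAut.conj g • R ≤ centralizer (pCore p M : Set M) :=
      H1.conj_smul_le_of_mem_normalizer h2 (hn ⊤ _ (mem_top g))
    have hXq : IsPGroup q (MulAut.conj g • R : Subgroup M) := H8.isPGroup_conj_smul hR g
    have hc : ⁅P, MulAut.conj g • R⁆ ≤ fittingSubgroup M :=
      le_trans (commutator_mono h1 hX) (le_trans (commutator_le_inf _ _) h3)
    have hc2 : ⁅P, MulAut.conj g • R⁆ ≤ pCore p M := by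
      rw [commutator_le]
      intro y hy x hx
      have hf : ⁅y, x⁆ ∈ fittingSubgroup M := hc (commutator_mem_commutator hy hx)
      have hw : x * y⁻¹ * x⁻¹ ∈ (fittingSubgroup B).map B.subtype := by
        have : x * y⁻¹ * x⁻¹ = y⁻¹ * ⁅y, x⁆ := by rw [commutatorElement_def]; group
        rw [this]
        exact mul_mem (inv_mem (hPF hy)) (hFF hf)
      have hwp : IsPGroup p (zpowers (x * y⁻¹ * x⁻¹)) :=
        IsPGroup.to_le (H8.isPGroup_conj_smul hP x)
          (zpowers_le.mpr (H1.conj_mem_conj_smul x (inv_mem hy)))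
      have hw2 : x * y⁻¹ * x⁻¹ ∈ pCoreOf p B :=
        le_map_pCore_of_le_map_fitting hwp (zpowers_le.mpr hw) (mem_zpowers _)
      have hw3 : ⁅y, x⁆ ∈ pCoreOf p B := by
        have : ⁅y, x⁆ = y * (x * y⁻¹ * x⁻¹) := by rw [commutatorElement_def]; group
        rw [this]
        exact mul_mem (hPO hy) hw2
      exact H3.le_pCore_of_le_fitting (P := pCoreOf p B ⊓ fittingSubgroup M)
        ((H84.isPGroup_pCoreOf p B).to_le inf_le_left) inf_le_right ⟨hw3, hf⟩
    refine le_centralizer_iff.mp (H4.le_centralizer_of_stable (N := pCore p M) ?_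
      (le_centralizer_iff.mp hX) hc2)
    exact H3.coprime_card_of_isPGroup hXq
      (H3.coprime_card_of_isPGroup (H3.pCore_isPGroup p M) hqp.symm).symm
  have hK : normalClosure (R : Set M) ≤ B := by
    refine le_trans ?_ hCP
    refine (closure_le _).mpr ?_
    intro x hx
    obtain ⟨a, ha, hconj⟩ := Group.mem_conjugatesOfSet_iff.mp hx
    obtain ⟨c, rfl⟩ := isConj_iff.mp hconj
    exact key c (H1.conj_mem_conj_smul c ha)
  refine H3.le_pCore_of_isSubnormal ?_ hR
  exact ((H1.SnIn.of_normal le_normalClosure (hK.trans hBR)).trans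
    (H1.SnIn.of_normal le_top (hn _ _))).isSubnormal

theorem layer_eq_of_fstar_le {G : Type*} [Group G] [Finite G] {B M : Subgroup G} (hBM : B ≤ M)
    (h : (generalizedFittingSubgroup M).map M.subtype ≤ B) :
    (layer B).map B.subtype = (layer M).map M.subtype := by
  have h1 : generalizedFittingSubgroup M ≤ B.subgroupOf M := fun x hx => h ⟨x, hx, rfl⟩
  rw [← H52.map_layer_subtype_eq_of_fstar_le h1, ← H52.map_layer_equiv (subgroupOfEquivOfLe hBM),
    map_map, map_map]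
  rfl

/-- One half of the symmetric argument. -/
theorem half {G : Type*} [Group G] [Finite G] (M₁ M₂ : Subgroup G)
    (hP : ∀ A : Subgroup G, A ≠ ⊥ → A ≤ M₁ ⊓ M₂ → M₂ ≤ normalizer (A : Set G) →
      M₁ ⊓ normalizer (A : Set G) ≤ M₂)
    (h₁ : (fittingSubgroup M₁).map M₁.subtype ≤ M₂) (h₂ : (fittingSubgroup M₂).map M₂.subtype ≤ M₁)
    (hC : centralizer (fittingSubgroup M₁ : Set M₁) ≤ fittingSubgroup M₁) :
    (∀ p : ℕ, p.Prime → pCoreOf p M₁ = ⊥ → pCoreOf p M₂ = ⊥) ∧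
    (∀ p q : ℕ, p.Prime → q.Prime → p ≠ q → pCoreOf p M₂ ≠ ⊥ → pCoreOf q M₂ ≤ pCoreOf q M₁) := by
  have hle : ∀ p : ℕ, p.Prime → pCoreOf p M₂ ≤ M₁ := fun p hp => by
    haveI : Fact p.Prime := ⟨hp⟩
    exact (map_mono H3.pCore_le_fitting).trans h₂
  have hFB : fittingSubgroup M₁ ≤ M₂.subgroupOf M₁ := fun x hx => h₁ ⟨x, hx, rfl⟩
  have hnorm : ∀ p : ℕ, p.Prime → M₂.subgroupOf M₁ ≤
      normalizer (((pCoreOf p M₂).subgroupOf M₁ : Subgroup M₁) : Set M₁) := by
    intro p hp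
    rw [H84.le_normalizer_iff']
    intro h hh k hk
    exact H84.conj_mem_of_le_normalizer (H84.le_normalizer_pCoreOf p M₂) hh hk
  have hsub : ∀ p : ℕ, (pCoreOf p M₂).subgroupOf M₁ ≤ M₂.subgroupOf M₁ :=
    fun p x hx => H84.pCoreOf_le p M₂ hx
  constructor
  · intro p hp h
    haveI : Fact p.Prime := ⟨hp⟩
    haveI := H3.fitting_normal M₁
    have h0 : pCore p M₁ = ⊥ := (map_eq_bot_iff_of_injective _ M₁.subtype_injective).mp h
    have hF : fittingSubgroup M₁ ≤ pPrimeCore p M₁ := by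
      have := H3.fitting_le_pCore_sup_pPrimeCore (G := M₁) (p := p)
      rwa [h0, bot_sup_eq] at this
    have hX : IsPGroup p ((pCoreOf p M₂).subgroupOf M₁) := (H84.isPGroup_pCoreOf p M₂).comap_subtype
    have h3 : (pCoreOf p M₂).subgroupOf M₁ ≤ centralizer (fittingSubgroup M₁ : Set M₁) := by
      rw [← commutator_eq_bot_iff_le_centralizer]
      exact H52.commutator_eq_bot_of_isPGroup_of_coprime hX
        (H3.coprime_card_of_le hF (H3.pPrimeCore_coprime p M₁))
        (by rw [normalizer_eq_top]; exact le_top) (hFB.trans (hnorm p hp))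
    have h4 := H3.le_pCore_of_le_fitting hX (h3.trans hC)
    rw [h0, le_bot_iff] at h4
    rw [eq_bot_iff]
    intro x hx
    have : (⟨x, hle p hp hx⟩ : M₁) ∈ (pCoreOf p M₂).subgroupOf M₁ := hx
    rw [h4, mem_bot] at this
    exact mem_bot.mpr (congrArg Subtype.val this)
  · intro p q hp hq hpq hne
    haveI : Fact p.Prime := ⟨hp⟩
    haveI : Fact q.Prime := ⟨hq⟩
    have := bender_key hC (M₂.subgroupOf M₁) hFB hpq ((pCoreOf p M₂).subgroupOf M₁)
      ((pCoreOf q M₂).subgroupOf M₁) (H84.isPGroup_pCoreOf p M₂).comap_subtype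
      (H84.isPGroup_pCoreOf q M₂).comap_subtype (hsub p) (hsub q) (hnorm p hp) (hnorm q hq) (by
        intro x hx
        refine hP _ hne (le_inf (hle p hp) (H84.pCoreOf_le p M₂)) (H84.le_normalizer_pCoreOf p M₂)
          ⟨x.2, centralizer_le_normalizer _ ?_⟩
        intro y hy
        exact congrArg Subtype.val (hx ⟨y, hle p hp hy⟩ hy))
    intro x hx
    exact ⟨⟨x, hle q hq hx⟩, this hx, rfl⟩

/-- Bender's Theorem on primitive pairs. Two distinct subgroups M₁, M₂ of G form a primitive pair when, for {i, j} = {1, 2}, every non-trivial normal subgroup A of M_i contained in M₁ ∩ M₂ satisfies N_{M_j}(A) = M₁ ∩ M₂; the pair has characteristic p when moreover C_{M_i}(O_p(M_i)) ≤ O_p(M_i) for both i and O_p(M₁)O_p(M₂) ≤ M₁ ∩ M₂. If (M₁, M₂) is a primitive pair of the finite group G with F*(M₁) ≤ M₂ and F*(M₂) ≤ M₁, then for some prime p the pair has characteristic p. -/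
theorem result {G : Type*} [Group G] [Finite G] (M₁ M₂ : Subgroup G) (hne : M₁ ≠ M₂) (hP : ∀ A : Subgroup G, A ≠ ⊥ → A ≤ M₁ ⊓ M₂ → (M₁ ≤ Subgroup.normalizer (A : Set G) → M₂ ⊓ Subgroup.normalizer (A : Set G) = M₁ ⊓ M₂) ∧ (M₂ ≤ Subgroup.normalizer (A : Set G) → M₁ ⊓ Subgroup.normalizer (A : Set G) = M₁ ⊓ M₂)) (h₁ : (Cfsg.generalizedFittingSubgroup ↥M₁).map M₁.subtype ≤ M₂) (h₂ : (Cfsg.generalizedFittingSubgroup ↥M₂).map M₂.subtype ≤ M₁) : ∃ p : ℕ, p.Prime ∧ Subgroup.centralizer (Cfsg.pCore p ↥M₁ : Set ↥M₁) ≤ Cfsg.pCore p ↥M₁ ∧ Subgroup.centralizer (Cfsg.pCore p ↥M₂ : Set ↥M₂) ≤ Cfsg.pCore p ↥M₂ ∧ (Cfsg.pCore p ↥M₁).map M₁.subtype ⊔ (Cfsg.pCore p ↥M₂).map M₂.subtype ≤ M₁ ⊓ M₂ := by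
  have hboth : ∀ A : Subgroup G, A ≤ M₁ ⊓ M₂ → M₁ ≤ normalizer (A : Set G) →
      M₂ ≤ normalizer (A : Set G) → A = ⊥ := by
    intro A hle h1 h2
    by_contra hA
    obtain ⟨e1, e2⟩ := hP A hA hle
    have e1' := e1 h1
    have e2' := e2 h2
    rw [inf_eq_left.mpr h2] at e1'
    rw [inf_eq_left.mpr h1] at e2'
    exact hne (e2'.trans e1'.symm)
  have hE1 := layer_eq_of_fstar_le (B := M₁ ⊓ M₂) inf_le_left (le_inf (map_subtype_le _) h₁)
  have hE2 := layer_eq_of_fstar_le (B := M₁ ⊓ M₂) inf_le_right (le_inf h₂ (map_subtype_le _))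
  have hE : (layer (M₁ ⊓ M₂ : Subgroup G)).map (M₁ ⊓ M₂).subtype = ⊥ := by
    refine hboth _ (map_subtype_le _) ?_ ?_
    · rw [hE1]; exact le_normalizer.trans (H52.normalizer_le_normalizer_map_layer M₁)
    · rw [hE2]; exact le_normalizer.trans (H52.normalizer_le_normalizer_map_layer M₂)
  have hC1 : centralizer (fittingSubgroup M₁ : Set M₁) ≤ fittingSubgroup M₁ :=
    H52.centralizer_fitting_le_iff.mpr
      ((map_eq_bot_iff_of_injective _ M₁.subtype_injective).mp (hE1 ▸ hE))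
  have hC2 : centralizer (fittingSubgroup M₂ : Set M₂) ≤ fittingSubgroup M₂ :=
    H52.centralizer_fitting_le_iff.mpr
      ((map_eq_bot_iff_of_injective _ M₂.subtype_injective).mp (hE2 ▸ hE))
  have hF1 : (fittingSubgroup M₁).map M₁.subtype ≤ M₂ := (map_mono H52.fitting_le_fstar).trans h₁
  have hF2 : (fittingSubgroup M₂).map M₂.subtype ≤ M₁ := (map_mono H52.fitting_le_fstar).trans h₂
  obtain ⟨a1, b1⟩ := half M₁ M₂ (fun A hA hle hn => ((hP A hA hle).2 hn).le.trans inf_le_right)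
    hF1 hF2 hC1
  obtain ⟨a2, b2⟩ := half M₂ M₁ (fun A hA hle hn =>
    ((hP A hA (inf_comm M₂ M₁ ▸ hle)).1 hn).le.trans inf_le_left) hF2 hF1 hC2
  have htriv : ∀ M : Subgroup G, centralizer (fittingSubgroup M : Set M) ≤ fittingSubgroup M →
      (∀ p : ℕ, p.Prime → pCoreOf p M = ⊥) → M = ⊥ := by
    intro M hC h
    have hF : fittingSubgroup M = ⊥ := H3.fitting_eq_bot_iff.mpr (fun p hp =>
      (map_eq_bot_iff_of_injective _ M.subtype_injective).mp (h p hp))
    rw [hF] at hC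
    rw [eq_bot_iff]
    intro x hx
    have : (⟨x, hx⟩ : M) ∈ (⊥ : Subgroup M) := hC (by
      intro y hy
      rw [SetLike.mem_coe, mem_bot] at hy
      simp [hy])
    exact mem_bot.mpr (congrArg Subtype.val (mem_bot.mp this))
  obtain ⟨p, hp, hp1⟩ : ∃ p : ℕ, p.Prime ∧ pCoreOf p M₁ ≠ ⊥ := by
    by_contra hcon
    push Not at hcon
    exact hne ((htriv M₁ hC1 hcon).trans (htriv M₂ hC2 (fun p hp => a1 p hp (hcon p hp))).symm)
  have hp2 : pCoreOf p M₂ ≠ ⊥ := fun h => hp1 (a2 p hp h)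
  haveI : Fact p.Prime := ⟨hp⟩
  have hq : ∀ q : ℕ, q.Prime → p ≠ q → pCoreOf q M₁ = ⊥ ∧ pCoreOf q M₂ = ⊥ := by
    intro q hq hpq
    have e : pCoreOf q M₁ = pCoreOf q M₂ :=
      le_antisymm (b2 p q hp hq hpq hp1) (b1 p q hp hq hpq hp2)
    have : pCoreOf q M₁ = ⊥ := hboth _ (le_inf (H84.pCoreOf_le q M₁) (e ▸ H84.pCoreOf_le q M₂))
      (H84.le_normalizer_pCoreOf q M₁) (e ▸ H84.le_normalizer_pCoreOf q M₂)
    exact ⟨this, e ▸ this⟩
  have hfin : ∀ M : Subgroup G, (∀ q : ℕ, q.Prime → p ≠ q → pCoreOf q M = ⊥) →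
      fittingSubgroup M = pCore p M := by
    intro M h
    refine le_antisymm ?_ H3.pCore_le_fitting
    rw [H3.fitting_eq_iSup_pCore]
    refine iSup_le (fun q => ?_)
    by_cases e : p = q
    · rw [← e]
    · rw [(map_eq_bot_iff_of_injective _ M.subtype_injective).mp (h q q.2 e)]
      exact bot_le
  have e1 := hfin M₁ (fun q h1 h2 => (hq q h1 h2).1)
  have e2 := hfin M₂ (fun q h1 h2 => (hq q h1 h2).2)
  refine ⟨p, hp, e1 ▸ hC1, e2 ▸ hC2, sup_le (le_inf (map_subtype_le _) (e1 ▸ hF1))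
    (le_inf (e2 ▸ hF2) (map_subtype_le _))⟩

end Cfsg.Agent.S3752
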