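import Cfsg.Statements.S3753
import Cfsg.Agent.H93.PairOdd

set_option autoImplicit false
open Cfsg

namespace Cfsg.Agent.S3753

open Subgroup in
theorem le_of_abTwo {G : Type*} [Group G] {H K : Subgroup G} (h : H93.Edge 2 H K)
    (hH : H53.AbTwo H) : pCoreOf 2 K ≤ pCoreOf 2 H := by
  have hp : IsPGroup 2 (pCoreOf 2 K ⊔ pCoreOf 2 H : Subgroup G) :=
    (H84.isPGroup_pCoreOf 2 K).to_sup_of_normal_right' (H84.isPGroup_pCoreOf 2 H)
      (h.leR.trans (H84.le_normalizer_pCoreOf 2 H))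
  have hc := hH ((pCoreOf 2 K ⊔ pCoreOf 2 H).subgroupOf H) hp.comap_subtype
  refine le_trans (le_inf h.leR ?_) h.charL
  intro x hx y hy
  have := hc.is_comm.comm ⟨⟨y, H84.pCoreOf_le 2 H hy⟩, show y ∈ pCoreOf 2 K ⊔ pCoreOf 2 H from mem_sup_right hy⟩
    ⟨⟨x, h.leR hx⟩, show x ∈ pCoreOf 2 K ⊔ pCoreOf 2 H from mem_sup_left hx⟩
  exact congrArg Subtype.val (congrArg Subtype.val this)

/-- Two distinct subgroups M₁, M₂ of G form a primitive pair when, for {i, j} = {1, 2}, every non-trivial normal subgroup A of M_i contained in M₁ ∩ M₂ satisfies N_{M_j}(A) = M₁ ∩ M₂; the pair has characteristic p when moreover C_{M_i}(O_p(M_i)) ≤ O_p(M_i) for both i and O_p(M₁)O_p(M₂) ≤ M₁ ∩ M₂. If the finite group G has a primitive pair (M₁, M₂) of characteristic p for some prime p, then M₁ or M₂ has non-abelian Sylow 2-subgroups. In particular no group of odd order has a primitive pair of characteristic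 p. -/
theorem result {G : Type*} [Group G] [Finite G] {p : ℕ} [Fact p.Prime] (M₁ M₂ : Subgroup G) (hne : M₁ ≠ M₂) (hP : ∀ A : Subgroup G, A ≠ ⊥ → A ≤ M₁ ⊓ M₂ → (M₁ ≤ Subgroup.normalizer (A : Set G) → M₂ ⊓ Subgroup.normalizer (A : Set G) = M₁ ⊓ M₂) ∧ (M₂ ≤ Subgroup.normalizer (A : Set G) → M₁ ⊓ Subgroup.normalizer (A : Set G) = M₁ ⊓ M₂)) (hc₁ : Subgroup.centralizer (Cfsg.pCore p ↥M₁ : Set ↥M₁) ≤ Cfsg.pCore p ↥M₁) (hc₂ : Subgroup.centralizer (Cfsg.pCore p ↥M₂ : Set ↥M₂) ≤ Cfsg.pCore p ↥M₂) (hO : (Cfsg.pCore p ↥M₁).map M₁.subtype ⊔ (Cfsg.pCore p ↥M₂).map M₂.subtype ≤ M₁ ⊓ M₂) : (∃ S : Sylow 2 ↥M₁, ¬ IsMulCommutative (S : Subgroup ↥M₁)) ∨ (∃ S : Sylow 2 ↥M₂, ¬ IsMulCommutative (S : Subgroup ↥M₂)) := by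
  have hE : H93.Edge p M₁ M₂ :=
    ⟨hne, fun A hA hle hn => ((hP A hA hle).1 hn).le.trans inf_le_left,
      fun A hA hle hn => ((hP A hA hle).2 hn).le.trans inf_le_right,
      (H84.charP_iff _).mp hc₁, (H84.charP_iff _).mp hc₂,
      (le_sup_left.trans hO).trans inf_le_right, (le_sup_right.trans hO).trans inf_le_left⟩
  by_contra hcon
  push Not at hcon
  obtain ⟨S₁⟩ : Nonempty (Sylow 2 M₁) := inferInstance
  obtain ⟨S₂⟩ : Nonempty (Sylow 2 M₂) := inferInstance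
  have h₁ := H53.abTwo_of_sylow S₁ (hcon.1 S₁)
  have h₂ := H53.abTwo_of_sylow S₂ (hcon.2 S₂)
  by_cases hp : p = 2
  · subst hp
    have e : pCoreOf 2 M₁ = pCoreOf 2 M₂ := le_antisymm (le_of_abTwo hE.symm h₂) (le_of_abTwo hE h₁)
    exact hE.pCoreOf_ne_bot (hE.eq_bot (le_inf (H84.pCoreOf_le 2 M₁) hE.leL)
      (H84.le_normalizer_pCoreOf 2 M₁) (e ▸ H84.le_normalizer_pCoreOf 2 M₂))
  · exact H93.not_edge_of_abTwo hp h₁ h₂ hE

end Cfsg.Agent.S3753
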