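import Cfsg.Statements.S3760
import Cfsg.Agent.H8.SylowIn

set_option autoImplicit false
open Cfsg

namespace Cfsg.Agent.S3760

/-- Let the group G act transitively on a set X, let x ∈ X with stabilizer H = G_x, and let K ≤ H. Then N_G(K) acts transitively on the set of fixed points of K if and only if every G-conjugate of K contained in H is already an H-conjugate of K. -/
theorem result {G : Type*} [Group G] {X : Type*} [MulAction G X] (htrans : ∀ a b : X, ∃ g : G, g • a = b) (x : X) (K : Subgroup G) (hK : K ≤ MulAction.stabilizer G x) : (∀ a b : X, (∀ k ∈ K, k • a = a) → (∀ k ∈ K, k • b = b) → ∃ g ∈ Subgroup.normalizer (K : Set G), g • a = b) ↔ ∀ g : G, K.map (MulAut.conj g).toMonoidHom ≤ MulAction.stabilizer G x → ∃ h ∈ MulAction.stabilizer G x, K.map (MulAut.conj g).toMonoidHom = K.map (MulAut.conj h).toMonoidHom := by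
  constructor
  · intro h g hg
    have hb : ∀ k ∈ K, k • (g⁻¹ • x) = g⁻¹ • x := by
      intro k hk
      have : g * k * g⁻¹ ∈ MulAction.stabilizer G x := hg ⟨k, hk, rfl⟩
      rw [MulAction.mem_stabilizer_iff, mul_smul, mul_smul] at this
      rw [eq_inv_smul_iff, this]
    obtain ⟨n, hn, hnx⟩ := h x (g⁻¹ • x) (fun k hk => hK hk) hb
    refine ⟨g * n, ?_, ?_⟩
    · rw [MulAction.mem_stabilizer_iff, mul_smul, hnx, smul_inv_smul]
    · rw [H8.map_conj_eq_smul, H8.map_conj_eq_smul, ← H8.conj_smul_conj_smul,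
        H8.mem_normalizer_iff_conj_smul_eq.mp hn]
  · intro h
    have key : ∀ a : X, (∀ k ∈ K, k • a = a) → ∃ n ∈ Subgroup.normalizer (K : Set G), n • a = x := by
      intro a ha
      obtain ⟨g, hg⟩ := htrans a x
      obtain ⟨s, hs, hgs⟩ := h g (by
        rintro _ ⟨k, hk, rfl⟩
        change (g * k * g⁻¹) • x = x
        rw [mul_smul, mul_smul, ← hg, inv_smul_smul, ha k hk])
      rw [H8.map_conj_eq_smul, H8.map_conj_eq_smul] at hgs
      refine ⟨s⁻¹ * g, ?_, ?_⟩
      · rw [H8.mem_normalizer_iff_conj_smul_eq, ← H8.conj_smul_conj_smul, hgs,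
          H8.conj_inv_smul_conj_smul]
      · rw [mul_smul, hg, inv_smul_eq_iff]
        exact hs.symm
    intro a b ha hb
    obtain ⟨n, hn, hna⟩ := key a ha
    obtain ⟨m, hm, hmb⟩ := key b hb
    exact ⟨m⁻¹ * n, mul_mem (inv_mem hm) hn, by rw [mul_smul, hna, ← hmb, inv_smul_smul]⟩

end Cfsg.Agent.S3760
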