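import Cfsg.Statements.S3761
import Cfsg.Agent.H9.SelfCent

set_option autoImplicit false
open Cfsg

namespace Cfsg.Agent.S3761

/-- Let G be a finite non-abelian p-group with a cyclic normal subgroup U of order p^n such that C_G(U) = U. Then either p = 2 and G is dihedral, generalized quaternion or semidihedral of order 2^(n+1); or, writing U₁ for the subgroup generated by the p-th powers of elements of U and M = C_G(U₁), the subgroup U has index p in M and the subgroup Ω₁(M) generated by the elements of M of order dividing p is elementary abelian of order p² and characteristic in G. -/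
theorem result {G : Type*} [Group G] [Finite G] {p : ℕ} [Fact p.Prime] (hG : IsPGroup p G) (hna : ¬ IsMulCommutative G) (U : Subgroup G) [U.Normal] (hU : IsCyclic U) (n : ℕ) (hUn : Nat.card U = p ^ n) (hC : Subgroup.centralizer (U : Set G) = U) : (p = 2 ∧ Nat.card G = 2 ^ (n + 1) ∧ ((∃ m : ℕ, Nonempty (G ≃* DihedralGroup m)) ∨ (∃ m : ℕ, Nonempty (G ≃* QuaternionGroup m)) ∨ Cfsg.IsQuasiDihedral G)) ∨ (U.relIndex (Subgroup.centralizer (Cfsg.powerClosure p 1 U : Set G)) = p ∧ Cfsg.IsElementaryAbelian p (Cfsg.omegaOne p (Subgroup.centralizer (Cfsg.powerClosure p 1 U : Set G))) ∧ Nat.card ↥(Cfsg.omegaOne p (Subgroup.centralizer (Cfsg.powerClosure p 1 U : Set G))) = p ^ 2 ∧ (Cfsg.omegaOne p (Subgroup.centralizer (Cfsg.powerClosure p 1 U : Set G))).Characteristic) := by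
  have hp : p.Prime := Fact.out
  obtain ⟨a, rfl⟩ := (U.isCyclic_iff_exists_zpowers_eq_top).1 hU
  have hC' : ∀ g, Commute g a → g ∈ Subgroup.zpowers a := by
    intro g hg
    rw [← hC]
    rintro _ ⟨k, rfl⟩
    exact (hg.symm.zpow_left k).eq
  rcases H9.selfCentralizing_cyclic_cases hG hna ‹_› hC' with ⟨rfl, a', b, m, hab, hM⟩ | ⟨b, m, hM, hall⟩
  · left
    rw [← hab, Nat.card_zpowers, hM.ord] at hUn
    obtain rfl : m + 1 = n := Nat.pow_right_injective le_rfl hUn
    refine ⟨rfl, hM.card_top, ?_⟩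
    rcases hM.iso_cases with h | h | h
    · exact Or.inl ⟨_, h⟩
    · exact Or.inr (Or.inl ⟨_, h⟩)
    · exact Or.inr (Or.inr h.2)
  right
  have hmem : ∀ g, g ∈ Subgroup.centralizer (Cfsg.powerClosure p 1 (Subgroup.zpowers a) : Set G) ↔
      Commute g (a ^ p) := by
    intro g
    unfold Cfsg.powerClosure
    rw [Subgroup.centralizer_closure, Subgroup.mem_centralizer_iff]
    constructor
    · intro h
      exact (h _ ⟨a, Subgroup.mem_zpowers a, by rw [pow_one]⟩).symm
    · rintro h _ ⟨_, ⟨k, rfl⟩, rfl⟩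
      simp only
      rw [pow_one, ← zpow_natCast, ← zpow_mul, mul_comm k, zpow_mul, zpow_natCast]
      exact (h.symm.zpow_left k).eq
  have hE : Cfsg.omegaOne p
      (Subgroup.centralizer (Cfsg.powerClosure p 1 (Subgroup.zpowers a) : Set G)) =
      Subgroup.zpowers (a ^ p ^ m) ⊔ Subgroup.zpowers b := by
    unfold Cfsg.omegaOne
    rw [← Subgroup.closure_eq (Subgroup.zpowers (a ^ p ^ m) ⊔ Subgroup.zpowers b)]
    congr 1
    ext g
    rw [SetLike.mem_coe, hM.omega_eq hall, Set.mem_ofPred_eq, hmem]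
  rw [hE]
  refine ⟨?_, hM.isElementaryAbelian.1, hM.isElementaryAbelian.2, ?_⟩
  · refine Eq.trans ?_ (H7.relIndex_sup_zpowers (p := p) hM.not_mem
      (by rw [hM.pow]; exact Subgroup.one_mem _))
    congr 1
    apply le_antisymm
    · intro g hg
      obtain ⟨i, s, rfl⟩ := hall g ((hmem g).mp hg)
      exact Subgroup.mul_mem _ (Subgroup.mem_sup_left ⟨i, rfl⟩)
        (Subgroup.mem_sup_right (Subgroup.pow_mem _ (Subgroup.mem_zpowers b) s))
    · exact sup_le (Subgroup.zpowers_le.mpr ((hmem a).mpr (Commute.self_pow a p)))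
        (Subgroup.zpowers_le.mpr ((hmem b).mpr hM.commute_pow))
  · have hEn := hM.omega_normal ‹_› hall
    obtain ⟨hE1, hE2⟩ := hM.isElementaryAbelian
    set E := Subgroup.zpowers (a ^ p ^ m) ⊔ Subgroup.zpowers b
    rw [Subgroup.characteristic_iff_map_le]
    intro φ
    have hFn : (E.map φ.toMonoidHom).Normal := hEn.map _ φ.surjective
    intro f hf
    have hfp : ∀ f ∈ E.map φ.toMonoidHom, f ^ p = 1 := by
      rintro _ ⟨e, he, rfl⟩
      rw [← map_pow, hE1.2 e he, map_one]
    rw [hM.omega_eq hall]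
    refine ⟨?_, hfp f hf⟩
    obtain ⟨k, hk⟩ := ‹(Subgroup.zpowers a).Normal›.conj_mem a (Subgroup.mem_zpowers a) f
    simp only at hk
    rw [H9.commute_pow_iff_of_conj hp hM.ord hk.symm]
    have h1 : a ^ (k - 1) ∈ E.map φ.toMonoidHom := by
      have : a ^ (k - 1) = f * (a * f⁻¹ * a⁻¹) := by rw [zpow_sub, hk]; group
      rw [this]
      exact Subgroup.mul_mem _ hf (hFn.conj_mem _ (Subgroup.inv_mem _ hf) a)
    have h2 := hfp _ h1
    rw [← zpow_natCast, ← zpow_mul, H9.zpow_eq_one_iff_dvd hM.ord] at h2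
    push_cast at h2
    rwa [pow_succ, mul_dvd_mul_iff_right (by exact_mod_cast hp.ne_zero)] at h2

end Cfsg.Agent.S3761
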