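import Cfsg.Statements.S3768
import Cfsg.Agent.H5.Frobenius
import Cfsg.Agent.H11.Frobenius

set_option autoImplicit false
open Cfsg

namespace Cfsg.Agent.S3768

theorem comm_inj {G : Type*} [Group G] (K : Subgroup G) {h : G}
    (hf : K ⊓ Subgroup.centralizer {h} = ⊥) {a b : G} (ha : a ∈ K) (hb : b ∈ K)
    (e : a * h * a⁻¹ * h⁻¹ = b * h * b⁻¹ * h⁻¹) : a = b := by
  have h1 : b⁻¹ * a ∈ K ⊓ Subgroup.centralizer {h} := by
    refine Subgroup.mem_inf.mpr ⟨K.mul_mem (K.inv_mem hb) ha, ?_⟩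
    rw [Subgroup.mem_centralizer_singleton_iff]
    have e' : a * h * a⁻¹ = b * h * b⁻¹ := mul_right_cancel e
    calc b⁻¹ * a * h = b⁻¹ * (a * h * a⁻¹) * a := by group
      _ = h * (b⁻¹ * a) := by rw [e']; group
  rw [hf, Subgroup.mem_bot] at h1
  exact (inv_mul_eq_one.mp h1).symm

theorem comm_surj {G : Type*} [Group G] [Finite G] (L : Subgroup G) [hL : L.Normal] {h : G}
    (hf : L ⊓ Subgroup.centralizer {h} = ⊥) {y : G} (hy : y ∈ L) :
    ∃ n ∈ L, n * h * n⁻¹ * h⁻¹ = y := by
  let f : L → L := fun n => ⟨n * h * (n : G)⁻¹ * h⁻¹, by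
    have := L.mul_mem n.2 (hL.conj_mem _ (L.inv_mem n.2) h)
    simpa [mul_assoc] using this⟩
  have hi : Function.Injective f := fun a b e =>
    Subtype.ext (comm_inj L hf a.2 b.2 (congrArg Subtype.val e))
  obtain ⟨n, hn⟩ := Finite.surjective_of_injective hi ⟨y, hy⟩
  exact ⟨n, n.2, congrArg Subtype.val hn⟩

/-- Let G be a finite Frobenius group with Frobenius complement R and Frobenius kernel K (the identity together with the elements in no conjugate of R), and let N be a normal subgroup of G not containing K. Then G/N is a Frobenius group with Frobenius complement RN/N whose Frobenius kernel is the image of K. -/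
theorem result {G : Type*} [Group G] [Finite G] (R : Subgroup G) (hR : Cfsg.IsFrobeniusComplement R) (N : Subgroup G) [N.Normal] (hKN : ¬ Cfsg.frobeniusKernel R ⊆ N) : Cfsg.IsFrobeniusComplement (R.map (QuotientGroup.mk' N)) ∧ Cfsg.frobeniusKernel (R.map (QuotientGroup.mk' N)) = QuotientGroup.mk' N '' Cfsg.frobeniusKernel R := by
  have hR' := H5.isFrobeniusComplement_iff.mp hR
  obtain ⟨K, hKn, hKm, hc⟩ := H11.frobenius_normal_complement R (fun g hg h hh hc =>
    hR'.2.2 g⁻¹ (by simpa using hg) h hh (by simpa using hc))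
  have hKe : (K : Set G) = Cfsg.frobeniusKernel R := H5.coe_eq_frobeniusKernel_of_isComplement' hc hR
  have hKb : K ≠ ⊥ := by
    rintro rfl
    apply hKN
    rw [← hKe]
    intro x hx
    have : x = 1 := by simpa using hx
    rw [this]; exact N.one_mem
  have hfpf := (H5.frob_iff_fpf K R hc hKb hR'.1).mp hR
  have hdisj : ∀ x ∈ K, x ∈ R → x = 1 := fun x hx hx' => Subgroup.disjoint_def.mp hc.disjoint hx hx'
  have hNK : N ≤ K := by
    intro n hn
    by_contra hnK
    rw [hKm, not_or, not_forall] at hnK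
    obtain ⟨hn1, g, hg⟩ := hnK
    rw [not_not] at hg
    apply hKN
    rw [← hKe]
    intro y hy
    have hx1 : g * n * g⁻¹ ≠ 1 := by
      intro e; apply hn1
      calc n = g⁻¹ * (g * n * g⁻¹) * g := by group
        _ = 1 := by rw [e]; simp
    obtain ⟨k, -, hk⟩ := comm_surj K (hfpf _ hg hx1) hy
    rw [← hk]
    have hxN : g * n * g⁻¹ ∈ N := Subgroup.Normal.conj_mem inferInstance n hn g
    exact N.mul_mem (Subgroup.Normal.conj_mem inferInstance _ hxN k) (N.inv_mem hxN)
  have hKn' : (K.map (QuotientGroup.mk' N)).Normal := hKn.map _ (QuotientGroup.mk'_surjective N)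
  have hc' : Subgroup.IsComplement' (K.map (QuotientGroup.mk' N)) (R.map (QuotientGroup.mk' N)) := by
    apply Subgroup.isComplement'_of_disjoint_and_mul_eq_univ
    · rw [Subgroup.disjoint_def]
      rintro _ ⟨k, hk, rfl⟩ ⟨r, hr, e⟩
      have h1 : r⁻¹ * k ∈ N := QuotientGroup.eq.mp e
      have h2 : r ∈ K := by
        have := K.mul_mem hk (K.inv_mem (hNK h1))
        simpa using this
      rw [← e, hdisj r h2 hr, map_one]
    · rw [Set.eq_univ_iff_forall]
      intro y
      obtain ⟨g, rfl⟩ := QuotientGroup.mk'_surjective N y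
      obtain ⟨⟨k, r⟩, e⟩ := hc.2 g
      refine ⟨_, ⟨k, k.2, rfl⟩, _, ⟨r, r.2, rfl⟩, ?_⟩
      rw [← e]; simp
  have hKb' : K.map (QuotientGroup.mk' N) ≠ ⊥ := by
    rw [Ne, Subgroup.map_eq_bot_iff, QuotientGroup.ker_mk']
    intro h
    apply hKN
    rw [← hKe]
    exact h
  have hRb' : R.map (QuotientGroup.mk' N) ≠ ⊥ := by
    rw [Ne, Subgroup.map_eq_bot_iff, QuotientGroup.ker_mk']
    intro h
    apply hR'.1
    rw [eq_bot_iff]
    intro r hr
    exact hdisj r (hNK (h hr)) hr
  have hF : Cfsg.IsFrobeniusComplement (R.map (QuotientGroup.mk' N)) := by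
    rw [H5.frob_iff_fpf _ _ hc' hKb' hRb']
    rintro _ ⟨h, hh, rfl⟩ h1
    have h1' : h ≠ 1 := by rintro rfl; exact h1 (map_one _)
    rw [eq_bot_iff]
    rintro _ ⟨⟨k, hk, rfl⟩, hkc⟩
    replace hkc := Subgroup.mem_centralizer_singleton_iff.mp hkc
    have h2 : k * h * k⁻¹ * h⁻¹ ∈ N := by
      rw [← QuotientGroup.ker_mk' N, MonoidHom.mem_ker]
      simp only [map_mul, map_inv]
      rw [hkc]; group
    have hf := hfpf h hh h1'
    have hfN : N ⊓ Subgroup.centralizer {h} = ⊥ := by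
      rw [eq_bot_iff, ← hf]; exact inf_le_inf_right _ hNK
    obtain ⟨n, hn, e⟩ := comm_surj N hfN h2
    have := comm_inj K hf (hNK hn) hk e
    rw [Subgroup.mem_bot, ← this, ← MonoidHom.mem_ker, QuotientGroup.ker_mk']
    exact hn
  refine ⟨hF, ?_⟩
  rw [← H5.coe_eq_frobeniusKernel_of_isComplement' hc' hF, ← hKe, Subgroup.coe_map]

end Cfsg.Agent.S3768
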