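import Cfsg.Statements.S3769
import Cfsg.Agent.H69.FixLift
import Cfsg.Agent.H6.Basic

set_option autoImplicit false
open Cfsg

namespace Cfsg.Agent.S3769

/-- Let G and V be subgroups of a finite group with G solvable of odd order normalizing V, V an elementary abelian ℓ-group for a prime ℓ not dividing the order of G, and suppose G has a normal Hall subgroup K with a complement R of prime order. If C_V(R) = 1, then [R, K] centralizes V. -/
theorem result {X : Type*} [Group X] [Finite X] (G : Subgroup X) (hsolv : Group.IsSolvable G) (hodd : Odd (Nat.card G)) (V : Subgroup X) {ℓ : ℕ} (hℓ : ℓ.Prime) (hV : Cfsg.IsElementaryAbelian ℓ V) (hℓG : ¬ ℓ ∣ Nat.card G) (hGV : G ≤ Subgroup.normalizer (V : Set X)) (K R : Subgroup X) (hKG : K ≤ G) (hKn : G ≤ Subgroup.normalizer (K : Set X)) (hHall : (Nat.card K).Coprime (K.relIndex G)) (hRG : R ≤ G) (hR : (Nat.card R).Prime) (hKR : K ⊓ R = ⊥) (hKRG : K ⊔ R = G) (hCV : V ⊓ Subgroup.centralizer (R : Set X) = ⊥) : ⁅R, K⁆ ≤ Subgroup.centralizer (V : Set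 X) := by
  have := Fact.mk hℓ
  have hsd : H63.IsSdp K R G := ⟨hRG.trans hKn, hKR, hKRG⟩
  refine (H69.odd_prime_sdprod_abelem_cent1 hodd hsd ?_ hR hV hGV ?_ hCV).trans inf_le_right
  · have h1 := H69.sdp_card hsd
    have h2 : Nat.card K * K.relIndex G = Nat.card G := by
      rw [Subgroup.relIndex, ← Subgroup.card_mul_index (K.subgroupOf G),
        Nat.card_congr (Subgroup.subgroupOfEquivOfLe hKG).toEquiv]
    rw [h1] at h2
    rwa [Nat.eq_of_mul_eq_mul_left Nat.card_pos h2] at hHall
  · intro q hq hd h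
    rw [Set.mem_singleton_iff] at h
    exact hℓG (h ▸ hd)

end Cfsg.Agent.S3769
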