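import Cfsg.Statements.S3770
import Cfsg.Agent.H69.FixLift
import Cfsg.Agent.S0035

set_option autoImplicit false
open Cfsg

namespace Cfsg.Agent.S3770

/-- Let G and V be subgroups of a finite group with G a Frobenius group with complement R of prime order and kernel K, G normalizing V, and V an elementary abelian ℓ-group for a prime ℓ not dividing the order of G. If C_V(R) has order ℓ, then the derived subgroup of K centralizes V. -/
theorem result {X : Type*} [Group X] [Finite X] (G : Subgroup X) (V : Subgroup X) {ℓ : ℕ} (hℓ : ℓ.Prime) (hV : Cfsg.IsElementaryAbelian ℓ V) (hℓG : ¬ ℓ ∣ Nat.card G) (hGV : G ≤ Subgroup.normalizer (V : Set X)) (R : Subgroup ↥G) (hR : Cfsg.IsFrobeniusComplement R) (hRp : (Nat.card R).Prime) (hCV : Nat.card ↥(V ⊓ Subgroup.centralizer ((R.map G.subtype : Subgroup X) : Set X)) = ℓ) : ⁅Subgroup.closure (Subtype.val '' Cfsg.frobeniusKernel R), Subgroup.closure (Subtype.val '' Cfsg.frobeniusKernel R)⁆ ≤ Subgroup.centralizer (V : Set X) := by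
  have := Fact.mk hℓ
  obtain ⟨N, hN, hNn, hc⟩ := S0035.result R hR
  have hK : Subgroup.closure (Subtype.val '' Cfsg.frobeniusKernel R) = N.map G.subtype := by
    rw [← hN]
    exact Subgroup.closure_eq (N.map G.subtype)
  rw [hK]
  have hsd : H63.IsSdp (N.map G.subtype) (R.map G.subtype) G := by
    refine ⟨?_, ?_, ?_⟩
    · rintro _ ⟨r, -, rfl⟩
      rw [Subgroup.mem_normalizer_iff]
      intro x
      constructor
      · rintro ⟨n, hn, rfl⟩
        exact ⟨r * n * r⁻¹, hNn.conj_mem n hn r, rfl⟩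
      · rintro ⟨n, hn, h⟩
        refine ⟨r⁻¹ * n * r⁻¹⁻¹, hNn.conj_mem n hn r⁻¹, ?_⟩
        simp only [map_mul, map_inv, h]
        group
    · rw [← Subgroup.map_inf _ _ _ G.subtype_injective, disjoint_iff.1 hc.disjoint, Subgroup.map_bot]
    · rw [← Subgroup.map_sup, hc.sup_eq_top, ← MonoidHom.range_eq_map, Subgroup.range_subtype]
  have hRc : (Nat.card (R.map G.subtype)).Prime := by
    rwa [Subgroup.card_map_of_injective G.subtype_injective]
  refine (H69.Frobenius_prime_cent_prime hsd hRc ?_ hV hGV ?_ hCV).trans inf_le_right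
  · rw [eq_bot_iff]
    rintro _ ⟨⟨n, hn, rfl⟩, h⟩
    by_contra h1
    have hnR : n ∉ R := fun hr => h1 (by
      have : n ∈ N ⊓ R := ⟨hn, hr⟩
      rw [disjoint_iff.1 hc.disjoint, Subgroup.mem_bot] at this
      rw [this]; exact Subgroup.one_mem _)
    apply hR.1
    rw [← hR.2.2 n hnR]
    refine le_antisymm (le_inf le_rfl fun r hr => ?_) inf_le_left
    rw [Subgroup.mem_pointwise_smul_iff_inv_smul_mem]
    have h2 := Subgroup.mem_centralizer_iff.1 h (r : X) ⟨r, hr, rfl⟩
    have h3 : r * n = n * r := Subtype.ext h2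
    have h4 : (MulAut.conj n)⁻¹ • r = r := by
      rw [MulAut.smul_def, MulAut.conj_inv_apply, mul_assoc, h3]; group
    rwa [h4]
  · intro q hq hd h
    rw [Set.mem_singleton_iff] at h
    exact hℓG (h ▸ hd)

end Cfsg.Agent.S3770
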