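import Cfsg.Statements.S3772
import Mathlib
import Cfsg.Agent.H89.XS2

set_option autoImplicit false
open Cfsg

namespace Cfsg.Agent.S3772

/-- Let G be a finite 2-group whose Frattini subgroup Φ(G) has order 2, with |G : Φ(G)| = 2^d, and let j be the number of elements x of G with x² = 1. Then j = 2^d, or j = 2^d + 2^(d−r) or j = 2^d − 2^(d−r) for some positive integer r with 2r ≤ d. Moreover if d = 2r and j is 2^d + 2^r or 2^d − 2^r, then G is extraspecial. -/
theorem result {G : Type*} [Group G] [Finite G] (hG : IsPGroup 2 G) (hΦ : Nat.card (frattini G) = 2) (d : ℕ) (hd : (frattini G).index = 2 ^ d) : (Nat.card {x : G // x ^ 2 = 1} = 2 ^ d ∨ ∃ r : ℕ, 1 ≤ r ∧ 2 * r ≤ d ∧ (Nat.card {x : G // x ^ 2 = 1} = 2 ^ d + 2 ^ (d - r) ∨ Nat.card {x : G // x ^ 2 = 1} + 2 ^ (d - r) = 2 ^ d)) ∧ (∀ r : ℕ, d = 2 * r → (Nat.card {x : G // x ^ 2 = 1} = 2 ^ d + 2 ^ r ∨ Nat.card {x : G // x ^ 2 = 1} + 2 ^ r = 2 ^ d) → Cfsg.IsExtraspecial 2 G) := by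
  have hΦc := H89.le_center_of_normal_of_card_prime hG hΦ
  obtain ⟨z, hzΦ, hz1⟩ : ∃ z ∈ frattini G, z ≠ 1 := by
    by_contra h1
    push Not at h1
    rw [(Subgroup.eq_bot_iff_forall _).mpr h1, Subgroup.card_bot] at hΦ
    omega
  have hΦe : Subgroup.zpowers z = frattini G :=
    (H89.eq_bot_or_eq_of_card_prime Nat.prime_two hΦ (Subgroup.zpowers_le.mpr hzΦ)).resolve_left
      (by rwa [Subgroup.zpowers_eq_bot])
  have hz2 : z * z = 1 := by
    rw [← pow_two, ← hΦ, ← hΦe, Nat.card_zpowers, pow_orderOf_eq_one]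
  have h : H89.Sq2 z := ⟨hΦc hzΦ, hz1, hz2, fun g =>
    (H89.mem_zpowers_iff_of_mul_self hz2).mp (hΦe ▸ H89.pow_mem_frattini hG g)⟩
  have hcard : Nat.card G = 2 ^ (d + 1) := by
    rw [← (frattini G).card_mul_index, hΦ, hd, pow_succ']
  have hS := H89.ssum_eq (G := G)
  have hsq := h.ssum_sq
  rw [hcard] at hS hsq
  push_cast at hS hsq
  constructor
  · rcases h.ssum_center with h0 | ⟨h1, h2⟩
    · left
      rw [h0, mul_zero, pow_eq_zero_iff two_ne_zero] at hsq
      rw [hsq] at hS
      zify
      have : (2 : ℤ) * Nat.card {x : G // x ^ 2 = 1} = 2 * 2 ^ d := by linear_combination -hS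
      exact mul_left_cancel₀ two_ne_zero this
    · right
      obtain ⟨A, -, hA⟩ := H89.exists_maximal_abelian_ge (G := G) (B := ⊥) inferInstance
      have h3 := H89.index_center_eq_sq h.commutator_le h.zpowers_le_center hA
      obtain ⟨r, hr⟩ := (hG.to_subgroup A).index ((Subgroup.center G).subgroupOf A)
      rw [Subgroup.relIndex, hr, ← pow_mul] at h3
      have hr0 : r ≠ 0 := by
        rintro rfl
        rw [zero_mul, pow_zero, Subgroup.index_eq_one] at h3
        have : frattini G ≤ ⊥ := H89.frattini_le_of_elementary_quotient (p := 2)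
          ((commutator_eq_bot_iff_center_eq_top G).mpr h3).le
          fun a => h1 a (h3 ▸ Subgroup.mem_top a)
        exact hz1 (this hzΦ)
      have h4 : r * 2 ≤ d := by
        have := Subgroup.index_dvd_of_le hΦc
        rwa [h3, hd, Nat.pow_dvd_pow_iff_le_right (by norm_num)] at this
      obtain ⟨s, rfl⟩ : ∃ s, d = 2 * r + s := ⟨d - 2 * r, by omega⟩
      refine ⟨r, by omega, by omega, ?_⟩
      have h5 := (Subgroup.center G).card_mul_index
      rw [h3, hcard, show 2 * r + s + 1 = (s + 1) + r * 2 by ring, pow_add] at h5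
      have h6 := Nat.eq_of_mul_eq_mul_right (by positivity) h5
      rw [h2, h6] at hsq
      have h7 : H89.ssum G ^ 2 = (2 ^ (r + s + 1)) ^ 2 := by
        rw [hsq]; push_cast; ring
      rw [show 2 * r + s - r = r + s by omega]
      rcases sq_eq_sq_iff_eq_or_eq_neg.mp h7 with h8 | h8
      · left
        zify
        rw [h8] at hS
        have : (2 : ℤ) * Nat.card {x : G // x ^ 2 = 1} = 2 * (2 ^ (2 * r + s) + 2 ^ (r + s)) := by
          linear_combination -hS
        exact mul_left_cancel₀ two_ne_zero this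
      · right
        zify
        rw [h8] at hS
        have : (2 : ℤ) * (Nat.card {x : G // x ^ 2 = 1} + 2 ^ (r + s)) = 2 * 2 ^ (2 * r + s) := by
          linear_combination -hS
        exact mul_left_cancel₀ two_ne_zero this
  · rintro r rfl hj
    have h7 : H89.ssum G ^ 2 = (2 ^ (r + 1)) ^ 2 := by
      rw [sq_eq_sq_iff_eq_or_eq_neg]
      rcases hj with hj | hj
      · left
        rw [hS, hj]; push_cast; ring
      · right
        zify at hj
        rw [hS]
        linear_combination 2 * hj
    have hpos : (0 : ℤ) < 2 ^ (2 * r + 1) := by positivity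
    have h8 : H89.ssum (Subgroup.center G) = 2 := by
      apply mul_left_cancel₀ hpos.ne'
      rw [← hsq, h7]; ring
    have h9 : Nat.card (Subgroup.center G) = 2 := by
      rcases h.ssum_center with h0 | ⟨-, h2⟩
      · omega
      · omega
    have h10 : Subgroup.center G = Subgroup.zpowers z := by
      rw [hΦe]
      exact (Subgroup.eq_of_le_of_card_ge hΦc (by omega)).symm
    refine H89.XS.isExtraspecial ⟨h.orderOf_eq, h10, h.comm_mem, h.sq_mem⟩ fun hc => ?_
    have : frattini G ≤ ⊥ := by
      have : IsCyclic G := isCyclic_of_prime_card hc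
      refine H89.frattini_le_of_elementary_quotient (p := 2) (commutator_eq_bot G).le fun a => ?_
      rw [← hc]
      exact pow_card_eq_one'
    exact hz1 (this hzΦ)

end Cfsg.Agent.S3772
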