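import Cfsg.Statements.S3773
import Cfsg.Agent.H89.Gauss

set_option autoImplicit false
open Cfsg

namespace Cfsg.Agent.S3773

open Subgroup H89
open scoped commutatorElement

/-- Let G be a finite 2-group of nilpotency class at most 2 and exponent dividing 4 in which the elements x with x² = 1 form a subgroup N. Then |G| ≤ |N|³, and |G| < |N|³ unless G is special. -/
theorem result {G : Type*} [Group G] [Finite G] (hG : IsPGroup 2 G) (hcl : (⊤ : Subgroup G).lowerCentralSeries 2 = ⊥) (hexp : ∀ x : G, x ^ 4 = 1) (hN : ∀ x y : G, x ^ 2 = 1 → y ^ 2 = 1 → (x * y) ^ 2 = 1) : Nat.card G ≤ Nat.card {x : G // x ^ 2 = 1} ^ 3 ∧ (¬ Cfsg.IsSpecial 2 G → Nat.card G < Nat.card {x : G // x ^ 2 = 1} ^ 3) := by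
  have := Fact.mk Nat.prime_two
  have hc : ∀ x y : G, ⁅x, y⁆ ∈ center G := fun x y => mem_center_iff.2 fun g =>
    (commutatorElement_eq_one_iff_mul_comm.1 (mem_bot.1 (hcl ▸ commutator_mem_commutator
      (commutator_mem_commutator (mem_top x) (mem_top y)) (mem_top g)))).symm
  obtain ⟨h1, h2⟩ := frattini_le_of_exp_four hc hexp
  have h3 := card_mul_card_center_le h1 h2 (pow_mem_frattini hG) hG
  have h4 : Nat.card (frattini G) ≤ Nat.card {x : G // x ^ 2 = 1} :=
    Nat.card_le_card_of_injective (fun f => ⟨f, h2 f f.2⟩) fun a b h =>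
      Subtype.ext (Subtype.mk.inj h)
  have h5 := card_le_of_le h1
  have h6 := Nat.card_pos (α := frattini G)
  have h7 : Nat.card G * Nat.card (center G) ≤
      Nat.card {x : G // x ^ 2 = 1} ^ 3 * Nat.card (frattini G) :=
    h3.trans (by rw [mul_pow, pow_succ _ 2, sq (Nat.card (frattini G)), mul_assoc]; gcongr)
  have h8 : Nat.card G ≤ Nat.card {x : G // x ^ 2 = 1} ^ 3 :=
    Nat.le_of_mul_le_mul_right ((Nat.mul_le_mul_left _ h5).trans h7) h6
  refine ⟨h8, fun h9 => h8.lt_of_ne fun h10 => h9 ?_⟩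
  have h11 : frattini G = center G := eq_of_le_of_card_ge h1
    (Nat.le_of_mul_le_mul_left (h10 ▸ h7) (Nat.card_pos (α := G)))
  have h12 : Nat.card {x : G // x ^ 2 = 1} = Nat.card (frattini G) := by
    refine le_antisymm ?_ h4
    rw [h10, ← h11, mul_pow, pow_succ _ 2, sq (Nat.card (frattini G)), mul_assoc] at h3
    exact Nat.le_of_mul_le_mul_right (Nat.le_of_mul_le_mul_left h3 (pow_pos (h6.trans_le h4) 2)) h6
  exact ⟨hG, h11, le_antisymm (commutator_le.2 fun x _ y _ => hc x y)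
    (h11 ▸ le_commutator_of_card_eq h1 h2 (pow_mem_frattini hG) hG h12 (h12 ▸ h10))⟩

end Cfsg.Agent.S3773
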