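import Cfsg.Statements.S3774
import Cfsg.Agent.H89.PBasic
import Cfsg.Agent.H71.Meta
import Cfsg.Agent.H9.InvCount

set_option autoImplicit false
open Cfsg

namespace Cfsg.Agent.S3774

open Subgroup H89

/-- Let G be a nontrivial finite 2-group whose automorphism group permutes the involutions of G transitively. Then every involution of G is central, so that the involutions together with 1 form the subgroup Ω₁(Z(G)), and if this subgroup has order q then |G| is a power of q. -/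
theorem result {G : Type*} [Group G] [Finite G] [Nontrivial G] (hG : IsPGroup 2 G) (htrans : ∀ x y : G, x ≠ 1 → x ^ 2 = 1 → y ≠ 1 → y ^ 2 = 1 → ∃ a : MulAut G, a x = y) : (∀ x : G, x ^ 2 = 1 → x ∈ Subgroup.center G) ∧ ∃ m : ℕ, Nat.card G = Nat.card {z : G // z ^ 2 = 1} ^ m := by
  classical
  have := Fact.mk Nat.prime_two
  obtain ⟨z, -, hzc, hz⟩ := exists_center_orderOf_of_normal hG (N := ⊤) top_ne_bot
  have hz1 := H9.ne_one_of_orderOf_two hz
  have hz2 : z ^ 2 = 1 := hz ▸ pow_orderOf_eq_one z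
  have h1 : ∀ x : G, x ^ 2 = 1 → x ∈ center G := fun x hx => by
    by_cases hx1 : x = 1
    · rw [hx1]; exact one_mem _
    obtain ⟨a, rfl⟩ := htrans z x hz1 hz2 hx1 hx
    exact characteristic_iff_le_comap.1 inferInstance a hzc
  refine ⟨h1, ?_⟩
  obtain ⟨n, hn⟩ := IsPGroup.iff_card.1 hG
  obtain ⟨a, ha⟩ := IsPGroup.iff_card.1 (hG.to_subgroup (omegaOne 2 (center G)))
  have h2 : Nat.card {z : G // z ^ 2 = 1} = 2 ^ a := by
    rw [← ha]
    exact Nat.card_congr (Equiv.subtypeEquivRight fun x =>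
      ⟨fun h => H71.mem_om1 (h1 x h) h, H71.om1_pow_of_comm inferInstance⟩)
  let f : {x : G // True ∧ x ≠ 1} → {x : G // x ^ 2 = 1 ∧ x ≠ 1} := fun x =>
    ⟨x.1 ^ (orderOf x.1 / 2), by
      have h3 := H9.orderOf_pow_half (a := x.1) (by
        obtain ⟨_ | k, hk⟩ := IsPGroup.iff_orderOf.1 hG x.1
        · exact absurd (orderOf_eq_one_iff.1 hk) x.2.2
        · rw [hk, pow_succ]; exact Even.mul_left even_two _)
      exact ⟨orderOf_dvd_iff_pow_eq_one.1 h3.dvd, H9.ne_one_of_orderOf_two h3⟩⟩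
  have := Fintype.ofFinite {x : G // x ^ 2 = 1 ∧ x ≠ 1}
  have h3 := H9.card_eq_sum_fibers f
  rw [Finset.sum_congr rfl (g := fun _ => Nat.card {x // f x = ⟨z, hz2, hz1⟩}) fun y _ => by
    obtain ⟨a, ha⟩ := htrans y z y.2.2 y.2.1 hz1 hz2
    refine Nat.card_congr (Equiv.subtypeEquiv (a.toEquiv.subtypeEquiv fun x => by simp) fun x => ?_)
    simp only [f, Subtype.ext_iff, ← ha, Equiv.subtypeEquiv_apply, MulEquiv.toEquiv_eq_coe,
      EquivLike.coe_coe, MulEquiv.orderOf_eq, ← map_pow, EmbeddingLike.apply_eq_iff_eq],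
    Finset.sum_const, Finset.card_univ, ← Nat.card_eq_fintype_card, smul_eq_mul] at h3
  have h4 := H9.card_subtype_add_one (p := fun _ : G => True) (a := 1) trivial
  have h5 := H9.card_subtype_add_one (p := fun x : G => x ^ 2 = 1) (a := 1) (one_pow 2)
  rw [Nat.card_congr (Equiv.subtypeUnivEquiv fun _ => trivial), hn] at h4
  rw [h2] at h5
  have h6 : 2 ^ a - 1 ∣ 2 ^ n - 1 := by
    rw [← h4, ← h5, Nat.add_sub_cancel, Nat.add_sub_cancel, h3]
    exact dvd_mul_right _ _
  have h7 := Nat.pow_sub_one_gcd_pow_sub_one 2 a n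
  rw [Nat.gcd_eq_left h6] at h7
  have h8 : a = a.gcd n := Nat.pow_right_injective le_rfl (by
    have := Nat.one_le_two_pow (n := a)
    have := Nat.one_le_two_pow (n := a.gcd n)
    simp only
    omega)
  obtain ⟨m, hm⟩ := h8.dvd.trans (Nat.gcd_dvd_right a n)
  exact ⟨m, by rw [hn, h2, ← pow_mul, hm]⟩

end Cfsg.Agent.S3774
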