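import Cfsg.Statements.S3775
import Cfsg.Agent.H4.CoprimeExt
import Cfsg.Agent.H71.PRel
import Cfsg.Agent.H5.FPFSolvable

set_option autoImplicit false
open Cfsg

namespace Cfsg.Agent.S3775

open Subgroup H4.Ext

theorem maschke_rel {A X : Type*} [CommGroup A] [Finite A] [Group X] [Finite X] {p : ℕ}
    [Fact p.Prime] (φ : X →* MulAut A) (hX : (Nat.card X).Coprime p) {C U W : Subgroup A}
    (hC : Inv φ C) (hU : Inv φ U) (hW : Inv φ W) (hCU : C ≤ U) (hUW : U ≤ W)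
    (hp : ∀ w ∈ W, w ^ p ∈ C) : ∃ D : Subgroup A, Inv φ D ∧ D ⊓ U = C ∧ D ⊔ U = W := by
  let ψ : X →* MulAut (A ⧸ C) := MonoidHom.mk' (fun x => H5.quotAut (φ x) C (hC.map_eq x))
    fun x y => MulEquiv.ext fun a => by
      obtain ⟨a, rfl⟩ := QuotientGroup.mk_surjective a
      simp only [MulAut.mul_apply, H5.quotAut_mk, map_mul]
      rfl
  have h1 : ∀ K : Subgroup A, Inv φ K → Inv ψ (K.map (QuotientGroup.mk' C)) := by
    rintro K hK x _ ⟨k, hk, rfl⟩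
    exact ⟨φ x k, hK x k hk, rfl⟩
  have := finite_semidirect ψ
  obtain ⟨D, h2, h3, h4, h5⟩ := H71.maschke_elem (p := p) (V := L ψ (W.map (QuotientGroup.mk' C)))
    (U := L ψ (U.map (QuotientGroup.mk' C))) (A := R ψ ⊤) ⟨inferInstance, by
      rintro _ ⟨_, ⟨w, hw, rfl⟩, rfl⟩
      rw [← map_pow, ← map_pow, QuotientGroup.mk'_apply, (QuotientGroup.eq_one_iff _).2 (hp w hw),
        map_one]⟩ (map_mono (map_mono hUW)) (by rwa [card_R, card_top])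
    ((inv_iff ψ).1 (h1 W hW)) ((inv_iff ψ).1 (h1 U hU))
  obtain ⟨D, rfl⟩ : ∃ D', D = L ψ D' :=
    ⟨D.comap _, (map_comap_eq_self (h2.trans (map_le_range _ _))).symm⟩
  rw [← map_inf_eq _ _ _ SemidirectProduct.inl_injective,
    map_eq_bot_iff_of_injective _ SemidirectProduct.inl_injective] at h4
  rw [← Subgroup.map_sup, (L_injective ψ).eq_iff] at h5
  have h6 : ∀ K : Subgroup A, C ≤ K →
      (K.map (QuotientGroup.mk' C)).comap (QuotientGroup.mk' C) = K := fun K hK =>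
    comap_map_eq_self (by rwa [QuotientGroup.ker_mk'])
  refine ⟨D.comap (QuotientGroup.mk' C), fun x a ha => (inv_iff ψ).2 h3 x _ ha, ?_, ?_⟩
  · rw [← h6 U hCU, ← comap_inf, inf_comm, h4, MonoidHom.comap_bot, QuotientGroup.ker_mk']
  · rw [← h6 U hCU, comap_sup_eq _ _ _ (QuotientGroup.mk'_surjective C), sup_comm, h5,
      h6 W (hCU.trans hUW)]

theorem inv_comap_pow {A X : Type*} [CommGroup A] [Group X] {φ : X →* MulAut A} {C : Subgroup A}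
    (hC : Inv φ C) (n : ℕ) : Inv φ (C.comap (powMonoidHom n)) := fun x a ha => by
  have := hC x _ ha
  rwa [powMonoidHom_apply, map_pow] at this

theorem inv_map_pow {A X : Type*} [CommGroup A] [Group X] {φ : X →* MulAut A} {C : Subgroup A}
    (hC : Inv φ C) (n : ℕ) : Inv φ (C.map (powMonoidHom n)) := by
  rintro x _ ⟨a, ha, rfl⟩
  exact ⟨φ x a, hC x a ha, (map_pow _ _ _).symm⟩

theorem inv_bot {A X : Type*} [Group A] [Group X] (φ : X →* MulAut A) : Inv φ ⊥ := by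
  intro x a ha
  rw [mem_bot.1 ha, map_one]
  exact one_mem _

theorem exists_exp {A : Type*} [Group A] [Finite A] {p : ℕ} [Fact p.Prime] (hA : IsPGroup p A)
    {B : Subgroup A} (hB : B ≠ ⊥) :
    ∃ e : ℕ, (∀ a ∈ B, a ^ p ^ (e + 1) = 1) ∧ ∃ a ∈ B, a ^ p ^ e ≠ 1 := by
  classical
  obtain ⟨n, hn⟩ := IsPGroup.iff_card.1 hA
  have h1 : ∃ e : ℕ, ∀ a ∈ B, a ^ p ^ e = 1 := ⟨n, fun a _ => hn ▸ pow_card_eq_one'⟩
  have h2 := Nat.find_spec h1
  rcases h3 : Nat.find h1 with _ | e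
  · exact absurd ((eq_bot_iff_forall B).2 fun a ha => by simpa [h3] using h2 a ha) hB
  · have h4 := Nat.find_min h1 (e.lt_succ_self.trans_eq h3.symm)
    push Not at h4
    exact ⟨e, h3 ▸ h2, h4⟩

theorem irred_of_indec {A X : Type*} [CommGroup A] [Finite A] [Group X] [Finite X] {p : ℕ}
    [Fact p.Prime] (hA : IsPGroup p A) (φ : X →* MulAut A) (hX : (Nat.card X).Coprime p)
    (h : ∀ B C : Subgroup A, B ≠ ⊥ → Inv φ B → Inv φ C → B ⊓ C = ⊥ → B ⊔ C = ⊤ → C = ⊥)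
    {V : Subgroup A} (hV : Inv φ V) (hV0 : V ≠ ⊥) (hVp : ∀ v ∈ V, v ^ p = 1) {a : A}
    (ha : a ^ p = 1) : a ∈ V := by
  obtain ⟨e, he, a₀, -, ha₀⟩ := exists_exp hA (B := ⊤) fun h => hV0 (le_bot_iff.1 (h ▸ le_top))
  obtain ⟨B, -, ⟨hB, b₀, hb₀, hb₀'⟩, hmin⟩ := (Set.toFinite {B : Subgroup A | Inv φ B ∧
    ∃ b ∈ B, b ^ p ^ e ≠ 1}).exists_le_minimal (a := ⊤) ⟨inv_top φ, a₀, mem_top _, ha₀⟩
  have h2 : ∀ b ∈ B, b ^ p ^ e = 1 → b ∈ B.map (powMonoidHom p) := by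
    have h1 : B.map (powMonoidHom p) ≤ B := by
      rintro _ ⟨b, hb, rfl⟩
      exact pow_mem hb p
    obtain ⟨D, hD, h2, h3⟩ := maschke_rel φ hX (inv_map_pow hB p)
      ((hB.inf (inv_comap_pow (inv_bot φ) (p ^ e))).sup (inv_map_pow hB p)) hB le_sup_right
      (sup_le inf_le_left h1) fun w hw => mem_map_of_mem _ hw
    have h4 : ∃ d ∈ D, d ^ p ^ e ≠ 1 := by
      by_contra h4
      push Not at h4
      refine hb₀' ((h3.ge.trans (sup_le h4 (sup_le inf_le_right ?_)) :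
        B ≤ (⊥ : Subgroup A).comap (powMonoidHom (p ^ e))) hb₀)
      rintro _ ⟨b, -, rfl⟩
      change (b ^ p) ^ p ^ e = 1
      rw [← pow_mul, ← pow_succ', he b (mem_top b)]
    exact fun b hb hb' => h2.le ⟨hmin ⟨hD, h4⟩ (h3 ▸ le_sup_left) hb, mem_sup_left ⟨hb, hb'⟩⟩
  have h3 : ∀ j ≤ e, ∀ b ∈ B, b ^ p = 1 → ∃ c ∈ B, c ^ p ^ j = b := by
    intro j hj b hb hb'
    induction j with
    | zero => exact ⟨b, hb, by simp⟩
    | succ j ih =>
      obtain ⟨c, hc, rfl⟩ := ih (by omega)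
      obtain ⟨k, rfl⟩ := Nat.exists_eq_add_of_le hj
      obtain ⟨d, hd, rfl⟩ := h2 c hc (by rw [pow_add, pow_mul, pow_succ, pow_mul, hb', one_pow])
      exact ⟨d, hd, by rw [pow_succ', pow_mul, powMonoidHom_apply]⟩
  obtain ⟨C, -, ⟨hC, hBC⟩, hmax⟩ := (Set.toFinite {C : Subgroup A | Inv φ C ∧
    B ⊓ C = ⊥}).exists_le_maximal (a := ⊥) ⟨inv_bot φ, inf_bot_eq B⟩
  have h4 : C.comap (powMonoidHom p) ≤ B ⊓ (⊥ : Subgroup A).comap (powMonoidHom p) ⊔ C := by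
    obtain ⟨D, hD, h4, h5⟩ := maschke_rel φ hX hC
      ((hB.inf (inv_comap_pow (inv_bot φ) p)).sup hC) (inv_comap_pow hC p) le_sup_right
      (sup_le (inf_le_right.trans (comap_mono bot_le)) fun c hc => pow_mem hc p) fun w hw => hw
    have h6 : B ⊓ D = ⊥ := (eq_bot_iff_forall _).2 fun x hx => hBC.le ⟨hx.1, h4.le ⟨hx.2,
      mem_sup_left ⟨hx.1, hBC.le ⟨pow_mem hx.1 p, h5.le (mem_sup_left hx.2)⟩⟩⟩⟩
    exact h5.ge.trans (sup_le ((hmax ⟨hD, h6⟩ (h4 ▸ inf_le_left)).trans le_sup_right) le_rfl)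
  have h5 : ∀ j ≤ e + 1, ∀ a : A, a ^ p ^ j ∈ C → a ∈ B ⊔ C := by
    intro j hj
    induction j with
    | zero => exact fun a ha => mem_sup_right (by simpa using ha)
    | succ j ih =>
      intro a ha
      rw [pow_succ, pow_mul] at ha
      obtain ⟨b, hb, c, hc, h5⟩ := mem_sup.1 (h4 ha)
      obtain ⟨d, hd, rfl⟩ := h3 j (by omega) b hb.1 hb.2
      have := ih (by omega) (d⁻¹ * a) (by rwa [mul_pow, ← h5, inv_pow, inv_mul_cancel_left])
      simpa using mul_mem (mem_sup_left hd) this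
  have h6 : B ⊔ C = ⊤ := (eq_top_iff' _).2 fun a => h5 _ le_rfl a (he a (mem_top a) ▸ one_mem _)
  have h7 := h B C (fun h7 => hb₀' (by rw [mem_bot.1 (h7.le hb₀), one_pow])) hB hC hBC h6
  rw [h7, sup_bot_eq] at h6
  subst h6
  obtain ⟨⟨v, hv⟩, hv1⟩ := ne_bot_iff_exists_ne_one.1 hV0
  obtain ⟨c, -, rfl⟩ := h3 e le_rfl v (mem_top v) (hVp v hv)
  obtain ⟨d, -, rfl⟩ := h3 e le_rfl a (mem_top a) ha
  exact hmin ⟨inv_comap_pow hV (p ^ e), c, hv, fun h8 => hv1 (Subtype.ext h8)⟩ le_top (mem_top d)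

/-- Let A be a finite abelian p-group and X a group of automorphisms of A of order prime to p. Call a subgroup of A invariant when every element of X maps it onto itself. Then the following are equivalent: (i) A is not the direct product of two nontrivial invariant subgroups; (ii) every invariant subgroup of A is one of the subgroups Ω_i(A) = {a : a^(p^i) = 1}; (iii) the subgroup Ω₁(A) of elements of order dividing p has no invariant subgroups other than 1 and itself. -/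
theorem result {A : Type*} [CommGroup A] [Finite A] {p : ℕ} [Fact p.Prime] (hA : IsPGroup p A) (X : Subgroup (MulAut A)) (hX : (Nat.card X).Coprime p) : ((¬ ∃ B C : Subgroup A, B ≠ ⊥ ∧ C ≠ ⊥ ∧ (∀ x ∈ X, B.map x.toMonoidHom = B) ∧ (∀ x ∈ X, C.map x.toMonoidHom = C) ∧ B ⊓ C = ⊥ ∧ B ⊔ C = ⊤) ↔ (∀ B : Subgroup A, (∀ x ∈ X, B.map x.toMonoidHom = B) → ∃ i : ℕ, ∀ a : A, a ∈ B ↔ a ^ p ^ i = 1)) ∧ ((∀ B : Subgroup A, (∀ x ∈ X, B.map x.toMonoidHom = B) → ∃ i : ℕ, ∀ a : A, a ∈ B ↔ a ^ p ^ i = 1) ↔ (∀ B : Subgroup A, (∀ x ∈ X, B.map x.toMonoidHom = B) → (∀ b ∈ B, b ^ p = 1) → B = ⊥ ∨ ∀ a : A, a ∈ B ↔ a ^ p = 1)) := by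
  have hI : ∀ B : Subgroup A, (∀ x ∈ X, B.map x.toMonoidHom = B) ↔ Inv X.subtype B := fun B => by
    rw [inv_iff_map_eq, Subtype.forall]; rfl
  simp only [hI]
  have h1 : ∀ B : Subgroup A, B ≠ ⊥ → ∃ b ∈ B, b ≠ 1 ∧ b ^ p = 1 := fun B hB => by
    obtain ⟨e, h1, b, hb, h2⟩ := exists_exp hA hB
    exact ⟨_, pow_mem hb _, h2, by rw [← pow_mul, ← pow_succ, h1 b hb]⟩
  have h23 : (∀ B : Subgroup A, Inv X.subtype B → ∃ i : ℕ, ∀ a : A, a ∈ B ↔ a ^ p ^ i = 1) →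
      ∀ B : Subgroup A, Inv X.subtype B → (∀ b ∈ B, b ^ p = 1) →
        B = ⊥ ∨ ∀ a : A, a ∈ B ↔ a ^ p = 1 := by
    intro h B hB hB'
    obtain ⟨_ | i, hi⟩ := h B hB
    · exact Or.inl ((eq_bot_iff_forall B).2 fun a ha => by simpa using (hi a).1 ha)
    · exact Or.inr fun a => ⟨hB' a, fun ha => (hi a).2 (by rw [pow_succ', pow_mul, ha, one_pow])⟩
  have h3 : (∀ B : Subgroup A, Inv X.subtype B → (∀ b ∈ B, b ^ p = 1) →
      B = ⊥ ∨ ∀ a : A, a ∈ B ↔ a ^ p = 1) → ∀ B : Subgroup A, Inv X.subtype B →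
      (∃ b ∈ B, b ≠ 1 ∧ b ^ p = 1) → ∀ a : A, a ^ p = 1 → a ∈ B := by
    rintro h B hB ⟨b, hb, hb1, hbp⟩ a ha
    rcases h _ (hB.inf (inv_comap_pow (inv_bot _) p)) fun b hb => hb.2 with h2 | h2
    · exact absurd (h2.le ⟨hb, hbp⟩) hb1
    · exact ((h2 a).2 ha).1
  have h32 : (∀ B : Subgroup A, Inv X.subtype B → (∀ b ∈ B, b ^ p = 1) →
      B = ⊥ ∨ ∀ a : A, a ∈ B ↔ a ^ p = 1) →
      ∀ B : Subgroup A, Inv X.subtype B → ∃ i : ℕ, ∀ a : A, a ∈ B ↔ a ^ p ^ i = 1 := by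
    intro h B hB
    by_cases hB0 : B = ⊥
    · exact ⟨0, by simp [hB0]⟩
    obtain ⟨e, he, b, hb, hb'⟩ := exists_exp hA hB0
    refine ⟨e + 1, fun a => ⟨he a, ?_⟩⟩
    suffices ∀ j ≤ e + 1, ∀ a : A, a ^ p ^ j = 1 → a ∈ B from this _ le_rfl a
    intro j hj
    induction j with
    | zero => exact fun a ha => by rw [show a = 1 by simpa using ha]; exact one_mem _
    | succ j ih =>
      intro a ha
      obtain ⟨k, rfl⟩ := Nat.exists_eq_add_of_le (Nat.le_of_succ_le_succ hj)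
      obtain ⟨c, hc, h4⟩ := h3 h _ (inv_map_pow hB (p ^ j)) ⟨b ^ p ^ (j + k), ⟨b ^ p ^ k,
        pow_mem hb _, by rw [powMonoidHom_apply, ← pow_mul, ← pow_add, add_comm]⟩, hb', by
          rw [← pow_mul, ← pow_succ, he b hb]⟩ (a ^ p ^ j) (by rw [← pow_mul, ← pow_succ, ha])
      have := ih (by omega) (c⁻¹ * a) (by
        rw [mul_pow, ← h4, inv_pow, powMonoidHom_apply, inv_mul_cancel])
      simpa using mul_mem hc this
  refine ⟨⟨fun h => h32 fun V hV hVp => or_iff_not_imp_left.2 fun hV0 a => ⟨hVp a, fun ha =>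
    irred_of_indec hA X.subtype hX (fun B C hB0 hB hC h4 h5 => ?_) hV hV0 hVp ha⟩, ?_⟩, h23, h32⟩
  · by_contra hC0
    exact h ⟨B, C, hB0, hC0, hB, hC, h4, h5⟩
  · rintro h ⟨B, C, hB0, hC0, hB, hC, h4, -⟩
    obtain ⟨b, hb, hb1, hbp⟩ := h1 B hB0
    exact hb1 (h4.le ⟨hb, h3 (h23 h) C hC (h1 C hC0) b hbp⟩)

end Cfsg.Agent.S3775
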