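import Cfsg.Statements.S3777
import Cfsg.Agent.H90.Blackburn
import Cfsg.Agent.H90.Ladder

set_option autoImplicit false
open Cfsg

namespace Cfsg.Agent.S3777

open Subgroup H7 H90
open scoped commutatorElement

universe u

theorem exists_not_mem {G : Type*} [Group G] {A B : Subgroup G} (hA : A ≠ ⊤) (hB : B ≠ ⊤) :
    ∃ x, x ∉ A ∧ x ∉ B := by
  obtain ⟨a, -, ha⟩ := SetLike.exists_of_lt (lt_top_iff_ne_top.2 hA)
  obtain ⟨b, -, hb⟩ := SetLike.exists_of_lt (lt_top_iff_ne_top.2 hB)
  by_cases h1 : a ∈ B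
  · by_cases h2 : b ∈ A
    · exact ⟨a * b, fun h => ha ((mul_mem_cancel_right h2).1 h),
        fun h => hb ((mul_mem_cancel_left h1).1 h)⟩
    · exact ⟨b, h2, hb⟩
  · exact ⟨a, ha, h1⟩

variable {p : ℕ} [hp : Fact p.Prime]

theorem third {G : Type*} [Group G] [Finite G] (hG : IsPGroup p G) {M N : Subgroup G}
    (hM : M.index = p) (hN : N.index = p) (h : ¬ M ≤ N) :
    ∃ H : Subgroup G, H.index = p ∧ ¬ H ≤ N ∧ H ⊓ M ≤ N ∧ H ⊓ N ≤ M := by
  have := normal_of_index_eq hG hM
  have := normal_of_index_eq hG hN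
  have hM' := isCoatom_of_index_prime (hM ▸ hp.out)
  have hN' := isCoatom_of_index_prime (hN ▸ hp.out)
  obtain ⟨g, h1, h2⟩ := exists_not_mem hM'.1 hN'.1
  have h3 := card_sup_zpowers (N := M ⊓ N) (fun h => h1 h.1)
    ⟨hM ▸ M.pow_index_mem g, hN ▸ N.pow_index_mem g⟩
  have h4 := card_sup_mul_card_inf M N
  rw [hN'.2 _ (right_lt_sup.2 h), card_top, ← N.card_mul_index, hN, mul_comm _ p, mul_right_comm,
    Nat.mul_left_inj Nat.card_pos.ne'] at h4
  have h5 : ∀ L, M ⊓ N ≤ L → g ∉ L → (M ⊓ N ⊔ zpowers g) ⊓ L ≤ M ⊓ N := fun L hL hg => by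
    by_contra h
    exact hg ((le_sup_of_not_le hG le_sup_left h3.le inf_le_left h).trans (sup_le inf_le_right hL)
      (mem_sup_right (mem_zpowers g)))
  refine ⟨_, Nat.eq_of_mul_eq_mul_left Nat.card_pos ((card_mul_index _).trans ?_),
    fun h => h2 (h (mem_sup_right (mem_zpowers g))), (h5 M inf_le_left h1).trans inf_le_right,
    (h5 N inf_le_right h2).trans inf_le_left⟩
  rw [h3, mul_comm (Nat.card _) p, h4, ← M.card_mul_index, hM]

theorem step {G : Type*} [Group G] [Finite G] (hG : IsPGroup p G) {H : Subgroup G}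
    (hH : H.index = p) {a : G} (ha : a ∉ H) : ∃ K : Subgroup H,
      Nat.card (_root_.commutator G) ≤ Nat.card (_root_.commutator H) * K.index ∧
      K.index ≤ (centralizer {a}).index ∧
      (∀ u : H, (centralizer {u}).index ≤ (centralizer {(u : G)}).index) ∧
      ∀ u ∉ K, (centralizer {u}).index * p = (centralizer {(u : G)}).index := by
  have := normal_of_index_eq hG hH
  have hH' := isCoatom_of_index_prime (hH ▸ hp.out)
  let φ : G → H →* Abelianization H := fun g =>
    Abelianization.of.comp (MulAut.conjNormal g : MulAut H).toMonoidHom / Abelianization.of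
  have hφ : ∀ g h, φ g h = Abelianization.of (MulAut.conjNormal g h) / Abelianization.of h :=
    fun _ _ => rfl
  have hφH : ∀ g ∈ H, ∀ h, φ g h = 1 := fun g hg h => by
    rw [hφ, show MulAut.conjNormal g h = ⟨g, hg⟩ * h * (⟨g, hg⟩ : H)⁻¹ from rfl]
    simp
  have hC : ∀ u : H, centralizer {u} = (centralizer {(u : G)}).subgroupOf H := fun u => by
    ext x
    simp [mem_subgroupOf, mem_centralizer_singleton_iff, Subtype.ext_iff]
  refine ⟨(φ a).ker, ?_, ?_, fun u => ?_, fun u hu => ?_⟩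
  · let S : Subgroup G :=
      { carrier := {g | ∀ h, φ g h ∈ (φ a).range}
        one_mem' := fun h => hφH 1 (one_mem H) h ▸ one_mem _
        mul_mem' := fun {g g'} hg hg' h => by
          simpa [hφ] using mul_mem (hg (MulAut.conjNormal g' h)) (hg' h)
        inv_mem' := fun {g} hg h => by
          simpa [hφ] using inv_mem (hg (MulAut.conjNormal g⁻¹ h)) }
    have hHS : H ≤ S := fun g hg h => hφH g hg h ▸ one_mem _
    have hS : S = ⊤ := hH'.2 S (lt_of_le_not_ge hHS fun h => ha (h fun h => ⟨h, rfl⟩))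
    have h1 : _root_.commutator G ≤ ⁅(⊤ : Subgroup G), H⁆ := by
      have h2 : H ⊔ zpowers a = ⊤ := hH'.2 _ (left_lt_sup.2 (mt zpowers_le.1 ha))
      rw [_root_.commutator_def]
      nth_rw 1 2 [← h2]
      refine commutator_sup_le_of_normal' (commutator_mono le_top le_rfl)
        (commutator_sup_le_of_normal ?_ ?_)
      · rw [commutator_comm]; exact commutator_mono le_top le_rfl
      · exact (commutator_self_eq_bot_iff.2 inferInstance).le.trans bot_le
    have h2 : ⁅(⊤ : Subgroup G), H⁆ ≤ ((φ a).range.comap Abelianization.of).map H.subtype :=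
      commutator_le.2 fun g _ h hh => ⟨MulAut.conjNormal g ⟨h, hh⟩ * (⟨h, hh⟩ : H)⁻¹, by
        simpa [hφ, div_eq_mul_inv] using (hS ▸ mem_top g : g ∈ S) ⟨h, hh⟩, rfl⟩
    refine (card_le_of_le (h1.trans h2)).trans_eq ?_
    rw [card_map_of_injective H.subtype_injective, H3.card_comap_of_surjective
      QuotientGroup.mk_surjective, Abelianization.ker_of, index_ker]
  · refine le_trans (index_antitone fun h hh => ?_) ((relIndex_le_of_le_right le_top
      (by simpa using FiniteIndex.index_ne_zero)).trans_eq (relIndex_top_right _))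
    rw [MonoidHom.mem_ker, hφ, div_eq_one]
    exact congrArg _ (Subtype.ext (mul_inv_eq_iff_eq_mul.2 (mem_centralizer_singleton_iff.1 hh).symm))
  · rw [hC]
    exact (relIndex_le_of_le_right le_top (by simpa using FiniteIndex.index_ne_zero)).trans_eq
      (relIndex_top_right _)
  · rw [hC, ← hH]
    refine relIndex_mul_index fun g hg => by_contra fun hg' => hu ?_
    let S : Subgroup G :=
      { carrier := {g | φ g u = 1}
        one_mem' := hφH 1 (one_mem H) u
        mul_mem' := fun {g g'} hg hg' => by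
          simp only [Set.mem_ofPred_eq, hφ, div_eq_one] at hg hg' ⊢
          rw [map_mul]
          exact (congrArg (Abelianization.map (MulAut.conjNormal g : MulAut H).toMonoidHom)
            hg').trans hg
        inv_mem' := fun {g} hg => by
          simp only [Set.mem_ofPred_eq, hφ, div_eq_one] at hg ⊢
          simpa using (congrArg (Abelianization.map
            (MulAut.conjNormal g⁻¹ : MulAut H).toMonoidHom) hg).symm }
    have hS : S = ⊤ := hH'.2 S (lt_of_le_not_ge (fun g hg => hφH g hg u) fun h => hg' (h (by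
      change φ g u = 1
      rw [hφ, div_eq_one]
      exact congrArg _ (Subtype.ext (mul_inv_eq_iff_eq_mul.2
        (mem_centralizer_singleton_iff.1 hg))))))
    exact (hS ▸ mem_top a : a ∈ S)

theorem wiegold (k : ℕ) : ∀ {G : Type u} [Group G] [Finite G], Nat.card G = k → IsPGroup p G →
    ∀ (n : ℕ) (A B : Subgroup G), A ≠ ⊤ → (B ≤ A ∨ p < B.index) →
      (∀ x ∉ A, x ∉ B → (centralizer {x}).index ≤ p ^ n) →
        Nat.card (_root_.commutator G) ≤ p ^ (n + 1).choose 2 := by
  induction k using Nat.strong_induction_on with | _ k ih => ?_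
  have h1p := hp.out.one_lt
  have key : ∀ {G : Type u} [Group G] [Finite G], Nat.card G ≤ k → IsPGroup p G →
      ∀ (H D : Subgroup G), H.index = p → ¬ H ≤ D → ∀ a ∉ H, ∀ n,
        (∀ u ∈ H, u ∉ D → (centralizer {u}).index ≤ p ^ n) → ∃ K : Subgroup H,
        Nat.card (_root_.commutator G) ≤ Nat.card (_root_.commutator H) * K.index ∧
        K.index ≤ (centralizer {a}).index ∧
        Nat.card (_root_.commutator H) ≤ p ^ (n + 1).choose 2 ∧
        (∀ u ∉ D.subgroupOf H, (centralizer {u}).index ≤ p ^ n) ∧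
        (K ≠ ⊤ → ∃ m, n = m + 1 ∧
          (∀ u ∉ D.subgroupOf H, u ∉ K → (centralizer {u}).index ≤ p ^ m) ∧
          (K ≤ D.subgroupOf H ∨ p < K.index →
            Nat.card (_root_.commutator H) ≤ p ^ (m + 1).choose 2)) := by
    intro G _ _ hk hG H D hH hD a ha n hn
    obtain ⟨K, h1, h2, h3, h4⟩ := step hG hH ha
    have hlt := (card_lt_of_ne_top (H := H) fun h => ha (h ▸ mem_top a)).trans_le hk
    have hD' : D.subgroupOf H ≠ ⊤ := mt subgroupOf_eq_top.1 hD
    have h5 := fun (u : H) hu => (h3 u).trans (hn u u.2 hu)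
    refine ⟨K, h1, h2, ih _ hlt rfl (hG.to_subgroup H) n _ _ hD' (Or.inl le_rfl)
      fun u hu _ => h5 u hu, h5, fun hK => ?_⟩
    have h6 := fun (u : H) hu hu' => (h4 u hu').trans_le (hn u u.2 hu)
    obtain ⟨u, hu, hu'⟩ := exists_not_mem hD' hK
    rcases n with _ | m
    · have := h6 u hu hu'
      have : 0 < (centralizer {u}).index := Nat.pos_of_ne_zero FiniteIndex.index_ne_zero
      nlinarith
    have h7 := fun u hu hu' => Nat.le_of_mul_le_mul_right (h6 u hu hu') hp.out.pos
    exact ⟨m, rfl, h7, fun h => ih _ hlt rfl (hG.to_subgroup H) m _ _ hD' h h7⟩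
  intro G _ _ hk hG n A B hA hB h
  by_cases hc : IsCyclic G
  · rw [_root_.commutator_def, commutator_self_eq_bot_iff.2 inferInstance, card_bot]
    exact Nat.one_le_pow _ _ hp.out.pos
  obtain ⟨A', -, hAA', hA'⟩ := exists_le_index_eq hG hA
  obtain ⟨M, hM, hMA, hMB⟩ : ∃ M : Subgroup G, M.index = p ∧ ¬ M ≤ A' ∧ (B ≤ A' ∨ B < M) := by
    by_cases hBA : B ≤ A'
    · obtain ⟨g, -, hg⟩ := SetLike.exists_of_lt (isCoatom_of_index_prime (hA' ▸ hp.out)).lt_top
      obtain ⟨M, -, h1, h2⟩ := exists_le_index_eq hG (H := zpowers g)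
        fun h => hc (isCyclic_iff_exists_zpowers_eq_top.2 ⟨g, h⟩)
      exact ⟨M, h2, fun h => hg (h (h1 (mem_zpowers g))), Or.inl hBA⟩
    · have h1 := hB.resolve_left fun h => hBA (h.trans hAA')
      obtain ⟨M, -, h2, h3⟩ := exists_le_index_eq hG (H := B) fun h => by
        rw [h, index_top] at h1; omega
      exact ⟨M, h3, fun h => hBA (h2.trans h), Or.inr (h2.lt_of_ne fun h => by
        rw [h, h3] at h1; omega)⟩
  obtain ⟨H, hH, h1, h2, -⟩ := third hG hM hA' hMA
  obtain ⟨a, haM, haA, haB⟩ : ∃ a ∈ M, a ∉ A' ∧ a ∉ B := by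
    rcases hMB with h3 | h3
    · obtain ⟨a, h4, h5⟩ := SetLike.not_le_iff_exists.1 hMA
      exact ⟨a, h4, h5, fun h => h5 (h3 h)⟩
    · obtain ⟨a, h4⟩ := exists_not_mem (mt subgroupOf_eq_top.1 hMA) (mt subgroupOf_eq_top.1 h3.not_ge)
      exact ⟨a, a.2, h4⟩
  obtain ⟨K, h3, h4, h5, h6, h7⟩ := key hk.le hG H A' hH h1 a (fun h => haA (h2 ⟨h, haM⟩)) n
    fun u hu hu' => h u (fun h => hu' (hAA' h))
      fun h => hu' (hMB.elim (· h) fun h' => h2 ⟨hu, h'.le h⟩)
  replace h4 := h4.trans (h a (fun h => haA (hAA' h)) haB)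
  by_cases hK : K = ⊤
  · rw [hK, index_top, mul_one] at h3
    exact h3.trans h5
  obtain ⟨m, rfl, h8, h9⟩ := h7 hK
  rw [Nat.choose_succ_succ', Nat.choose_one_right, add_comm (m + 1), pow_add]
  by_cases h10 : K ≤ A'.subgroupOf H ∨ p < K.index
  · exact h3.trans (Nat.mul_le_mul (h9 h10) h4)
  rw [not_or, not_lt] at h10
  have hH' := hG.to_subgroup H
  obtain ⟨K', -, hKK', hK'⟩ := exists_le_index_eq hH' hK
  have hKi : K.index = p := le_antisymm h10.2 (hK' ▸ index_antitone hKK')
  have hAi : (A'.subgroupOf H).index = p := by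
    have := normal_of_index_eq hG hA'
    exact ((Nat.dvd_prime hp.out).1 (hA' ▸ relIndex_dvd_index_of_normal A' H)).resolve_left
      (mt relIndex_eq_one.1 h1)
  obtain ⟨E, hE, h11, h12, h13⟩ := third hH' hKi hAi h10.1
  obtain ⟨b, hb, hb'⟩ := SetLike.not_le_iff_exists.1 h10.1
  obtain ⟨L, h14, h15, h16, -, h17⟩ := key ((card_le_card_group H).trans hk.le) hH' E _ hE h11 b
    (fun h => hb' (h12 ⟨h, hb⟩)) m fun u hu hu' => h8 u hu' fun h => hu' (h12 ⟨hu, h⟩)
  replace h15 := h15.trans (h6 b hb')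
  rw [hKi] at h3
  refine h3.trans ((Nat.mul_le_mul_right p h14).trans ?_)
  by_cases h18 : L.index ≤ p ^ m
  · rw [pow_succ, ← mul_assoc]
    exact Nat.mul_le_mul_right p (Nat.mul_le_mul h16 h18)
  obtain ⟨l, rfl, -, h19⟩ := h17 fun h => h18 (by
    rw [h, index_top]; exact Nat.one_le_pow _ _ hp.out.pos)
  refine (Nat.mul_le_mul_right p (Nat.mul_le_mul (h19 (Or.inr ((Nat.le_self_pow l.succ_ne_zero p).trans_lt
    (not_le.1 h18)))) h15)).trans ?_
  rw [← pow_add, ← pow_succ, ← pow_add, Nat.choose_succ_succ' (l + 1), Nat.choose_one_right]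
  exact Nat.pow_le_pow_right hp.out.pos (by rw [one_add_one_eq_two]; omega)


/-- Vaughan-Lee's Theorem: if G is a finite p-group in which every conjugacy class has at most p^b elements (every element has centralizer of index at most p^b), then the derived subgroup of G has order at most p^(b(b+1)/2). -/
theorem result {G : Type*} [Group G] [Finite G] {p : ℕ} [Fact p.Prime] (hG : IsPGroup p G) (b : ℕ) (hb : ∀ x : G, (Subgroup.centralizer ({x} : Set G)).index ≤ p ^ b) : Nat.card (commutator G) ≤ p ^ (b * (b + 1) / 2) := by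
  rcases subsingleton_or_nontrivial G with h | h
  · rw [Subsingleton.elim (_root_.commutator G) ⊥, card_bot]
    exact Nat.one_le_pow _ _ (Fact.out : p.Prime).pos
  · simpa [Nat.choose_two_right, mul_comm] using
      wiegold _ rfl hG b ⊥ ⊥ bot_ne_top (Or.inl le_rfl) fun x _ _ => hb x

end Cfsg.Agent.S3777
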