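import Cfsg.Statements.S3778
import Cfsg.Agent.H90.Ladder

set_option autoImplicit false
open Cfsg

namespace Cfsg.Agent.S3778

open scoped commutatorElement in

/-- If G is a finite p-group in which every conjugacy class has at most p^b elements (every element has centralizer of index at most p^b), then G is abelian when b = 0, and when b ≥ 1 its nilpotency class c satisfies (c − 1)(p − 1) < bp, that is c < bp/(p − 1) + 1, and hence c ≤ 2b. -/
theorem result {G : Type*} [Group G] [Finite G] {p : ℕ} [Fact p.Prime] (hG : IsPGroup p G) (b : ℕ) (hb : ∀ x : G, (Subgroup.centralizer ({x} : Set G)).index ≤ p ^ b) : ∃ c : ℕ, (⊤ : Subgroup G).lowerCentralSeries c = ⊥ ∧ (b ≠ 0 → (c - 1) * (p - 1) < b * p ∧ c ≤ 2 * b) ∧ (b = 0 → c ≤ 1) := by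
  classical
  have hp : p.Prime := Fact.out
  have := hG.isNilpotent
  have := Fintype.ofFinite G
  set c := Group.nilpotencyClass G with hc
  let L := (⊤ : Subgroup G).lowerCentralSeries
  have hL : ∀ i < c - 1, H54.relCent (L (i + 2)) (L i : Set G) ≠ ⊤ := by
    intro i hi h
    have h1 := (H54.le_relCent_iff.1 h.ge).2
    have h2 : L (i + 1) ≠ ⊥ := fun h3 => by
      have := Subgroup.lowerCentralSeries_eq_bot_iff_nilpotencyClass_le.1 h3
      omega
    rw [Subgroup.commutator_comm] at h1
    exact (H7.commutator_lt_of_nilpotent h2).not_ge h1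
  have hM : ∀ i, ∃ M : Subgroup G, i < c - 1 →
      H54.relCent (L (i + 2)) (L i : Set G) ≤ M ∧ M.index = p := by
    intro i
    by_cases hi : i < c - 1
    · obtain ⟨M, -, h1, h2⟩ := H7.exists_le_index_eq hG (hL i hi)
      exact ⟨M, fun _ => ⟨h1, h2⟩⟩
    · exact ⟨⊤, fun h => absurd h hi⟩
  choose M hM using hM
  have hnorm : ∀ i (g : G), g ∈ Subgroup.normalizer (L i : Set G) := fun i g =>
    H90.le_normalizer_of_normal' ⊤ (L i) trivial
  have key : ∀ x : G, ∀ j ≤ c - 1, Nat.card (H54.relCent (L (j + 1)) {x}) *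
      p ^ ((Finset.range j).filter fun i => x ∉ M i).card ≤ Nat.card G := by
    intro x j
    induction j with
    | zero => exact fun _ => by simpa only [Finset.range_zero, Finset.filter_empty, Finset.card_empty, pow_zero, mul_one] using Subgroup.card_le_card_group (G := G) _
    | succ j ih =>
      intro hj
      have h1 : H54.relCent (L (j + 1 + 1)) {x} ≤ H54.relCent (L (j + 1)) {x} := fun g hg =>
        ⟨hnorm _ _, fun y hy => Subgroup.lowerCentralSeries_antitone _ (Nat.le_succ _) (hg.2 y hy)⟩
      refine le_trans ?_ (ih (by omega))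
      rw [Finset.range_add_one, Finset.filter_insert]
      split_ifs with hx
      · exact Nat.mul_le_mul_right _ (Subgroup.card_le_of_le h1)
      · rw [Finset.card_insert_of_notMem (by simp), pow_succ', ← mul_assoc]
        refine Nat.mul_le_mul_right _ (H90.card_mul_le_of_lt hG (lt_of_le_of_ne h1 fun h => hx ?_))
        refine (hM j (by omega)).1 ⟨hnorm _ _, fun y hy => ?_⟩
        have h2 : y ∈ H54.relCent (L (j + 1)) {x} := ⟨hnorm _ _, fun z _ =>
          Subgroup.commutator_mem_commutator hy (Subgroup.mem_top z)⟩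
        rw [← commutatorElement_inv]
        exact Subgroup.inv_mem _ ((h.ge h2).2 x rfl)
  have hcount : 1 ≤ c → ∀ x : G, ((Finset.range (c - 1)).filter fun i => x ∉ M i).card ≤ b := by
    intro h1 x
    have h2 := key x _ le_rfl
    have h3 : Subgroup.centralizer {x} ≤ H54.relCent (L (c - 1 + 1)) {x} := fun g hg =>
      ⟨hnorm _ _, fun y hy => by
        rw [commutatorElement_eq_one_iff_mul_comm.2 (Subgroup.mem_centralizer_iff.1 hg y hy).symm]
        exact Subgroup.one_mem _⟩
    have h4 := (Nat.mul_le_mul_right _ (Subgroup.card_le_of_le h3)).trans h2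
    rw [← (Subgroup.centralizer {x}).card_mul_index] at h4
    exact (Nat.pow_le_pow_iff_right hp.one_lt).1
      ((Nat.le_of_mul_le_mul_left h4 Nat.card_pos).trans (hb x))
  have hsum : (∑ x : G, ((Finset.range (c - 1)).filter fun i => x ∉ M i).card) * p =
      (c - 1) * (p - 1) * Nat.card G := by
    simp only [Finset.card_filter]
    rw [Finset.sum_comm, Finset.sum_mul, mul_assoc, ← smul_eq_mul (c - 1),
      ← Finset.card_range (c - 1), ← Finset.sum_const, Finset.card_range]
    refine Finset.sum_congr rfl fun i hi => ?_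
    have h1 := (M i).card_mul_index
    rw [(hM i (Finset.mem_range.1 hi)).2] at h1
    have h2 := Finset.card_filter_add_card_filter_not (s := Finset.univ) (fun x : G => x ∈ M i)
    rw [Finset.card_univ, ← Nat.card_eq_fintype_card, ← Fintype.card_subtype,
      ← Nat.card_eq_fintype_card] at h2
    rw [← Finset.card_filter]
    obtain ⟨q, rfl⟩ : ∃ q, p = q + 1 := ⟨p - 1, by have := hp.pos; omega⟩
    change Nat.card (M i) + _ = _ at h2
    simp only [Nat.add_sub_cancel]
    nlinarith
  have hmain : 1 ≤ c → (c - 1) * (p - 1) * Nat.card G + b * p ≤ b * p * Nat.card G := by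
    intro h1
    rw [← hsum, ← add_mul, mul_right_comm]
    refine Nat.mul_le_mul_right _ ?_
    rw [← Finset.add_sum_erase _ _ (Finset.mem_univ (1 : G)),
      Finset.filter_false_of_mem (fun i _ h => h (M i).one_mem), Finset.card_empty, zero_add]
    have h2 := Finset.sum_le_card_nsmul (Finset.univ.erase (1 : G)) _ b fun x _ => hcount h1 x
    rw [Finset.card_erase_of_mem (Finset.mem_univ _), Finset.card_univ, ← Nat.card_eq_fintype_card,
      smul_eq_mul] at h2
    obtain ⟨n, hn⟩ : ∃ n, Nat.card G = n + 1 := ⟨Nat.card G - 1, by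
      have : 0 < Nat.card G := Nat.card_pos
      omega⟩
    rw [hn] at h2 ⊢
    simp only [Nat.add_sub_cancel] at h2
    nlinarith
  have hpos : 0 < Nat.card G := Nat.card_pos
  have h2 := hp.two_le
  refine ⟨c, Subgroup.lowerCentralSeries_nilpotencyClass, fun hb0 => ?_, fun hb0 => ?_⟩
  · have h3 : 0 < b * p := Nat.mul_pos (by omega) hp.pos
    have h4 : (c - 1) * (p - 1) < b * p := by
      rcases Nat.eq_zero_or_pos c with h | h
      · rw [h]; simpa using h3
      · exact Nat.lt_of_mul_lt_mul_right (lt_of_lt_of_le (Nat.lt_add_of_pos_right h3) (hmain h))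
    refine ⟨h4, ?_⟩
    obtain ⟨q, rfl⟩ : ∃ q, p = q + 2 := ⟨p - 2, by omega⟩
    by_contra h5
    have h6 : 2 * b ≤ c - 1 := by omega
    have h7 := Nat.mul_le_mul_right (q + 1) h6
    change (c - 1) * (q + 1) < _ at h4
    nlinarith
  · by_contra h3
    have h4 := hmain (by omega)
    rw [hb0] at h4
    have : 0 < (c - 1) * (p - 1) * Nat.card G :=
      Nat.mul_pos (Nat.mul_pos (by omega) (by omega)) hpos
    omega

end Cfsg.Agent.S3778
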