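import Cfsg.Statements.S3780
import Cfsg.Agent.H90.AbAut

set_option autoImplicit false
open Cfsg

namespace Cfsg.Agent.S3780

/-- Let V be a finite abelian p-group and α an automorphism of V of order p whose fixed-point subgroup has order p^n. Then V can be generated by pn elements: some subset of V with at most pn elements generates V. -/
theorem result {V : Type*} [CommGroup V] [Finite V] {p : ℕ} [Fact p.Prime] (hV : IsPGroup p V) (α : MulAut V) (hα : orderOf α = p) (n : ℕ) (hfix : Nat.card {v : V // α v = v} = p ^ n) : ∃ S : Finset V, S.card ≤ p * n ∧ Subgroup.closure (S : Set V) = ⊤ := by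
  have hp : p.Prime := Fact.out
  have := Fintype.ofFinite V
  obtain ⟨d, hd⟩ := hV.index (frattini V)
  obtain ⟨T, -, hT, hT'⟩ := H3.burnside_basis_exists hV hd Finset.univ (by simp)
  refine ⟨T, ?_, hT'⟩
  have h1 := H90.card_ker_pow_le hp (α : V →* V) fun v => by
    have h2 : (α ^ p) v = v := by rw [← hα, pow_orderOf_eq_one]; rfl
    refine Eq.trans ?_ h2
    clear h2
    generalize p = k
    induction k with
    | zero => rfl
    | succ k ih => rw [Function.iterate_succ_apply', pow_succ']; exact congrArg α ih
  rw [← H90.index_frattini_eq_card_ker hV, hd,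
    show Nat.card ((α : V →* V).eqLocus (MonoidHom.id V)) = p ^ n from hfix, ← pow_mul,
    Nat.pow_le_pow_iff_right hp.one_lt] at h1
  rwa [hT, mul_comm]

end Cfsg.Agent.S3780
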