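import Cfsg.Statements.S3781
import Cfsg.Agent.H90.Ladder

set_option autoImplicit false
open Cfsg

namespace Cfsg.Agent.S3781

/-- Let G be a finite p-group and n ≥ 1, and write γ_1(G) = G, γ_{k+1}(G) = [γ_k(G), G], and likewise γ_k(N) for a subgroup N. Let N be a normal subgroup of G contained in γ_n(G). If i > 1 and γ_{i+1}(N) ≠ 1, then |γ_i(N) : γ_{i+1}(N)| ≥ p^n. -/
theorem result {G : Type*} [Group G] [Finite G] {p : ℕ} [Fact p.Prime] (hG : IsPGroup p G) (n : ℕ) (hn : 1 ≤ n) (N : Subgroup G) [N.Normal] (hN : N ≤ (⊤ : Subgroup G).lowerCentralSeries (n - 1)) (i : ℕ) (hi : 1 < i) (hne : N.lowerCentralSeries i ≠ ⊥) : p ^ n ≤ (N.lowerCentralSeries i).relIndex (N.lowerCentralSeries (i - 1)) := by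
  obtain ⟨j, rfl⟩ : ∃ j, i = j + 1 := ⟨i - 1, by omega⟩
  obtain ⟨s, rfl⟩ : ∃ s, n = s + 1 := ⟨n - 1, by omega⟩
  have h1 : N.lowerCentralSeries (j + 1) ≤ iterCommutator (N.lowerCentralSeries j) ⊤ (s + 1) := by
    have := H90.commutator_iter_lcs_le (N.lowerCentralSeries j) 0 s
    rw [zero_add] at this
    exact (Subgroup.commutator_mono le_rfl hN).trans this
  have h2 := H90.card_mul_le_of_le_iter hG hne h1
  rw [← H7.card_mul_relIndex (N.lowerCentralSeries_antitone (Nat.le_succ j))] at h2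
  exact Nat.le_of_mul_le_mul_left h2 Nat.card_pos

end Cfsg.Agent.S3781
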