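import Cfsg.Statements.S3782
import Cfsg.Agent.H90.HKK
import Cfsg.Agent.H90.Metacyclic
import Cfsg.Agent.S3781
import Cfsg.Agent.S4218
import Cfsg.Agent.H3.Fitting

set_option autoImplicit false
open Cfsg

namespace Cfsg.Agent.S3782

open Subgroup H90
open scoped Nat commutatorElement

theorem derived_add {G : Type*} [Group G] {N : Subgroup G} {a b : ℕ} (h : derivedSeries G a ≤ N)
    (hb : derivedSeries N b = ⊥) : derivedSeries G (a + b) = ⊥ := by
  have : ∀ b, derivedSeries G (a + b) ≤ (derivedSeries N b).map N.subtype := fun b => by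
    induction b with
    | zero => simpa [← MonoidHom.range_eq_map] using h
    | succ b ih =>
      rw [← add_assoc, derivedSeries_succ, derivedSeries_succ, Subgroup.map_commutator]
      exact Subgroup.commutator_mono ih ih
  simpa [hb] using this b

theorem derived_le_ker {G A : Type*} [Group G] [Group A] (f : G →* A) {a : ℕ}
    (h : derivedSeries A a = ⊥) : derivedSeries G a ≤ f.ker := by
  rw [← Subgroup.map_eq_bot_iff, eq_bot_iff, ← h]
  exact map_derivedSeries_le_derivedSeries f a

theorem derived_of_card_le {G : Type*} [Group G] [Finite G] [Group.IsSolvable G] {k : ℕ}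
    (h : Nat.card G ≤ k) : derivedSeries G k = ⊥ := by
  have : ∀ j, derivedSeries G j = ⊥ ∨ Nat.card (derivedSeries G j) + j ≤ Nat.card G := fun j => by
    induction j with
    | zero => exact Or.inr (by simp)
    | succ j ih =>
      by_cases h0 : derivedSeries G j = ⊥
      · exact Or.inl (by rw [derivedSeries_succ, h0, commutator_bot_left])
      · have := H7.card_lt_of_lt (Group.IsSolvable.commutator_lt_of_ne_bot h0)
        rw [derivedSeries_succ]
        exact Or.inr (by have := ih.resolve_left h0; omega)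
  refine (this k).resolve_right fun h1 => ?_
  have : 0 < Nat.card (derivedSeries G k) := Nat.card_pos
  omega

theorem pgroup {p : ℕ} [hp : Fact p.Prime] (m : ℕ) : ∃ l : ℕ, ∀ (G : Type) [Group G] [Finite G],
    IsPGroup p G → ∀ α : G →* G, (∀ x, α^[p] x = x) → Nat.card (fixS α) ≤ m →
      derivedSeries G l = ⊥ := by
  have hc := grNil_hkk.{0} hp.out
  generalize ∑ i ∈ Finset.range (2 ^ (p - 1) - 1), (p - 1) ^ i = c at hc
  obtain ⟨a, u, hu, hau⟩ := Nat.exists_eq_pow_mul_and_not_dvd (Nat.factorial_ne_zero m) p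
    hp.out.ne_one
  refine ⟨m ^ (p * (a + (c + 2))) + (c + 2), fun G _ _ hG α hα hm => ?_⟩
  set f := m ^ (p * (a + (c + 2)))
  set N := (⊤ : Subgroup G).lowerCentralSeries f
  refine derived_add (Subgroup.derived_le_lower_central f) (eq_bot_iff.2 ((Subgroup.derived_le_lower_central _).trans ?_))
  rw [le_bot_iff, ← map_eq_bot_iff_of_injective _ N.subtype_injective,
    top_subtype_lowerCentralSeries]
  by_contra hne
  have h1 := S3781.result hG (f + 1) (by omega) N le_rfl (c + 2) (by omega) hne
  rw [← top_subtype_lowerCentralSeries N, ← top_subtype_lowerCentralSeries N (c + 2 - 1),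
    relIndex_map_map_of_injective _ _ N.subtype_injective] at h1
  have hN := map_mem_lcs α f
  have hm' := (card_fixS_resHom_le α N hN).trans hm
  have h2 := (relIndex_le_of_pow hp.out (resHom_iterate hα N hN) (map_mem_lcs _ (c + 1))
    (map_mem_lcs _ (c + 2)) (commutator_mono le_rfl le_top) (k := a + (c + 2)) fun x hx => ?_).trans
    (Nat.pow_le_pow_left hm' _)
  · exact absurd (h1.trans h2) (not_le.2 ((Nat.lt_succ_self f).trans (Nat.lt_pow_self hp.out.one_lt)))
  · have h3 := pow_mem_lcs_succ hp.out hc (resHom_iterate hα N hN) hm' c.le_succ hx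
    rw [hau, mul_right_comm, ← pow_add, pow_mul] at h3
    obtain ⟨e, he⟩ := hG.to_subgroup N (x ^ p ^ (a + (c + 2)))
    exact mem_of_pow_mem_of_coprime h3 (coprime_orderOf_of_not_dvd he hu)

theorem constrained {p : ℕ} [hp : Fact p.Prime] (m : ℕ) : ∃ l : ℕ, ∀ (G : Type) [Group G]
    [Finite G] [Group.IsSolvable G], pPrimeCore p G = ⊥ → ∀ α : G →* G, Function.Surjective α →
      (∀ x, α^[p] x = x) → Nat.card (fixS α) ≤ m → derivedSeries G l = ⊥ := by
  obtain ⟨l, hl⟩ := pgroup (p := p) m
  refine ⟨(m ^ (p * 1))! + l, fun G _ _ _ hG α hs hα hm => ?_⟩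
  set P := pCore p G
  have hP : ∀ x ∈ P, α x ∈ P := fun x hx => H3.map_pCore_le hs (mem_map_of_mem α hx)
  have hPp := H3.pCore_isPGroup p G
  refine derived_add (N := P) ?_ (hl P hPp _ (resHom_iterate hα P hP)
    ((card_fixS_resHom_le α P hP).trans hm))
  set F := (frattini P).map P.subtype
  have hF : F.Normal := H3.map_frattini_normal P
  let π := QuotientGroup.mk' F
  have : (P.map π).Normal := Normal.map inferInstance π (QuotientGroup.mk'_surjective F)
  let ρ : G →* MulAut (P.map π) := MulAut.conjNormal.comp π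
  have h1 : Nat.card (P.map π) ≤ m ^ (p * 1) := by
    rw [H3.card_map_mk']
    refine (relIndex_le_of_pow hp.out hα hP ?_ ?_ (k := 1) ?_).trans (Nat.pow_le_pow_left hm _)
    · rintro _ ⟨x, hx, rfl⟩
      exact ⟨resHom α P hP x, H3.map_frattini_le_of_isPGroup hPp hPp _ ⟨x, hx, rfl⟩, rfl⟩
    · refine commutator_le.2 fun x hx y hy => ⟨⁅(⟨x, hx⟩ : P), ⟨y, hy⟩⁆, ?_, rfl⟩
      exact H3.commutator_le_frattini hPp (commutator_mem_commutator (mem_top _) (mem_top _))
    · exact fun x hx => ⟨(⟨x, hx⟩ : P) ^ p, H3.pow_mem_frattini hPp _, by simp⟩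
  have h2 : Nat.card ρ.range ≤ (m ^ (p * 1))! := by
    refine (Nat.card_le_card_of_injective (fun x : ρ.range => (x.1 : Equiv.Perm (P.map π)))
      fun x y h => Subtype.ext (MulEquiv.toEquiv_injective h)).trans ?_
    rw [Nat.card_perm]
    exact Nat.factorial_le h1
  have : Group.IsSolvable ρ.range := Group.isSolvable_of_surjective ρ.rangeRestrict_surjective
  refine (derived_le_ker ρ.rangeRestrict (derived_of_card_le h2)).trans fun g hg => ?_
  refine S4218.aux (H3.centralizer_pCore_le hG) g fun x hx => ?_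
  have h3 := congrArg Subtype.val (MulEquiv.congr_fun (congrArg Subtype.val hg)
    ⟨π x, mem_map_of_mem π hx⟩)
  rw [← QuotientGroup.eq_one_iff, QuotientGroup.mk_mul, QuotientGroup.mk_inv, mul_inv_eq_one]
  exact h3


/-- Alperin's Theorem: for each prime p and each n ≥ 0 there is an integer l such that every finite solvable group admitting an automorphism of order p with exactly p^n fixed points has derived length at most l. -/
theorem result (p : ℕ) (hp : p.Prime) (n : ℕ) : ∃ l : ℕ, ∀ (G : Type) [Group G] [Finite G], Group.IsSolvable G → ∀ α : MulAut G, orderOf α = p → Nat.card {g : G // α g = g} = p ^ n → derivedSeries G l = ⊥ := by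
  have := Fact.mk hp
  obtain ⟨l, hl⟩ := constrained (p := p) (p ^ n)
  refine ⟨l + ∑ i ∈ Finset.range (2 ^ (p - 1) - 1), (p - 1) ^ i, fun G _ _ _ α hα hn => ?_⟩
  have h1 : ∀ x, (α : G →* G)^[p] x = x := fun x => by
    rw [H90.iterate_mulAut, ← hα, pow_orderOf_eq_one]; rfl
  have h2 : Nat.card (fixS (α : G →* G)) = p ^ n := hn
  set N := pPrimeCore p G
  have hN : ∀ x ∈ N, (α : G →* G) x ∈ N := fun x hx =>
    (characteristic_iff_le_comap.1 (H3.pPrimeCore_characteristic p G) α) hx
  refine derived_add (N := N) ?_ (eq_bot_iff.2 ((Subgroup.derived_le_lower_central _).trans ?_))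
  · have := derived_le_ker (QuotientGroup.mk' N) (hl (G ⧸ N)
      (H3.pPrimeCore_quotient_pPrimeCore p G) (QuotientGroup.map N N α hN)
      (QuotientGroup.map_surjective_of_surjective N N _ (QuotientGroup.mk_surjective.comp
        α.surjective) hN) (quotMap_iterate h1 N hN) ((card_fixS_quotient_le _ N hN).trans h2.le))
    rwa [QuotientGroup.ker_mk'] at this
  · refine ((grNil_hkk hp).lcs_eq_bot hp (resHom_iterate h1 N hN) fun x hx => ?_).le
    have h3 : orderOf (x : G) ∣ p ^ n :=
      h2 ▸ orderOf_dvd_natCard (fixS (α : G →* G)) (congrArg Subtype.val hx)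
    exact Subtype.ext (orderOf_eq_one_iff.1 (Nat.eq_one_of_dvd_coprimes
      ((H3.pPrimeCore_coprime p G).pow_right n) (orderOf_dvd_natCard N x.2) h3))

end Cfsg.Agent.S3782
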