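import Cfsg.Statements.S3785
import Cfsg.Agent.H88.Basic
import Cfsg.Agent.H3.Fitting
import Cfsg.Agent.H8.Residual

set_option autoImplicit false
open Cfsg

namespace Cfsg.Agent.S3785

open Subgroup

theorem le_of_forall_primeElt {G : Type*} [Group G] [Finite G] {K H : Subgroup G}
    (h : ∀ q : ℕ, q.Prime → ∀ x ∈ K, (∃ k, x ^ q ^ k = 1) → q ∣ orderOf x → x ∈ H) : K ≤ H := by
  refine H4.le_of_forall_sylow_le fun q hq => ⟨default, ?_⟩
  rintro _ ⟨x, hx, rfl⟩
  obtain ⟨k, hk⟩ := (default : Sylow q K).isPGroup' ⟨x, hx⟩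
  have hk' : (x : G) ^ q ^ k = 1 := by
    simpa using congrArg (fun y => ((y : (default : Sylow q K)) : G)) hk
  by_cases h1 : (x : G) = 1
  · rw [coe_subtype, h1]; exact H.one_mem
  · refine h q hq.out x x.2 ⟨k, hk'⟩ ?_
    obtain ⟨j, -, hj⟩ := (Nat.dvd_prime_pow hq.out).mp (orderOf_dvd_of_pow_eq_one hk')
    obtain _ | j := j
    · exact absurd (orderOf_eq_one_iff.mp (by simpa using hj)) h1
    · rw [hj]; exact dvd_pow_self q (by omega)

/-- Let G be a finite solvable group whose Fitting subgroup F(G) has odd order. If an element g of G commutes with every element of prime order of F(G), then g ∈ F(G). -/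
theorem result {G : Type*} [Group G] [Finite G] (hG : Group.IsSolvable G) (hodd : Odd (Nat.card (Cfsg.fittingSubgroup G))) (g : G) (hg : ∀ x ∈ Cfsg.fittingSubgroup G, (orderOf x).Prime → g * x = x * g) : g ∈ Cfsg.fittingSubgroup G := by
  set F := fittingSubgroup G
  set C := centralizer {x : G | x ∈ F ∧ (orderOf x).Prime} with hC
  have hF : F.Normal := H3.fitting_normal G
  have hCn : C.Normal := by
    refine ⟨fun c hc y x hx => ?_⟩
    have := hc (y⁻¹ * x * y) ⟨hF.conj_mem' x hx.1 y, by
      rw [show y⁻¹ * x * y = MulAut.conj y⁻¹ x by simp, MulEquiv.orderOf_eq]; exact hx.2⟩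
    calc x * (y * c * y⁻¹) = y * (y⁻¹ * x * y * c) * y⁻¹ := by group
      _ = _ := by rw [this]; group
  have hgC : g ∈ C := fun x hx => (hg x hx.1 hx.2).symm
  -- `q`-elements of `C` centralize `O_p(G)` for `p ≠ q`
  have key : ∀ p q : ℕ, p.Prime → q.Prime → p ≠ q → ∀ x ∈ C, (∃ k, x ^ q ^ k = 1) →
      x ∈ centralizer (pCore p G : Set G) := by
    rintro p q hp hq hpq x hx ⟨k, hk⟩
    have := Fact.mk hp
    by_cases hp2 : p = 2
    · subst hp2
      have : pCore 2 G = ⊥ := by
        obtain ⟨n, hn⟩ := H3.exists_card_pCore (p := 2) (G := G)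
        have h1 := hodd.of_dvd_nat (card_dvd_of_le (H3.pCore_le_fitting (p := 2)))
        rw [hn] at h1
        obtain _ | n := n
        · exact card_eq_one.mp hn
        · exact absurd h1 (by simp [Nat.odd_pow_iff])
      rw [this]
      intro y hy
      rw [mem_bot.mp hy, one_mul, mul_one]
    have h1 := H88.le_centralizer_of_omega hp2 (A := zpowers x) (H3.pCore_isPGroup p G)
      le_normalizer_of_normal (by
        rw [Nat.card_zpowers]
        exact Nat.Coprime.coprime_dvd_left (orderOf_dvd_of_pow_eq_one hk)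
          (Nat.Coprime.pow_left _ ((Nat.coprime_primes hq hp).mpr hpq.symm))) (by
        intro y hy hyp
        by_cases hy1 : y = 1
        · rw [hy1]; exact one_mem _
        · intro z hz
          exact (zpowers_le.mpr hx hz y ⟨H3.pCore_le_fitting hy, by
            rw [orderOf_eq_prime hyp hy1]; exact hp⟩).symm)
    exact le_centralizer_iff.mp h1 (mem_zpowers x)
  refine le_of_forall_primeElt (K := C) (fun p hp x hx hxp _ => ?_) hgC
  have := Fact.mk hp
  set D := C ⊓ ⨅ q : {q : ℕ // q.Prime ∧ q ≠ p}, centralizer (pCore q G : Set G) with hD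
  have hDn : D.Normal := by
    have : (⨅ q : {q : ℕ // q.Prime ∧ q ≠ p}, centralizer (pCore q G : Set G)).Normal :=
      normal_iInf_normal fun q => inferInstance
    infer_instance
  have hxD : x ∈ D := ⟨hx, mem_iInf.mpr fun q => key q p q.2.1 hp q.2.2 x hx hxp⟩
  refine H3.le_fitting (N := D) ?_ hxD
  have h1 : pResidual p D ≤ center D := by
    rw [H8.pResidual_le_iff]
    intro y hy
    refine le_of_forall_primeElt (K := zpowers y) (fun q hq z hz ⟨k, hk⟩ hqz => ?_) (mem_zpowers y)
    have hqp : q ≠ p := by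
      rintro rfl
      exact (Nat.Prime.coprime_iff_not_dvd hq).mp hy.symm (hqz.trans (orderOf_dvd_of_mem_zpowers hz))
    have hk' : (z : G) ^ q ^ k = 1 := by simpa using congrArg Subtype.val hk
    have hzF : (z : G) ∈ F := by
      refine H3.centralizer_fitting_le G ?_
      refine (le_centralizer_iff (K := zpowers (z : G))).mp ?_ (mem_zpowers _)
      rw [H3.fitting_eq_iSup_pCore]
      refine iSup_le fun r => le_centralizer_iff.mp (zpowers_le.mpr ?_)
      by_cases hr : (r : ℕ) = p
      · exact key r q r.2 hq (hr ▸ hqp.symm) z z.2.1 ⟨k, hk'⟩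
      · exact mem_iInf.mp z.2.2 ⟨r, r.2, hr⟩
    have := Fact.mk hq
    have hzq : (z : G) ∈ pCore q G :=
      H3.le_pCore_of_le_fitting (H8.isPGroup_zpowers_of_pow_eq_one hk') (zpowers_le.mpr hzF)
        (mem_zpowers _)
    rw [mem_center_iff]
    intro d
    exact Subtype.ext (mem_iInf.mp d.2.2 ⟨q, hq, hqp⟩ z hzq).symm
  exact Group.of_quotient_center_nilpotent (H8.isPGroup_quotient_of_pResidual_le h1).isNilpotent

end Cfsg.Agent.S3785
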