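import Cfsg.Statements.S3787
import Cfsg.Agent.H4.PLength
import Cfsg.Agent.H82.Involves

set_option autoImplicit false
open Cfsg

namespace Cfsg.Agent.S3787

open Subgroup

theorem exists_surj_wreath {K Q D : Type*} [Group K] [Group Q] [Group D] (φ : K →* Q)
    (hφ : Function.Surjective φ) (f : φ.ker →* D)
    (hs : ∀ u : Q → D, ∃ w : φ.ker, ∀ k : K,
      f ⟨k⁻¹ * w * k, by simpa using (MonoidHom.normal_ker φ).conj_mem _ w.2 k⁻¹⟩ = u (φ k)) :
    ∃ ψ : K →* D ≀ᵣ Q, Function.Surjective ψ := by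
  choose s hs' using hφ
  have hmem : ∀ (k : K) (x : Q), (s x)⁻¹ * k * s ((φ k)⁻¹ * x) ∈ φ.ker := fun k x => by
    simp [MonoidHom.mem_ker, hs']
  let ψ : K →* D ≀ᵣ Q := MonoidHom.mk' (fun k => ⟨fun x => f ⟨_, hmem k x⟩, φ k⟩) fun k l => by
    ext x
    · simp only [RegularWreathProduct.mul_left, Pi.mul_apply, ← map_mul]
      congr 1
      apply Subtype.ext
      simp [mul_assoc]
    · simp
  refine ⟨ψ, fun y => ?_⟩
  obtain ⟨w, hw⟩ := hs (y * (ψ (s y.right))⁻¹).left
  refine ⟨w * s y.right, ?_⟩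
  rw [map_mul, ← eq_mul_inv_iff_mul_eq]
  have hw1 : φ w = 1 := w.2
  ext x
  · rw [← hs' x, ← hw]
    show f _ = _
    congr 1
    apply Subtype.ext
    simp [hw1, hs']
  · show φ w = y.right * (φ (s y.right))⁻¹
    rw [hw1, hs', mul_inv_cancel]

theorem wreath_props (p : ℕ) [Fact p.Prime] :
    ∃ (B : Subgroup (Multiplicative (ZMod p) ≀ᵣ Multiplicative (ZMod p)))
      (t : Multiplicative (ZMod p) ≀ᵣ Multiplicative (ZMod p)), B.Normal ∧ IsMulCommutative B ∧
      (∀ b ∈ B, b ^ p = 1) ∧ Nat.card B = p ^ p ∧ orderOf t = p ∧ t ∉ B ∧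
      Nat.card (Multiplicative (ZMod p) ≀ᵣ Multiplicative (ZMod p)) = p ^ (p + 1) ∧
      Nat.card ↥(B ⊓ Subgroup.centralizer {t}) = p := by
  have hp : p.Prime := Fact.out
  set D := Multiplicative (ZMod p)
  have hD : Nat.card D = p := by simp [D]
  let ι : (D → D) →* D ≀ᵣ D := MonoidHom.mk' (fun u => ⟨u, 1⟩) fun u v => by ext <;> simp
  have hι : Function.Injective ι := fun u v h => congrArg RegularWreathProduct.left h
  have hr : ι.range = (RegularWreathProduct.rightHom : D ≀ᵣ D →* D).ker := by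
    ext y
    constructor
    · rintro ⟨u, rfl⟩; rfl
    · intro hy
      exact ⟨y.left, RegularWreathProduct.ext rfl (Eq.symm hy)⟩
  let g : D := Multiplicative.ofAdd 1
  have hg : orderOf g = p := by rw [orderOf_ofAdd_eq_addOrderOf, ZMod.addOrderOf_one]
  have hg1 : g ≠ 1 := fun h => hp.ne_one (by rw [← hg, h, orderOf_one])
  have hgen : ∀ x : D, x ∈ zpowers g := fun x => mem_zpowers_of_prime_card hD hg1
  refine ⟨ι.range, RegularWreathProduct.inl g, hr ▸ inferInstance, inferInstance, ?_, ?_, ?_, ?_,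
    ?_, ?_⟩
  · rintro _ ⟨u, rfl⟩
    rw [← map_pow]
    have : u ^ p = 1 := funext fun x => by
      have := pow_card_eq_one' (x := u x)
      rwa [hD] at this
    rw [this, map_one]
  · rw [← Nat.card_congr (MonoidHom.ofInjective hι).toEquiv, Nat.card_fun, hD]
  · rw [orderOf_injective _ (fun a b h => congrArg RegularWreathProduct.right h), hg]
  · rw [hr]; exact hg1
  · rw [RegularWreathProduct.card, hD, pow_succ]
  · let c : D →* D ≀ᵣ D := ι.comp (Pi.constMonoidHom D D)
    have hc : Function.Injective c := hι.comp Function.const_injective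
    have : ι.range ⊓ centralizer {RegularWreathProduct.inl g} = c.range := by
      ext y
      rw [mem_inf, mem_centralizer_singleton_iff]
      constructor
      · rintro ⟨⟨u, rfl⟩, h⟩
        have h1 : ∀ x, u (g⁻¹ * x) = u x := fun x => by
          have := congrFun (congrArg RegularWreathProduct.left h) x
          simpa [ι] using this.symm
        have h2 : ∀ n : ℕ, u (g ^ n) = u 1 := fun n => by
          induction n with
          | zero => rw [pow_zero]
          | succ n ih => rw [← h1, pow_succ', inv_mul_cancel_left, ih]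
        refine ⟨u 1, congrArg ι (funext fun x => ?_)⟩
        obtain ⟨n, rfl⟩ := mem_powers_iff_mem_zpowers.2 (hgen x)
        exact (h2 n).symm
      · rintro ⟨d, rfl⟩
        refine ⟨⟨_, rfl⟩, ?_⟩
        ext x <;> simp [c, ι]
    rw [this, ← Nat.card_congr (MonoidHom.ofInjective hc).toEquiv, hD]

theorem surj_of_norm {p : ℕ} [Fact p.Prime] {V Q : Type*} [AddCommGroup V] [Module (ZMod p) V]
    [Group Q] [Finite Q] (hQ : Nat.card Q = p) (σ : Representation (ZMod p) Q V) (g : Q)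
    (h : (σ g - 1) ^ (p - 1) ≠ 0) : ∃ f : V →ₗ[ZMod p] ZMod p,
      ∀ u : Q → ZMod p, ∃ w, ∀ x, f (σ x⁻¹ w) = u x := by
  classical
  have hp : p.Prime := Fact.out
  letI := Fintype.ofFinite Q
  haveI : IsMulCommutative Q := (isCyclic_of_prime_card hQ).isMulCommutative
  obtain ⟨v, hv⟩ : ∃ v, ((σ g - 1) ^ (p - 1)) v ≠ 0 := by
    by_contra h0
    push Not at h0
    exact h (LinearMap.ext h0)
  obtain ⟨f, hf⟩ := Module.Projective.exists_dual_eq_one (ZMod p) hv
  refine ⟨f, ?_⟩
  let Θ : V →ₗ[ZMod p] (Q → ZMod p) := LinearMap.pi fun x => f ∘ₗ σ x⁻¹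
  let τ : Module.End (ZMod p) (Q → ZMod p) := LinearMap.funLeft _ _ fun x => g⁻¹ * x
  have h1 : ∀ w, Θ (σ g w) = τ (Θ w) := fun w => funext fun x => by
    show f (σ x⁻¹ (σ g w)) = f (σ (g⁻¹ * x)⁻¹ w)
    rw [mul_inv_rev, inv_inv, H4.HH.rep_mul_apply]
  have h2 : ∀ w, Θ ((σ g - 1) w) = (τ - 1) (Θ w) := fun w => by
    rw [LinearMap.sub_apply, LinearMap.sub_apply, map_sub, h1]; rfl
  have hinv : ∀ u ∈ LinearMap.range Θ, (τ - 1) u ∈ LinearMap.range Θ := by
    rintro _ ⟨w, rfl⟩; exact ⟨_, h2 w⟩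
  let T := (τ - 1).restrict hinv
  have h3 : ∀ (k : ℕ) w, ((T ^ k) ⟨Θ w, w, rfl⟩ : Q → ZMod p) = Θ (((σ g - 1) ^ k) w) := by
    intro k w
    induction k with
    | zero => rfl
    | succ k ih =>
      rw [pow_succ', pow_succ', Module.End.mul_apply, Module.End.mul_apply, h2, ← ih]; rfl
  have h4 : T ^ p = 0 := by
    ext ⟨_, w, rfl⟩ x
    have := H4.HH.sub_one_pow_char_pow (ZMod p) p (σ g) 1
    rw [pow_one, ← map_pow, show g ^ p = 1 by rw [← hQ]; exact pow_card_eq_one', map_one,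
      sub_self] at this
    rw [h3, this]; simp
  have h5 : p ≤ Module.finrank (ZMod p) (LinearMap.range Θ) := by
    by_contra hlt
    have h6 : T ^ (p - 1) = 0 := pow_eq_zero_of_le (by omega) (H4.HH.pow_finrank_eq_zero h4)
    have h7 := congrFun (h3 (p - 1) v) 1
    rw [h6] at h7
    have h8 : Θ (((σ g - 1) ^ (p - 1)) v) 1 = 1 := by
      show f (σ 1⁻¹ _) = 1
      rw [inv_one, map_one, Module.End.one_apply, hf]
    rw [h8] at h7
    exact zero_ne_one h7
  have h6 : LinearMap.range Θ = ⊤ := by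
    apply Submodule.eq_top_of_finrank_eq
    refine le_antisymm (Submodule.finrank_le _) ?_
    rw [Module.finrank_fintype_fun_eq_card, ← Nat.card_eq_fintype_card, hQ]
    exact h5
  intro u
  obtain ⟨w, hw⟩ := LinearMap.range_eq_top.1 h6 u
  exact ⟨w, fun x => congrFun hw x⟩

theorem exists_pow_not_mem {G : Type*} [Group G] {p : ℕ} {V : Subgroup G} {g : G} {k : ℕ}
    (hg : g ^ p ^ k = 1) (h : g ∉ V) : ∃ j, g ^ p ^ j ∉ V ∧ g ^ p ^ (j + 1) ∈ V := by
  by_contra hc
  push Not at hc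
  have : ∀ j, g ^ p ^ j ∉ V := fun j => by
    induction j with
    | zero => simpa using h
    | succ j ih => exact hc j ih
  exact this k (hg ▸ one_mem V)

/-- Let G be a finite p-soluble group, p an odd prime not of the form 2^k + 1, and suppose the wreath product C_p ≀ C_p (of order p^(p+1)) is not involved in a Sylow p-subgroup of G: no section of a Sylow p-subgroup is isomorphic to it. Then G has p-length at most 1. -/
theorem result {G : Type*} [Group G] [Finite G] {p : ℕ} [Fact p.Prime] (hp2 : p ≠ 2) (hnf : (¬ ∃ k : ℕ, p = 2 ^ k + 1)) (hG : Cfsg.IsPSolvable p G) (P : Sylow p G) (hwr : ∀ (W : Type) [Group W] [Finite W], (∃ (B : Subgroup W) (t : W), B.Normal ∧ IsMulCommutative B ∧ (∀ b ∈ B, b ^ p = 1) ∧ Nat.card B = p ^ p ∧ orderOf t = p ∧ t ∉ B ∧ Nat.card W = p ^ (p + 1) ∧ Nat.card ↥(B ⊓ Subgroup.centralizer ({t} : Set W)) = p) → ¬ Cfsg.Involves W ↥(P : Subgroup G)) : Cfsg.PLengthLE p 1 G := by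
  classical
  have hp : p.Prime := Fact.out
  obtain ⟨N, _, h1, h2, h3⟩ := H4.exists_reduced hG
  refine H4.pLengthLE_one_of_sylow_le P fun g hg => ?_
  by_contra hne
  rw [← h3, mem_comap] at hne
  set V := pCore p (G ⧸ N)
  obtain ⟨k, hk⟩ := P.isPGroup' ⟨g, hg⟩
  have hk' : (QuotientGroup.mk' N g) ^ p ^ k = 1 := by
    rw [← map_pow, show g ^ p ^ k = 1 from congrArg Subtype.val hk, map_one]
  obtain ⟨j, hj1, hj2⟩ := exists_pow_not_mem hk' hne
  set t := (QuotientGroup.mk' N g) ^ p ^ j with ht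
  have htp : t ^ p ∈ V := by rw [ht, ← pow_mul, ← pow_succ]; exact hj2
  have hnz := H4.exists_norm_ne_zero (n := 0) (g := t) (H53.isPSolvable_quotient hG N)
    (H4.nonExc_of_not_fermat hp2 hnf) h1 h2 (by simpa using htp) (by simpa using hj1)
  rw [zero_add, pow_one] at hnz
  let Q₀ := zpowers (QuotientGroup.mk' V t)
  have hQ₀ : Nat.card Q₀ = p := by
    rw [Nat.card_zpowers]
    exact orderOf_eq_prime ((QuotientGroup.eq_one_iff _).2 htp)
      fun h => hj1 ((QuotientGroup.eq_one_iff _).1 h)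
  obtain ⟨f, hf⟩ := surj_of_norm hQ₀ ((H4.EA.quotRep h1).comp Q₀.subtype) ⟨_, mem_zpowers _⟩ hnz
  let φ := (QuotientGroup.mk' V).subgroupComap Q₀
  have hφ : Function.Surjective φ := MonoidHom.subgroupComap_surjective_of_surjective _ _
    (QuotientGroup.mk'_surjective V)
  have hker : ∀ w : φ.ker, ((w : Q₀.comap (QuotientGroup.mk' V)) : G ⧸ N) ∈ V := fun w =>
    (QuotientGroup.eq_one_iff _).1 (congrArg Subtype.val w.2)
  let f' : φ.ker →* Multiplicative (ZMod p) := MonoidHom.mk'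
    (fun w => Multiplicative.ofAdd (f (H4.EA.mk h1 _ (hker w)))) fun a b => by
      rw [← ofAdd_add, ← map_add]; rfl
  obtain ⟨ψ, hψ⟩ := exists_surj_wreath φ hφ f' fun u => by
    obtain ⟨w, hw⟩ := hf fun x => Multiplicative.toAdd (u x)
    have hw1 : QuotientGroup.mk' V w.val = 1 := (QuotientGroup.eq_one_iff _).2 w.val_mem
    refine ⟨⟨⟨w.val, by rw [mem_comap, hw1]; exact one_mem _⟩, Subtype.ext hw1⟩, fun k => ?_⟩
    apply Multiplicative.toAdd.injective
    rw [← hw (φ k)]
    show f _ = f (H4.EA.conjRep h1 (k : G ⧸ N)⁻¹ w)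
    congr 1
    apply H4.EA.val_injective
    rw [H4.EA.val_conjRep, inv_inv (k : G ⧸ N)]
    rfl
  have e : Q₀ ≃* Multiplicative (ZMod p) := mulEquivOfPrimeCardEq hQ₀ (by simp)
  refine hwr _ (wreath_props p) ?_
  have hle : Q₀.comap (QuotientGroup.mk' V) ≤ (P : Subgroup G).map (QuotientGroup.mk' N) := by
    have hV : V ≤ (P : Subgroup G).map (QuotientGroup.mk' N) :=
      H3.pCore_le_sylow (P.mapSurjective (QuotientGroup.mk'_surjective N))
    simp only [Q₀]
    rw [← MonoidHom.map_zpowers, comap_map_eq, QuotientGroup.ker_mk']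
    exact sup_le (zpowers_le.2 (pow_mem (mem_map_of_mem _ hg) _)) hV
  refine H82.involves_of_involves_surjective _ (MonoidHom.subgroupMap_surjective _ _)
    (H82.involves_of_involves_le hle ?_)
  let e' := RegularWreathProduct.congr (MulEquiv.refl (Multiplicative (ZMod p))) e
  exact H82.involves_of_surjective (e'.toMonoidHom.comp ψ) (e'.surjective.comp hψ)

end Cfsg.Agent.S3787
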