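import Cfsg.Statements.S3788
import Cfsg.Agent.H4.PLift
import Cfsg.Agent.H82.Involves

set_option autoImplicit false
open Cfsg

namespace Cfsg.Agent.S3788

open Subgroup

theorem aux {G : Type*} [Group G] [Finite G] {p : ℕ} [Fact p.Prime] (hG : IsPSolvable p G)
    (h1 : IsElementaryAbelian p (pCore p G)) (h2 : centralizer (pCore p G : Set G) ≤ pCore p G)
    {a : G} (ha : ∀ v ∈ pCore p G, v * a * v⁻¹ ∈ zpowers a)
    (h : p ≠ 2 ∨ ¬ Involves (Equiv.Perm (Fin 4)) G) : a ∈ pCore p G := by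
  classical
  have hp : p.Prime := Fact.out
  by_contra hne
  set V := pCore p G
  set σ := H4.EA.quotRep h1
  have hσ := H4.EA.quotRep_injective h1 h2
  set T := H4.EA.conjRep h1 a - 1 with hT
  have hTv : ∀ v, (T v).val ∈ zpowers a := fun v => by
    rw [hT, LinearMap.sub_apply, H4.EA.val_sub, H4.EA.val_conjRep, Module.End.one_apply]
    have := ha _ v.val_mem
    have h3 : a * v.val * a⁻¹ * v.val⁻¹ = a * (v.val * a * v.val⁻¹)⁻¹ := by group
    rw [h3]
    exact mul_mem (mem_zpowers a) (inv_mem this)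
  have hT2 : T ^ 2 = 0 := by
    ext v
    apply H4.EA.val_injective
    obtain ⟨i, hi⟩ := hTv v
    rw [pow_two, Module.End.mul_apply]
    conv_lhs => rw [hT, LinearMap.sub_apply, H4.EA.val_sub, H4.EA.val_conjRep,
      Module.End.one_apply, ← hT, ← hi]
    simp only [LinearMap.zero_apply, H4.EA.val_zero]
    group
  have hap : a ^ p ∈ V := by
    apply h2
    rw [← H4.EA.conjRep_eq_one_iff h1, map_pow, ← sub_eq_zero]
    have := H4.HH.sub_one_pow_char_pow (ZMod p) p (H4.EA.conjRep h1 a) 1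
    rw [pow_one] at this
    rw [← this]
    exact pow_eq_zero_of_le hp.two_le hT2
  have hab1 : (QuotientGroup.mk a : G ⧸ V) ≠ 1 := fun h => hne ((QuotientGroup.eq_one_iff _).1 h)
  have habp : (QuotientGroup.mk a : G ⧸ V) ^ p = 1 := (QuotientGroup.eq_one_iff _).2 hap
  have hTc : ∀ v, (T v).val ∈ zpowers (a ^ p) := fun v => by
    obtain ⟨i, hi⟩ := hTv v
    have h3 : (QuotientGroup.mk a : G ⧸ V) ^ i = 1 := by
      rw [← QuotientGroup.mk_zpow, QuotientGroup.eq_one_iff]
      exact (show a ^ i = _ from hi) ▸ (T v).val_mem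
    rw [← orderOf_dvd_iff_zpow_eq_one, orderOf_eq_prime habp hab1] at h3
    obtain ⟨j, rfl⟩ := h3
    exact ⟨j, by rw [← hi]; simp [zpow_mul]⟩
  set L := pPrimeCore p (G ⧸ V)
  have hL := H3.pPrimeCore_coprime p (G ⧸ V)
  obtain ⟨l, hl, hnc⟩ := H4.HH.exists_not_commute_pPrimeCore σ hσ (H53.isPSolvable_quotient hG _)
    (H3.pCore_quotient_pCore p G) (n := 1) (by rwa [pow_one]) hab1
  by_cases hp2 : p = 2
  · subst hp2
    refine h.resolve_left (fun h => h rfl) ?_
    obtain ⟨j, y, hyL, hy1, hy⟩ := H82.exists_inverts_of_not_centralizes (P := L) (k := 1)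
      (by rwa [pow_one]) (by rw [normalizer_eq_top]; trivial)
      (fun hc => hnc (by rw [← map_mul, ← hc l hl, map_mul]))
    have hyo : (orderOf y).Coprime 2 := hL.coprime_dvd_left (L.orderOf_dvd_natCard hyL)
    have hy' : (QuotientGroup.mk a : G ⧸ V) * y * (QuotientGroup.mk a : G ⧸ V)⁻¹ = y⁻¹ := by
      cases j with
      | zero => simpa using hy
      | succ j =>
        exfalso
        rw [pow_succ', pow_mul, habp, one_pow, one_mul, inv_one, mul_one,
          eq_inv_iff_mul_eq_one, ← sq] at hy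
        exact hy1 (orderOf_eq_one_iff.1 (Nat.eq_one_of_dvd_coprimes hyo dvd_rfl
          (orderOf_dvd_of_pow_eq_one hy)))
    obtain ⟨m, hm⟩ := exists_pow_eq_self_of_coprime hyo.symm
    set s := (QuotientGroup.mk a : G ⧸ V)
    set z := y ^ m with hz
    have hz2 : z * z = y := by rw [← sq, hz, ← pow_mul, mul_comm, pow_mul, hm]
    have hzs : s * z * s⁻¹ = z⁻¹ := by rw [hz, ← conj_pow, hy', inv_pow]
    have hs : s⁻¹ = s := inv_eq_of_mul_eq_one_right (by rw [← sq, habp])
    have hprod : s * (z * s * z⁻¹) = y⁻¹ := by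
      have h3 : s * z * s = z⁻¹ := by rw [← hzs, hs]
      clear_value z
      calc s * (z * s * z⁻¹) = (s * z * s) * z⁻¹ := by simp only [mul_assoc]
        _ = (z * z)⁻¹ := by rw [h3]; exact (_root_.mul_inv_rev z z).symm
        _ = y⁻¹ := by rw [hz2]
    let c := H4.EA.mk h1 _ hap
    have hTc' : ∀ v, T v = 0 ∨ T v = c := fun v => by
      obtain ⟨i, hi⟩ := mem_powers_iff_mem_zpowers.2 (hTc v)
      have hi' : (a ^ 2) ^ i = (T v).val := hi
      have h4 : (a ^ 2) ^ 2 = 1 := h1.2 _ hap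
      rcases Nat.even_or_odd' i with ⟨k, rfl | rfl⟩
      · left; rw [← H4.EA.val_eq_one, ← hi', pow_mul, h4, one_pow]
      · right; apply H4.EA.val_injective
        rw [← hi', pow_succ, pow_mul, h4, one_pow, one_mul]; rfl
    have rk : ∀ (A B : Module.End (ZMod 2) (H4.EA h1)) (d : H4.EA h1), (∀ v, A v = 0 ∨ A v = d) →
        A * B * A = A ∨ A * B * A = 0 := by
      intro A B d hA
      rcases hA (B d) with h0 | h0
      · right; ext v
        rcases hA v with h3 | h3 <;> simp [h3, h0]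
      · left; ext v
        rcases hA v with h3 | h3 <;> simp [h3, h0]
    have hsT : σ s = 1 + T := by rw [hT, add_sub_cancel]; rfl
    have key := H4.pow_twelve_of_transvections (R := Module.End (ZMod 2) (H4.EA h1))
      (by
        have : (2 : Module.End (ZMod 2) (H4.EA h1)) = algebraMap (ZMod 2) _ 2 := (map_ofNat _ 2).symm
        rw [this, show (2 : ZMod 2) = 0 from rfl, map_zero])
      (a := T) (b := σ z * T * σ z⁻¹) (by rw [← sq, hT2])
      (by rw [mul_assoc, ← mul_assoc (σ z⁻¹), ← mul_assoc (σ z⁻¹), H4.HH.rep_inv_mul, one_mul,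
        mul_assoc, ← mul_assoc T T, ← sq, hT2, zero_mul, mul_zero])
      (rk _ _ c hTc') (rk _ _ (σ z c) fun v => by
        rcases hTc' (σ z⁻¹ v) with h3 | h3 <;> simp [h3])
    have h3 : 1 + σ z * T * σ z⁻¹ = σ (z * s * z⁻¹) := by
      rw [map_mul, map_mul, hsT, mul_add, add_mul, mul_one, H4.HH.rep_mul_inv]
    rw [h3, ← hsT, ← map_mul, hprod, ← map_pow, ← map_one σ] at key
    have h12 : y ^ (3 * 2 ^ 2) = 1 := by
      have := hσ key
      rwa [inv_pow, inv_eq_one] at this
    have hy3 : y ^ 3 = 1 := orderOf_dvd_iff_pow_eq_one.1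
      ((hyo.pow_right 2).dvd_of_dvd_mul_right (orderOf_dvd_of_pow_eq_one h12))
    haveI : Fact (Nat.Prime 3) := ⟨Nat.prime_three⟩
    obtain ⟨x, y', P, ⟨k, hk⟩, hP, hy'P, hxP, hy'e, hxy⟩ := H82.exists_lift_inverts
      (QuotientGroup.mk' V) (QuotientGroup.mk'_surjective V) (p := 3) (k := 1)
      (by rw [pow_one]; exact orderOf_eq_prime hy3 hy1) hy'
    have hVc : V ≤ centralizer (V : Set G) := fun v hv w hw => H53.comm_of_mem h1.1 hw hv
    refine H82.involves_perm_four_of_elementary (V := V) (fun v hv => by rw [← sq]; exact h1.2 v hv)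
      hP (j := k) (by rw [← hk, pow_orderOf_eq_one]) hy'P hxP (fun hc => hy1 ?_) (hVc ?_) (hVc ?_)
    · rw [← hy'e]; exact (QuotientGroup.eq_one_iff _).2 (h2 hc)
    · rw [← QuotientGroup.eq_one_iff, ← QuotientGroup.mk'_apply, map_pow, hy'e, hy3]
    · rw [← QuotientGroup.eq_one_iff, ← QuotientGroup.mk'_apply, map_mul, map_mul, map_mul,
        map_inv, hy'e, hxy, inv_mul_cancel]
  · have hVL : (Nat.card (QuotientGroup.mk' V).ker).Coprime (Nat.card L) := by
      rw [QuotientGroup.ker_mk']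
      exact H3.coprime_card_of_isPGroup (H3.pCore_isPGroup p G) hL.symm
    obtain ⟨L', hL'1, hL'2⟩ := H4.exists_coprime_lift (QuotientGroup.mk'_surjective V) hVL
    obtain ⟨v, hv, hva⟩ := H4.exists_mul_mem_normalizer (f := QuotientGroup.mk' V) (L := L')
      (by rw [hL'2]; exact hVL.symm) (Or.inr (by
        rw [QuotientGroup.ker_mk']; exact H4.isSolvable_of_isPGroup (H3.pCore_isPGroup p G)))
      (a := a) (by rw [hL'1, normalizer_eq_top]; trivial)
    rw [QuotientGroup.ker_mk'] at hv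
    have hpow : (v * a) ^ p = a ^ p := by
      have h3 := H4.EA.mul_pow_eq h1 a (H4.EA.mk h1 v hv) p
      have h4 := H4.HH.sub_one_pow_eq_geom_sum (ZMod p) p (H4.EA.conjRep h1 a) 1
      have := hp.two_le
      rw [pow_one, pow_eq_zero_of_le (by omega) hT2] at h4
      rw [← LinearMap.sum_apply, ← h4, LinearMap.zero_apply, H4.EA.val_zero, one_mul] at h3
      exact h3
    have hcL : ∀ l ∈ L', l * a ^ p * l⁻¹ = a ^ p := by
      intro l hl
      have h3 : l * a ^ p * l⁻¹ * (a ^ p)⁻¹ ∈ V ⊓ L' := by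
        refine mem_inf.2 ⟨mul_mem (Normal.conj_mem inferInstance _ hap l) (inv_mem hap), ?_⟩
        rw [← hpow, mul_assoc, mul_assoc, ← mul_assoc ((v * a) ^ p)]
        exact mul_mem hl (H4.conj_mem_of_mem_normalizer (pow_mem hva p) (inv_mem hl))
      rw [H3.inf_eq_bot_of_isPGroup_of_coprime (H3.pCore_isPGroup p G) (hL'2 ▸ hL), mem_bot,
        mul_inv_eq_one] at h3
      exact h3
    have hfix : ∀ l ∈ L, ∀ v, σ l (T v) = T v := by
      intro l hl v
      rw [← hL'1] at hl
      obtain ⟨l, hl, rfl⟩ := hl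
      apply H4.EA.val_injective
      obtain ⟨i, hi⟩ := hTc v
      show l * (T v).val * l⁻¹ = _
      rw [← hi]
      simp only
      rw [← conj_zpow, hcL l hl]
    have hLK : (Nat.card L : ZMod p) ≠ 0 := by
      rw [Ne, ZMod.natCast_eq_zero_iff]
      exact hp.coprime_iff_not_dvd.1 hL.symm
    have hU : ∀ w ∈ H4.HH.aug σ L ⊤, T w = 0 := fun w hw =>
      H4.HH.eq_zero_of_mem_aug σ hLK (Submodule.sub_mem _
        (H4.HH.map_mem_aug σ (U := ⊤) (g := QuotientGroup.mk a) (fun _ _ => trivial)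
          (by rw [normalizer_eq_top]; trivial) w hw) hw) fun l hl => hfix l hl w
    apply hnc
    have hsT : σ (QuotientGroup.mk a) = 1 + T := by rw [hT, add_sub_cancel]; rfl
    rw [hsT, add_mul, mul_add, one_mul, mul_one]
    congr 1
    ext w
    have := hU _ (H4.HH.sub_mem_aug σ (U := ⊤) (fun _ _ _ _ => trivial) hl (w := w) trivial)
    rw [map_sub, sub_eq_zero] at this
    rw [Module.End.mul_apply, Module.End.mul_apply, this, hfix l hl]

/-- Let G be a finite p-soluble group, P a Sylow p-subgroup of G and A a cyclic normal subgroup of P. If p is odd, or if no section of G is isomorphic to the symmetric group of degree 4, then A ≤ O_{p',p}(G). -/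
theorem result {G : Type*} [Group G] [Finite G] {p : ℕ} [Fact p.Prime] (hG : Cfsg.IsPSolvable p G) (P : Sylow p G) (A : Subgroup G) (hAP : A ≤ (P : Subgroup G)) (hAn : (P : Subgroup G) ≤ Subgroup.normalizer (A : Set G)) (hA : IsCyclic A) (h : p ≠ 2 ∨ ¬ Cfsg.Involves (Equiv.Perm (Fin 4)) G) : A ≤ Cfsg.pPrimePCore p G := by
  obtain ⟨N, _, h1, h2, h3⟩ := H4.exists_reduced hG
  obtain ⟨a, ha⟩ := (Subgroup.isCyclic_iff_exists_zpowers_eq_top A).1 hA
  rw [← ha, zpowers_le, ← h3, mem_comap]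
  refine aux (H53.isPSolvable_quotient hG N) h1 h2 (fun v hv => ?_)
    (h.imp_right fun h h' => h (H82.involves_of_involves_quotient h'))
  obtain ⟨v, hv', rfl⟩ := H3.pCore_le_sylow (P.mapSurjective (QuotientGroup.mk'_surjective N)) hv
  rw [← MonoidHom.map_zpowers, ← map_inv, ← map_mul, ← map_mul, ha]
  exact mem_map_of_mem _ (H4.conj_mem_of_mem_normalizer (hAn hv') (ha ▸ mem_zpowers a))

end Cfsg.Agent.S3788
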