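import Cfsg.Statements.S3790
import Cfsg.Agent.H4.PLength

set_option autoImplicit false
open Cfsg

namespace Cfsg.Agent.S3790

universe u

theorem aux_inner {p q m : ℕ} (hp : p.Prime) (hq : q.Prime) (hqp : q ≠ p)
    (P : ∀ (G : Type u) [Group G], Prop)
    (hsub : ∀ (G : Type u) [Group G] [Finite G] (H : Subgroup G), P G → P H)
    (hquo : ∀ (G : Type u) [Group G] [Finite G] (H : Subgroup G) [H.Normal], P G → P (G ⧸ H))
    (hbase : ∀ (G : Type u) [Group G] [Finite G], P G → (Nat.card G).Coprime q → PLengthLE p m G)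
    (l : ℕ) : ∀ (G : Type u) [Group G] [Finite G], P G → PLengthLE q l G →
      PLengthLE p ((1 + l) * m) G := by
  induction l with
  | zero =>
    intro G _ _ hP h
    simpa using hbase G hP (H4.pLengthLE_zero_iff.1 h)
  | succ l ih =>
    intro G _ _ hP h
    haveI := Fact.mk hq
    have h1 : PLengthLE p m (QuotientGroup.mk' (pPrimeCore q G)).ker := by
      rw [QuotientGroup.ker_mk']
      exact hbase _ (hsub G _ hP) (H3.pPrimeCore_coprime q G)
    have h2 := ih _ (hquo G _ hP) ((H4.pLengthLE_succ_iff l).1 h)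
    have h3 : PLengthLE p ((1 + l) * m) (G ⧸ pPrimeCore q G) := by
      refine H4.pLengthLE_of_coprime_ker (QuotientGroup.mk'_surjective (pCore q _)) ?_ ?_
      · rw [QuotientGroup.ker_mk']
        exact H3.coprime_card_of_isPGroup (H3.pCore_isPGroup q _) ((Nat.coprime_primes hq hp).2 hqp)
      · refine H4.pLengthLE_of_ker_le (g := (QuotientGroup.mk' _).comp (QuotientGroup.mk' _))
          (QuotientGroup.mk'_surjective _)
          ((QuotientGroup.mk'_surjective _).comp (QuotientGroup.mk'_surjective _)) ?_ h2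
        rw [← MonoidHom.comap_ker, QuotientGroup.ker_mk', QuotientGroup.ker_mk']
        exact le_rfl
    have := H4.pLengthLE_add (QuotientGroup.mk'_surjective _) h1 h3
    rwa [show (1 + (l + 1)) * m = m + (1 + l) * m by ring]

theorem aux (p : ℕ) [Fact p.Prime] (r : ℕ) : ∀ (q : Fin r → ℕ) (_ : ∀ i, (q i).Prime ∧ q i ≠ p)
    (l : Fin r → ℕ) (G : Type u) [Group G] [Finite G],
    (∀ s : ℕ, s.Prime → s ∣ Nat.card G → s ≠ p → ∃ i, q i = s) →
    (∀ i, PLengthLE (q i) (l i) G) → PLengthLE p (Finset.univ.prod fun i => 1 + l i) G := by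
  induction r with
  | zero =>
    intro q _ l G _ _ hcover _
    simp only [Finset.univ_eq_empty, Finset.prod_empty]
    refine H4.pLengthLE_one_of_isPGroup (IsPGroup.iff_card.2 ⟨_,
      Nat.eq_prime_pow_of_unique_prime_dvd Nat.card_pos.ne' fun {s} hs hd => ?_⟩)
    by_contra hne
    obtain ⟨i, -⟩ := hcover s hs hd hne
    exact i.elim0
  | succ r ih =>
    intro q hq l G _ _ hcover hl
    rw [Fin.prod_univ_succ]
    refine aux_inner Fact.out (hq 0).1 (hq 0).2 (fun G _ =>
      (∀ s : ℕ, s.Prime → s ∣ Nat.card G → s ≠ p → ∃ i, q i = s) ∧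
        ∀ i : Fin r, PLengthLE (q i.succ) (l i.succ) G) ?_ ?_ ?_ (l 0) G
      ⟨hcover, fun i => hl _⟩ (hl 0)
    · intro G _ _ H h
      exact ⟨fun s hs hd => h.1 s hs (hd.trans (Subgroup.card_subgroup_dvd_card H)),
        fun i => H4.pLengthLE_subgroup (h.2 i) H⟩
    · intro G _ _ H _ h
      exact ⟨fun s hs hd => h.1 s hs (hd.trans (Subgroup.card_quotient_dvd_card H)),
        fun i => H4.pLengthLE_quotient (h.2 i) H⟩
    · intro G _ _ h hc
      refine ih (fun i => q i.succ) (fun i => hq _) (fun i => l i.succ) G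
        (fun s hs hd hne => ?_) h.2
      obtain ⟨i, rfl⟩ := h.1 s hs hd hne
      rcases Fin.eq_zero_or_eq_succ i with rfl | ⟨j, rfl⟩
      · exact absurd hd ((hq 0).1.coprime_iff_not_dvd.1 hc.symm)
      · exact ⟨j, rfl⟩

/-- Let G be a finite solvable group and p a prime. Suppose p₁, …, p_r are distinct primes, all different from p, that include every prime dividing the order of G other than p, and that G has p_i-length at most l_i for each i. Then G has p-length at most the product of the numbers 1 + l_i. -/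
theorem result {G : Type*} [Group G] [Finite G] (hG : Group.IsSolvable G) (p : ℕ) [Fact p.Prime] (r : ℕ) (q : Fin r → ℕ) (hq : ∀ i, (q i).Prime ∧ q i ≠ p) (hinj : Function.Injective q) (hcover : ∀ s : ℕ, s.Prime → s ∣ Nat.card G → s ≠ p → ∃ i, q i = s) (l : Fin r → ℕ) (hl : ∀ i, Cfsg.PLengthLE (q i) (l i) G) : Cfsg.PLengthLE p (Finset.univ.prod fun i => 1 + l i) G := by
  exact aux p r q hq l G hcover hl

end Cfsg.Agent.S3790
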