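import Cfsg.Statements.S3791
import Cfsg.Agent.H4.PLength

set_option autoImplicit false
open Cfsg

namespace Cfsg.Agent.S3791

universe u

theorem derived_add {G : Type*} [Group G] {N : Subgroup G} {a : ℕ} (h : derivedSeries G a ≤ N)
    (b : ℕ) : derivedSeries G (a + b) ≤ (derivedSeries N b).map N.subtype := by
  induction b with
  | zero => simpa [← MonoidHom.range_eq_map] using h
  | succ b ih =>
    rw [← add_assoc, derivedSeries_succ, derivedSeries_succ, Subgroup.map_commutator]
    exact Subgroup.commutator_mono ih ih

theorem derived_le_ker {G A : Type*} [Group G] [Group A] (f : G →* A) {a : ℕ}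
    (h : derivedSeries A a = ⊥) : derivedSeries G a ≤ f.ker := by
  rw [← Subgroup.map_eq_bot_iff, eq_bot_iff, ← h]
  exact map_derivedSeries_le_derivedSeries f a

theorem aux (r : ℕ) (q : Fin r → ℕ) (hq : ∀ i, (q i).Prime) (d : Fin r → ℕ) (s : ℕ) :
    ∀ (l : Fin r → ℕ) (G : Type u) [Group G] [Finite G], ∑ i, l i = s →
    (∀ s : ℕ, s.Prime → s ∣ Nat.card G → ∃ i, q i = s) →
    (∀ i, ∀ P : Subgroup G, IsPGroup (q i) P → derivedSeries P (d i) = ⊥) →
    (∀ i, PLengthLE (q i) (l i) G) → derivedSeries G (∑ i, d i * l i) = ⊥ := by
  induction s using Nat.strong_induction_on with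
  | _ s ih =>
  intro l G _ _ hs hcover hd hl
  have key : ∀ i, (Nat.card (derivedSeries G (∑ i, d i * l i))).Coprime (q i) := by
    intro i
    haveI := Fact.mk (hq i)
    rcases hli : l i with _ | k
    · have := hl i
      rw [hli, H4.pLengthLE_zero_iff] at this
      exact this.coprime_dvd_left (Subgroup.card_subgroup_dvd_card _)
    · let l' := Function.update l i k
      have hsum : ∀ c : Fin r → ℕ, ∑ j, c j * l j = ∑ j, c j * l' j + c i := by
        intro c
        rw [← Finset.add_sum_erase _ _ (Finset.mem_univ i),
          ← Finset.add_sum_erase _ (fun j => c j * l' j) (Finset.mem_univ i)]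
        have : ∑ j ∈ Finset.univ.erase i, c j * l' j = ∑ j ∈ Finset.univ.erase i, c j * l j :=
          Finset.sum_congr rfl fun j hj => by
            simp only [l', Function.update_of_ne (Finset.ne_of_mem_erase hj)]
        rw [this]
        simp only [l', Function.update_self, hli]
        ring
      have h1 := hsum fun _ => 1
      simp only [one_mul] at h1
      have h2 := ih (∑ j, l' j) (by omega) l' (G ⧸ pPrimePCore (q i) G) rfl
        (fun s hs hd => hcover s hs (hd.trans (Subgroup.card_quotient_dvd_card _)))
        (fun j P hP => by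
          haveI := Fact.mk (hq j)
          obtain ⟨P', hP', rfl⟩ := H51.exists_isPGroup_map_eq (QuotientGroup.mk'_surjective _) hP
          rw [← map_derivedSeries_eq (MonoidHom.subgroupMap_surjective _ P'), hd j P' hP',
            Subgroup.map_bot])
        (fun j => by
          by_cases hj : j = i
          · subst hj
            simp only [l', Function.update_self]
            have := hl j
            rw [hli] at this
            exact (H4.pLengthLE_succ_iff k).1 this
          · simp only [l', Function.update_of_ne hj]
            exact H4.pLengthLE_quotient (hl j) _)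
      have h3 := derived_le_ker (QuotientGroup.mk' _) h2
      rw [QuotientGroup.ker_mk'] at h3
      have h4 := derived_add h3 (d i)
      rw [← hsum] at h4
      obtain ⟨P', hP', hP'e⟩ := H51.exists_isPGroup_map_eq
        (QuotientGroup.mk'_surjective (pPrimeCore (q i) G)) (H3.pCore_isPGroup (q i) _)
      have h5 : derivedSeries (pCore (q i) (G ⧸ pPrimeCore (q i) G)) (d i) = ⊥ := by
        rw [← hP'e, ← map_derivedSeries_eq (MonoidHom.subgroupMap_surjective _ P'), hd i P' hP',
            Subgroup.map_bot]
      have h6 := derived_le_ker ((QuotientGroup.mk' (pPrimeCore (q i) G)).subgroupComap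
        (pCore (q i) (G ⧸ pPrimeCore (q i) G))) h5
      refine H3.coprime_card_of_le (h4.trans ?_) (H3.pPrimeCore_coprime (q i) G)
      rintro _ ⟨x, hx, rfl⟩
      exact (QuotientGroup.eq_one_iff _).1 (congrArg Subtype.val (h6 hx))
  apply Subgroup.eq_bot_of_card_eq
  by_contra hne
  obtain ⟨t, ht, htd⟩ := Nat.exists_prime_and_dvd hne
  obtain ⟨i, rfl⟩ := hcover t ht (htd.trans (Subgroup.card_subgroup_dvd_card _))
  exact (ht.coprime_iff_not_dvd.1 (key i).symm) htd

/-- The Hall–Higman bound on derived length: let G be a finite solvable group, let p₁, …, p_r be distinct primes that include every prime dividing the order of G, and suppose that for each i the Sylow p_i-subgroups of G have derived length at most d_i and G has p_i-length at most l_i. Then G has derived length at most Σ d_i l_i. -/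
theorem result {G : Type*} [Group G] [Finite G] (hG : Group.IsSolvable G) (r : ℕ) (q : Fin r → ℕ) (hq : ∀ i, (q i).Prime) (hinj : Function.Injective q) (hcover : ∀ s : ℕ, s.Prime → s ∣ Nat.card G → ∃ i, q i = s) (d l : Fin r → ℕ) (hd : ∀ i, ∀ P : Subgroup G, (haveI := Fact.mk (hq i); ∃ S : Sylow (q i) G, (S : Subgroup G) = P) → derivedSeries ↥P (d i) = ⊥) (hl : ∀ i, Cfsg.PLengthLE (q i) (l i) G) : derivedSeries G (Finset.univ.sum fun i => d i * l i) = ⊥ := by
  refine aux r q hq d _ l G rfl hcover (fun i P hP => ?_) hl
  haveI := Fact.mk (hq i)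
  obtain ⟨S, hS⟩ := hP.exists_le_sylow
  have h1 := derived_le_ker (Subgroup.inclusion hS) (hd i S ⟨S, rfl⟩)
  rwa [(MonoidHom.ker_eq_bot_iff _).2 (Subgroup.inclusion_injective hS), le_bot_iff] at h1

end Cfsg.Agent.S3791
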