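import Cfsg.Statements.S3792
import Cfsg.Agent.H67.Powell

set_option autoImplicit false
open Cfsg

namespace Cfsg.Agent.S3792

/-- Powell's Theorem: let G be a finite non-abelian simple group and p an odd prime dividing its order such that every proper subgroup of G is p-soluble. Then G can be generated by three elements. -/
theorem result {G : Type*} [Group G] [Finite G] [IsSimpleGroup G] (hna : ¬ IsMulCommutative G) {p : ℕ} [Fact p.Prime] (hp : p ≠ 2) (hdvd : p ∣ Nat.card G) (hprop : ∀ H : Subgroup G, H ≠ ⊤ → Cfsg.IsPSolvable p ↥H) : ∃ x y z : G, Subgroup.closure ({x, y, z} : Set G) = ⊤ := by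
  classical
  by_contra hc
  push Not at hc
  have hpp : p.Prime := Fact.out
  have hex : ∃ n, ∀ M : Subgroup G, M ≠ ⊤ → H67.low p n M = ⊥ := by
    have h1 : ∀ M : Subgroup G, ∃ n, M ≠ ⊤ → H67.low p n M = ⊥ := by
      intro M
      by_cases hM : M = ⊤
      · exact ⟨0, fun h => absurd hM h⟩
      · obtain ⟨n, hn⟩ := H67.exists_low_eq_bot hpp M (hprop M hM)
        exact ⟨n, fun _ => by rw [H67.low_eq_map, hn, Subgroup.map_bot]⟩
    choose f hf using h1
    obtain ⟨n, hn⟩ := (Set.finite_range f).bddAbove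
    exact ⟨n, fun M hM => le_bot_iff.1 ((H67.low_anti (hn ⟨M, rfl⟩) M).trans (hf M hM).le)⟩
  obtain ⟨x, hx⟩ := exists_prime_orderOf_dvd_card' p hdvd
  have hx1 : x ≠ 1 := H63.ne_one_of_prime_orderOf (hx ▸ hpp)
  have h0 : Nat.find hex ≠ 0 := fun e => by
    have := Nat.find_spec hex _ (hc x x x)
    rw [e] at this
    exact H67.ne_bot_of_mem (Subgroup.subset_closure (by simp)) hx1 this
  obtain ⟨k, hk⟩ := Nat.exists_eq_succ_of_ne_zero h0
  have h1 := Nat.find_spec hex
  have h2 := Nat.find_min hex (m := k) (by omega)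
  rw [hk] at h1
  push Not at h2
  obtain ⟨M, hM, hMk⟩ := h2
  obtain ⟨a, b, hab⟩ := H67.exists_pair_low_ne_bot hpp M (hprop M hM) k
    fun e => hMk (by rw [H67.low_eq_map, e, Subgroup.map_bot])
  rw [Ne, ← Subgroup.map_eq_bot_iff_of_injective _ M.subtype_injective, H67.map_low,
    MonoidHom.map_closure, Set.image_pair] at hab
  obtain ⟨z, hz, hz1⟩ := H67.exists_ne_one_of_ne_bot hab
  have h3 : z ∈ Cfsg.piCoreOf (H67.sg p k)ᶜ (⊤ : Subgroup G) := by
    refine H67.mem_piCore_of_forall_mul fun g hg => ?_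
    have h4 := H67.piGen_eq_bot_iff.1 (h1 _ (hc a b g))
    refine H67.piElt_of_mem (H67.isPi_sup h4 (H67.isPi_zpowers_iff.2 hg) (Or.inr ?_))
      (Subgroup.mul_mem_sup (H67.low_mono k (Subgroup.closure_mono ?_) hz) (Subgroup.mem_zpowers g))
    · exact (Subgroup.zpowers_le.2 (Subgroup.subset_closure (by simp))).trans
        (H67.low_normalIn _ _).norm
    · rintro _ (rfl | rfl) <;> simp
  have h5 := ((H67.normalIn_top_iff.1
    (H67.piCoreOf_normalIn (H67.sg p k)ᶜ (⊤ : Subgroup G))).eq_bot_or_eq_top).resolve_left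
    (H67.ne_bot_of_mem h3 hz1)
  have h6 := H67.isPi_piCoreOf (H67.sg p k)ᶜ (⊤ : Subgroup G)
  rw [h5] at h6
  rcases H67.sg_eq p k with e | e <;> rw [e] at h6
  · exact (H67.isPi_compl_singleton_iff hpp).1 h6 (by rwa [Subgroup.card_top])
  · rw [compl_compl] at h6
    have h7 := H67.isSolvable_of_isPGroup hpp (H67.isPGroup_of_isPi hpp h6)
    have h8 : Group.IsSolvable G := Group.isSolvable_of_surjective (f := (⊤ : Subgroup G).subtype)
      fun x => ⟨⟨x, Subgroup.mem_top x⟩, rfl⟩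
    exact hna ⟨⟨(IsSimpleGroup.comm_iff_isSolvable).2 h8⟩⟩

end Cfsg.Agent.S3792
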