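import Cfsg.Statements.S3793
import Cfsg.Agent.H88.FpfCyc

set_option autoImplicit false
open Cfsg

namespace Cfsg.Agent.S3793

open Cfsg.Agent.H63 Cfsg.Agent.H67 Cfsg.Agent.H69 Cfsg.Agent.H88 Subgroup
open scoped IsMulCommutative commutatorElement

universe u

theorem core {p n s r : ℕ} (hp : p.Prime) (hp2 : p ≠ 2) {X : Type u} [Group X] [Finite X] {σ : X}
    (hσ : σ ^ p ^ (n + 1) = 1) {P V : Subgroup X}
    (h : T2 s r (zpowers σ) (zpowers (σ ^ p ^ n)) P V) (hel : IsElementaryAbelian r V)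
    (hmin : MinNormal V (P ⊔ zpowers (σ ^ p ^ n) ⊔ zpowers σ)) (hf : P ⊓ C[V] = ⊥)
    (hU : ∀ U, U < P → zpowers σ ≤ N[U] → ⁅U, zpowers (σ ^ p ^ n)⁆ = ⊥) :
    ⁅P, zpowers (σ ^ p ^ n)⁆ = ⊥ := by
  have := Fact.mk hp
  have := Fact.mk h.hs
  by_contra hne
  set A := zpowers σ with hA
  set B := zpowers (σ ^ p ^ n) with hB
  have hBA : B ≤ A := zpowers_le.mpr (pow_mem (mem_zpowers σ) _)
  have hB1 : B ≠ ⊥ := fun hh => hne (by simp [hh])
  have hmB : ∀ a ∈ A, a ≠ 1 → B ≤ zpowers a := fun a ha ha1 =>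
    zpowers_le.mpr (H4.HH.pow_mem_zpowers_of_ne_one hσ ha ha1)
  have hcA : Nat.card A = p ^ (n + 1) := by
    rw [Nat.card_zpowers]
    exact orderOf_eq_prime_pow (fun hh => hB1 (by rw [hB, hh, zpowers_one_eq_bot])) hσ
  obtain ⟨hPB, hCB, hZP, hZB, hpow, hZe, hle⟩ := minimal_structure h.hs h.pP h.AP hBA
    (normalIn_of_isMulCommutative inferInstance hBA).norm (cop_le h.cP hBA le_rfl) hne hU
  have hP1 : P ≠ ⊥ := fun hh => hne (by simp [hh])
  set Z := ⁅P, P⁆ with hZ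
  have hZle : Z ≤ P := commutator_le_of_le le_rfl le_rfl
  have hZn : P ≤ N[Z] := le_normalizer_commutator le_normalizer le_normalizer
  have hAZ : A ≤ N[Z] := le_normalizer_commutator h.AP h.AP
  have hreg : Semiregular (P /ᵍ Z) (A /ᵍ Z) := by
    intro a' ha' ha1
    obtain ⟨a, ha, haN, rfl⟩ := mem_quo.mp ha'
    rw [← coprime_quo_cent1 hZle haN ((cop_le h.cP le_rfl hZle).coprime_dvd_left
      (orderOf_dvd_card_of_mem ha))]
    refine quo_eq_bot_of_le (le_trans ?_ hCB)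
    rw [← centralizer_zpowers]
    exact inf_le_inf_left _ (centralizer_anti (hmB a ha fun hh => ha1 (by rw [hh, coset_one])))
  by_cases hZ1 : Z = ⊥
  · have hreg' : Semiregular P A := fun a ha ha1 => by
      rw [eq_bot_iff, ← hZ1, ← centralizer_zpowers]
      exact (inf_le_inf_left _ (centralizer_anti (hmB a ha ha1))).trans hCB
    exact Frobenius_cent_compl (Frobenius_of_semiregular h.AP hreg' hP1 (ne_bot_mono hB1 hBA)) hel.1
      (sup_le h.PV h.AV) h.cVP (fun hh => hP1 (le_bot_iff.mp (hf ▸ le_inf le_rfl hh))) h.fV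
  have hVZ : V ⊓ C[Z] = ⊥ := minNormal_cent_eq_bot hmin hf hZle hZ1
    (sup_le (sup_le hZn (hBA.trans hAZ)) hAZ)
  obtain ⟨Y, T, W, N, hw⟩ := exists_weight h.hs hel.1 hmin.ne_bot hZe (le_inf hZle hZP) h.AV h.PV
    h.AP hAZ h.cV h.cVP h.cP hVZ h.fV (fpf_mono h.fP hZle)
  have hBT : B ≤ T := by
    rw [hw.hT]
    exact le_inf hBA (le_stabMod_of_le hw.le (by rw [commutator_eq_bot_of_cent hZB]; exact bot_le))
  have hPN := hw.NP.norm
  have hWV : W ≤ V := hw.hW ▸ inf_le_left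
  have hq : ⁅P /ᵍ N, B /ᵍ N⁆ = P /ᵍ N := by rw [← quo_commutator hPN (hBT.trans hw.TN), hPB]
  have hTc : IsCyclic T := isCyclic_of_le hw.TA
  obtain ⟨-, -, -, -, k, hk, hc1, hc2⟩ := extraspecial_of_faithful (P := P /ᵍ N) (Z := Z /ᵍ N)
    (B := B /ᵍ N) (T := T /ᵍ N) (W := W /ᵍ N) h.hs (quo_isPGroup _ h.pP) (hw.card_quo hZle)
    (le_inf (quo_mono _ hZle) (quo_cents _ hZP)) (by rw [← quo_commutator hPN hPN])
    (by
      intro x' hx'
      obtain ⟨x, hx, hxN, rfl⟩ := mem_quo.mp hx'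
      rw [← coset_pow hxN]
      exact coset_mem_quo (pow_mem hxN _) (hpow x hx))
    (quo_isCyclic _ hTc) (quo_mono _ hBT)
    (by
      intro a' ha' ha1
      obtain ⟨a, ha, haN, rfl⟩ := mem_quo.mp ha'
      rw [← quo_zpowers haN]
      exact quo_mono _ (hmB a (hw.TA ha) fun hh => ha1 (by rw [hh, coset_one])))
    (fun hh => hw.nle (hZle.trans ((quo_eq_bot_iff hPN).mp (by
      rw [← hq]; exact commutator_eq_bot_of_cent' hh))))
    (quo_norms _ (hw.TA.trans h.AP)) hw.cent_quo (coprime_quo _ (cop_le h.cP hw.TA le_rfl))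
    (quo_isMulCommutative _ (isMulCommutative_of_le hel.1 hWV)) (quo_norms _ hw.PW)
    (quo_norms _ hw.TW) (coprime_quo _ (cop_le h.cVP hWV le_rfl))
    (coprime_quo _ (cop_le h.cV.symm hWV hw.TA)) (hw.faithful (sol_p h.hs h.pP) h.cVP)
    (hw.fpf_quo (sol_p h.hr h.pV) h.cV)
  rw [hq] at hc1
  rw [hw.card_T h.cP le_rfl] at hc2
  have hM : N ⊔ Z ≤ P := sup_le hw.NP.le hZle
  have hidx : (N ⊔ Z).relIndex P = s ^ (2 * k) := by
    have h1 := card_mul_relIndex (quo_mono N hZle)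
    rw [hw.card_quo hZle, hc1, ← sup_quo_left (hZle.trans hPN), relIndex_quo_eq le_sup_left hPN,
      pow_succ'] at h1
    exact Nat.eq_of_mul_eq_mul_left h.hs.pos h1
  have hTA := card_mul_relIndex hw.TA
  rw [hcA] at hTA
  obtain ⟨m, -, hm⟩ := (Nat.dvd_prime_pow hp).mp (Dvd.intro _ hTA)
  obtain ⟨e, -, he⟩ := (Nat.dvd_prime_pow hp).mp (Dvd.intro_left _ hTA)
  obtain ⟨a, ha⟩ := (quo_isPGroup Z h.pP).exists_card_eq
  have hdvd := hreg.card_dvd_pred (quo_norms _ h.AP)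
  rw [card_quo_of_disjoint hAZ (inf_eq_bot_of_coprime' (cop_le h.cP.symm hZle le_rfl)), hcA, ← hTA,
    hm, he, ← pow_add, ha] at hdvd
  have hlt : Z < P := commutator_lt_of_isSolvable (sol_p h.hs h.pP) hP1
  have ha0 : a ≠ 0 := by
    rintro rfl
    exact quo_ne_bot hlt hZn (card_eq_one.mp ha)
  have hb := le_of_pow_dvd_pow_sub_one hp hp2 h.hs.two_le hk (hm ▸ hc2) ha0 hdvd
  refine hw.not_isMul rfl hZP h.AP h.cP h.fP hM ?_ (isMul_iInf_cj (Z := Z) hw.TA h.AP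
    (le_normalizer_sup hw.TN (hw.TA.trans hAZ)) hM ?_ ?_)
  · rw [← quo_cents_iff (hM.trans hPN) hPN, sup_quo_left (hZle.trans hPN)]
    exact quo_cents _ hZP
  · refine hle _ (lt_of_le_of_ne inf_le_left fun hh => ?_) (le_normalizer_inf h.AP ?_)
    · have h1 : P ≤ N ⊔ Z := by
        have := (inf_eq_left.mp hh).trans (iInf_le _ 1)
        rwa [OneMemClass.coe_one, cj_one] at this
      rw [relIndex_eq_one.mpr h1] at hidx
      exact (Nat.one_lt_pow (by omega) h.hs.one_lt).ne hidx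
    · intro x hx
      refine mem_normalizer_of_cj_le (le_iInf fun y => ?_)
      rw [cj_le_iff_le_cj_inv, cj_cj]
      exact iInf_le (fun x : A => cj (x : X) (N ⊔ Z)) ⟨x⁻¹ * y, mul_mem (inv_mem hx) y.2⟩
  · rw [hidx, he, ← card_quo hZn, ha, ← pow_mul]
    exact Nat.pow_le_pow_right h.hs.pos hb

theorem step {p n : ℕ} (hp : p.Prime) (hp2 : p ≠ 2) {X : Type u} [Group X] [Finite X] {σ : X}
    (hσ : σ ^ p ^ (n + 1) = 1) {K : Subgroup X} (hAK : zpowers σ ≤ N[K])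
    (hc : (Nat.card (zpowers σ)).Coprime (Nat.card K)) (hs : Group.IsSolvable K)
    (hf : K ⊓ C[zpowers σ] = ⊥) : ⁅K, zpowers (σ ^ p ^ n)⁆ ≤ fittingOf K := by
  refine commutator_le_fitting
    (fun X _ A B => ∃ σ : X, σ ^ p ^ (n + 1) = 1 ∧ A = zpowers σ ∧ B = zpowers (σ ^ p ^ n)) ?_ ?_
    ⟨σ, hσ, rfl, rfl⟩ (zpowers_le.mpr (pow_mem (mem_zpowers σ) _)) hAK hc hs hf
  · rintro X _ _ _ _ N ⟨σ, hσ, rfl, rfl⟩ hN -
    have h1 : σ ∈ N[N] := zpowers_le.mp hN
    exact ⟨coset N σ, by rw [← coset_pow h1, hσ, coset_one], quo_zpowers h1, by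
      rw [quo_zpowers (pow_mem h1 _), coset_pow h1]⟩
  · intro X _ _ s r A B P V hψ h
    refine t2_reduction
      (fun X _ A B _ => ∃ σ : X, σ ^ p ^ (n + 1) = 1 ∧ A = zpowers σ ∧ B = zpowers (σ ^ p ^ n)) ?_ ?_
      X A B P V hψ h
    · rintro X _ _ _ _ _ N ⟨σ, hσ, rfl, rfl⟩ hN - - -
      have h1 : σ ∈ N[N] := zpowers_le.mp hN
      exact ⟨coset N σ, by rw [← coset_pow h1, hσ, coset_one], quo_zpowers h1, by
        rw [quo_zpowers (pow_mem h1 _), coset_pow h1]⟩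
    · rintro X _ _ _ _ P V ⟨σ, hσ, rfl, rfl⟩ h hel hmin hf hU
      exact core hp hp2 hσ h hel hmin hf fun U h1 h2 =>
        hU U h1 ((zpowers_le.mpr (pow_mem (mem_zpowers σ) _)).trans h2) h2 ⟨σ, hσ, rfl, rfl⟩

theorem rel {p : ℕ} (hp : p.Prime) (hp2 : p ≠ 2) (n : ℕ) : ∀ (X : Type u) [Group X] [Finite X]
    (σ : X) (K : Subgroup X), σ ∈ N[K] → σ ^ p ^ n ∈ C[K] →
    (Nat.card (zpowers σ)).Coprime (Nat.card K) → Group.IsSolvable K → K ⊓ C[zpowers σ] = ⊥ →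
    Ch n K := by
  induction n with
  | zero =>
    intro X _ _ σ K h1 h2 hc hs hf
    rw [pow_zero, pow_one, ← zpowers_le] at h2
    rw [inf_eq_left.mpr (cent_symm h2)] at hf
    rw [ch_zero_iff, hf]
    exact Subsingleton.elim _ _
  | succ n ih =>
    intro X _ _ σ K h1 h2 hc hs hf
    set N := zpowers (σ ^ p ^ (n + 1))
    have hNA : N ≤ zpowers σ := zpowers_le.mpr (pow_mem (mem_zpowers σ) _)
    have hAN : zpowers σ ≤ N[N] := (normalIn_of_isMulCommutative inferInstance hNA).norm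
    have hσN : σ ∈ N[N] := zpowers_le.mp hAN
    have hKN : K ≤ N[N] := le_normalizer_of_le_centralizer' (zpowers_le.mpr h2)
    refine Ch.of_injective (quoEquivOfDisjoint hKN
      (inf_eq_bot_of_coprime' (cop_le hc hNA le_rfl))).toMonoidHom (MulEquiv.injective _) ?_
    have h3 : zpowers (coset N σ) ≤ N[K /ᵍ N] := quo_zpowers hσN ▸ quo_norms N (zpowers_le.mpr h1)
    have h4 : (Nat.card (zpowers (coset N σ))).Coprime (Nat.card (K /ᵍ N)) :=
      quo_zpowers hσN ▸ coprime_quo N hc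
    have h5 : K /ᵍ N ⊓ C[zpowers (coset N σ)] = ⊥ :=
      quo_zpowers hσN ▸ fpf_quo (zpowers_le.mpr h1) hAN hc hs hf
    have h6 := quo_isSolvable N hs
    have h7 : coset N σ ^ p ^ (n + 1) = 1 := by
      rw [← coset_pow hσN]; exact coset_eq_one (mem_zpowers _)
    generalize coset N σ = τ at *
    generalize K /ᵍ N = L at *
    have hF := fittingOf_normalIn L
    have hAF : zpowers τ ≤ N[fittingOf L] := le_normalizer_fittingOf h3
    have hτF : τ ∈ N[fittingOf L] := zpowers_le.mp hAF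
    refine ch_succ_of_quo hF (fittingOf_nil L) (ih _ (coset _ τ) _ ?_ ?_ ?_ (quo_isSolvable _ h6) ?_)
    · rw [← zpowers_le, ← quo_zpowers hτF]
      exact quo_norms _ h3
    · rw [← coset_pow hτF, ← zpowers_le, ← quo_zpowers (pow_mem hτF _),
        quo_cents_iff (zpowers_le.mpr (pow_mem hτF _)) hF.norm, commutator_comm]
      exact step hp hp2 h7 h3 h4 h6 h5
    · rw [← quo_zpowers hτF]
      exact coprime_quo _ h4
    · rw [← quo_zpowers hτF]
      exact fpf_quo h3 hAF h4 h6 h5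

/-- The Shult–Gross Theorem: let p be an odd prime and G a finite solvable group with an automorphism σ of order p^n fixing only the identity. Then G has Fitting height at most n: G has Fitting height at most m when there is a chain of normal subgroups 1 = F₀ ≤ F₁ ≤ ⋯ ≤ F_m = G with each F_{i+1}/F_i nilpotent. -/
theorem result {G : Type*} [Group G] [Finite G] (hG : Group.IsSolvable G) {p : ℕ} (hp : p.Prime) (hp2 : p ≠ 2) (σ : MulAut G) (n : ℕ) (hσ : orderOf σ = p ^ n) (hfpf : ∀ g : G, σ g = g → g = 1) : ∃ F : Fin (n + 1) → Subgroup G, F 0 = ⊥ ∧ F (Fin.last n) = ⊤ ∧ Monotone F ∧ (∀ i, (F i).Normal) ∧ ∀ i : Fin n, ∃ k : ℕ, (F i.succ).lowerCentralSeries k ≤ F i.castSucc := by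
  have := Fact.mk hp
  have hσ' : σ ^ p ^ n = 1 := hσ ▸ pow_orderOf_eq_one σ
  let φ : zpowers σ →* MulAut G := (zpowers σ).subtype
  have := H4.Ext.finite_semidirect φ
  have hfix : ∀ g : G, (∀ a, φ a g = g) → g = 1 := fun g hg => hfpf g (hg ⟨σ, mem_zpowers σ⟩)
  have hR : H4.Ext.R φ ⊤ = zpowers (SemidirectProduct.inr ⟨σ, mem_zpowers σ⟩) := by
    rw [← MonoidHom.map_zpowers]
    congr 1
    rw [eq_comm, eq_top_iff]
    rintro ⟨_, k, rfl⟩ -
    exact ⟨k, rfl⟩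
  have hc := cop_RL φ (coprime_of_fpf_pgroup φ hp
    (H4.HH.isPGroup_zpowers_of_pow_eq_one hσ') hfix)
  have hn := norm_RL φ
  have hf := fpf_L φ hfix
  rw [hR] at hc hn hf
  refine ch_iff_fin.mp (ch_of_L φ (rel hp hp2 n _ _ _ (zpowers_le.mp hn) ?_ hc (sol_L φ hG) hf))
  rw [← map_pow]
  have : (⟨σ, mem_zpowers σ⟩ : zpowers σ) ^ p ^ n = 1 := Subtype.ext hσ'
  rw [this, map_one]
  exact one_mem _

end Cfsg.Agent.S3793
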