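import Cfsg.Statements.S3794
import Cfsg.Agent.H88.FpfMod
import Cfsg.Agent.H4.HHCore

set_option autoImplicit false
open Cfsg

namespace Cfsg.Agent.S3794

open Cfsg.Agent.H63 Cfsg.Agent.H67 Cfsg.Agent.H69 Cfsg.Agent.H88 Subgroup
open scoped IsMulCommutative commutatorElement

universe u

theorem core {s r : ℕ} {X : Type u} [Group X] [Finite X] {σ : X} (hσ : σ ^ 4 = 1)
    {P V : Subgroup X} (h : T2 s r (zpowers σ) (zpowers (σ ^ 2)) P V)
    (hel : IsElementaryAbelian r V) (hmin : MinNormal V (P ⊔ zpowers (σ ^ 2) ⊔ zpowers σ))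
    (hf : P ⊓ C[V] = ⊥) : ⁅P, zpowers (σ ^ 2)⁆ = ⊥ := by
  have : Fact (Nat.Prime 2) := ⟨Nat.prime_two⟩
  have := Fact.mk h.hs
  by_cases hP : P = ⊥
  · simp [hP]
  by_cases hτ : σ ^ 2 = 1
  · simp [hτ]
  have hBA : zpowers (σ ^ 2) ≤ zpowers σ := zpowers_le.mpr (pow_mem (mem_zpowers σ) 2)
  have hτo : orderOf (σ ^ 2) = 2 := orderOf_eq_prime (by rw [← pow_mul]; exact hσ) hτ
  have hσo : orderOf σ = 2 ^ 2 := by
    refine orderOf_eq_prime_pow (n := 1) (by simpa using hτ) (by simpa using hσ)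
  have hcB : Nat.card (zpowers (σ ^ 2)) = 2 := by rw [Nat.card_zpowers, hτo]
  have hcA : Nat.card (zpowers σ) = 4 := by rw [Nat.card_zpowers, hσo]; rfl
  have hcomm : IsMulCommutative (zpowers σ) := inferInstance
  have hBn : zpowers (σ ^ 2) ⊴ zpowers σ := normalIn_of_isMulCommutative hcomm hBA
  have hZ : Z[P] ≠ ⊥ := by
    obtain ⟨z, hz, hz1, hc⟩ := H5.exists_ne_one_mem_centralizer_of_isPGroup h.pP h.pP hP le_normalizer
    exact ne_bot_of_mem (x := z) ⟨hz, hc⟩ hz1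
  have hAZ : zpowers σ ≤ N[Z[P]] := h.AP.trans (normalizer_le_normalizer_center P)
  have hcent : ∀ Z₀, Z₀ ≤ Z[P] → Z₀ ≠ ⊥ → ¬ Z₀ ≤ C[V] := fun Z₀ h1 h2 h3 =>
    h2 (le_bot_iff.mp (hf ▸ le_inf (h1.trans inf_le_left) h3))
  by_cases hZ₀ : Z[P] ⊓ C[zpowers (σ ^ 2)] = ⊥
  · exfalso
    have hreg : Semiregular Z[P] (zpowers σ) := by
      intro a ha ha1
      have h1 : σ ^ 2 ^ 1 ∈ zpowers a := H4.HH.pow_mem_zpowers_of_ne_one (p := 2) (by simpa using hσ) ha ha1
      rw [eq_bot_iff, ← hZ₀, ← centralizer_zpowers]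
      exact inf_le_inf_left _ (centralizer_anti (zpowers_le.mpr (by simpa using h1)))
    have hF := Frobenius_of_semiregular hAZ hreg hZ (ne_bot_mono (H69.ne_bot_of_prime_card (by
      rw [hcB]; exact Nat.prime_two)) hBA)
    exact Frobenius_cent_compl hF hel.1 (sup_le (inf_le_left.trans h.PV) h.AV)
      (cop_le h.cVP le_rfl inf_le_left) (hcent _ le_rfl hZ) h.fV
  set Z₀ := Z[P] ⊓ C[zpowers (σ ^ 2)]
  have hAZ₀ : zpowers σ ≤ N[Z₀] := le_normalizer_inf hAZ (le_normalizer_centralizer hBn.norm)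
  have h1 : V ⊓ C[Z₀] = ⊥ := hmin.inf_eq_bot (le_normalizer_centralizer (sup_le (sup_le
    (le_normalizer_of_le_centralizer' (inf_le_left.trans inf_le_right)) (hBA.trans hAZ₀)) hAZ₀))
    (fun hh => hcent _ inf_le_left hZ₀ (cent_symm hh))
  have h2 : Z₀ ≤ C[V ⊓ C[zpowers (σ ^ 2)]] := by
    refine cent_of_prime_index_fpf hBn ?_ (le_normalizer_inf h.AV (le_normalizer_centralizer hBn.norm))
      hAZ₀ (cent_symm inf_le_right) (cent_symm inf_le_right)
      (le_normalizer_inf ((inf_le_left.trans inf_le_left).trans h.PV) (inf_le_right.trans le_normalizer))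
      (cop_le h.cVP inf_le_left (inf_le_left.trans inf_le_left)) (cop_le h.cV le_rfl inf_le_left)
      (cop_le h.cP le_rfl (inf_le_left.trans inf_le_left))
      (sol_p h.hr h.pV.to_inf_left) (sol_p h.hs h.pP.to_inf_left.to_inf_left)
      (fpf_mono h.fV inf_le_left) (fpf_mono h.fP (inf_le_left.trans inf_le_left))
    have := card_mul_relIndex hBA
    rw [hcA, hcB] at this
    have h3 : (zpowers (σ ^ 2)).relIndex (zpowers σ) = 2 := by omega
    rw [h3]; exact Nat.prime_two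
  have h3 : V ⊓ C[zpowers (σ ^ 2)] = ⊥ :=
    le_bot_iff.mp (h1 ▸ le_inf inf_le_left (cent_symm h2))
  have hs2 : s ≠ 2 := by
    rintro rfl
    have h4 := h.cP
    rw [hcA] at h4
    have := Nat.Coprime.eq_one_of_dvd (Nat.Coprime.coprime_dvd_left (by norm_num : 2 ∣ 4) h4)
      (dvd_card_of_isPGroup h.hs h.pP hP)
    omega
  by_contra hne
  refine H4.inf_cent_ne_bot_of_prime h.hs Nat.prime_two hs2 hcB h.pP h.RP hel.1 h.RV h.PV
    (Nat.Coprime.mul_right (h.cVP.coprime_dvd_right (dvd_card_of_isPGroup h.hs h.pP hP))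
      (hcB ▸ cop_le h.cV.symm le_rfl hBA)) (fun hh => hne ?_) (fun hh => absurd hh hs2) h3
  exact le_bot_iff.mp (hf ▸ le_inf (commutator_le_of_norm_left h.RP) hh)

theorem rel {X : Type u} [Group X] [Finite X] {σ : X} (hσ : σ ^ 4 = 1) {K : Subgroup X}
    (hAK : zpowers σ ≤ N[K]) (hc : (Nat.card (zpowers σ)).Coprime (Nat.card K))
    (hs : Group.IsSolvable K) (hf : K ⊓ C[zpowers σ] = ⊥) : ⁅K, K⁆ ≤ fittingOf K := by
  have hBA : zpowers (σ ^ 2) ≤ zpowers σ := zpowers_le.mpr (pow_mem (mem_zpowers σ) 2)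
  have h1 : ⁅K, zpowers (σ ^ 2)⁆ ≤ fittingOf K := by
    refine commutator_le_fitting
      (fun X _ A B => ∃ σ : X, σ ^ 4 = 1 ∧ A = zpowers σ ∧ B = zpowers (σ ^ 2)) ?_ ?_
      ⟨σ, hσ, rfl, rfl⟩ hBA hAK hc hs hf
    · rintro X _ _ _ _ N ⟨σ, hσ, rfl, rfl⟩ hN -
      have h1 : σ ∈ N[N] := zpowers_le.mp hN
      exact ⟨coset N σ, by rw [← coset_pow h1, hσ, coset_one], quo_zpowers h1, by
        rw [quo_zpowers (pow_mem h1 2), coset_pow h1]⟩
    · intro X _ _ s r A B P V hψ h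
      refine t2_reduction
        (fun X _ A B _ => ∃ σ : X, σ ^ 4 = 1 ∧ A = zpowers σ ∧ B = zpowers (σ ^ 2)) ?_ ?_
        X A B P V hψ h
      · rintro X _ _ _ _ _ N ⟨σ, hσ, rfl, rfl⟩ hN - - -
        have h1 : σ ∈ N[N] := zpowers_le.mp hN
        exact ⟨coset N σ, by rw [← coset_pow h1, hσ, coset_one], quo_zpowers h1, by
          rw [quo_zpowers (pow_mem h1 2), coset_pow h1]⟩
      · rintro X _ _ _ _ P V ⟨σ, hσ, rfl, rfl⟩ h hel hmin hf -
        exact core hσ h hel hmin hf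
  have hF := fittingOf_normalIn K
  have hAF : zpowers σ ≤ N[fittingOf K] := le_normalizer_fittingOf hAK
  have hσF : σ ∈ N[fittingOf K] := zpowers_le.mp hAF
  rw [← quo_isMulCommutative_iff hF.norm]
  refine comm_of_fpf_involution (σ := coset (fittingOf K) σ) ?_ ?_ ?_
  · rw [← zpowers_le, ← quo_zpowers hσF]
    exact quo_norms _ hAK
  · rw [← coset_pow hσF, ← zpowers_le, ← quo_zpowers (pow_mem hσF 2),
      quo_cents_iff (hBA.trans hAF) hF.norm, commutator_comm]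
    exact h1
  · rw [← centralizer_zpowers, ← quo_zpowers hσF]
    exact fpf_quo hAK hAF hc hs hf

/-- Let G be a finite solvable group with an automorphism σ satisfying σ⁴ = 1 and fixing only the identity. Then the derived subgroup G' is nilpotent. -/
theorem result {G : Type*} [Group G] [Finite G] (hG : Group.IsSolvable G) (σ : MulAut G) (hσ : σ ^ 4 = 1) (hfpf : ∀ g : G, σ g = g → g = 1) : Group.IsNilpotent (commutator G) := by
  let φ : zpowers σ →* MulAut G := (zpowers σ).subtype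
  have := H4.Ext.finite_semidirect φ
  have hfix : ∀ g : G, (∀ a, φ a g = g) → g = 1 := fun g hg => hfpf g (hg ⟨σ, mem_zpowers σ⟩)
  have hR : H4.Ext.R φ ⊤ = zpowers (SemidirectProduct.inr ⟨σ, mem_zpowers σ⟩) := by
    rw [← MonoidHom.map_zpowers]
    congr 1
    rw [eq_comm, eq_top_iff]
    rintro ⟨_, k, rfl⟩ -
    exact ⟨k, rfl⟩
  have hc := cop_RL φ (coprime_of_fpf_pgroup φ Nat.prime_two
    (H4.HH.isPGroup_zpowers_of_pow_eq_one (n := 2) (by simpa using hσ)) hfix)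
  have hn := norm_RL φ
  have hf := fpf_L φ hfix
  rw [hR] at hc hn hf
  refine nil_commutator_of_L φ (rel ?_ hn hc (sol_L φ hG) hf)
  rw [← map_pow]
  have : (⟨σ, mem_zpowers σ⟩ : zpowers σ) ^ 4 = 1 := Subtype.ext hσ
  rw [this, map_one]

end Cfsg.Agent.S3794
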