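import Cfsg.Statements.S3795
import Cfsg.Agent.H88.FpfTwo
import Cfsg.Agent.S3794

set_option autoImplicit false
open Cfsg

namespace Cfsg.Agent.S3795

open Cfsg.Agent.H63 Cfsg.Agent.H67 Cfsg.Agent.H69 Cfsg.Agent.H88 Subgroup
open scoped IsMulCommutative commutatorElement

universe u

theorem reduce {m e : ℕ} (h : ∀ (X : Type u) [Group X] [Finite X] (σ : X) (K : Subgroup X),
    σ ^ e = 1 → zpowers σ ≤ N[K] → (Nat.card (zpowers σ)).Coprime (Nat.card K) →
    Group.IsSolvable K → K ⊓ C[zpowers σ] = ⊥ → Ch m K) : ∀ (X : Type u) [Group X] [Finite X]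
    (σ : X) (K : Subgroup X), σ ∈ N[K] → σ ^ e ∈ C[K] →
    (Nat.card (zpowers σ)).Coprime (Nat.card K) → Group.IsSolvable K → K ⊓ C[zpowers σ] = ⊥ →
    Ch m K := by
  intro X _ _ σ K h1 h2 hc hs hf
  set N := zpowers (σ ^ e)
  have hNA : N ≤ zpowers σ := zpowers_le.mpr (pow_mem (mem_zpowers σ) _)
  have hAN : zpowers σ ≤ N[N] := (normalIn_of_isMulCommutative inferInstance hNA).norm
  have hσN : σ ∈ N[N] := zpowers_le.mp hAN
  have hKN : K ≤ N[N] := le_normalizer_of_le_centralizer' (zpowers_le.mpr h2)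
  refine Ch.of_injective (quoEquivOfDisjoint hKN
    (inf_eq_bot_of_coprime' (cop_le hc hNA le_rfl))).toMonoidHom (MulEquiv.injective _) ?_
  exact h _ (coset N σ) _ (by rw [← coset_pow hσN]; exact coset_eq_one (mem_zpowers _))
    (quo_zpowers hσN ▸ quo_norms N (zpowers_le.mpr h1)) (quo_zpowers hσN ▸ coprime_quo N hc)
    (quo_isSolvable N hs) (quo_zpowers hσN ▸ fpf_quo (zpowers_le.mpr h1) hAN hc hs hf)

theorem t3two {n t s r : ℕ} {X : Type u} [Group X] [Finite X] {σ : X} {R P V : Subgroup X}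
    (hσ : σ ^ 2 ^ (n + 1) = 1) (hR : ⁅R, zpowers (σ ^ 2 ^ n)⁆ = R) (h : T3 t s r (zpowers σ) R P V) :
    ⁅P, R⁆ ≤ C[V] := by
  refine t3_reduction (fun X _ A R => ∃ σ : X, σ ^ 2 ^ (n + 1) = 1 ∧
    A = zpowers σ ∧ ⁅R, zpowers (σ ^ 2 ^ n)⁆ = R) ?_ ?_ X (zpowers σ) R P V ?_ h
  rotate_left 2
  · refine ⟨σ, hσ, rfl, ?_⟩
    exact hR
  · rintro X _ _ _ R N ⟨σ, hσ, rfl, hR⟩ hN hRN -
    have h1 : σ ∈ N[N] := zpowers_le.mp hN
    have h2 : σ ^ 2 ^ n ∈ N[N] := pow_mem h1 _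
    refine ⟨coset N σ, by rw [← coset_pow h1, hσ, coset_one], quo_zpowers h1, ?_⟩
    have h3 := congrArg (· /ᵍ N) hR
    rwa [quo_commutator hRN (zpowers_le.mpr h2), quo_zpowers h2, coset_pow h1] at h3
  · rintro X _ _ _ R P V ⟨σ, hσ, rfl, hR⟩ h -
    exact h.two_false hσ hR

theorem rel (n : ℕ) : ∀ (X : Type u) [Group X] [Finite X]
    (σ : X) (K : Subgroup X), σ ∈ N[K] → σ ^ 2 ^ (n + 2) ∈ C[K] →
    (Nat.card (zpowers σ)).Coprime (Nat.card K) → Group.IsSolvable K → K ⊓ C[zpowers σ] = ⊥ →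
    Ch (2 * n + 2) K := by
  induction n with
  | zero =>
    refine reduce fun X _ _ σ K hσ hAK hc hs hf => ?_
    have hF := fittingOf_normalIn K
    refine ch_succ_of_quo hF (fittingOf_nil K) (ch_one_of_isNilpotent ?_)
    have := quo_isMulCommutative_of_der_le (S3794.rel hσ hAK hc hs hf)
    infer_instance
  | succ n ih =>
    refine reduce fun X _ _ σ K hσ hAK hc hs hf => ?_
    replace hσ : σ ^ 2 ^ (n + 2 + 1) = 1 := hσ
    have hBA : zpowers (σ ^ 2 ^ (n + 2)) ≤ zpowers σ := zpowers_le.mpr (pow_mem (mem_zpowers σ) _)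
    have key := cent_quo_fitting_two (normalIn_of_isMulCommutative inferInstance hBA) hAK hc hs hf
      (fun t s r R P V hR h => t3two hσ hR h)
    have hF := fittingOf_normalIn K
    have hAF : zpowers σ ≤ N[fittingOf K] := le_normalizer_fittingOf hAK
    have hσF : σ ∈ N[fittingOf K] := zpowers_le.mp hAF
    refine ch_succ_of_quo hF (fittingOf_nil K) ?_
    have h3 : zpowers (coset _ σ) ≤ N[K /ᵍ fittingOf K] := quo_zpowers hσF ▸ quo_norms _ hAK
    have h4 : (Nat.card (zpowers (coset _ σ))).Coprime (Nat.card (K /ᵍ fittingOf K)) :=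
      quo_zpowers hσF ▸ coprime_quo _ hc
    have h5 : K /ᵍ fittingOf K ⊓ C[zpowers (coset _ σ)] = ⊥ :=
      quo_zpowers hσF ▸ fpf_quo hAK hAF hc hs hf
    have h6 := quo_isSolvable (fittingOf K) hs
    rw [quo_zpowers (pow_mem hσF _), coset_pow hσF] at key
    generalize coset (fittingOf K) σ = τ at *
    generalize K /ᵍ fittingOf K = L at *
    have hF := fittingOf_normalIn L
    have hAF : zpowers τ ≤ N[fittingOf L] := le_normalizer_fittingOf h3
    have hτF : τ ∈ N[fittingOf L] := zpowers_le.mp hAF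
    refine ch_succ_of_quo hF (fittingOf_nil L) (ih _ (coset _ τ) _ ?_ ?_ ?_ (quo_isSolvable _ h6) ?_)
    · rw [← zpowers_le, ← quo_zpowers hτF]
      exact quo_norms _ h3
    · rw [← coset_pow hτF, ← zpowers_le, ← quo_zpowers (pow_mem hτF _)]
      exact key
    · rw [← quo_zpowers hτF]
      exact coprime_quo _ h4
    · rw [← quo_zpowers hτF]
      exact fpf_quo h3 hAF h4 h6 h5

/-- Gross's Theorem: let G be a finite solvable group with an automorphism σ of order 2^n, n > 1, fixing only the identity. Then G has Fitting height at most 2n − 2: G has Fitting height at most m when there is a chain of normal subgroups 1 = F₀ ≤ F₁ ≤ ⋯ ≤ F_m = G with each F_{i+1}/F_i nilpotent. -/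
theorem result {G : Type*} [Group G] [Finite G] (hG : Group.IsSolvable G) (σ : MulAut G) (n : ℕ) (hn : 1 < n) (hσ : orderOf σ = 2 ^ n) (hfpf : ∀ g : G, σ g = g → g = 1) : ∃ F : Fin ((2 * n - 2) + 1) → Subgroup G, F 0 = ⊥ ∧ F (Fin.last (2 * n - 2)) = ⊤ ∧ Monotone F ∧ (∀ i, (F i).Normal) ∧ ∀ i : Fin (2 * n - 2), ∃ k : ℕ, (F i.succ).lowerCentralSeries k ≤ F i.castSucc := by
  obtain ⟨m, rfl⟩ : ∃ m, n = m + 2 := ⟨n - 2, by omega⟩
  have hσ' : σ ^ 2 ^ (m + 2) = 1 := hσ ▸ pow_orderOf_eq_one σ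
  let φ : zpowers σ →* MulAut G := (zpowers σ).subtype
  have := H4.Ext.finite_semidirect φ
  have hfix : ∀ g : G, (∀ a, φ a g = g) → g = 1 := fun g hg => hfpf g (hg ⟨σ, mem_zpowers σ⟩)
  have hR : H4.Ext.R φ ⊤ = zpowers (SemidirectProduct.inr ⟨σ, mem_zpowers σ⟩) := by
    rw [← MonoidHom.map_zpowers]
    congr 1
    rw [eq_comm, eq_top_iff]
    rintro ⟨_, k, rfl⟩ -
    exact ⟨k, rfl⟩
  have hc := cop_RL φ (coprime_of_fpf_pgroup φ Nat.prime_two
    (H4.HH.isPGroup_zpowers_of_pow_eq_one hσ') hfix)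
  have hn := norm_RL φ
  have hf := fpf_L φ hfix
  rw [hR] at hc hn hf
  refine ch_iff_fin.mp (ch_of_L φ ((rel m _ _ _ (zpowers_le.mp hn) ?_ hc (sol_L φ hG) hf).mono
    (by omega)))
  rw [← map_pow]
  have : (⟨σ, mem_zpowers σ⟩ : zpowers σ) ^ 2 ^ (m + 2) = 1 := Subtype.ext hσ'
  rw [this, map_one]
  exact one_mem _

end Cfsg.Agent.S3795
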