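import Cfsg.Statements.S3798
import Cfsg.Agent.H4.TransP

set_option autoImplicit false
open Cfsg

namespace Cfsg.Agent.S3798

/-- The Gaschütz–Yen Theorem: let G be a finite p-soluble group, p an odd prime dividing its order, such that the automorphism group of G permutes the subgroups of G of order p transitively. Then G has p-length at most 1. -/
theorem result {G : Type*} [Group G] [Finite G] {p : ℕ} [Fact p.Prime] (hp : p ≠ 2) (hdvd : p ∣ Nat.card G) (hG : Cfsg.IsPSolvable p G) (htrans : ∀ U V : Subgroup G, Nat.card U = p → Nat.card V = p → ∃ a : MulAut G, U.map a.toMonoidHom = V) : Cfsg.PLengthLE p 1 G := by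
  refine Cfsg.Agent.H4.pLengthLE_one_of_char hp hG ?_
  rintro K hK ⟨x, hx, hx1, hxp⟩ y hy
  by_cases hy1 : y = 1
  · rw [hy1]; exact one_mem K
  obtain ⟨a, ha⟩ := htrans (Subgroup.zpowers x) (Subgroup.zpowers y)
    (by rw [Nat.card_zpowers, orderOf_eq_prime hxp hx1])
    (by rw [Nat.card_zpowers, orderOf_eq_prime hy hy1])
  obtain ⟨w, hw, rfl⟩ : y ∈ (Subgroup.zpowers x).map a.toMonoidHom := ha ▸ Subgroup.mem_zpowers y
  exact Cfsg.Agent.H7.mem_of_char a (Subgroup.zpowers_le.2 hx hw)

end Cfsg.Agent.S3798
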