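import Cfsg.Statements.S3799
import Mathlib
import Cfsg.Agent.H89.Heis

set_option autoImplicit false
open Cfsg

namespace Cfsg.Agent.S3799

/-- For every odd prime p and every n ≥ 1 there is an extraspecial p-group of order p^(1+2n) and exponent p; concretely, the general linear group of degree n + 2 over the field with p elements contains such a subgroup. -/
theorem result (p : ℕ) [Fact p.Prime] (hp : p ≠ 2) (n : ℕ) (hn : 1 ≤ n) : ∃ E : Subgroup (Matrix.GeneralLinearGroup (Fin (n + 2)) (ZMod p)), Cfsg.IsExtraspecial p ↥E ∧ Nat.card E = p ^ (1 + 2 * n) ∧ ∀ x ∈ E, x ^ p = 1 := by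
  let b : Module.Basis (Fin (n + 2)) (ZMod p) (ZMod p × (Fin n → ZMod p) × ZMod p) :=
    Module.finBasisOfFinrankEq _ _ (by simp; ring)
  let f : H89.Heis p n →* Matrix (Fin (n + 2)) (Fin (n + 2)) (ZMod p) :=
    (LinearMap.toMatrixAlgEquiv b).toMonoidHom.comp H89.Heis.rep
  have hf : Function.Injective f.toHomUnits := fun x y h =>
    H89.Heis.rep_injective ((LinearMap.toMatrixAlgEquiv b).injective (congrArg Units.val h))
  refine ⟨f.toHomUnits.range, H89.isExtraspecial_of_mulEquiv (H89.Heis.isExtraspecial hn)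
    (f.toHomUnits.ofInjective hf), ?_, ?_⟩
  · rw [← Nat.card_congr (f.toHomUnits.ofInjective hf).toEquiv, H89.Heis.card_eq, add_comm]
  · rintro _ ⟨x, rfl⟩
    rw [← map_pow, H89.Heis.pow_prime hp, map_one]

end Cfsg.Agent.S3799
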