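import Cfsg.Statements.S3950
import Cfsg.Agent.H80.SchurMeta

set_option autoImplicit false
open Cfsg

namespace Cfsg.Agent.S3950

open Subgroup
open scoped commutatorElement

/-- A finite abelian group has trivial Schur multiplier if and only if it is cyclic. -/
theorem result {G : Type*} [CommGroup G] [Finite G] : Cfsg.HasCyclicSchurMultiplier G 1 ↔ IsCyclic G := by
  constructor
  · intro h
    classical
    obtain ⟨ι, _, n, hn, ⟨e⟩⟩ := CommGroup.equiv_prod_multiplicative_zmod_of_finite G
    by_cases hco : Pairwise (Function.onFun Nat.Coprime n)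
    · have e2 : Multiplicative (ZMod (∏ i, n i)) ≃* ((i : ι) → Multiplicative (ZMod (n i))) :=
        (AddEquiv.toMultiplicative (ZMod.prodEquivPi n hco).toAddEquiv).trans
          (MulEquiv.piMultiplicative _)
      exact isCyclic_of_surjective (e2.trans e.symm) (MulEquiv.surjective _)
    · exfalso
      simp only [Pairwise, Function.onFun, not_forall] at hco
      obtain ⟨i, j, hij, hc⟩ := hco
      let d := Nat.gcd (n i) (n j)
      have hdi : d ∣ n i := Nat.gcd_dvd_left _ _
      have hdj : d ∣ n j := Nat.gcd_dvd_right _ _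
      let φ : G →* G →* Multiplicative (ZMod d) :=
        MonoidHom.mk' (fun x => MonoidHom.mk' (fun y => Multiplicative.ofAdd
          (ZMod.castHom hdi (ZMod d) (Multiplicative.toAdd (e x i)) *
            ZMod.castHom hdj (ZMod d) (Multiplicative.toAdd (e y j))))
          (fun y y' => by rw [← ofAdd_add, ← mul_add, ← map_add, map_mul e]; rfl)) (fun x x' => by
            ext y
            simp only [MonoidHom.mk'_apply, MonoidHom.mul_apply, map_mul, Pi.mul_apply, toAdd_mul,
              map_add, add_mul, toAdd_ofAdd])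
      have hφ : ∀ x y, φ x y = Multiplicative.ofAdd
          (ZMod.castHom hdi (ZMod d) (Multiplicative.toAdd (e x i)) *
            ZMod.castHom hdj (ZMod d) (Multiplicative.toAdd (e y j))) := fun _ _ => rfl
      have hu := H80.Tw.inr_mem_stemKer (β := φ)
        (g := e.symm (Pi.mulSingle i (Multiplicative.ofAdd 1)))
        (h := e.symm (Pi.mulSingle j (Multiplicative.ofAdd 1))) (mul_comm _ _)
      rw [H80.stemKer_eq_bot h H80.Tw.isCentralExt_proj, mem_bot,
        map_eq_one_iff _ H80.Tw.inr_injective, hφ, hφ] at hu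
      have h1 := congrArg Multiplicative.toAdd hu
      simp only [MulEquiv.apply_symm_apply, Pi.mulSingle_eq_same, toAdd_ofAdd, map_one, mul_one,
        Pi.mulSingle_eq_of_ne hij, toAdd_one, map_zero, zero_mul, ofAdd_zero, inv_one] at h1
      have h2 : ((1 : ℕ) : ZMod d) = 0 := by exact_mod_cast h1
      rw [ZMod.natCast_eq_zero_iff, Nat.dvd_one] at h2
      exact hc h2
  · intro h
    rw [H80.hasCyclicSchurMultiplier_one_iff]
    intro Γ _ _ σ hσ
    rw [← H80.stemKer_eq_ker_of_stem hσ]
    exact H80.stemKer_eq_bot_of_isCyclic hσ.2.1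

end Cfsg.Agent.S3950
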