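import Cfsg.Statements.S3951
import Cfsg.Agent.H80.SchurMeta

set_option autoImplicit false
open Cfsg

namespace Cfsg.Agent.S3951

open Subgroup
open scoped commutatorElement

/-- For positive integers `m` and `n` with `n` dividing `m`, the Schur multiplier of the abelian group `ZMod m × ZMod n` (written multiplicatively) is cyclic of order `n`. In particular the elementary abelian group of order `p ^ 2` has multiplier of order `p`. -/
theorem result (m n : ℕ) [NeZero m] [NeZero n] (hnm : n ∣ m) : Cfsg.HasCyclicSchurMultiplier (Multiplicative (ZMod m × ZMod n)) n := by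
  let φ : Multiplicative (ZMod m × ZMod n) →* Multiplicative (ZMod m × ZMod n) →*
      Multiplicative (ZMod n) :=
    MonoidHom.mk' (fun x => MonoidHom.mk' (fun y => Multiplicative.ofAdd
      (ZMod.castHom hnm (ZMod n) (Multiplicative.toAdd x).1 * (Multiplicative.toAdd y).2))
      (fun y y' => by rw [← ofAdd_add, ← mul_add]; rfl)) (fun x x' => by
        ext y
        show Multiplicative.toAdd (Multiplicative.ofAdd (ZMod.castHom hnm (ZMod n)
          ((Multiplicative.toAdd x).1 + (Multiplicative.toAdd x').1) * _)) = _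
        rw [map_add, add_mul]; rfl)
  have hφ : ∀ x y, φ x y = Multiplicative.ofAdd
      (ZMod.castHom hnm (ZMod n) (Multiplicative.toAdd x).1 * (Multiplicative.toAdd y).2) :=
    fun _ _ => rfl
  have hu := H80.Tw.inr_mem_stemKer (β := φ) (g := Multiplicative.ofAdd (1, 0))
    (h := Multiplicative.ofAdd (0, 1)) (mul_comm _ _)
  refine H80.hasCyclicSchurMultiplier_of_bounds (Nat.pos_of_ne_zero (NeZero.ne n)) ?_
    H80.Tw.isCentralExt_proj _ hu ?_
  · intro Γ _ _ σ hσ
    obtain ⟨x, hx⟩ := hσ.1 (Multiplicative.ofAdd (0, 1))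
    obtain ⟨y, hy⟩ := hσ.1 (Multiplicative.ofAdd (1, 0))
    have hr : σ y * σ x * (σ y)⁻¹ = σ x ^ (1 : ℤ) := by
      rw [mul_comm (σ y), mul_inv_cancel_right, zpow_one]
    have hgen : Subgroup.closure {σ x, σ y} = ⊤ := by
      rw [eq_top_iff]
      intro g _
      have : g = σ y ^ (Multiplicative.toAdd g).1.val * σ x ^ (Multiplicative.toAdd g).2.val := by
        rw [hx, hy, ← ofAdd_nsmul, ← ofAdd_nsmul, ← ofAdd_add]
        apply Multiplicative.toAdd.injective
        ext <;> simp
      rw [this]
      exact mul_mem (pow_mem (Subgroup.subset_closure (by simp)) _) (pow_mem (Subgroup.subset_closure (by simp)) _)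
    refine ⟨⁅y, x⁆, ?_, ?_, ?_⟩
    · rw [← zpow_natCast, H80.meta_zpow hσ.2.1 hr]
      refine H80.commutatorElement_eq_one_of_map hσ.2.1 (y' := 1) ?_ (Commute.one_right _)
      rw [zpow_natCast, map_pow, hx, ← ofAdd_nsmul, map_one]
      apply Multiplicative.toAdd.injective
      ext <;> simp
    · rw [map_commutatorElement, commutatorElement_eq_one_iff_mul_comm, mul_comm]
    · intro z hz
      obtain ⟨k, hk, -⟩ := H80.meta_ker hσ hr hgen hz
      exact ⟨k, hk.symm⟩
  · intro k hk
    rw [← map_pow, map_eq_one_iff _ H80.Tw.inr_injective, hφ, hφ] at hk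
    have h1 := congrArg Multiplicative.toAdd hk
    simp only [toAdd_ofAdd, map_one, map_zero, mul_one, mul_zero, ofAdd_zero, inv_one, toAdd_pow,
      toAdd_one, nsmul_eq_mul] at h1
    exact (ZMod.natCast_eq_zero_iff k n).1 h1

end Cfsg.Agent.S3951
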