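import Cfsg.Statements.S3952
import Cfsg.Agent.H80.SchurProj

set_option autoImplicit false
open Cfsg

namespace Cfsg.Agent.S3952

open Subgroup H80
open scoped commutatorElement

universe u

/-- The group-theoretic form of "p-groups are monomial and `χ(1)² ≤ [D : W]`". -/
theorem key {p : ℕ} (hp : p.Prime) : ∀ (n : ℕ) {D : Type u} [Group D] [Finite D] (W : Subgroup D)
    [hW : W.Normal] (_ : W.index = p ^ n) (χ : W →* ℂˣ)
    (_ : ∀ (d : D) (w : W), χ ⟨d * w * d⁻¹, hW.conj_mem _ w.2 d⟩ = χ w),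
    ∃ (H : Subgroup D) (hH : W ≤ H) (μ : H →* ℂˣ), (∀ w : W, μ ⟨w, hH w.2⟩ = χ w) ∧
      ∃ a b : ℕ, H.index = p ^ a ∧ a + b = n ∧ a ≤ b := by
  intro n
  induction n using Nat.strong_induction_on with
  | _ n ih =>
  intro D _ _ W hW hn χ hχ
  have : Fact p.Prime := ⟨hp⟩
  rcases Nat.eq_zero_or_pos n with rfl | hn0
  · exact ⟨W, le_rfl, χ, fun _ => rfl, 0, 0, hn, rfl, le_rfl⟩
  have hpg : IsPGroup p (D ⧸ W) := IsPGroup.of_card hn
  have hnt : Nontrivial (D ⧸ W) := by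
    rw [← Finite.one_lt_card_iff_nontrivial]
    show 1 < W.index
    rw [hn]; exact Nat.one_lt_pow hn0.ne' hp.one_lt
  have hZ : p ∣ Nat.card (center (D ⧸ W)) := by
    have := hpg.center_nontrivial
    obtain ⟨k, hk0, hk⟩ := (hpg.to_subgroup (center (D ⧸ W))).nontrivial_iff_card.1 this
    rw [hk]; exact dvd_pow_self p hk0.ne'
  obtain ⟨abar, habar⟩ := exists_prime_orderOf_dvd_card' p hZ
  obtain ⟨a, ha⟩ := QuotientGroup.mk'_surjective W abar
  have hcen : ∀ d : D, ⁅d, a⁆ ∈ W := fun d => by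
    rw [← QuotientGroup.eq_one_iff, ← QuotientGroup.mk'_apply, map_commutatorElement, ha,
      commutatorElement_eq_one_iff_mul_comm]
    exact mem_center_iff.1 abar.2 _
  have hap : a ^ p ∈ W := by
    rw [← QuotientGroup.eq_one_iff, ← QuotientGroup.mk'_apply, map_pow, ha, ← habar]
    exact congrArg Subtype.val (pow_orderOf_eq_one abar)
  let A : Subgroup D := (zpowers (abar : D ⧸ W)).comap (QuotientGroup.mk' W)
  have hAn : A.Normal := by
    have : (zpowers (abar : D ⧸ W)).Normal := normal_of_le_center (by rw [zpowers_le]; exact abar.2)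
    infer_instance
  have hWA : W ≤ A := fun w hw => by
    rw [mem_comap, QuotientGroup.mk'_apply, (QuotientGroup.eq_one_iff w).2 hw]; exact one_mem _
  have hAmem : ∀ x ∈ A, ∃ (k : ℤ) (w : W), x = a ^ k * w := by
    rintro x ⟨k, hk⟩
    refine ⟨k, ⟨(a ^ k)⁻¹ * x, ?_⟩, by simp⟩
    rw [← QuotientGroup.eq, ← QuotientGroup.mk'_apply, ← QuotientGroup.mk'_apply, map_zpow, ha]
    exact hk
  have hAi : A.index * p = p ^ n := by
    rw [Subgroup.index_comap_of_surjective _ (QuotientGroup.mk'_surjective W), ← hn, ← habar,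
      ← Subgroup.orderOf_coe, ← Nat.card_zpowers, Subgroup.index_mul_card]
    rfl
  let θ : D →* ℂˣ := MonoidHom.mk' (fun d => χ ⟨⁅d, a⁆, hcen d⟩) (fun d e => by
    rw [← hχ d ⟨⁅e, a⁆, hcen e⟩, mul_comm, ← map_mul]
    congr 1
    exact Subtype.ext (commutatorElement_mul_left_eq_conj_mul d e a))
  have hθ : ∀ d, θ d = χ ⟨⁅d, a⁆, hcen d⟩ := fun _ => rfl
  have hcomm1 : ∀ (d : D) (w : W), χ ⟨⁅d, (w : D)⁆, by
      rw [commutatorElement_def]; exact mul_mem (hW.conj_mem _ w.2 d) (inv_mem w.2)⟩ = 1 := by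
    intro d w
    have h1 : (⟨⁅d, (w : D)⁆, by
      rw [commutatorElement_def]; exact mul_mem (hW.conj_mem _ w.2 d) (inv_mem w.2)⟩ : W) =
        ⟨d * w * d⁻¹, hW.conj_mem _ w.2 d⟩ * w⁻¹ := Subtype.ext (commutatorElement_def _ _)
    rw [h1, map_mul, hχ, map_inv, mul_inv_cancel]
  have hcenk : ∀ (d : D) (k : ℕ), ∃ h : ⁅d, a ^ k⁆ ∈ W, χ ⟨_, h⟩ = θ d ^ k := by
    intro d k
    induction k with
    | zero =>
      refine ⟨by simp, ?_⟩
      rw [pow_zero (θ d), ← map_one χ]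
      congr 1
      exact Subtype.ext (by simp)
    | succ k ih =>
      obtain ⟨h1, h2⟩ := ih
      have h3 : ⁅d, a ^ (k + 1)⁆ = ⁅d, a⁆ * (a * ⁅d, a ^ k⁆ * a⁻¹) := by
        rw [pow_succ', commutatorElement_mul_right_eq_mul_conj]; simp only [mul_assoc]
      refine ⟨by rw [h3]; exact mul_mem (hcen d) (hW.conj_mem _ h1 a), ?_⟩
      rw [pow_succ' (θ d), ← h2, ← hχ a ⟨_, h1⟩, hθ, ← map_mul]
      congr 1
      exact Subtype.ext h3
  have hθp : ∀ d, θ d ^ p = 1 := fun d => by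
    obtain ⟨h1, h2⟩ := hcenk d p
    rw [← h2]
    exact hcomm1 d ⟨_, hap⟩
  have hθW : ∀ w : W, θ w = 1 := fun w => by
    have h1 := hcomm1 a w
    rw [hθ, ← inv_eq_one, ← map_inv, ← h1]
    congr 1
    exact Subtype.ext (commutatorElement_inv _ _)
  have hθa : θ a = 1 := by
    rw [hθ, ← map_one χ]; congr 1; exact Subtype.ext (commutatorElement_self a)
  let C := θ.ker
  have hAC : A ≤ C := fun x hx => by
    obtain ⟨k, w, rfl⟩ := hAmem x hx
    rw [MonoidHom.mem_ker, map_mul, map_zpow, hθa, hθW, one_zpow, one_mul]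
  have hCi : C.index ∣ p := by
    have : NeZero p := ⟨hp.ne_zero⟩
    have h1 : θ.range ≤ rootsOfUnity p ℂ := by
      rintro _ ⟨d, rfl⟩
      exact (mem_rootsOfUnity _ _).2 (hθp d)
    rw [Subgroup.index_ker]
    have h2 := Subgroup.card_dvd_of_le h1
    rwa [Complex.card_rootsOfUnity] at h2
  -- extend χ to A
  let N : Subgroup D := χ.ker.map W.subtype
  have hN : N.Normal := ⟨by
    rintro _ ⟨w, hw, rfl⟩ d
    exact ⟨⟨d * w * d⁻¹, hW.conj_mem _ w.2 d⟩, by
      rw [SetLike.mem_coe, MonoidHom.mem_ker, hχ]; exact hw, rfl⟩⟩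
  have hcommN : ∀ c ∈ C, ∀ x ∈ A, ⁅c, x⁆ ∈ N := by
    intro c hc x hx
    rw [← QuotientGroup.eq_one_iff, ← QuotientGroup.mk'_apply, map_commutatorElement,
      commutatorElement_eq_one_iff_commute]
    obtain ⟨k, w, rfl⟩ := hAmem x hx
    rw [map_mul, map_zpow]
    refine Commute.mul_right (Commute.zpow_right ?_ k) ?_
    · rw [← commutatorElement_eq_one_iff_commute, ← map_commutatorElement, QuotientGroup.mk'_apply,
        QuotientGroup.eq_one_iff]
      exact ⟨⟨_, hcen c⟩, hc, rfl⟩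
    · rw [← commutatorElement_eq_one_iff_commute, ← map_commutatorElement, QuotientGroup.mk'_apply,
        QuotientGroup.eq_one_iff]
      exact ⟨_, hcomm1 c w, rfl⟩
  obtain ⟨ψ, hψ⟩ := exists_extension_of_trivial_on_commutator units_complex_divisible
    (W.subgroupOf A) (χ.comp (Subgroup.subgroupOfEquivOfLe hWA).toMonoidHom) (fun h hh => by
      have h1 : ((h : A) : D) ∈ ⁅A, A⁆ := by
        rw [← Subgroup.map_subtype_commutator]; exact ⟨_, hh, rfl⟩
      have h2 : ⁅A, A⁆ ≤ N := by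
        rw [Subgroup.commutator_le]
        intro x hx y hy
        exact hcommN x (hAC hx) y hy
      obtain ⟨w, hw, hw'⟩ := h2 h1
      have h3 : Subgroup.subgroupOfEquivOfLe hWA h = w := Subtype.ext hw'.symm
      show χ (Subgroup.subgroupOfEquivOfLe hWA h) = 1
      rw [h3]; exact hw)
  have hψ' : ∀ w : W, ψ ⟨w, hWA w.2⟩ = χ w := fun w =>
    DFunLike.congr_fun hψ ⟨⟨w, hWA w.2⟩, w.2⟩
  obtain ⟨c, hc⟩ : ∃ c, C.index = p ^ c ∧ c ≤ 1 := by
    rcases (Nat.dvd_prime hp).1 hCi with h | h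
    · exact ⟨0, by simpa using h, zero_le_one⟩
    · exact ⟨1, by simpa using h, le_rfl⟩
  have hrel : (A.subgroupOf C).index * p ^ (c + 1) = p ^ n := by
    rw [← hAi, pow_succ, ← hc.1, ← mul_assoc]
    congr 1
    exact Subgroup.relIndex_mul_index hAC
  obtain ⟨n', -, hn'⟩ := (Nat.dvd_prime_pow hp).1 (Dvd.intro _ hrel)
  have hnn : n' + (c + 1) = n := by
    rw [hn', ← pow_add] at hrel
    exact Nat.pow_right_injective hp.two_le hrel
  obtain ⟨H', hH', μ', hμ', a', b', h1, h2, h3⟩ := ih n' (by omega) (A.subgroupOf C) hn'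
    (ψ.comp (Subgroup.subgroupOfEquivOfLe hAC).toMonoidHom) (fun d x => by
      obtain ⟨w, hw, hw'⟩ := hcommN d d.2 x x.2
      have h4 : ψ ⟨w, hWA w.2⟩ = 1 := by rw [hψ']; exact hw
      show ψ _ = ψ (Subgroup.subgroupOfEquivOfLe hAC x)
      rw [← one_mul (ψ (Subgroup.subgroupOfEquivOfLe hAC x)), ← h4, ← map_mul]
      congr 1
      apply Subtype.ext
      show (d : D) * x * (d : D)⁻¹ = w * x
      rw [show (w : D) = ⁅(d : D), (x : D)⁆ from hw', commutatorElement_def]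
      simp)
  have hWH : W ≤ H'.map C.subtype := fun w hw =>
    ⟨⟨w, hAC (hWA hw)⟩, hH' (hWA hw), rfl⟩
  refine ⟨H'.map C.subtype, hWH,
    μ'.comp (Subgroup.equivMapOfInjective H' C.subtype C.subtype_injective).symm.toMonoidHom,
    fun w => ?_, a' + c, b' + 1, ?_, by omega, by omega⟩
  · have h4 : (Subgroup.equivMapOfInjective H' C.subtype C.subtype_injective).symm ⟨w, hWH w.2⟩ =
        ⟨⟨w, hAC (hWA w.2)⟩, hH' (hWA w.2)⟩ := by
      rw [MulEquiv.symm_apply_eq]; rfl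
    show μ' ((Subgroup.equivMapOfInjective H' C.subtype C.subtype_injective).symm _) = _
    rw [h4, ← hψ']
    exact hμ' ⟨⟨w, hAC (hWA w.2)⟩, hWA w.2⟩
  · rw [Subgroup.index_map_of_injective _ C.subtype_injective, Subgroup.range_subtype, h1, hc.1,
      pow_add]

theorem prime_pow {Q : Type u} [Group Q] [Finite Q] {Γ : Type u} [Group Γ] [Finite Γ] {σ : Γ →* Q}
    (hσ : Cfsg.IsStemExtension σ) {p k : ℕ} (hp : p.Prime) (z : σ.ker) (hz : orderOf z = p ^ k) :
    p ^ (2 * k) ∣ Nat.card Q := by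
  have : Fact p.Prime := ⟨hp⟩
  rcases Nat.eq_zero_or_pos k with rfl | hk
  · simp
  have hc := IsCentralExt.of_stem hσ
  obtain ⟨P⟩ : Nonempty (Sylow p Q) := inferInstance
  obtain ⟨n, hn⟩ := IsPGroup.iff_card.1 P.isPGroup'
  let D := (P : Subgroup Q).comap σ
  let τ := restrictExt σ (P : Subgroup Q)
  have hτ := hc.restrict (P : Subgroup Q)
  have hzD : (z : Γ) ∈ ⁅D, D⁆ := by
    have h1 := pow_index_mem_commutator_comap hc (P : Subgroup Q) (z := z)
      (by rw [stemKer_eq_ker_of_stem hσ]; exact z.2)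
    have h2 : Nat.Coprime (P : Subgroup Q).index (orderOf (z : Γ)) := by
      rw [Subgroup.orderOf_coe, hz]
      exact (Nat.Coprime.pow_left _ ((Nat.Prime.coprime_iff_not_dvd hp).2 P.not_dvd_index)).symm
    obtain ⟨j, hj⟩ := exists_pow_eq_self_of_coprime h2
    rw [← hj]; exact pow_mem h1 _
  obtain ⟨z', hz'1, hz'2⟩ := mem_map_stemKer_restrict.2 ⟨z.2, hzD⟩
  let _ : CommGroup τ.ker := commGroupOfLeCenter _ hτ.central
  have : NeZero (Monoid.exponent τ.ker : ℂ) :=
    ⟨by exact_mod_cast Monoid.exponent_ne_zero_of_finite⟩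
  let y : τ.ker := ⟨z', hz'1.1⟩
  have hy : orderOf y = p ^ k := by
    rw [← hz, ← Subgroup.orderOf_coe, ← Subgroup.orderOf_coe, ← Subgroup.orderOf_coe z, ← hz'2]
    rfl
  have hy1 : y ^ p ^ (k - 1) ≠ 1 := by
    rw [Ne, ← orderOf_dvd_iff_pow_eq_one, hy, Nat.pow_dvd_pow_iff_le_right hp.one_lt]
    omega
  obtain ⟨χ, hχ⟩ := CommGroup.exists_apply_ne_one_of_hasEnoughRootsOfUnity τ.ker ℂ hy1
  have hord : orderOf (χ y) = p ^ k := by
    obtain ⟨k', rfl⟩ : ∃ k', k = k' + 1 := ⟨k - 1, by omega⟩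
    apply orderOf_eq_prime_pow
    · rwa [← map_pow]
    · rw [← map_pow, ← hy, pow_orderOf_eq_one, map_one]
  have hidx : τ.ker.index = p ^ n := by
    rw [Subgroup.index_ker, MonoidHom.range_eq_top_of_surjective _ hτ.surj, Subgroup.card_top, hn]
  obtain ⟨H, hH, μ, hμ, a, b, h1, h2, h3⟩ := key hp n τ.ker hidx χ (fun d w => by
    congr 1
    apply Subtype.ext
    show d * w * d⁻¹ = w
    rw [mem_center_iff.1 (hτ.central w.2), mul_inv_cancel_right])
  have h4 := pow_index_mem_commutator H (hτ.central y.2) hz'1.2 (hH y.2)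
  rw [← Subgroup.map_subtype_commutator] at h4
  obtain ⟨u, hu, hu'⟩ := h4
  have h5 : μ u = 1 := Abelianization.commutator_subset_ker μ hu
  have h6 : u = ⟨y, hH y.2⟩ ^ H.index := Subtype.ext hu'
  rw [h6, map_pow, hμ, ← orderOf_dvd_iff_pow_eq_one, hord, h1,
    Nat.pow_dvd_pow_iff_le_right hp.one_lt] at h5
  refine (pow_dvd_pow p (by omega : 2 * k ≤ n)).trans ?_
  rw [← hn]
  exact Subgroup.card_subgroup_dvd_card _

/-- If `A` is the Schur multiplier of the finite group `Q`, then the square of the exponent of `A` divides the order of `Q`. -/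
theorem result {Q : Type*} [Group Q] [Finite Q] {A : Type*} [CommGroup A] (hA : Cfsg.HasSchurMultiplier Q A) : Monoid.exponent A ^ 2 ∣ Nat.card Q := by
  have := finite_of_hasSchurMultiplier hA
  obtain ⟨⟨Γ, _, _, σ, hσ, ⟨e⟩⟩, -⟩ := hA
  have he : Monoid.exponent A ≠ 0 := Monoid.exponent_ne_zero_of_finite
  rw [← Nat.factorization_prime_le_iff_dvd (pow_ne_zero _ he) Nat.card_pos.ne']
  intro p hp
  obtain ⟨a, ha⟩ := hp.exists_orderOf_eq_pow_factorization_exponent A
  have h1 := prime_pow hσ hp (e.symm a) (by rw [MulEquiv.orderOf_eq, ha])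
  rw [Nat.factorization_pow]
  exact (hp.pow_dvd_iff_le_factorization Nat.card_pos.ne').1 h1

end Cfsg.Agent.S3952
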