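import Cfsg.Statements.S3953
import Cfsg.Agent.H80.SchurTransfer

set_option autoImplicit false
open Cfsg

namespace Cfsg.Agent.S3953

/-- Let `P` be a Sylow `p`-subgroup of the finite group `G`, let `A` be the Schur multiplier of `G` and `B` that of `P`. Then the `p`-primary component of `A` is isomorphic to a direct factor of `B`: there are subgroups `C` and `D` of `B` meeting trivially and generating `B`, with `C` isomorphic to the `p`-primary component of `A`. -/
theorem result {G : Type*} [Group G] [Finite G] (p : ℕ) [Fact p.Prime] (P : Sylow p G) {A B : Type*} [CommGroup A] [CommGroup B] (hA : Cfsg.HasSchurMultiplier G A) (hB : Cfsg.HasSchurMultiplier P B) : ∃ C D : Subgroup B, C ⊓ D = ⊥ ∧ C ⊔ D = ⊤ ∧ Nonempty (CommGroup.primaryComponent A p ≃* C) := by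
  obtain ⟨i, t, h⟩ := H80.exists_cores_transfer (P : Subgroup G) hA hB
  have := H80.finite_of_hasSchurMultiplier hA
  obtain ⟨k, hk⟩ := IsPGroup.iff_card.1 P.isPGroup'
  have hB' : ∀ b : B, b ^ p ^ k = 1 := fun b => by
    rw [← hk]; exact H80.pow_card_eq_one_of_hasSchurMultiplier hB b
  have hi : ∀ b, i b ∈ CommGroup.primaryComponent A p := fun b =>
    CommGroup.mem_primaryComponent.2 ⟨k, by rw [← map_pow, hB', map_one]⟩
  have hcop : Nat.Coprime (Nat.card (CommGroup.primaryComponent A p)) (P : Subgroup G).index := by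
    obtain ⟨j, hj⟩ := IsPGroup.iff_card.1 (CommGroup.primaryComponent.isPGroup (G := A) (p := p))
    rw [hj]
    exact Nat.Coprime.pow_left _ ((Nat.Prime.coprime_iff_not_dvd Fact.out).2 P.not_dvd_index)
  have hbij := (powCoprime hcop).bijective
  let t' := t.comp (CommGroup.primaryComponent A p).subtype
  have hit : ∀ a : CommGroup.primaryComponent A p,
      i (t' a) = ((powCoprime hcop a : CommGroup.primaryComponent A p) : A) := fun a => h a
  have hinj : Function.Injective t' := fun a b hab =>
    hbij.1 (Subtype.ext (by rw [← hit, ← hit, hab]))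
  refine ⟨t'.range, i.ker, ?_, ?_, ⟨MonoidHom.ofInjective hinj⟩⟩
  · rw [eq_bot_iff]
    rintro _ ⟨⟨a, rfl⟩, ha⟩
    have h1 : i (t' a) = i (t' 1) := by rw [map_one, map_one]; exact ha
    rw [hit, hit] at h1
    rw [hbij.1 (Subtype.ext h1), map_one]
    exact Subgroup.one_mem _
  · rw [eq_top_iff]
    intro b _
    obtain ⟨a, ha⟩ := hbij.2 ⟨i b, hi b⟩
    have h1 : b = t' a * ((t' a)⁻¹ * b) := by simp
    rw [h1]
    refine Subgroup.mul_mem_sup ⟨a, rfl⟩ ?_
    rw [MonoidHom.mem_ker, map_mul, map_inv, hit, ha]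
    simp

end Cfsg.Agent.S3953
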