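import Cfsg.Statements.S3963
import Cfsg.Agent.H80.SchurMeta

set_option autoImplicit false
open Cfsg

namespace Cfsg.Agent.S3963

open Subgroup QuaternionGroup
open scoped commutatorElement

theorem gen (n : ℕ) [NeZero n] :
    closure ({a 1, xa 0} : Set (QuaternionGroup n)) = ⊤ := by
  rw [eq_top_iff]
  have h1 : ∀ i : ZMod (2 * n), a i ∈ closure ({a 1, xa 0} : Set (QuaternionGroup n)) := by
    intro i
    have : NeZero (2 * n) := ⟨by have := NeZero.ne n; omega⟩
    rw [← ZMod.natCast_zmod_val i, ← a_one_pow]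
    exact pow_mem (subset_closure (by simp)) _
  rintro (i | i) _
  · exact h1 i
  · have : xa i = xa 0 * a i := by simp
    rw [this]
    exact mul_mem (subset_closure (by simp)) (h1 i)

/-- For every `n ≥ 1` the dicyclic (generalized quaternion) group of order `4 n` has trivial Schur multiplier. -/
theorem result (n : ℕ) [NeZero n] : Cfsg.HasCyclicSchurMultiplier (QuaternionGroup n) 1 := by
  rw [H80.hasCyclicSchurMultiplier_one_iff]
  intro Γ _ _ σ hσ
  obtain ⟨x, hx⟩ := hσ.1 (a 1)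
  obtain ⟨y, hy⟩ := hσ.1 (xa 0)
  have hr : σ y * σ x * (σ y)⁻¹ = σ x ^ (-1 : ℤ) := by
    rw [hx, hy, zpow_neg_one, mul_inv_eq_iff_eq_mul, eq_inv_mul_iff_mul_eq]
    simp
  rw [eq_bot_iff]
  intro z hz
  obtain ⟨k, hk, hk'⟩ := H80.meta_ker hσ hr (by rw [hx, hy]; exact gen n) hz
  rw [hx, ← orderOf_dvd_iff_zpow_eq_one, orderOf_a_one] at hk'
  obtain ⟨j, hj⟩ : (n : ℤ) ∣ k := by
    obtain ⟨j, hj⟩ := hk'
    push_cast at hj
    exact ⟨-j, by linarith⟩
  rw [mem_bot, hk, H80.meta_zpow hσ.2.1 hr]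
  refine H80.commutatorElement_eq_one_of_map hσ.2.1 (y' := (y ^ 2) ^ j) ?_
    (((Commute.refl y).pow_right 2).zpow_right j)
  rw [hj, zpow_mul, map_zpow, map_zpow, map_zpow, map_pow, hx, hy, xa_sq, zpow_natCast, a_one_pow]

end Cfsg.Agent.S3963
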