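import Cfsg.Statements.S3967
import Cfsg.Agent.H80.SchurMeta

set_option autoImplicit false
open Cfsg

namespace Cfsg.Agent.S3967

open Subgroup
open scoped commutatorElement

theorem exists_model (M ρ : ℕ) (hρ : Nat.Coprime ρ M) :
    ∃ (X : Type) (_ : Group X) (A B : X) (θ : X →* Multiplicative ℤ), B * A * B⁻¹ = A ^ ρ ∧
      (∀ j : ℕ, A ^ j = 1 ↔ M ∣ j) ∧ closure {A, B} = ⊤ ∧ θ A = 1 ∧
      θ B = Multiplicative.ofAdd 1 := by
  let u : (ZMod M)ˣ := ZMod.unitOfCoprime ρ hρ
  let α : MulAut (Multiplicative (ZMod M)) := AddEquiv.toMultiplicative (DistribMulAction.toAddEquiv (ZMod M) u)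
  let φ : Multiplicative ℤ →* MulAut (Multiplicative (ZMod M)) := zpowersHom _ α
  refine ⟨Multiplicative (ZMod M) ⋊[φ] Multiplicative ℤ, inferInstance,
    SemidirectProduct.inl (Multiplicative.ofAdd 1), SemidirectProduct.inr (Multiplicative.ofAdd 1),
    SemidirectProduct.rightHom, ?_, ?_, ?_, by simp, by simp⟩
  · rw [← map_inv, ← SemidirectProduct.inl_aut, ← map_pow, ← ofAdd_nsmul]
    congr 1
    simp [φ, α, u, Units.smul_def]
  · intro j
    rw [← map_pow, map_eq_one_iff _ SemidirectProduct.inl_injective, ← ofAdd_nsmul,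
      ofAdd_eq_one, nsmul_eq_mul, mul_one, ZMod.natCast_eq_zero_iff]
  · rw [eq_top_iff]
    intro g _
    rw [← SemidirectProduct.inl_left_mul_inr_right g]
    apply mul_mem
    · obtain ⟨k, hk⟩ := ZMod.intCast_surjective (Multiplicative.toAdd g.left)
      have : g.left = Multiplicative.ofAdd (1 : ZMod M) ^ k := by
        rw [← ofAdd_zsmul, zsmul_eq_mul, mul_one, hk]; rfl
      rw [this, map_zpow]
      exact zpow_mem (subset_closure (by simp)) _
    · have : g.right = Multiplicative.ofAdd (1 : ℤ) ^ (Multiplicative.toAdd g.right) := by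
        rw [← ofAdd_zsmul, smul_eq_mul, mul_one]; rfl
      rw [this, map_zpow]
      exact zpow_mem (subset_closure (by simp)) _

theorem mem_center_of_gen {X : Type*} [Group X] {A B z : X} (h : closure {A, B} = ⊤)
    (hA : Commute A z) (hB : Commute B z) : z ∈ center X := by
  rw [mem_center_iff]
  intro g
  have : closure {A, B} ≤ centralizer {z} := by
    rw [closure_le]
    rintro x (rfl | rfl)
    · exact mem_centralizer_singleton_iff.2 hA
    · exact mem_centralizer_singleton_iff.2 hB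
  rw [h] at this
  exact mem_centralizer_singleton_iff.1 (this (mem_top g))

theorem conj_pow_pow {X : Type*} [Group X] {A B : X} {ρ : ℕ} (h : B * A * B⁻¹ = A ^ ρ) (j : ℕ) :
    B ^ j * A * (B ^ j)⁻¹ = A ^ ρ ^ j := by
  induction j with
  | zero => simp
  | succ j ih =>
    calc B ^ (j + 1) * A * (B ^ (j + 1))⁻¹ = B * (B ^ j * A * (B ^ j)⁻¹) * B⁻¹ := by
          rw [pow_succ']; group
      _ = _ := by rw [ih, ← conj_pow, h, ← pow_mul, ← pow_succ']

theorem commute_pow_of {X : Type*} [Group X] {A B : X} {ρ M : ℕ} (h : B * A * B⁻¹ = A ^ ρ)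
    (hρ : 0 < ρ) (hM : A ^ M = 1) {j : ℕ} (hj : M ∣ (ρ - 1) * j) : Commute B (A ^ j) := by
  have h1 : B * A ^ j * B⁻¹ = A ^ j := by
    obtain ⟨k, hk⟩ := hj
    have : ρ * j = M * k + j := by
      rw [← hk]; obtain ⟨ρ', rfl⟩ : ∃ ρ', ρ = ρ' + 1 := ⟨ρ - 1, by omega⟩
      simp; ring
    rw [← conj_pow, h, ← pow_mul, this, pow_add, pow_mul, hM, one_pow, one_mul]
  exact mul_inv_eq_iff_eq_mul.1 h1

theorem central_rel {X : Type*} [Group X] {A B : X} {ρ M n t : ℕ} (hgen : closure {A, B} = ⊤)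
    (h : B * A * B⁻¹ = A ^ ρ) (hρ : 0 < ρ) (hM : A ^ M = 1) (hn : ρ ^ n ≡ 1 [MOD M])
    (ht : M ∣ (ρ - 1) * t) : B ^ n * (A ^ t)⁻¹ ∈ center X := by
  apply mem_center_of_gen hgen
  · refine Commute.mul_right ?_ ((Commute.refl A).pow_right t).inv_right
    have h1 := conj_pow_pow h n
    have h2 : A ^ ρ ^ n = A := by
      have := (pow_eq_pow_iff_modEq (x := A)).2 (hn.of_dvd (orderOf_dvd_of_pow_eq_one hM))
      rwa [pow_one] at this
    rw [h2] at h1
    exact (mul_inv_eq_iff_eq_mul.1 h1).symm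
  · exact ((Commute.refl B).pow_right n).mul_right (commute_pow_of h hρ hM ht).inv_right

theorem geom_mul (r n : ℕ) (hr : 0 < r) : (∑ i ∈ Finset.range n, r ^ i) * (r - 1) + 1 = r ^ n := by
  obtain ⟨r', rfl⟩ : ∃ r', r = r' + 1 := ⟨r - 1, by omega⟩
  simpa using geom_sum_mul_add r' n

theorem exists_coprime_add_mul (a b n : ℕ) (h : Nat.Coprime a b) (hn : n ≠ 0) :
    ∃ j, Nat.Coprime (a + j * b) n := by
  let ps : Finset ℕ := {p ∈ n.primeFactors | ¬p ∣ a}
  use ps.prod id
  apply Nat.coprime_of_dvd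
  intro p pp hp hpn
  by_cases hpx : p ∣ a
  · have h' := Nat.dvd_sub hp hpx
    rw [add_comm, Nat.add_sub_cancel] at h'
    rcases pp.dvd_mul.mp h' with h' | h'
    · have ⟨q, hq, hq'⟩ := (pp.prime.dvd_finsetProd_iff id).mp h'
      rw [Finset.mem_filter, Nat.mem_primeFactors,
        ← (Nat.prime_dvd_prime_iff_eq pp hq.1.1).mp hq'] at hq
      exact hq.2 hpx
    · exact Nat.Prime.not_coprime_iff_dvd.mpr ⟨p, pp, hpx, h'⟩ h
  · have pps : p ∈ ps := Finset.mem_filter.mpr ⟨Nat.mem_primeFactors.mpr ⟨pp, hpn, hn⟩, hpx⟩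
    have h' := Nat.dvd_sub hp ((Finset.dvd_prod_of_mem id pps).mul_right b)
    rw [Nat.add_sub_cancel] at h'
    contradiction

theorem coprime_of_pow_modEq {ρ n M : ℕ} (hn : 0 < n) (h : ρ ^ n ≡ 1 [MOD M]) :
    Nat.Coprime ρ M := by
  have h1 : Nat.Coprime (ρ ^ n) M := by
    rw [Nat.Coprime, h.gcd_eq, Nat.gcd_one_left]
  exact (Nat.coprime_pow_left_iff hn _ _).1 h1

theorem main {Q : Type} [Group Q] (π : FreeGroup Bool →* Q) (hπ : Function.Surjective π)
    (m n r l d m' c s' : ℕ) (hm : 0 < m) (hn : 0 < n) (hr : 0 < r) (hrn : r ^ n ≡ 1 [MOD m])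
    (hd : m = d * m') (hc : r - 1 = d * c) (hco : Nat.Coprime c m')
    (hs : ∑ i ∈ Finset.range n, r ^ i = m' * s')
    (hker : π.ker = normalClosure ({FreeGroup.of true ^ m,
      (FreeGroup.of false) ^ n * (FreeGroup.of true ^ (m' * l))⁻¹,
      FreeGroup.of false * FreeGroup.of true * (FreeGroup.of false)⁻¹ * (FreeGroup.of true ^ r)⁻¹} :
        Set (FreeGroup Bool))) :
    Cfsg.HasCyclicSchurMultiplier Q (Nat.gcd l (Nat.gcd d s')) := by
  set e := Nat.gcd l (Nat.gcd d s') with he
  have hd0 : 0 < d := Nat.pos_of_mul_pos_right (hd ▸ hm)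
  have hm' : 0 < m' := Nat.pos_of_mul_pos_left (hd ▸ hm)
  have he0 : 0 < e := Nat.gcd_pos_of_pos_right _ (Nat.gcd_pos_of_pos_left _ hd0)
  have hel : e ∣ l := Nat.gcd_dvd_left _ _
  have hed : e ∣ d := (Nat.gcd_dvd_right _ _).trans (Nat.gcd_dvd_left _ _)
  have hes : e ∣ s' := (Nat.gcd_dvd_right _ _).trans (Nat.gcd_dvd_right _ _)
  set x := π (FreeGroup.of true) with hx
  set y := π (FreeGroup.of false) with hy
  have hrel : ∀ w ∈ ({FreeGroup.of true ^ m,
      (FreeGroup.of false) ^ n * (FreeGroup.of true ^ (m' * l))⁻¹,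
      FreeGroup.of false * FreeGroup.of true * (FreeGroup.of false)⁻¹ * (FreeGroup.of true ^ r)⁻¹} :
        Set (FreeGroup Bool)), π w = 1 := fun w hw => by
    rw [← MonoidHom.mem_ker, hker]; exact subset_normalClosure hw
  have hxm : x ^ m = 1 := by simpa using hrel _ (Or.inl rfl)
  have hyn : y ^ n = x ^ (m' * l) := by
    simpa [mul_inv_eq_one] using hrel _ (Or.inr (Or.inl rfl))
  have hyx : y * x * y⁻¹ = x ^ r := by
    have := hrel _ (Or.inr (Or.inr rfl))
    simp only [map_mul, map_inv, map_pow, mul_inv_eq_one] at this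
    exact this
  have hgen : closure {x, y} = ⊤ := by
    have h1 : (closure (Set.range (FreeGroup.of : Bool → FreeGroup Bool))).map π = ⊤ := by
      rw [FreeGroup.closure_range_of, ← MonoidHom.range_eq_map,
        MonoidHom.range_eq_top_of_surjective _ hπ]
    rw [MonoidHom.map_closure, ← Set.range_comp] at h1
    rw [← h1]
    congr 1
    ext g
    simp only [Set.mem_insert_iff, Set.mem_singleton_iff, Set.mem_range, Bool.exists_bool,
      Function.comp]
    constructor
    · rintro (rfl | rfl)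
      · exact Or.inr rfl
      · exact Or.inl rfl
    · rintro (rfl | rfl)
      · exact Or.inr rfl
      · exact Or.inl rfl
  -- finiteness
  have hfin : Finite Q := by
    have hx' : IsOfFinOrder x := isOfFinOrder_iff_pow_eq_one.2 ⟨m, hm, hxm⟩
    have : Finite (zpowers x) := hx'.finite_zpowers
    have hN : (zpowers x).Normal := by
      rw [← normalizer_eq_top_iff, eq_top_iff, ← hgen, closure_le]
      rintro g (rfl | rfl)
      · exact le_normalizer (mem_zpowers _)
      · apply Subgroup.mem_normalizer_fintype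
        rintro _ ⟨k, rfl⟩
        refine ⟨r * k, ?_⟩
        simp only
        rw [← conj_zpow, hyx, zpow_mul, zpow_natCast]
    have h1 : zpowers (QuotientGroup.mk' (zpowers x) y) = ⊤ := by
      have : (closure {x, y}).map (QuotientGroup.mk' (zpowers x)) = ⊤ := by
        rw [hgen, ← MonoidHom.range_eq_map,
          MonoidHom.range_eq_top_of_surjective _ (QuotientGroup.mk'_surjective _)]
      rw [eq_top_iff, ← this, MonoidHom.map_closure, closure_le]
      rintro _ ⟨g, (rfl | rfl), rfl⟩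
      · rw [QuotientGroup.mk'_apply _ x, (QuotientGroup.eq_one_iff _).2 (mem_zpowers _)]
        exact one_mem _
      · exact mem_zpowers _
    have hy' : IsOfFinOrder (QuotientGroup.mk' (zpowers x) y) :=
      isOfFinOrder_iff_pow_eq_one.2 ⟨n, hn, by
        rw [← map_pow, hyn, QuotientGroup.mk'_apply, QuotientGroup.eq_one_iff]
        exact pow_mem (mem_zpowers _) _⟩
    have h2 : Finite (zpowers (QuotientGroup.mk' (zpowers x) y)) := hy'.finite_zpowers
    rw [h1] at h2
    have : Finite (Q ⧸ zpowers x) := Finite.of_equiv _ Subgroup.topEquiv.toEquiv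
    have : Finite (QuotientGroup.mk' (zpowers x)).ker := by
      rw [QuotientGroup.ker_mk']; infer_instance
    exact H80.finite_of_finite_ker (QuotientGroup.mk' (zpowers x))
  -- the order of x
  have hord : ∀ j : ℕ, x ^ j = 1 → m ∣ j := by
    obtain ⟨X, _, A, B, θ, h1, h2, h3, h4, h5⟩ := exists_model m r (coprime_of_pow_modEq hn hrn)
    have hA : A ^ m = 1 := (h2 m).2 dvd_rfl
    have hz := central_rel (t := m' * l) h3 h1 hr hA hrn ⟨c * l, by rw [hc, hd]; ring⟩
    let K := zpowers (B ^ n * (A ^ (m' * l))⁻¹)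
    have : K.Normal := H80.normal_of_le_center (by rwa [zpowers_le])
    let f : FreeGroup Bool →* X := FreeGroup.lift (fun b => if b then A else B)
    have hf : π.ker ≤ ((QuotientGroup.mk' K).comp f).ker := by
      rw [hker]
      apply normalClosure_le_normal
      rintro w (rfl | rfl | rfl)
      · simp [f, hA]
      · simp only [SetLike.mem_coe, MonoidHom.mem_ker, MonoidHom.comp_apply,
          QuotientGroup.mk'_apply, QuotientGroup.eq_one_iff]
        simp only [map_mul, map_inv, map_pow, f, FreeGroup.lift_apply_of]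
        exact mem_zpowers _
      · simp only [SetLike.mem_coe, MonoidHom.mem_ker, MonoidHom.comp_apply,
          QuotientGroup.mk'_apply, QuotientGroup.eq_one_iff]
        simp only [map_mul, map_inv, map_pow, f, FreeGroup.lift_apply_of]
        simp [h1]
    intro j hj
    have h6 : FreeGroup.of true ^ j ∈ π.ker := by rw [MonoidHom.mem_ker, map_pow]; exact hj
    have h7 := hf h6
    simp only [MonoidHom.mem_ker, MonoidHom.comp_apply,
      QuotientGroup.mk'_apply, QuotientGroup.eq_one_iff] at h7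
    simp only [map_pow, f, FreeGroup.lift_apply_of, if_true] at h7
    obtain ⟨k, hk⟩ := h7
    have h8 := congrArg (fun g => Multiplicative.toAdd (θ g)) hk
    simp only [map_zpow, map_mul, map_pow, map_inv, h4, h5, one_pow, inv_one, mul_one, toAdd_zpow,
      toAdd_pow, toAdd_ofAdd, toAdd_one, nsmul_eq_mul, smul_eq_mul, mul_eq_zero] at h8
    have h9 : k = 0 := by
      rcases h8 with h8 | h8
      · exact h8
      · have : (n : ℤ) ≠ 0 := by exact_mod_cast hn.ne'
        exact absurd h8 this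
    simp only [h9, zpow_zero] at hk
    exact (h2 j).1 hk.symm
  have hπc : π ⁅FreeGroup.of false, FreeGroup.of true⁆ = x ^ (r - 1) := by
    rw [map_commutatorElement, commutatorElement_def, ← hx, ← hy, hyx, mul_inv_eq_iff_eq_mul,
      ← pow_succ, Nat.sub_add_cancel hr]
  refine H80.hasCyclicSchurMultiplier_of_bounds he0 ?_ (H80.isCentralExt_coverMap hπ)
    ((⁅FreeGroup.of false, FreeGroup.of true⁆ ^ m' : FreeGroup Bool) : H80.Cover π) ⟨?_, ?_⟩ ?_
  · intro Γ _ _ σ hσ
    obtain ⟨a, ha⟩ := hσ.1 x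
    obtain ⟨b, hb⟩ := hσ.1 y
    have hr' : σ b * σ a * (σ b)⁻¹ = σ a ^ (r : ℤ) := by rw [ha, hb, hyx, zpow_natCast]
    have hpow : ∀ k : ℕ, ⁅b, a⁆ ^ k = ⁅b, a ^ k⁆ := fun k => by
      rw [← zpow_natCast, H80.meta_zpow hσ.2.1 hr', zpow_natCast]
    have h1 : (⁅b, a⁆ ^ m') ^ l = 1 := by
      rw [← pow_mul, hpow]
      exact H80.commutatorElement_eq_one_of_map hσ.2.1 (y' := b ^ n)
        (by rw [map_pow, map_pow, ha, hb, hyn]) ((Commute.refl b).pow_right n)
    have h2 : (⁅b, a⁆ ^ m') ^ d = 1 := by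
      rw [← pow_mul, hpow, mul_comm, ← hd]
      exact H80.commutatorElement_eq_one_of_map hσ.2.1 (y' := 1)
        (by rw [map_pow, ha, hxm, map_one]) (Commute.one_right b)
    have h3 : (⁅b, a⁆ ^ m') ^ s' = 1 := by
      have h4 := H80.meta_pow_conj hσ.2.1 hr' n
      have h5 : ⁅a, b ^ n⁆ = 1 := H80.commutatorElement_eq_one_of_map hσ.2.1 (y' := a ^ (m' * l))
        (by rw [map_pow, map_pow, ha, hb, hyn]) ((Commute.refl a).pow_right _)
      rw [commutatorElement_eq_one_iff_mul_comm] at h5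
      rw [← h5, mul_inv_cancel_right] at h4
      have h6 : ⁅b, a⁆ ^ (∑ i ∈ Finset.range n, (r : ℤ) ^ i) = 1 := by simpa using h4.symm
      rw [← pow_mul, ← hs, ← zpow_natCast]
      push_cast
      exact h6
    refine ⟨⁅b, a⁆ ^ m', ?_, ?_, ?_⟩
    · rw [he, pow_gcd_eq_one, pow_gcd_eq_one]
      exact ⟨h1, h2, h3⟩
    · rw [map_pow, map_commutatorElement, commutatorElement_def, ha, hb, hyx,
        show x ^ r * x⁻¹ = x ^ (r - 1) by
          rw [mul_inv_eq_iff_eq_mul, ← pow_succ, Nat.sub_add_cancel hr],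
        ← pow_mul, hc, show d * c * m' = m * c by rw [hd]; ring, pow_mul, hxm, one_pow]
    · intro z hz
      obtain ⟨k, hk, hk'⟩ := H80.meta_ker hσ hr' (by rw [ha, hb]; exact hgen) hz
      have h7 : (m : ℤ) ∣ (r - 1) * k := by
        rw [ha, ← orderOf_dvd_iff_zpow_eq_one] at hk'
        refine Dvd.dvd.trans ?_ hk'
        exact_mod_cast hord _ (pow_orderOf_eq_one x)
      have h8 : (r : ℤ) - 1 = d * c := by
        have : ((r - 1 : ℕ) : ℤ) = d * c := by exact_mod_cast hc
        rw [← this]; push_cast [Nat.cast_sub hr]; ring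
      rw [h8, hd, mul_assoc] at h7
      push_cast at h7
      have h9 : (m' : ℤ) ∣ c * k :=
        (mul_dvd_mul_iff_left (by exact_mod_cast hd0.ne' : (d : ℤ) ≠ 0)).1 h7
      obtain ⟨j, hj⟩ := (Nat.isCoprime_iff_coprime.2 hco.symm).dvd_of_dvd_mul_left h9
      refine ⟨j, ?_⟩
      simp only
      rw [hk, hj, zpow_mul, zpow_natCast]
  · show π (⁅FreeGroup.of false, FreeGroup.of true⁆ ^ m') = 1
    rw [map_pow, hπc, ← pow_mul, hc, show d * c * m' = m * c by rw [hd]; ring, pow_mul, hxm,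
      one_pow]
  · rw [QuotientGroup.mk_pow]
    exact pow_mem (Subgroup.commutator_mem_commutator (g₁ := ((FreeGroup.of false : FreeGroup Bool) :
      H80.Cover π)) (g₂ := ((FreeGroup.of true : FreeGroup Bool) : H80.Cover π))
      (mem_top _) (mem_top _)) _
  · obtain ⟨j, hj⟩ := exists_coprime_add_mul c m' e hco he0.ne'
    set ρ := r + j * m with hρ
    have hρ0 : 0 < ρ := by omega
    have hρ1 : ρ - 1 = d * (c + j * m') := by
      rw [mul_add, ← hc, hρ, hd, show d * (j * m') = j * (d * m') by ring]; omega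
    obtain ⟨d', hd'⟩ := hed
    obtain ⟨l', hl'⟩ := hel
    have hρn : ρ ^ n ≡ 1 [MOD m * e] := by
      have h1 : m' * e ∣ ∑ i ∈ Finset.range n, ρ ^ i := by
        have h2 : ∑ i ∈ Finset.range n, ρ ^ i ≡ ∑ i ∈ Finset.range n, r ^ i [MOD m' * e] := by
          apply Nat.ModEq.sum
          intro i _
          apply Nat.ModEq.pow
          rw [hρ]
          exact (Nat.modEq_iff_dvd' (Nat.le_add_right _ _)).2 ⟨j * d', by
            rw [Nat.add_sub_cancel_left, hd, hd']; ring⟩ |>.symm
        rw [← Nat.modEq_zero_iff_dvd]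
        refine h2.trans ?_
        rw [Nat.modEq_zero_iff_dvd, hs]
        exact Nat.mul_dvd_mul_left _ hes
      obtain ⟨w, hw⟩ := h1
      rw [← geom_mul ρ n hρ0, hw, hρ1]
      refine (Nat.modEq_iff_dvd' (Nat.le_add_left _ _)).2 ⟨w * (c + j * m'), ?_⟩ |>.symm
      rw [Nat.add_sub_cancel, hd]; ring
    obtain ⟨X, _, A, B, θ, h1, h2, h3, -, -⟩ := exists_model (m * e) ρ (coprime_of_pow_modEq hn hρn)
    have hA : A ^ (m * e) = 1 := (h2 _).2 dvd_rfl
    have hAm : A ^ m ∈ center X := mem_center_of_gen h3 ((Commute.refl A).pow_right m)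
      (commute_pow_of h1 hρ0 hA ⟨d' * (c + j * m'), by rw [hρ1]; nth_rw 1 [hd']; ring⟩)
    have hz := central_rel (t := m' * l) h3 h1 hρ0 hA hρn
      ⟨l' * (c + j * m'), by rw [hρ1, hd]; nth_rw 1 [hl']; ring⟩
    let f : FreeGroup Bool →* X := FreeGroup.lift (fun b => if b then A else B)
    have hf : π.ker ≤ (center X).comap f := by
      rw [hker]
      apply normalClosure_le_normal
      rintro w (rfl | rfl | rfl)
      · simpa [f] using hAm
      · simpa [f] using hz
      · simp only [SetLike.mem_coe, mem_comap, map_mul, map_inv, map_pow, f,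
          FreeGroup.lift_apply_of, if_true, Bool.false_eq_true, if_false]
        rw [h1, hρ, add_comm, pow_add, mul_inv_cancel_right, mul_comm, pow_mul]
        exact pow_mem hAm _
    let η : H80.Cover π →* X := QuotientGroup.lift _ f (by
      rw [H80.relComm, Subgroup.commutator_le]
      intro a ha b _
      rw [MonoidHom.mem_ker, map_commutatorElement, commutatorElement_eq_one_iff_mul_comm]
      exact (mem_center_iff.1 (hf ha) _).symm)
    intro k hk
    have h4 := congrArg η hk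
    rw [map_pow, map_one] at h4
    have h5 : η ((⁅FreeGroup.of false, FreeGroup.of true⁆ ^ m' : FreeGroup Bool) : H80.Cover π) =
        A ^ ((ρ - 1) * m') := by
      show f _ = _
      rw [map_pow, map_commutatorElement, commutatorElement_def]
      simp only [f, FreeGroup.lift_apply_of, if_true, Bool.false_eq_true, if_false]
      rw [h1, show A ^ ρ * A⁻¹ = A ^ (ρ - 1) by
          rw [mul_inv_eq_iff_eq_mul, ← pow_succ, Nat.sub_add_cancel hρ0], ← pow_mul]
    rw [h5, ← pow_mul, h2, hρ1, show d * (c + j * m') * m' * k = m * ((c + j * m') * k) by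
      rw [hd]; ring] at h4
    exact hj.symm.dvd_of_dvd_mul_left (Nat.dvd_of_mul_dvd_mul_left hm h4)

/-- Let `m, n ≥ 1`, `r ≥ 1` with `r ^ n ≡ 1 (mod m)`, and `l` a natural number; put `d = gcd(m, r - 1)`, `t = m l / d` and `h = d · gcd(m, 1 + r + ⋯ + r^(n-1)) / m`. The group presented by generators `a, b` and relations `a ^ m = 1`, `b ^ n = a ^ t`, `b a b⁻¹ = a ^ r` (a metacyclic group of order `m n`) has Schur multiplier cyclic of order `gcd(l, h)`. -/
theorem result (m n r l : ℕ) (hm : 0 < m) (hn : 0 < n) (hr : 0 < r) (hrn : r ^ n ≡ 1 [MOD m]) : Cfsg.HasCyclicSchurMultiplier (PresentedGroup ({FreeGroup.of true ^ m, (FreeGroup.of false) ^ n * (FreeGroup.of true ^ (m * l / Nat.gcd m (r - 1)))⁻¹, FreeGroup.of false * FreeGroup.of true * (FreeGroup.of false)⁻¹ * (FreeGroup.of true ^ r)⁻¹} : Set (FreeGroup Bool))) (Nat.gcd l (Nat.gcd m (r - 1) * Nat.gcd m (∑ i ∈ Finset.range n, r ^ i) / m)) := by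
  set d := Nat.gcd m (r - 1) with hd
  have hd0 : 0 < d := Nat.gcd_pos_of_pos_left _ hm
  obtain ⟨m', hm'⟩ : d ∣ m := Nat.gcd_dvd_left _ _
  obtain ⟨c, hc⟩ : d ∣ r - 1 := Nat.gcd_dvd_right _ _
  have hco : Nat.Coprime c m' := by
    have := Nat.coprime_div_gcd_div_gcd hd0
    rw [← hd] at this
    rw [show m / d = m' by rw [hm', Nat.mul_div_cancel_left _ hd0],
      show (r - 1) / d = c by rw [hc, Nat.mul_div_cancel_left _ hd0]] at this
    exact this.symm
  obtain ⟨s', hs'⟩ : m' ∣ ∑ i ∈ Finset.range n, r ^ i := by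
    have h1 : m ∣ (∑ i ∈ Finset.range n, r ^ i) * (r - 1) := by
      have := (Nat.modEq_iff_dvd' (Nat.one_le_pow _ _ hr)).1 hrn.symm
      rwa [← geom_mul r n hr, Nat.add_sub_cancel] at this
    rw [hc, hm', mul_left_comm] at h1
    exact hco.symm.dvd_of_dvd_mul_right (Nat.dvd_of_mul_dvd_mul_left hd0 h1)
  have ht : m * l / d = m' * l := by
    rw [hm', mul_assoc, Nat.mul_div_cancel_left _ hd0]
  have hh : d * Nat.gcd m (∑ i ∈ Finset.range n, r ^ i) / m = Nat.gcd d s' := by
    rw [hs']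
    nth_rw 1 [hm', mul_comm d m']
    rw [Nat.gcd_mul_left, ← mul_assoc, ← hm', Nat.mul_div_cancel_left _ hm]
  rw [hh]
  refine main (PresentedGroup.mk _) (PresentedGroup.mk_surjective _) m n r l d m' c s' hm hn hr hrn
    hm' hc hco hs' ?_
  rw [← ht]
  exact QuotientGroup.ker_mk' _

end Cfsg.Agent.S3967
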