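import Cfsg.Statements.S3970
import Cfsg.Agent.H93.AbSylow

set_option autoImplicit false
open Cfsg

namespace Cfsg.Agent.S3970

universe u

theorem aux (n : ℕ) : ∀ (G : Type u) [Group G] [Finite G], Nat.card G = n →
    (∀ p : ℕ, p.Prime → p ∣ Nat.card G → (∃ q : ℕ, q.Prime ∧ q ∣ Nat.card G ∧ p < q) →
      ∀ P : Sylow p G, IsMulCommutative (P : Subgroup G) ∧ Group.rank (P : Subgroup G) ≤ 2) →
    ¬ 12 ∣ Nat.card G → Group.IsSolvable G := by
  induction n using Nat.strong_induction_on with
  | _ n ih =>
  intro G _ _ hn h h12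
  by_cases h1 : Nat.card G = 1
  · haveI := (Nat.card_eq_one_iff_unique.mp h1).1
    infer_instance
  set p := (Nat.card G).minFac with hp
  have hpp : p.Prime := Nat.minFac_prime h1
  haveI := Fact.mk hpp
  by_cases hq : ∃ q : ℕ, q.Prime ∧ q ∣ Nat.card G ∧ p < q
  swap
  · push Not at hq
    have : IsPGroup p G := by
      refine IsPGroup.of_card (n := (Nat.card G).primeFactorsList.length) ?_
      refine Nat.eq_prime_pow_of_unique_prime_dvd Nat.card_pos.ne' ?_
      intro d hd hdG
      exact le_antisymm (hq d hd hdG) (Nat.minFac_le_of_dvd hd.two_le hdG)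
    haveI := this.isNilpotent
    infer_instance
  obtain ⟨P⟩ := (inferInstance : Nonempty (Sylow p G))
  obtain ⟨hab, hrk⟩ := h p hpp (Nat.minFac_dvd _) hq P
  have hnpc : HasNormalPComplement p G := by
    refine H8.hasNormalPComplement_of_normalizer_le_centralizer P ?_
    by_contra hne
    obtain ⟨q, hq, hqp, hqG, hqA⟩ := H93.exists_prime_of_not_normalizer_le P hab hne
    obtain ⟨r, hr1, hr, i, hi, hqi⟩ := H93.exists_dvd_pow_sub_one_of_dvd_card_mulAut P.2 hq hqp hqA
    have hlt : p < q := lt_of_le_of_ne (Nat.minFac_le_of_dvd hq.two_le hqG) hqp.symm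
    have h2 := hpp.two_le
    have hn1 : ¬ q ∣ p - 1 := fun hd => by have := Nat.le_of_dvd (by omega) hd; omega
    rw [Finset.mem_Icc] at hi
    have hi2 : i = 2 := by
      by_contra hne
      have : i = 1 := by omega
      rw [this, pow_one] at hqi
      exact hn1 hqi
    have hr2 : r = 2 := by omega
    subst hi2 hr2
    have : p ^ 2 - 1 = (p + 1) * (p - 1) := by simpa using Nat.sq_sub_sq p 1
    rw [this] at hqi
    have h3 := Nat.le_of_dvd (by omega) ((hq.dvd_mul.mp hqi).resolve_right hn1)
    have h4 : q = p + 1 := by omega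
    have h5 : p = 2 := by
      rcases hpp.eq_two_or_odd with h6 | h6
      · exact h6
      · rcases hq.eq_two_or_odd with h7 | h7 <;> omega
    apply h12
    have h6 : 4 ∣ Nat.card G := by
      have := hr1.trans (Subgroup.card_subgroup_dvd_card (P : Subgroup G))
      rwa [h5] at this
    have h7 : 3 ∣ Nat.card G := by rw [h4, h5] at hqG; exact hqG
    exact Nat.Coprime.mul_dvd_of_dvd_of_dvd (by norm_num : Nat.Coprime 3 4) h7 h6
  set N := pResidual p G with hN
  have hNp : ¬ p ∣ Nat.card N := H8.hasNormalPComplement_iff_not_dvd.mp hnpc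
  obtain ⟨k, hk⟩ := H8.exists_index_pResidual_eq p (G := G)
  have hlt : Nat.card N < n := by
    rw [← hn]
    refine lt_of_le_of_ne (Nat.le_of_dvd Nat.card_pos (Subgroup.card_subgroup_dvd_card N)) ?_
    intro he
    exact hNp (he ▸ Nat.minFac_dvd _)
  haveI : Group.IsSolvable N := by
    refine ih _ hlt N rfl ?_ (fun h' => h12 (h'.trans (Subgroup.card_subgroup_dvd_card N)))
    rintro r hr hrN ⟨q, hq, hqN, hrq⟩ R
    haveI := Fact.mk hr
    have hrp : r ≠ p := fun h' => hNp (h' ▸ hrN)
    have hi : ¬ r ∣ ((R : Subgroup N).map N.subtype).index := by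
      rw [Subgroup.index_map_of_injective _ N.subtype_injective, N.range_subtype, hk]
      intro h'
      rcases hr.dvd_mul.mp h' with h' | h'
      · exact R.not_dvd_index h'
      · exact hrp ((Nat.prime_dvd_prime_iff_eq hr hpp).mp (hr.dvd_of_dvd_pow h'))
    obtain ⟨h1, h2⟩ := h r hr (hrN.trans (Subgroup.card_subgroup_dvd_card N))
      ⟨q, hq, hqN.trans (Subgroup.card_subgroup_dvd_card N), hrq⟩
      ((R.2.map N.subtype).toSylow hi)
    have e := (R : Subgroup N).equivMapOfInjective N.subtype N.subtype_injective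
    refine ⟨⟨⟨fun a b => e.injective ?_⟩⟩, (Group.rank_congr e).trans_le h2⟩
    rw [map_mul, map_mul]
    exact h1.is_comm.comm _ _
  haveI := (H8.isPGroup_quotient_pResidual p (G := G)).isNilpotent
  exact Group.isSolvable_of_ker_le_range N.subtype (QuotientGroup.mk' N) (by simp)

/-- Let `G` be a finite group such that for every prime `p` dividing its order, other than the largest such prime, the Sylow `p`-subgroups are abelian and generated by at most two elements, and suppose `12` does not divide the order of `G`. Then `G` is solvable. In particular a group of cube-free order not divisible by `12` is solvable. -/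
theorem result {G : Type*} [Group G] [Finite G] (h : ∀ p : ℕ, p.Prime → p ∣ Nat.card G → (∃ q : ℕ, q.Prime ∧ q ∣ Nat.card G ∧ p < q) → ∀ P : Sylow p G, IsMulCommutative (P : Subgroup G) ∧ Group.rank (P : Subgroup G) ≤ 2) (h12 : ¬ 12 ∣ Nat.card G) : Group.IsSolvable G := by
  exact aux _ G rfl h h12

end Cfsg.Agent.S3970
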