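import Cfsg.Statements.S3971
import Cfsg.Agent.H89.MetaNpc

set_option autoImplicit false
open Cfsg

namespace Cfsg.Agent.S3971

open Subgroup H89

/-- Let `G` be a finite group of order `2 ^ a * n` with `n` odd and not divisible by `3`, and suppose `G` has an element of order `2 ^ (a - 1)` (so a Sylow `2`-subgroup has a cyclic subgroup of index at most `2`). Then `G` has a normal subgroup of order `n`. -/
theorem result {G : Type*} [Group G] [Finite G] (a n : ℕ) (hG : Nat.card G = 2 ^ a * n) (hn : Odd n) (h3 : ¬ 3 ∣ n) (hx : ∃ x : G, orderOf x = 2 ^ (a - 1)) : ∃ N : Subgroup G, N.Normal ∧ Nat.card N = n := by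
  have := Fact.mk Nat.prime_two
  obtain ⟨x, hx⟩ := hx
  obtain ⟨P, hP⟩ := H90.exists_sylow_mem (p := 2) (hx ▸ pow_orderOf_eq_one x)
  have h0 : n ≠ 0 := by rintro rfl; simp at hn
  have h1 : Nat.card P = 2 ^ a := by
    rw [P.card_eq_multiplicity, hG, Nat.factorization_mul (by positivity) h0]
    simp [Nat.factorization_eq_zero_of_not_dvd hn.not_two_dvd_nat, Nat.prime_two.factorization_self]
  have h2 : (zpowers (⟨x, hP⟩ : (P : Subgroup G))).index ∣ 2 := by
    have h2 := (zpowers (⟨x, hP⟩ : (P : Subgroup G))).card_mul_index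
    rw [Nat.card_zpowers, orderOf_mk, hx, h1] at h2
    rcases a with _ | a
    · rw [show (zpowers (⟨x, hP⟩ : (P : Subgroup G))).index = 1 by simpa using h2]
      exact one_dvd _
    · rw [Nat.add_sub_cancel, pow_succ] at h2
      rw [Nat.eq_of_mul_eq_mul_left (by positivity) h2]
  have h6 : (zpowers (⟨x, hP⟩ : (P : Subgroup G))).Normal := by
    rcases (Nat.dvd_prime Nat.prime_two).1 h2 with h3 | h3
    · rw [index_eq_one.1 h3]; infer_instance
    · exact normal_of_index_eq_two h3
  obtain ⟨Q, N, hN, h4⟩ := npc_of_metacyclic P ⟨_, h6, inferInstance, isCyclic_of_card_dvd_prime h2⟩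
    fun q hq hd h4 => by
      obtain rfl : q = 3 := (Nat.prime_dvd_prime_iff_eq hq Nat.prime_three).1 h4
      rw [hG] at hd
      exact h3 ((Nat.Coprime.pow_right a (by norm_num)).dvd_of_dvd_mul_left hd)
  refine ⟨N, hN, ?_⟩
  have h5 := h4.card_mul_card
  rw [Nat.card_congr (Sylow.equiv Q P).toEquiv, h1, hG, mul_comm] at h5
  exact Nat.eq_of_mul_eq_mul_left (by positivity) h5

end Cfsg.Agent.S3971
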