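import Cfsg.Statements.S3972
import Cfsg.Agent.H59.Schur

set_option autoImplicit false
open Cfsg

namespace Cfsg.Agent.S3972

open MulAction
open scoped Pointwise

theorem period_cases {G X : Type*} [Group G] [MulAction G X] {p m : ℕ} (hp : p.Prime)
    {g : G} (hg : orderOf g = p ^ m) (a : X) :
    g ^ (p ^ (m - 1)) • a = a ∨ ∀ z ∈ Subgroup.zpowers g, z • a = a → z = 1 := by
  obtain ⟨i, hi, h⟩ := (Nat.dvd_prime_pow hp).1 (hg ▸ period_dvd_orderOf g a)
  rcases eq_or_lt_of_le hi with rfl | hi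
  · right
    rintro _ ⟨k, rfl⟩ hk
    rw [zpow_smul_eq_iff_period_dvd, h, ← hg] at hk
    exact orderOf_dvd_iff_zpow_eq_one.1 hk
  · left
    rw [pow_smul_eq_iff_period_dvd, h]
    exact pow_dvd_pow _ (by omega)

/-- Let `p` be a prime, `m ≥ 2`, and `G` a transitive but not doubly transitive permutation group on `p ^ m` points containing a permutation of order `p ^ m` (necessarily a full cycle). Then `G` is imprimitive, and the normal closure in `G` of the `p ^ (m - 1)`-th power of that permutation is an intransitive normal subgroup. -/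
theorem result {Ω : Type*} [Fintype Ω] [DecidableEq Ω] (p m : ℕ) (hp : p.Prime) (hm : 2 ≤ m) (hΩ : Fintype.card Ω = p ^ m) (G : Subgroup (Equiv.Perm Ω)) (htr : MulAction.IsPretransitive G Ω) (h2 : ¬ MulAction.IsMultiplyPretransitive G Ω 2) (g : G) (hg : orderOf g = p ^ m) : ¬ MulAction.IsPreprimitive G Ω ∧ ¬ MulAction.IsPretransitive (Subgroup.normalClosure ({g ^ (p ^ (m - 1))} : Set G)) Ω := by
  obtain ⟨ω, hω⟩ : ∃ ω : Ω, g ^ (p ^ (m - 1)) • ω ≠ ω := by
    by_contra h
    push Not at h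
    have h1 : g ^ (p ^ (m - 1)) = 1 := eq_of_smul_eq_smul (α := Ω) fun a => by rw [h, one_smul]
    have h2 := Nat.le_of_dvd (pow_pos hp.pos _) (hg ▸ orderOf_dvd_of_pow_eq_one h1)
    have := Nat.pow_lt_pow_right hp.one_lt (show m - 1 < m by omega)
    omega
  have hreg := (period_cases hp hg ω).resolve_left hω
  have hcard : Nat.card (Subgroup.zpowers g) = p ^ m := by rw [Nat.card_zpowers, hg]
  have hb : Function.Bijective fun x : Subgroup.zpowers g => (Subgroup.zpowers g).subtype x • ω := by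
    refine (Nat.bijective_iff_injective_and_card _).2 ⟨fun x y hxy => ?_, ?_⟩
    · have h1 := hreg ((y : G)⁻¹ * x) (mul_mem (inv_mem y.2) x.2) (by
        rw [mul_smul, inv_smul_eq_iff]; exact hxy)
      exact Subtype.ext (inv_mul_eq_one.1 h1).symm
    · rw [hcard, ← hΩ, Nat.card_eq_fintype_card]
  have himp : ¬ MulAction.IsPreprimitive G Ω := fun hprim =>
    h2 (H59.Schur.two_pretransitive_of_isCyclic _ ω hb (by
      rw [hcard]
      exact Nat.Prime.not_prime_pow hm))
  refine ⟨himp, fun hN => himp ⟨fun {B} hB => ?_⟩⟩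
  by_contra hnt
  rw [IsTrivialBlock, not_or, Set.not_subsingleton_iff] at hnt
  obtain ⟨⟨a, ha, b, hb', hab⟩, hBu⟩ := hnt
  have hB' := isBlock_iff_smul_eq_of_mem.1 hB
  have hcomm : ∀ x ∈ Subgroup.zpowers g, ∀ y ∈ Subgroup.zpowers g, x * y = y * x := by
    rintro _ ⟨k, rfl⟩ _ ⟨l, rfl⟩
    exact zpow_mul_comm g k l
  have htrC : ∀ a b : Ω, ∃ x ∈ Subgroup.zpowers g, x • a = b := by
    intro a b
    obtain ⟨x, rfl⟩ := hb.2 a
    obtain ⟨y, rfl⟩ := hb.2 b
    exact ⟨y * (x : G)⁻¹, mul_mem y.2 (inv_mem x.2), by simp [mul_smul]⟩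
  have hh : g ^ (p ^ (m - 1)) • B = B := by
    refine (period_cases hp hg B).resolve_right fun h => hab ?_
    obtain ⟨x, hx, rfl⟩ := htrC a b
    rw [h x hx (hB' ha hb'), one_smul]
  let M : Subgroup G :=
    { carrier := {n | ∀ γ : G, n • γ • B = γ • B}
      one_mem' := fun γ => one_smul _ _
      mul_mem' := fun {x y} hx hy γ => by rw [mul_smul, hy, hx]
      inv_mem' := fun {x} hx γ => inv_smul_eq_iff.2 (hx γ).symm }
  have hM : M.Normal := ⟨fun n hn k γ => by
    rw [mul_smul, mul_smul, ← mul_smul k⁻¹, hn, ← mul_smul, mul_inv_cancel_left]⟩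
  have hle : Subgroup.normalClosure ({g ^ (p ^ (m - 1))} : Set G) ≤ M := by
    refine Subgroup.normalClosure_le_normal ?_
    rintro _ rfl γ
    obtain ⟨x, hx, hxa⟩ := htrC a (γ • a)
    have h3 : (x⁻¹ * γ) • B = B := hB' ha (by rw [mul_smul, ← hxa, inv_smul_smul]; exact ha)
    rw [mul_smul, inv_smul_eq_iff] at h3
    rw [h3, ← mul_smul, hcomm _ (pow_mem (Subgroup.mem_zpowers g) _) x hx, mul_smul, hh]
  refine hBu (Set.eq_univ_of_forall fun c => ?_)
  obtain ⟨n, hn⟩ := hN.exists_smul_eq a c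
  have h4 := hle n.2 1
  rw [one_smul] at h4
  rw [← h4]
  exact ⟨a, ha, hn⟩

end Cfsg.Agent.S3972
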