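import Cfsg.Statements.S3973
import Cfsg.Agent.H80.SchurPerfect

set_option autoImplicit false
open Cfsg

namespace Cfsg.Agent.S3973

open Subgroup

/-- If a finite group is presented by `n` generators and a finite set of `r` relators, then its Schur multiplier can be generated by `r - n` elements. In particular a finite group with a presentation having as many relators as generators has trivial Schur multiplier. -/
theorem result (n : ℕ) (rels : Finset (FreeGroup (Fin n))) [Finite (PresentedGroup (rels : Set (FreeGroup (Fin n))))] {A : Type*} [CommGroup A] [Finite A] (hA : Cfsg.HasSchurMultiplier (PresentedGroup (rels : Set (FreeGroup (Fin n)))) A) : Group.rank A ≤ rels.card - n := by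
  classical
  let π := PresentedGroup.mk (rels : Set (FreeGroup (Fin n)))
  have hπ : Function.Surjective π := PresentedGroup.mk_surjective _
  obtain ⟨e⟩ := H80.nonempty_equiv_hopf hA hπ
  let _ : CommGroup (H80.coverMap π).ker := H80.commGroupOfLeCenter _ (H80.coverMap_central π)
  let v : rels → Additive (H80.coverMap π).ker := fun r =>
    Additive.ofMul ⟨((r : FreeGroup (Fin n)) : H80.Cover π), PresentedGroup.one_of_mem r.2⟩
  let ψ : (rels → ℤ) →ₗ[ℤ] Additive (H80.coverMap π).ker := Fintype.linearCombination ℤ v
  have hψ : Function.Surjective ψ := by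
    intro z
    let S : Subgroup (H80.Cover π) :=
      (AddSubgroup.toSubgroup' ψ.toAddMonoidHom.range).map (H80.coverMap π).ker.subtype
    have hS : S.Normal := H80.normal_of_le_center
      ((map_subtype_le _).trans (H80.coverMap_central π))
    have h1 : normalClosure (rels : Set (FreeGroup (Fin n))) ≤
        S.comap (QuotientGroup.mk' _) := by
      apply normalClosure_le_normal
      intro r hr
      refine ⟨Additive.toMul (v ⟨r, hr⟩), ⟨Pi.single ⟨r, hr⟩ 1, ?_⟩, rfl⟩
      simp [ψ]
      rfl
    obtain ⟨x, hx⟩ := QuotientGroup.mk_surjective ((Additive.toMul z : (H80.coverMap π).ker) :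
      H80.Cover π)
    have h2 : π x = 1 := by
      have := (Additive.toMul z).2
      rw [← hx] at this
      exact this
    obtain ⟨y, ⟨w, hw⟩, hy⟩ := h1 (PresentedGroup.mk_eq_one_iff.1 h2)
    refine ⟨w, ?_⟩
    have h3 : y = Additive.toMul z := Subtype.ext (hy.trans hx)
    exact hw.trans (congrArg Additive.ofMul h3)
  let α : Additive (H80.coverMap π).ker →+ FreeAbelianGroup (Fin n) :=
    MonoidHom.toAdditive ((H80.coverAb π).comp (H80.coverMap π).ker.subtype)
  let θ : (rels → ℤ) →ₗ[ℤ] FreeAbelianGroup (Fin n) := α.toIntLinearMap.comp ψ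
  have hrank : n ≤ Module.finrank ℤ θ.range := by
    let N := Nat.card (PresentedGroup (rels : Set (FreeGroup (Fin n))))
    have hN : N ≠ 0 := Nat.card_pos.ne'
    have hmem : ∀ x : FreeAbelianGroup (Fin n), (N : ℤ) • x ∈ θ.range := by
      intro x
      obtain ⟨y, hy⟩ : ∃ y : FreeGroup (Fin n), Abelianization.of y = Additive.toMul x :=
        QuotientGroup.mk_surjective (Additive.toMul x)
      have h1 : ((y ^ N : FreeGroup (Fin n)) : H80.Cover π) ∈ (H80.coverMap π).ker := by
        show π (y ^ N) = 1
        rw [map_pow]; exact pow_card_eq_one'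
      obtain ⟨w, hw⟩ := hψ (Additive.ofMul ⟨_, h1⟩)
      refine ⟨w, ?_⟩
      show α (ψ w) = _
      rw [hw, natCast_zsmul]
      show Additive.ofMul (Abelianization.of (y ^ N)) = _
      rw [map_pow, hy]
      rfl
    let μ : FreeAbelianGroup (Fin n) →ₗ[ℤ] θ.range :=
      LinearMap.codRestrict _ ((N : ℤ) • LinearMap.id) hmem
    have hμ : Function.Injective μ := by
      intro x y hxy
      have h1 : (N : ℤ) • x = (N : ℤ) • y := congrArg Subtype.val hxy
      exact smul_right_injective _ (by exact_mod_cast hN) h1
    have h2 := LinearMap.finrank_le_finrank_of_injective hμ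
    rwa [Module.finrank_eq_card_basis (FreeAbelianGroup.basis (Fin n)), Fintype.card_fin] at h2
  have hker : Module.finrank ℤ θ.ker ≤ rels.card - n := by
    have := Submodule.finrank_quotient_add_finrank θ.ker
    rw [θ.quotKerEquivRange.finrank_eq] at this
    rw [Module.finrank_fintype_fun_eq_card, Fintype.card_coe] at this
    omega
  let κ : Multiplicative θ.ker →* H80.Hopf π := MonoidHom.mk'
    (fun w => (⟨(Additive.toMul (ψ (Multiplicative.toAdd w).1)).1,
      (Additive.toMul (ψ (Multiplicative.toAdd w).1)).2, by
        show _ ∈ commutator _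
        rw [← H80.ker_coverAb]
        exact (Multiplicative.toAdd w).2⟩ : H80.stemKer (H80.coverMap π)))
    (fun a b => Subtype.ext (by
      show (Additive.toMul (ψ ((Multiplicative.toAdd a).1 + (Multiplicative.toAdd b).1))).1 = _
      rw [map_add]; rfl))
  have hκ : Function.Surjective κ := by
    intro z
    obtain ⟨w, hw⟩ := hψ (Additive.ofMul ⟨z.1, z.2.1⟩)
    refine ⟨Multiplicative.ofAdd ⟨w, ?_⟩, Subtype.ext ?_⟩
    · show α (ψ w) = 0
      rw [hw]
      have := z.2.2
      change _ ∈ commutator _ at this
      rw [← H80.ker_coverAb] at this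
      exact this
    · show (Additive.toMul (ψ w)).1 = z.1
      rw [hw]; rfl
  let b := Module.finBasis ℤ θ.ker
  let f := e.symm.toMonoidHom.comp κ
  have hf : Function.Surjective f := e.symm.surjective.comp hκ
  refine le_trans (Group.rank_le (S := Finset.univ.image fun i => f (Multiplicative.ofAdd (b i))) ?_)
    (Finset.card_image_le.trans (by simpa using hker))
  rw [eq_top_iff]
  intro a _
  obtain ⟨w, rfl⟩ := hf a
  have : w = ∏ i, Multiplicative.ofAdd (b i) ^ (b.repr (Multiplicative.toAdd w) i) := by
    apply Multiplicative.toAdd.injective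
    rw [toAdd_prod]
    simp
  rw [this, map_prod]
  refine Subgroup.prod_mem _ (fun i _ => ?_)
  rw [map_zpow]
  exact zpow_mem (subset_closure (by simp)) _

end Cfsg.Agent.S3973
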