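import Cfsg.Statements.S3974
import Cfsg.Agent.H80.SchurPerfect

set_option autoImplicit false
universe u v
open Cfsg

namespace Cfsg.Agent.S3974

open Subgroup H80

theorem split_lemma {P Γ : Type*} [Group P] [Group Γ] {φ : P →* Γ} (hφ : IsCentralExt φ)
    (h0 : stemKer φ = ⊥) {m n : ℕ} (hmn : Nat.Coprime m n) (hm : ∀ g : Γ, g ^ m ∈ commutator Γ)
    (hn : ∀ u ∈ φ.ker, u ^ n = 1) :
    Function.Bijective (φ.comp ((powMonoidHom m).comp (Abelianization.of (G := P))).ker.subtype) := by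
  have hmem : ∀ w : P, w ∈ ((powMonoidHom m).comp (Abelianization.of (G := P))).ker ↔
      w ^ m ∈ commutator P := fun w => by
    rw [← Abelianization.ker_of, MonoidHom.mem_ker, MonoidHom.mem_ker, map_pow]; rfl
  constructor
  · rw [injective_iff_map_eq_one]
    intro w hw
    have h1 : φ w = 1 := hw
    have h2 : (w : P) ^ m ∈ stemKer φ := ⟨by
      show φ (w ^ m) = 1
      rw [map_pow, h1, one_pow], (hmem _).1 w.2⟩
    rw [h0, mem_bot] at h2
    exact Subtype.ext (eq_one_of_pow_coprime h2 (hn _ h1) hmn)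
  · intro g
    obtain ⟨w, rfl⟩ := hφ.surj g
    have h1 : (commutator P).map φ = commutator Γ := by
      rw [map_commutator_eq, MonoidHom.range_eq_top_of_surjective _ hφ.surj]; rfl
    have h2 := hm (φ w)
    rw [← h1] at h2
    obtain ⟨c, hc, hc'⟩ := h2
    have h3 : c⁻¹ * w ^ m ∈ φ.ker := by simp [MonoidHom.mem_ker, hc']
    obtain ⟨k, hk⟩ := exists_pow_eq_self_of_coprime (x := c⁻¹ * w ^ m)
      (hmn.coprime_dvd_right (orderOf_dvd_of_pow_eq_one (hn _ h3)))
    have h4 : (c⁻¹ * w ^ m) ^ k ∈ φ.ker := pow_mem h3 k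
    refine ⟨⟨w * ((c⁻¹ * w ^ m) ^ k)⁻¹, (hmem _).2 ?_⟩, ?_⟩
    · have h5 : Commute w ((c⁻¹ * w ^ m) ^ k)⁻¹ :=
        mem_center_iff.1 (hφ.central (inv_mem h4)) w
      rw [h5.mul_pow, inv_pow, ← pow_mul, mul_comm k m, pow_mul, hk]
      simpa using hc
    · show φ (w * ((c⁻¹ * w ^ m) ^ k)⁻¹) = φ w
      rw [map_mul, map_inv, show φ ((c⁻¹ * w ^ m) ^ k) = 1 from h4, inv_one, mul_one]

theorem pow_mem_commutator {Q Γ : Type*} [Group Q] [Group Γ] {σ : Γ →* Q}
    (hσ : Cfsg.IsStemExtension σ) {g : Γ} (hg : σ g ∈ commutator Q) : g ∈ commutator Γ := by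
  have h1 : (commutator Γ).map σ = commutator Q := by
    rw [map_commutator_eq, MonoidHom.range_eq_top_of_surjective _ hσ.1]; rfl
  rw [← h1] at hg
  obtain ⟨c, hc, hc'⟩ := hg
  have h2 : c⁻¹ * g ∈ commutator Γ := hσ.2.2 (by simp [MonoidHom.mem_ker, hc'])
  simpa using mul_mem hc h2

/-- Let `Q` be a finite group with Schur multiplier `A`. Any two Schur covering groups of `Q` (finite stem extensions `σ₁ : Γ₁ →* Q`, `σ₂ : Γ₂ →* Q` with kernels isomorphic to `A`, `Γ₁, Γ₂` in the universe of `Q`) are isomorphic over `Q` — there is a group isomorphism `e : Γ₁ ≃* Γ₂` with `σ₂ ∘ e = σ₁` — if and only if the order of the commutator quotient of `Q` is coprime to the order of `A`. In particular a finite perfect group has a unique Schur covering group up to isomorphism over it. -/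
theorem result {Q : Type u} [Group Q] [Finite Q] {A : Type v} [CommGroup A] (hA : Cfsg.HasSchurMultiplier Q A) : (∀ (Γ₁ Γ₂ : Type u) [Group Γ₁] [Finite Γ₁] [Group Γ₂] [Finite Γ₂] (σ₁ : Γ₁ →* Q) (σ₂ : Γ₂ →* Q), Cfsg.IsStemExtension σ₁ → Cfsg.IsStemExtension σ₂ → Nonempty (σ₁.ker ≃* A) → Nonempty (σ₂.ker ≃* A) → ∃ e : Γ₁ ≃* Γ₂, σ₂.comp e.toMonoidHom = σ₁) ↔ Nat.Coprime (Nat.card (Abelianization Q)) (Nat.card A) := by
  have := finite_of_hasSchurMultiplier hA
  constructor
  · intro h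
    by_contra hne
    obtain ⟨p, hp, hp1, hp2⟩ := Nat.Prime.not_coprime_iff_dvd.1 hne
    obtain ⟨⟨Γ₁, _, _, σ₁, hσ₁, ⟨e₁⟩⟩, -⟩ := id hA
    classical
    obtain ⟨ι, _, n, hn, ⟨ε⟩⟩ := CommGroup.equiv_prod_multiplicative_zmod_of_finite
      (Abelianization Q)
    rw [Nat.card_congr ε.toEquiv, Nat.card_pi] at hp1
    obtain ⟨i, -, hi⟩ := (hp.prime.dvd_finsetProd_iff _).1 hp1
    have hi' : p ∣ n i := by
      rwa [Nat.card_congr Multiplicative.toAdd, Nat.card_zmod] at hi
    let ψ : Q →* Multiplicative (ZMod (n i)) :=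
      ((Pi.evalMonoidHom _ i).comp ε.toMonoidHom).comp Abelianization.of
    obtain ⟨x, hx⟩ : ∃ x : Q, Abelianization.of x =
        ε.symm (Pi.mulSingle i (Multiplicative.ofAdd 1)) := QuotientGroup.mk_surjective _
    have hx1 : ψ x = Multiplicative.ofAdd 1 := by simp [ψ, hx]
    have hx2 : x ^ n i ∈ commutator Q := by
      rw [← Abelianization.ker_of, MonoidHom.mem_ker, map_pow, hx, ← map_pow, ← Pi.mulSingle_pow,
        ← ofAdd_nsmul]
      simp
    obtain ⟨m, hm⟩ : ∃ m : σ₁.ker, ∀ a : σ₁.ker, a ^ p ≠ m := by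
      by_contra hcon
      push Not at hcon
      have h1 : Function.Surjective (fun a : σ₁.ker => a ^ p) := hcon
      have h2 := Finite.injective_iff_surjective.2 h1
      have : Fact p.Prime := ⟨hp⟩
      obtain ⟨a, ha⟩ := exists_prime_orderOf_dvd_card' (G := σ₁.ker) p
        (by rwa [Nat.card_congr e₁.toEquiv])
      have h3 : a = 1 := h2 (by simp [← ha])
      rw [h3, orderOf_one] at ha
      exact hp.one_lt.ne ha
    let c : Multiplicative ℤ →* Multiplicative (ZMod (n i)) :=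
      AddMonoidHom.toMultiplicative (Int.castAddHom (ZMod (n i)))
    have hc : Function.Surjective c := ZMod.intCast_surjective
    have hcc : IsCentralExt c := ⟨hc, by rw [CommGroup.center_eq_top]; exact le_top⟩
    let P := pullback (ψ.comp σ₁) c
    have hP := hcc.pullbackFst (ψ.comp σ₁)
    let ξ : P →* Q := σ₁.comp (pullbackFst _ _)
    have hξ : IsCentralExt ξ := by
      refine ⟨hσ₁.1.comp hP.surj, fun y hy => ?_⟩
      rw [mem_center_iff]
      intro g
      exact Subtype.ext (Prod.ext (mem_center_iff.1 (hσ₁.2.1 hy) _) (mul_comm _ _))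
    have hsnd : ∀ y : P, y ∈ commutator P → y.1.2 = 1 := fun y hy =>
      Abelianization.commutator_subset_ker (pullbackSnd (ψ.comp σ₁) c) hy
    have hcomm : ∀ y : P, y.1.1 ∈ commutator Γ₁ → y.1.2 = 1 → y ∈ commutator P := by
      intro y h1 h2
      have h3 : (commutator P).map (pullbackFst _ _) = commutator Γ₁ := by
        rw [map_commutator_eq, MonoidHom.range_eq_top_of_surjective _ hP.surj]; rfl
      rw [← h3] at h1
      obtain ⟨y', hy', hy''⟩ := h1
      have : y' = y := Subtype.ext (Prod.ext hy'' ((hsnd y' hy').trans h2.symm))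
      rwa [← this]
    let w : P := ⟨(m, Multiplicative.ofAdd (n i : ℤ)), by
      show ψ (σ₁ m) = c _
      rw [show σ₁ m = 1 from m.2, map_one]
      simp [c]⟩
    have hK : zpowers w ≤ ξ.ker := by rw [zpowers_le]; exact m.2
    have : (zpowers w).Normal := normal_of_le_center (hK.trans hξ.central)
    have hK' : ξ.ker ≤ zpowers w ⊔ stemKer ξ := by
      intro y hy
      have h1 : σ₁ y.1.1 = 1 := hy
      have h2 : ψ (σ₁ y.1.1) = c y.1.2 := y.2
      rw [h1, map_one] at h2
      have h3 : ((Multiplicative.toAdd y.1.2 : ℤ) : ZMod (n i)) = 0 := h2.symm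
      obtain ⟨j, hj⟩ := (ZMod.intCast_zmod_eq_zero_iff_dvd _ _).1 h3
      have h4 : y = w ^ j * ((w ^ j)⁻¹ * y) := by simp
      have h5 : (w ^ j)⁻¹ * y ∈ ξ.ker := mul_mem (inv_mem (hK (zpow_mem_zpowers w j))) hy
      rw [h4]
      refine Subgroup.mul_mem_sup (zpow_mem_zpowers w j) ⟨h5, hcomm _ (hσ₁.2.2 h5) ?_⟩
      apply Multiplicative.toAdd.injective
      simp [w, hj, mul_comm]
    have hK'' : zpowers w ⊓ commutator P = ⊥ := by
      rw [eq_bot_iff]
      rintro _ ⟨⟨j, rfl⟩, hj⟩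
      have h1 := congrArg Multiplicative.toAdd (hsnd _ hj)
      have h2 : j = 0 := by
        have := hn i
        simp [w] at h1
        omega
      simp [h2]
    have hst := isStemExtension_quotient hξ _ hK hK'
    obtain ⟨e₂⟩ := nonempty_stemKer_equiv_quotient hξ _ hK hK' hK''
    have := finite_of_stem hst
    let f := stemMap (σ := ξ) (ξ := σ₁) (pullbackFst _ _) rfl
    have hf : Function.Bijective f := by
      refine ⟨?_, stemMap_surjective hξ.surj hσ₁.2.1 _ _⟩
      rw [injective_iff_map_eq_one]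
      intro y hy
      exact Subtype.ext (Subtype.ext (Prod.ext (congrArg Subtype.val hy) (hsnd _ y.2.2)))
    obtain ⟨e, he⟩ := h Γ₁ (P ⧸ zpowers w) σ₁ _ hσ₁ hst ⟨e₁⟩
      ⟨e₂.symm.trans ((MulEquiv.ofBijective f hf).trans
        ((MulEquiv.subgroupCongr (stemKer_eq_ker_of_stem hσ₁)).trans e₁))⟩
    have hcomp : (QuotientGroup.lift _ ξ hK).comp (e.toMonoidHom.comp (pullbackFst _ _)) =
        (QuotientGroup.lift _ ξ hK).comp (QuotientGroup.mk' _) := by
      rw [← MonoidHom.comp_assoc, he]; rfl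
    let μ := liftDiff hst.2.1 _ _ hcomp
    have hμ : ∀ y ∈ commutator P, μ y = 1 := fun y hy => Subtype.ext (by
      rw [liftDiff_apply, eq_on_commutator hst.2.1 hcomp hy]; simp)
    obtain ⟨x', hx'⟩ := hσ₁.1 x
    let y : P := ⟨(x', Multiplicative.ofAdd 1), by
      show ψ (σ₁ x') = c _
      rw [hx', hx1]; simp [c]⟩
    have h1 : y ^ n i * w⁻¹ ∈ commutator P := by
      apply hcomm
      · apply pow_mem_commutator hσ₁
        simpa [y, w, hx', show σ₁ m = 1 from m.2] using hx2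
      · apply Multiplicative.toAdd.injective
        simp [y, w]
    have h2 := hμ _ h1
    rw [map_mul, map_inv, mul_inv_eq_one, map_pow] at h2
    have h3 : (μ w : P ⧸ zpowers w) = e m := by
      rw [liftDiff_apply, QuotientGroup.mk'_apply, (QuotientGroup.eq_one_iff w).2 (mem_zpowers w)]
      simp [w, pullbackFst_apply]
    have h4 : σ₁ (e.symm (μ y)) = 1 := by
      rw [← DFunLike.congr_fun he (e.symm (μ y))]
      simp only [MonoidHom.comp_apply, MulEquiv.coe_toMonoidHom, MulEquiv.apply_symm_apply]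
      exact (μ y).2
    obtain ⟨k, hk⟩ := hi'
    apply hm (⟨_, h4⟩ ^ k)
    apply Subtype.ext
    apply e.injective
    rw [← h3, ← h2, ← pow_mul, mul_comm, ← hk]
    simp
  · intro hco Γ₁ Γ₂ _ _ _ _ σ₁ σ₂ hσ₁ hσ₂ ⟨e₁⟩ ⟨e₂⟩
    have hξ := (IsCentralExt.of_stem hσ₁).pullback (IsCentralExt.of_stem hσ₂)
    obtain ⟨g, hg⟩ := exists_surjective_stemKer hA hξ
    have : Finite (stemKer (σ₁.comp (pullbackFst σ₁ σ₂))) := Finite.of_surjective g hg
    let f₁ := stemMap (σ := σ₁.comp (pullbackFst σ₁ σ₂)) (pullbackFst σ₁ σ₂) rfl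
    let f₂ := stemMap (σ := σ₁.comp (pullbackFst σ₁ σ₂)) (pullbackSnd σ₁ σ₂)
      (pullback_comm σ₁ σ₂).symm
    let e₁' := (MulEquiv.subgroupCongr (stemKer_eq_ker_of_stem hσ₁)).trans e₁
    let e₂' := (MulEquiv.subgroupCongr (stemKer_eq_ker_of_stem hσ₂)).trans e₂
    have hf₁ := (nonempty_mulEquiv_of_surjective f₁ (stemMap_surjective hξ.surj hσ₁.2.1 _ _)
      (g.comp e₁'.toMonoidHom) (hg.comp e₁'.surjective)).1
    have hf₂ := (nonempty_mulEquiv_of_surjective f₂ (stemMap_surjective hξ.surj hσ₂.2.1 _ _)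
      (g.comp e₂'.toMonoidHom) (hg.comp e₂'.surjective)).1
    have hP₁ := (IsCentralExt.of_stem hσ₂).pullbackFst σ₁
    have hP₂ : IsCentralExt (pullbackSnd σ₁ σ₂) := by
      refine ⟨pullbackSnd_surjective hσ₁.1 _, fun y hy => hξ.central ?_⟩
      have h1 : σ₁ y.1.1 = σ₂ y.1.2 := y.2
      show σ₁ y.1.1 = 1
      rw [h1, show y.1.2 = 1 from hy, map_one]
    have hab : ∀ q : Q, q ^ Nat.card (Abelianization Q) ∈ commutator Q := fun q => by
      rw [← Abelianization.ker_of, MonoidHom.mem_ker, map_pow]; exact pow_card_eq_one'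
    have hb₁ := split_lemma hP₁ (by
        rw [eq_bot_iff]
        intro y hy
        have h1 : y ∈ stemKer (σ₁.comp (pullbackFst σ₁ σ₂)) := ⟨by
          show σ₁ (pullbackFst σ₁ σ₂ y) = 1
          rw [show pullbackFst σ₁ σ₂ y = 1 from hy.1, map_one], hy.2⟩
        exact congrArg Subtype.val ((injective_iff_map_eq_one f₁).1 hf₁ ⟨y, h1⟩ (Subtype.ext hy.1)))
      hco (fun g => pow_mem_commutator hσ₁ (by rw [map_pow]; exact hab _)) (fun u hu => by
        have h1 : u.1.1 = 1 := hu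
        have h2 : σ₂ u.1.2 = 1 := by
          have : σ₁ u.1.1 = σ₂ u.1.2 := u.2
          rw [← this, h1, map_one]
        have h3 : (⟨u.1.2, h2⟩ : σ₂.ker) ^ Nat.card A = 1 := by
          rw [← Nat.card_congr e₂.toEquiv]; exact pow_card_eq_one'
        exact Subtype.ext (Prod.ext (by simp [h1]) (congrArg Subtype.val h3)))
    have hb₂ := split_lemma hP₂ (by
        rw [eq_bot_iff]
        intro y hy
        have h1 : y ∈ stemKer (σ₁.comp (pullbackFst σ₁ σ₂)) := ⟨by
          have h1 : σ₁ y.1.1 = σ₂ y.1.2 := y.2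
          show σ₁ y.1.1 = 1
          rw [h1, show y.1.2 = 1 from hy.1, map_one], hy.2⟩
        exact congrArg Subtype.val ((injective_iff_map_eq_one f₂).1 hf₂ ⟨y, h1⟩ (Subtype.ext hy.1)))
      hco (fun g => pow_mem_commutator hσ₂ (by rw [map_pow]; exact hab _)) (fun u hu => by
        have h1 : u.1.2 = 1 := hu
        have h2 : σ₁ u.1.1 = 1 := by
          have : σ₁ u.1.1 = σ₂ u.1.2 := u.2
          rw [this, h1, map_one]
        have h3 : (⟨u.1.1, h2⟩ : σ₁.ker) ^ Nat.card A = 1 := by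
          rw [← Nat.card_congr e₁.toEquiv]; exact pow_card_eq_one'
        exact Subtype.ext (Prod.ext (congrArg Subtype.val h3) (by simp [h1])))
    refine ⟨(MulEquiv.ofBijective _ hb₁).symm.trans (MulEquiv.ofBijective _ hb₂), ?_⟩
    ext g
    obtain ⟨y, rfl⟩ := (MulEquiv.ofBijective _ hb₁).surjective g
    simp only [MonoidHom.comp_apply, MulEquiv.coe_toMonoidHom, MulEquiv.trans_apply,
      MulEquiv.symm_apply_apply]
    exact Eq.symm y.1.2

end Cfsg.Agent.S3974
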