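import Cfsg.Statements.S3976
import Cfsg.Agent.H1.SubCount

set_option autoImplicit false
open Cfsg

namespace Cfsg.Agent.S3976

/-- Let `p` be a prime and `G` a group of order `p ^ m`. For every `s ≤ m` the number of normal subgroups of `G` of order `p ^ s` is congruent to `1` modulo `p`. -/
theorem result {G : Type*} [Group G] [Finite G] (p m s : ℕ) (hp : p.Prime) (hG : Nat.card G = p ^ m) (hs : s ≤ m) : Nat.card {H : Subgroup G // H.Normal ∧ Nat.card H = p ^ s} ≡ 1 [MOD p] := by
  have hGp : IsPGroup p (⊤ : Subgroup G) := (IsPGroup.of_card hG).to_subgroup _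
  have := H1.card_normalized_modEq_one hp hGp hGp Subgroup.le_normalizer (k := s)
    (by rw [Subgroup.card_top, hG]; exact pow_dvd_pow p hs)
  rwa [H1.card_subtype_congr (q := fun H : Subgroup G => H.Normal ∧ Nat.card H = p ^ s) fun H =>
    ⟨fun h => ⟨H1.normal_of_top_le_normalizer h.2, h.1.1⟩,
      fun h => ⟨⟨h.2, le_top⟩, by have := h.1; exact Subgroup.le_normalizer_of_normal⟩⟩] at this

end Cfsg.Agent.S3976
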