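import Cfsg.Statements.S3977
import Cfsg.Agent.H1.Miller

set_option autoImplicit false
open Cfsg

namespace Cfsg.Agent.S3977

/-- Let `p` be a prime and `G` a group of order `p ^ m` which has exactly one subgroup of order `p ^ s`, where `1 ≤ s < m`, and where `s ≥ 2` if `p = 2`. Then `G` is cyclic. (For `p = 2` and `s = 1` the generalized quaternion groups also occur; that case is the classical criterion for a unique involution.) -/
theorem result {G : Type*} [Group G] [Finite G] (p m s : ℕ) (hp : p.Prime) (hG : Nat.card G = p ^ m) (hs : 1 ≤ s) (hsm : s < m) (h2 : p ≠ 2 ∨ 2 ≤ s) (huniq : ∀ H K : Subgroup G, Nat.card H = p ^ s → Nat.card K = p ^ s → H = K) : IsCyclic G := by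
  have : Fact p.Prime := ⟨hp⟩
  by_contra hc
  obtain ⟨U, hU⟩ := Sylow.exists_subgroup_card_pow_prime (G := G) p (n := s)
    (hG ▸ pow_dvd_pow p hsm.le)
  by_cases h : p = 2 → Group.nilpotencyClass G ≠ m - 1
  · have h1 := H1.kulakoff hp hG hc h hs hsm
    rw [H1.nSub, H1.card_subtype_eq_one U fun H => ⟨fun h => huniq H U h hU, fun h => h ▸ hU⟩] at h1
    have h3 := (Nat.modEq_iff_dvd' (Nat.le_add_right 1 p)).1 h1
    rw [Nat.add_sub_cancel_left] at h3
    exact absurd (Nat.le_of_dvd hp.pos h3) (by nlinarith [hp.one_lt])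
  push Not at h
  obtain ⟨rfl, h⟩ := h
  have h2 : 2 ≤ s := h2.resolve_left (by simp)
  obtain ⟨n, rfl⟩ : ∃ n, m = n + 2 := ⟨m - 2, by omega⟩
  obtain ⟨a, b, hab⟩ := H9.exists_MC_of_maxClass (by omega) hG h
  have key : ∀ w : G, w ∉ Subgroup.zpowers a → w ∈ U := by
    intro w hw
    have h4 : orderOf w ∣ 2 ^ 2 :=
      orderOf_dvd_of_pow_eq_one (hab.of_mem (Subgroup.mem_top w) hw).b_pow_four
    obtain ⟨k, hk, e⟩ := (Nat.dvd_prime_pow hp).1 h4
    obtain ⟨K, hK, hle⟩ := Sylow.exists_subgroup_card_pow_prime_le 2 (hG ▸ pow_dvd_pow 2 hsm.le)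
      (Subgroup.zpowers w) (by rw [Nat.card_zpowers, e]) (hk.trans h2)
    exact huniq K U hK hU ▸ hle (Subgroup.mem_zpowers w)
  have hU' : U = ⊤ := by
    rw [eq_top_iff]
    intro g _
    by_cases hg : g ∈ Subgroup.zpowers a
    · have h1 := key (g * b) fun h => hab.not_mem ((Subgroup.mul_mem_cancel_left _ hg).1 h)
      exact (U.mul_mem_cancel_right (key b hab.not_mem)).1 h1
    · exact key g hg
  rw [hU', Subgroup.card_top, hG] at hU
  exact hsm.ne' (Nat.pow_right_injective le_rfl hU)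

end Cfsg.Agent.S3977
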