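import Cfsg.Statements.S3978
import Cfsg.Agent.H80.SchurProj

set_option autoImplicit false
open Cfsg

namespace Cfsg.Agent.S3978

/-- A finite group `Q` has trivial Schur multiplier if and only if, for every `n`, every homomorphism from `Q` to the projective general linear group (the quotient of `GL n ℂ` by its centre) lifts to a homomorphism into `GL n ℂ`. -/
theorem result {Q : Type*} [Group Q] [Finite Q] : Cfsg.HasCyclicSchurMultiplier Q 1 ↔ ∀ (n : ℕ) (γ : Q →* (GL (Fin n) ℂ ⧸ Subgroup.center (GL (Fin n) ℂ))), ∃ ρ : Q →* GL (Fin n) ℂ, (QuotientGroup.mk' (Subgroup.center (GL (Fin n) ℂ))).comp ρ = γ := by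
  constructor
  · intro h n γ
    have := H80.subsingleton_mult_zmod_one
    have : Subsingleton (MonoidHom.id Q).ker := by
      rw [MonoidHom.ker_id]; infer_instance
    have : Unique (MonoidHom.id Q).ker := uniqueOfSubsingleton 1
    have : Unique (Multiplicative (ZMod 1)) := uniqueOfSubsingleton 1
    exact H80.exists_lift_of_schur_cover h (H80.isStemExtension_id Q) MulEquiv.ofUnique
      (H80.isCentralExt_mk_center _) (H80.center_gl_divisible n) γ
  · intro h
    rw [H80.hasCyclicSchurMultiplier_one_iff]
    intro Γ _ _ τ hτ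
    obtain ⟨π, hπ⟩ := H80.exists_surjective_of_lifts
      (H80.IsCentralExt.of_stem (H80.isStemExtension_id Q)) h hτ
    have : Subsingleton (H80.stemKer (MonoidHom.id Q)) := by
      rw [H80.stemKer_eq_ker_of_stem (H80.isStemExtension_id Q), MonoidHom.ker_id]
      infer_instance
    have : Subsingleton τ.ker := hπ.subsingleton
    exact Subgroup.eq_bot_of_subsingleton _

end Cfsg.Agent.S3978
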