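import Cfsg.Statements.S3979
import Cfsg.Agent.H80.SchurPerfect

set_option autoImplicit false
open Cfsg

namespace Cfsg.Agent.S3979

/-- A finite cyclic group has trivial Schur multiplier: every finite stem extension of it is an isomorphism, said through `HasCyclicSchurMultiplier G 1`. -/
theorem result {G : Type*} [Group G] [Finite G] [IsCyclic G] : Cfsg.HasCyclicSchurMultiplier G 1 := by
  rw [H80.hasCyclicSchurMultiplier_one_iff]
  intro Γ _ _ σ hσ
  rw [← H80.stemKer_eq_ker_of_stem hσ]
  exact H80.stemKer_eq_bot_of_isCyclic hσ.2.1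

end Cfsg.Agent.S3979
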