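import Cfsg.Statements.S3994
import Cfsg.Agent.H1.FrobCount

set_option autoImplicit false
open Cfsg

namespace Cfsg.Agent.S3994

theorem coprime_div_gcd {g n : ℕ} (hg : 0 < g) : (g / Nat.gcd g (n ^ g)).Coprime n := by
  rw [Nat.coprime_iff_gcd_eq_one, Nat.eq_one_iff_not_exists_prime_dvd]
  intro p hp hd
  have h1 : p ∣ g / Nat.gcd g (n ^ g) := hd.trans (Nat.gcd_dvd_left _ _)
  have h2 : p ∣ n := hd.trans (Nat.gcd_dvd_right _ _)
  obtain ⟨k, g', hg', e⟩ := Nat.exists_eq_pow_mul_and_not_dvd hg.ne' p hp.ne_one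
  have hk : k ≤ g := (Nat.lt_pow_self hp.one_lt).le.trans (Nat.le_of_dvd hg ⟨g', e⟩)
  have h3 : p ^ k ∣ Nat.gcd g (n ^ g) :=
    Nat.dvd_gcd ⟨g', e⟩ ((pow_dvd_pow p hk).trans (pow_dvd_pow_of_dvd h2 g))
  have h4 : p ^ k * p ∣ g := by
    rw [← Nat.mul_div_cancel' (Nat.gcd_dvd_left g (n ^ g))]
    exact Nat.mul_dvd_mul h3 h1
  rw [e] at h4
  exact hg' (Nat.dvd_of_mul_dvd_mul_left (pow_pos hp.pos k) h4)

/-- Let G be a finite group and n a positive integer. The number of elements of G whose order is divisible by n is either 0 or divisible by the largest divisor of the order of G that is coprime to n. -/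
theorem result {G : Type*} [Group G] [Finite G] (n : ℕ) (hn : 0 < n) :
    Nat.card {g : G // n ∣ orderOf g} = 0 ∨
      (Nat.card G / Nat.gcd (Nat.card G) (n ^ Nat.card G)) ∣ Nat.card {g : G // n ∣ orderOf g} := by
  right
  have hc := coprime_div_gcd (n := n) (Nat.card_pos (α := G))
  set m := Nat.card G / Nat.gcd (Nat.card G) (n ^ Nat.card G)
  have := H1.dvd_card_pow_mem (G := G) (m := m) dvd_rfl (Nat.div_dvd_of_dvd (Nat.gcd_dvd_left _ _))
    (fun t => n ∣ orderOf t) (fun h t ht => by rwa [← MulAut.conj_apply, MulEquiv.orderOf_eq])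
  refine this.trans (dvd_of_eq (Nat.card_congr (Equiv.subtypeEquivRight fun x => ?_)))
  refine ⟨fun h => h.trans (orderOf_pow_dvd m), fun h => ?_⟩
  refine hc.symm.dvd_of_dvd_mul_left (h.trans ?_)
  exact orderOf_dvd_of_pow_eq_one (by rw [pow_mul, pow_orderOf_eq_one])

end Cfsg.Agent.S3994
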