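import Cfsg.Statements.S3995
import Cfsg.Agent.H92.OrdCount
import Cfsg.Agent.H87.Quat

set_option autoImplicit false
open Cfsg

namespace Cfsg.Agent.S3995

open Subgroup Cfsg.Agent.H92

theorem ord_eq {G : Type*} [Group G] [Finite G] {p : ℕ} (hp : p.Prime) (h0 : so G (p ^ 2) = 0)
    {P : Subgroup G} (hP : IsPGroup p P) {x : G} (hx : x ∈ P) (h1 : x ≠ 1) : orderOf x = p := by
  haveI := Fact.mk hp
  obtain ⟨k, hk⟩ := orderOf_eq_pow_of_mem hP hx
  rcases k with _ | _ | k
  · exact absurd (orderOf_eq_one_iff.1 hk) h1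
  · simpa using hk
  · exact absurd (so_eq_zero_of_dvd h0 (hk ▸ pow_dvd_pow p (by omega))) (so_orderOf_ne_zero x)

theorem pgroup_of {G : Type*} [Group G] [Finite G] {p : ℕ} (hp : p.Prime)
    (h : ∀ r : ℕ, r.Prime → r ∣ Nat.card G → r = p) : IsPGroup p G := by
  haveI := Fact.mk hp
  exact IsPGroup.iff_card.2 ((eq_pow_iff_forall hp Nat.card_pos.ne').2 h)

theorem case1 {G : Type*} [Group G] [Finite G] {p : ℕ} (hp : p.Prime) (h0 : so G (p ^ 2) = 0)
    (h : ∀ r : ℕ, r.Prime → r ∣ Nat.card G → r = p) (h3 : 3 ≤ Nat.card G) :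
    ∃ p : ℕ, p.Prime ∧ IsPGroup p G ∧ 3 ≤ Nat.card G ∧ Monoid.exponent G = p := by
  haveI : Nontrivial G := Finite.one_lt_card_iff_nontrivial.1 (by omega)
  refine ⟨p, hp, pgroup_of hp h, h3, (Monoid.exponent_eq_prime_iff hp).2 fun g hg => ?_⟩
  exact ord_eq hp h0 (P := ⊤) ((pgroup_of hp h).to_subgroup ⊤) trivial hg

/-- Let G be a finite group such that the numbers of elements of each order that occurs in G (the numbers #{g : o(g) = m}, m ranging over the element orders of G) take exactly two values, 1 and some n ≠ 1. Then either G is a p-group of exponent p and order at least 3 for some prime p, or G is the quaternion group of order 8, or G is cyclic of order 4, or G ≅ Z₂ × P for a p-group P of exponent p with p an odd prime. -/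
theorem result {G : Type*} [Group G] [Finite G] (n : ℕ) (hn : n ≠ 1) (h : ((fun m : ℕ => Nat.card {g : G // orderOf g = m}) '' Set.range (orderOf : G → ℕ)) = {1, n}) :
    (∃ p : ℕ, p.Prime ∧ IsPGroup p G ∧ 3 ≤ Nat.card G ∧ Monoid.exponent G = p) ∨
      Nonempty (G ≃* QuaternionGroup 2) ∨ (IsCyclic G ∧ Nat.card G = 4) ∨
      (∃ (p : ℕ) (P : Type) (_ : Group P) (_ : Finite P), p.Prime ∧ p ≠ 2 ∧ IsPGroup p P ∧ Monoid.exponent P = p ∧
        Nonempty (G ≃* Multiplicative (ZMod 2) × P)) := by
  have hv : ∀ m : ℕ, so G m = 0 ∨ so G m = 1 ∨ so G m = n := fun m => by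
    by_cases h0 : so G m = 0
    · exact Or.inl h0
    · obtain ⟨g, hg⟩ := so_ne_zero_iff.1 h0
      have : so G m ∈ ({1, n} : Set ℕ) := h ▸ ⟨m, ⟨g, hg⟩, rfl⟩
      exact Or.inr this
  obtain ⟨m₀, ⟨g₀, hg₀⟩, hm₀⟩ : n ∈ ((fun m : ℕ => Nat.card {g : G // orderOf g = m}) ''
      Set.range (orderOf : G → ℕ)) := by rw [h]; simp
  replace hm₀ : so G m₀ = n := hm₀
  have hn0 : n ≠ 0 := by rw [← hm₀, ← hg₀]; exact so_orderOf_ne_zero g₀
  have hv2 : ∀ m : ℕ, 2 < m → so G m = 0 ∨ so G m = n := fun m hm => by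
    have := hv m
    have := two_dvd_so (G := G) hm
    omega
  have hm1 : m₀ ≠ 1 := by rintro rfl; rw [so_one] at hm₀; exact hn hm₀.symm
  have hm0 : m₀ ≠ 0 := hg₀ ▸ (orderOf_pos g₀).ne'
  have hcard : 1 + n ≤ Nat.card G := by
    have hsub : ({1, m₀} : Finset ℕ) ⊆ (Nat.card G).divisors := by
      intro x hx
      simp only [Finset.mem_insert, Finset.mem_singleton] at hx
      rw [Nat.mem_divisors]
      refine ⟨?_, Nat.card_pos.ne'⟩
      rcases hx with rfl | rfl
      · exact one_dvd _
      · exact hg₀ ▸ orderOf_dvd_natCard g₀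
    have h5 := Finset.sum_le_sum_of_subset (f := so G) hsub
    rwa [sum_so_card, Finset.sum_insert (by simpa using hm1.symm), Finset.sum_singleton, so_one,
      hm₀] at h5
  have h3 : 3 ≤ Nat.card G := by omega
  by_cases h2n : so G 2 = n
  · have h4 := frob_p Nat.prime_two (dvd_card_of_so_ne_zero (G := G) (by omega))
    have hz : ∀ m, 2 < m → so G m = 0 := fun m hm => by
      have := hv2 m hm
      have := two_dvd_so (G := G) hm
      omega
    refine Or.inl (case1 Nat.prime_two (hz _ (by norm_num)) (fun r hr hd => ?_) h3)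
    by_contra hr2
    exact so_ne_zero_of_prime hr hd (hz r (two_lt_of_prime hr hr2))
  have huniq : ∀ p q : ℕ, p.Prime → q.Prime → p ≠ 2 → q ≠ 2 → p ∣ Nat.card G → q ∣ Nat.card G →
      p = q := fun p q hp hq hp2 hq2 => eq_of_so_const (fun m hm _ => hv2 m hm) hp hq hp2 hq2
  have hodd : ∀ p : ℕ, p.Prime → p ≠ 2 → p ∣ Nat.card G → so G p = n ∧ so G (p ^ 2) = 0 := by
    intro p hp hp2 hd
    have hp3 := two_lt_of_prime hp hp2
    have e := (hv2 p hp3).resolve_left (so_ne_zero_of_prime hp hd)
    refine ⟨e, (hv2 (p ^ 2) (by nlinarith)).resolve_right fun e' => ?_⟩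
    have f1 := zm_of_dvd (frob_p hp hd)
    have f2 := zm_of_dvd (prime_dvd_so_of_sq_dvd (G := G) hp dvd_rfl)
    rw [e] at f1
    rw [e'] at f2
    push_cast at f1
    exact zm_one_ne hp (by linear_combination f1 - f2)
  by_cases h2 : 2 ∣ Nat.card G
  swap
  · obtain ⟨p, hp, hd⟩ := Nat.exists_prime_and_dvd (n := Nat.card G) (by omega)
    have hp2 : p ≠ 2 := by rintro rfl; exact h2 hd
    exact Or.inl (case1 hp (hodd p hp hp2 hd).2 (fun r hr hrd =>
      huniq r p hr hp (by rintro rfl; exact h2 hrd) hp2 hrd hd) h3)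
  have h21 : so G 2 = 1 := by
    have := hv 2
    have := so_ne_zero_of_prime Nat.prime_two h2
    omega
  obtain ⟨z, hz, hzu, hzc⟩ := exists_unique_inv h21
  right
  by_cases h4 : 4 ∣ Nat.card G
  · have f4 := frob_four h4
    have e4 : so G 4 = n := by have := hv2 4 (by norm_num); omega
    have e8 : so G 8 = 0 := by
      have h8 : 4 ∣ so G 8 := by
        have := totient_dvd_so (G := G) 8
        rwa [show Nat.totient 8 = 4 by decide] at this
      have := hv2 8 (by norm_num); omega
    have hall : ∀ r : ℕ, r.Prime → r ∣ Nat.card G → r = 2 := by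
      intro p hp hd
      by_contra hp2
      have hp3 := two_lt_of_prime hp hp2
      have e := (hodd p hp hp2 hd).1
      have e' : so G (4 * p) = 0 := by
        have := four_dvd_so (G := G) (by norm_num) hp3 (coprime_four hp hp2) dvd_rfl
        have := hv2 (4 * p) (by omega)
        omega
      have f1 := zm_of_dvd (frob_p hp hd)
      have f2 := zm_of_dvd ((dvd_mul_left p 4).trans (frob_4p hp hp2 h4 hd))
      rw [so_two_mul h21 (hp.odd_of_ne_two hp2), h21, e4, e, e'] at f2
      rw [e] at f1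
      push_cast at f1 f2
      exact zm_one_ne hp (by linear_combination 3 * f1 - f2)
    have hG := pgroup_of Nat.prime_two hall
    have hno8 : ∀ g : G, ¬ 8 ∣ orderOf g := fun g hg =>
      so_orderOf_ne_zero g (so_eq_zero_of_dvd e8 hg)
    rcases H87.isCyclic_or_quaternion_of_inv_unique (Q := ⊤) (hG.to_subgroup ⊤)
      (fun x _ y _ hx hy => (hzu x hx).trans (hzu y hy).symm) with hc | ⟨j, hj, ⟨e⟩⟩
    · right; left
      haveI : IsCyclic G := isCyclic_of_surjective (topEquiv : (⊤ : Subgroup G) ≃* G) topEquiv.surjective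
      refine ⟨inferInstance, ?_⟩
      obtain ⟨g, hg⟩ := IsCyclic.exists_generator (α := G)
      have h8 := hno8 g
      rw [orderOf_eq_card_of_forall_mem_zpowers hg] at h8
      obtain ⟨k, hk⟩ := IsPGroup.iff_card.1 hG
      rw [hk] at h8 h4 ⊢
      rcases k with _ | _ | _ | k
      · norm_num at h4
      · norm_num at h4
      · norm_num
      · exact absurd (show 2 ^ 3 ∣ _ from pow_dvd_pow 2 (by omega)) h8
    · left
      let e' : G ≃* QuaternionGroup (2 ^ j) := topEquiv.symm.trans e
      have h8 := hno8 (e'.symm (QuaternionGroup.a 1))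
      rw [MulEquiv.orderOf_eq, QuaternionGroup.orderOf_a_one] at h8
      rcases j with _ | _ | j
      · omega
      · exact ⟨e'⟩
      · exact absurd (show 2 * 2 ^ 2 ∣ _ from mul_dvd_mul_left 2 (pow_dvd_pow 2 (by omega))) h8
  · right; right
    have hex : ∃ p : ℕ, p.Prime ∧ p ≠ 2 ∧ p ∣ Nat.card G := by
      by_contra hc
      push Not at hc
      obtain ⟨k, hk⟩ := IsPGroup.iff_card.1 (pgroup_of (G := G) Nat.prime_two fun r hr hd => by
        by_contra hr2; exact hc r hr hr2 hd)
      rw [hk] at h3 h4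
      rcases k with _ | _ | k
      · norm_num at h3
      · norm_num at h3
      · exact h4 (show 2 ^ 2 ∣ _ from pow_dvd_pow 2 (by omega))
    obtain ⟨p, hp, hp2, hd⟩ := hex
    haveI := Fact.mk hp
    obtain ⟨P⟩ : Nonempty (Sylow p G) := inferInstance
    have hidx : (P : Subgroup G).index = 2 := by
      obtain ⟨k, hk⟩ := (eq_pow_iff_forall Nat.prime_two (P : Subgroup G).index_ne_zero_of_finite).2
        fun r hr hrd => by
          by_contra hr2
          have := huniq r p hr hp hr2 hp2 (hrd.trans (index_dvd_card _)) hd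
          subst this
          exact P.not_dvd_index hrd
      rcases k with _ | _ | k
      · exfalso
        rw [pow_zero, index_eq_one] at hk
        obtain ⟨j, hj⟩ := IsPGroup.iff_card.1 P.isPGroup'
        rw [hk, card_top] at hj
        rw [hj] at h2
        exact hp2 ((Nat.prime_dvd_prime_iff_eq Nat.prime_two hp).1 (Nat.prime_two.dvd_of_dvd_pow h2)).symm
      · simpa using hk
      · exact absurd ((show 2 ^ 2 ∣ _ from pow_dvd_pow 2 (by omega)).trans (hk ▸ index_dvd_card _)) h4
    have hzA : Nat.card (zpowers z) = 2 := by rw [Nat.card_zpowers, hz]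
    have hdisj : Disjoint (zpowers z) (P : Subgroup G) :=
      IsPGroup.disjoint_of_ne 2 p hp2.symm _ _ (IsPGroup.of_card (n := 1) (by simpa using hzA)) P.isPGroup'
    let f : zpowers z × (P : Subgroup G) →* G := MonoidHom.noncommCoprod (zpowers z).subtype
      (P : Subgroup G).subtype fun a b => (mem_center_iff.1 (zpowers_le.2 hzc a.2) b).symm
    have hf : Function.Bijective f := (Nat.bijective_iff_injective_and_card f).2
      ⟨mul_injective_of_disjoint hdisj, by
        rw [Nat.card_prod, hzA, ← hidx, index_mul_card]⟩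
    let e1 : zpowers z ≃* Multiplicative (ZMod 2) := mulEquivOfPrimeCardEq hzA (by simp)
    let e2 : Shrink.{0} (P : Subgroup G) ≃* (P : Subgroup G) := Shrink.mulEquiv
    haveI : Nontrivial P := (nontrivial_iff_ne_bot _).2 (P.ne_bot_of_dvd_card hd)
    refine ⟨p, Shrink.{0} (P : Subgroup G), inferInstance, Finite.of_equiv _ e2.symm.toEquiv, hp, hp2,
      P.isPGroup'.of_equiv e2.symm, ?_, ⟨(MulEquiv.ofBijective f hf).symm.trans (e1.prodCongr e2.symm)⟩⟩
    rw [Monoid.exponent_eq_of_mulEquiv e2, Monoid.exponent_eq_prime_iff hp]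
    intro g hg
    rw [← Subgroup.orderOf_coe]
    exact ord_eq hp (hodd p hp hp2 hd).2 P.isPGroup' g.2 (fun h => hg (Subtype.ext h))

end Cfsg.Agent.S3995
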