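import Cfsg.Statements.S3996
import Cfsg.Agent.H92.OrdCount
import Cfsg.Agent.S0205
import Cfsg.Agent.H1.TwoPrimes

set_option autoImplicit false
open Cfsg

namespace Cfsg.Agent.S3996

open Subgroup Cfsg.Agent.H92

theorem solv_of_odd_unique {G : Type*} [Group G] [Finite G]
    (h : ∀ p q : ℕ, p.Prime → q.Prime → p ≠ 2 → q ≠ 2 → p ∣ Nat.card G → q ∣ Nat.card G → p = q) :
    Group.IsSolvable G := by
  by_cases hex : ∃ p : ℕ, p.Prime ∧ p ≠ 2 ∧ p ∣ Nat.card G
  · obtain ⟨p, hp, hp2, hpG⟩ := hex
    refine H1.isSolvable_of_two_primes Nat.prime_two hp fun r hr hd => ?_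
    by_cases hr2 : r = 2
    · exact Or.inl hr2
    · exact Or.inr (h r p hr hp hr2 hp2 hd hpG)
  · refine H1.isSolvable_of_two_primes Nat.prime_two Nat.prime_two fun r hr hd => ?_
    by_contra hc
    exact hex ⟨r, hr, fun h => hc (Or.inl h), hd⟩

theorem caseA {G : Type*} [Group G] [Finite G] {a b : ℕ}
    (h : ∀ m : ℕ, so G m = 0 ∨ so G m = 1 ∨ so G m = a ∨ so G m = b) (h2 : 2 ∣ Nat.card G)
    (ha : so G 2 = a) : Group.IsSolvable G := by
  have h3 := frob_p Nat.prime_two h2
  refine solv_of_odd_unique fun p q hp hq hp2 hq2 => eq_of_so_const (b := b) (fun m hm _ => ?_) hp hq hp2 hq2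
  have := h m
  have := two_dvd_so (G := G) hm
  omega

theorem caseB {G : Type*} [Group G] [Finite G] {a b : ℕ}
    (h : ∀ m : ℕ, so G m = 0 ∨ so G m = 1 ∨ so G m = a ∨ so G m = b) (h2 : so G 2 = 1)
    (h4 : 4 ∣ Nat.card G) (ha : so G 4 = a) : Group.IsSolvable G := by
  have h3 := frob_four h4
  rw [h2, ha] at h3
  have hfour : ∀ m, 4 ∣ so G m → so G m = 0 ∨ so G m = b := fun m hm => by have := h m; omega
  have hpr : ∀ p : ℕ, p.Prime → p ≠ 2 → p ∣ Nat.card G → so G p = a ∨ so G p = b := fun p hp hp2 hd => by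
    have := h p
    have := so_ne_zero_of_prime hp hd
    have := two_dvd_so (G := G) (two_lt_of_prime hp hp2)
    omega
  have key : ∀ p : ℕ, p.Prime → p ≠ 2 → p ∣ Nat.card G → so G p = a →
      so G (4 * p) = b ∧ (b : ZMod p) = 1 := by
    intro p hp hp2 hd hpa
    have f1 := zm_of_dvd (frob_p hp hd)
    have f2 := zm_of_dvd ((dvd_mul_left p 4).trans (frob_4p hp hp2 h4 hd))
    rw [so_two_mul h2 (hp.odd_of_ne_two hp2), h2, ha, hpa] at f2
    rw [hpa] at f1
    push_cast at f1 f2
    rcases hfour (4 * p) (four_dvd_so (by norm_num) (two_lt_of_prime hp hp2) (coprime_four hp hp2) dvd_rfl)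
      with e | e <;> rw [e] at f2
    · exact absurd (by linear_combination 3 * f1 - f2) (zm_one_ne hp)
    · exact ⟨e, by linear_combination f2 - 3 * f1⟩
  have main : ∀ p q : ℕ, p.Prime → q.Prime → p ≠ 2 → q ≠ 2 → p ∣ Nat.card G → q ∣ Nat.card G →
      so G p = a → p = q := by
    intro p q hp hq hp2 hq2 hd hd' hpa
    by_contra hpq
    obtain ⟨k1, k2⟩ := key p hp hp2 hd hpa
    have hc := (Nat.coprime_primes hp hq).2 hpq
    have f1 := zm_of_dvd (frob_p hp hd)
    have f2 := zm_of_dvd ((dvd_mul_right p q).trans (frob_pq hp hq hpq hd hd'))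
    rw [hpa] at f1 f2
    have e3 := hfour (p * q) (four_dvd_so (two_lt_of_prime hp hp2) (two_lt_of_prime hq hq2) hc dvd_rfl)
    rcases hpr q hq hq2 hd' with hqa | hqb
    · obtain ⟨k3, -⟩ := key q hq hq2 hd' hqa
      have f3 := zm_of_dvd (((dvd_mul_right p q).trans (dvd_mul_left _ 4)).trans
        (frob_4pq hp hq hpq hp2 hq2 h4 hd hd'))
      rw [so_two_mul h2 (hp.odd_of_ne_two hp2), so_two_mul h2 (hq.odd_of_ne_two hq2),
        so_two_mul h2 ((hp.odd_of_ne_two hp2).mul (hq.odd_of_ne_two hq2)), h2, ha, hpa, hqa, k1, k3] at f3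
      rw [hqa] at f2
      push_cast at f1 f2 f3
      rcases hfour (4 * (p * q)) (four_dvd_so (two_lt_of_prime hp hp2) (two_lt_of_prime hq hq2) hc
        (dvd_mul_left _ _)) with e | e <;> rw [e] at f3
      · exact zm_one_ne hp (by linear_combination f3 - f1 - 2 * f2 - 2 * k2)
      · exact zm_two_ne hp hp2 (by linear_combination f3 - f1 - 2 * f2 - 3 * k2)
    · rw [hqb] at f2
      push_cast at f1 f2
      rcases e3 with e | e <;> rw [e] at f2
      · exact zm_one_ne hp (by linear_combination f2 - f1 - k2)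
      · exact zm_two_ne hp hp2 (by linear_combination f2 - f1 - 2 * k2)
  refine solv_of_odd_unique fun p q hp hq hp2 hq2 hd hd' => ?_
  rcases hpr p hp hp2 hd with hpa | hpb
  · exact main p q hp hq hp2 hq2 hd hd' hpa
  rcases hpr q hq hq2 hd' with hqa | hqb
  · exact (main q p hq hp hq2 hp2 hd' hd hqa).symm
  by_contra hpq
  have hc := (Nat.coprime_primes hp hq).2 hpq
  have f1 := zm_of_dvd (frob_p hp hd)
  have f2 := zm_of_dvd ((dvd_mul_right p q).trans (frob_pq hp hq hpq hd hd'))
  rw [hpb] at f1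
  rw [hpb, hqb] at f2
  push_cast at f1 f2
  rcases hfour (p * q) (four_dvd_so (two_lt_of_prime hp hp2) (two_lt_of_prime hq hq2) hc dvd_rfl)
    with e | e <;> rw [e] at f2
  · exact zm_one_ne hp (by linear_combination 2 * f1 - f2)
  · exact zm_two_ne hp hp2 (by linear_combination 3 * f1 - f2)

/-- A finite group in which the numbers of elements of each order that occurs (the numbers #{g : o(g) = m}, m ranging over the element orders) take exactly three different values is solvable. -/
theorem result {G : Type*} [Group G] [Finite G] (h : (((fun m : ℕ => Nat.card {g : G // orderOf g = m}) '' Set.range (orderOf : G → ℕ))).ncard = 3) : Group.IsSolvable G := by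
  obtain ⟨a, b, hab⟩ := exists_values_of_ncard_eq_three h
  have hba : ∀ m : ℕ, so G m = 0 ∨ so G m = 1 ∨ so G m = b ∨ so G m = a := fun m => by
    have := hab m; omega
  rcases Nat.even_or_odd (Nat.card G) with he | ho
  swap
  · exact S0205.result ho
  have h2 := he.two_dvd
  have h20 := so_ne_zero_of_prime Nat.prime_two h2
  rcases hab 2 with e | e | e | e
  · exact absurd e h20
  swap
  · exact caseA hab h2 e
  swap
  · exact caseA hba h2 e
  by_cases h4 : 4 ∣ Nat.card G
  · have h5 := frob_four h4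
    rcases hab 4 with f | f | f | f
    · omega
    · omega
    · exact caseB hab e h4 f
    · exact caseB hba e h4 f
  · obtain ⟨z, hz, -, hzc⟩ := exists_unique_inv e
    haveI : (zpowers z).Normal := ⟨fun n hn g => by
      have : g * n = n * g := mem_center_iff.1 (zpowers_le.2 hzc hn) g
      rw [this, mul_inv_cancel_right]; exact hn⟩
    have hq := card_eq_card_quotient_mul_card_subgroup (zpowers z)
    rw [Nat.card_zpowers, hz] at hq
    haveI : Group.IsSolvable (G ⧸ zpowers z) := S0205.result (by rw [Nat.odd_iff]; omega)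
    exact solvable_of_ker_le_range (zpowers z).subtype (QuotientGroup.mk' (zpowers z)) (by simp)

end Cfsg.Agent.S3996
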