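import Cfsg.Statements.S3997
import Mathlib

set_option autoImplicit false
open Cfsg

namespace Cfsg.Agent.S3997

/-- Let G and H be finite groups with the same order type: for every m they have the same number of elements of order m. If G is nilpotent then so is H. -/
theorem result {G H : Type*} [Group G] [Finite G] [Group H] [Finite H] (hT : (∀ m : ℕ, Nat.card {g : G // orderOf g = m} = Nat.card {h : H // orderOf h = m})) (hG : Group.IsNilpotent G) :
    Group.IsNilpotent H := by
  classical
  have e0 : ∀ m : ℕ, {g : G // orderOf g = m} ≃ {h : H // orderOf h = m} := fun m =>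
    (Finite.card_eq.mp (hT m)).some
  let e : G ≃ H := Equiv.ofFiberEquiv e0
  have he : ∀ g, orderOf (e g) = orderOf g := fun g => Equiv.ofFiberEquiv_map e0 g
  have hcard : Nat.card G = Nat.card H := Nat.card_congr e
  refine ((Group.isNilpotent_of_finite_tfae (G := H)).out 0 3).mpr ?_
  intro p hp Q
  obtain ⟨P⟩ : Nonempty (Sylow p G) := inferInstance
  have hPn : (P : Subgroup G).Normal := inferInstance
  -- the set of p-elements of H
  let S : Set H := {h | ∃ k, orderOf h = p ^ k}
  have hS : S = e '' (P : Set G) := by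
    ext h
    constructor
    · rintro ⟨k, hk⟩
      refine ⟨e.symm h, ?_, by simp⟩
      have h1 : orderOf (e.symm h) = p ^ k := by rw [← he, Equiv.apply_symm_apply, hk]
      have h2 : IsPGroup p (Subgroup.zpowers (e.symm h)) :=
        IsPGroup.of_card (n := k) (by rw [Nat.card_zpowers, h1])
      obtain ⟨R, hR⟩ := h2.exists_le_sylow
      haveI := Sylow.unique_of_normal P hPn
      have : R = P := Subsingleton.elim _ _
      subst this
      exact hR (Subgroup.mem_zpowers _)
    · rintro ⟨g, hg, rfl⟩
      obtain ⟨k, hk⟩ := IsPGroup.iff_orderOf.mp P.isPGroup' ⟨g, hg⟩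
      exact ⟨k, by rw [he, ← hk, Subgroup.orderOf_mk]⟩
  have hScard : S.ncard = Nat.card Q := by
    rw [hS, Set.ncard_image_of_injective _ e.injective, Sylow.card_eq_multiplicity, ← hcard,
      ← Sylow.card_eq_multiplicity P]
    rfl
  have hsub : ∀ R : Sylow p H, (R : Set H) = S := by
    intro R
    refine Set.eq_of_subset_of_ncard_le ?_ ?_ (Set.toFinite _)
    · intro h hh
      obtain ⟨k, hk⟩ := IsPGroup.iff_orderOf.mp R.isPGroup' ⟨h, hh⟩
      exact ⟨k, by rw [← hk, Subgroup.orderOf_mk]⟩
    · rw [hScard, Sylow.card_eq_multiplicity, ← Sylow.card_eq_multiplicity R]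
      rfl
  haveI : Subsingleton (Sylow p H) := ⟨fun R R' => SetLike.coe_injective (by rw [hsub, hsub])⟩
  exact Sylow.normal_of_subsingleton Q

end Cfsg.Agent.S3997
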