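import Cfsg.Statements.S3999
import Cfsg.Agent.H91.Basic
import Cfsg.Agent.H91.OrderType
import Cfsg.Agent.S0042
import Cfsg.Agent.S0035
import Cfsg.Agent.S0144
import Cfsg.Agent.H1.Nilp

set_option autoImplicit false
open Cfsg

namespace Cfsg.Agent.S3999

open H2 H91 in
theorem main {F G : Type*} [Group F] [Finite F] [Group G] [Finite G]
    (hF : ∃ C : Subgroup F, Cfsg.IsFrobeniusComplement C) {e : F ≃ G}
    (he : ∀ g, orderOf (e g) = orderOf g) :
    (∃ C : Subgroup G, Cfsg.IsFrobeniusComplement C) ∧ (Group.IsSolvable F → Group.IsSolvable G) := by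
  obtain ⟨C, hC⟩ := hF
  obtain ⟨K, hK, hKn, hc⟩ := S0035.result C hC
  obtain ⟨K', hK', -, hnil⟩ := S0042.result C hC
  obtain rfl : K' = K := SetLike.coe_injective (hK'.trans hK.symm)
  have hcard : Nat.card F = Nat.card G := Nat.card_congr e
  have hcop : (Nat.card K').Coprime K'.index := by
    have := H5.frob_coprime_card_index hC
    rw [hc.index_eq_card] at this
    rw [hc.symm.index_eq_card]
    exact this.symm
  set π : Set ℕ := {p | p ∣ Nat.card K'} with hπ
  have hKh : IsPiHall π K' := isPiHall_of_coprime hcop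
  have hCπ : IsPiNum πᶜ (Nat.card C) := by
    rw [← hc.symm.index_eq_card]; exact (isPiHall_iff.mp hKh).2
  obtain ⟨N, hNn, hN, hNs⟩ := tower_of_orderType he (fun m => π ∩ {p | m ≤ p})
    (fun m => Set.inter_subset_inter_right _ fun p (hp : m + 1 ≤ p) => Nat.le_of_succ_le hp)
    (fun m q hq => (Nat.eq_or_lt_of_le hq.2).imp Eq.symm fun h => ⟨hq.1, h⟩)
    (Nat.zero_le (Nat.card G + 1)) (fun m _ => by
      obtain ⟨L, hL, hL1⟩ := exists_normal_isPiHall_of_isNilpotent (π ∩ {p | m ≤ p}) K'
      exact ⟨_, normal_map_subtype_of_isPiHall hL1,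
        isPiHall_map_subtype hKh Set.inter_subset_left hL1⟩)
    ⟨⊥, isPiHall_iff.2 ⟨by simpa using isPiNum_one _, fun p hp h2 h3 => by
      rw [Subgroup.index_bot] at h2
      exact absurd (Nat.le_of_dvd Nat.card_pos h2) (by have : Nat.card G + 1 ≤ p := h3.2; omega)⟩,
      inferInstance⟩
  replace hN : IsPiHall π N := by simpa using hN
  have hNc : Nat.card N = Nat.card K' := card_eq_of_isPiHall_of_card_eq hcard hKh hN
  refine ⟨?_, fun hs => ?_⟩
  · obtain ⟨D, hD⟩ := Subgroup.exists_right_complement'_of_coprime (isPiHall_coprime hN)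
    have hDc : Nat.card D = Nat.card C := by
      have h1 := hD.card_mul_card
      rw [← hcard, ← hc.card_mul_card, hNc] at h1
      exact Nat.eq_of_mul_eq_mul_left Nat.card_pos h1
    have hK1 := (fpf_of_isComplement' hc hC).1
    refine ⟨D, (H5.frob_iff_fpf N D hD ?_ ?_).mpr fun d hd hd1 => ?_⟩
    · rw [← Subgroup.one_lt_card_iff_ne_bot, hNc]
      exact Finite.one_lt_card
    · rw [← Subgroup.one_lt_card_iff_ne_bot, hDc, Subgroup.one_lt_card_iff_ne_bot]
      exact hC.1
    · rw [H5.inf_centralizer_eq_bot_iff]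
      intro k hk hdk
      rw [mul_inv_eq_iff_eq_mul] at hdk
      have h1 : IsPiNum π (orderOf k) := (isPiHall_iff.mp hN).1.of_dvd (N.orderOf_dvd_natCard hk)
      have h2 : IsPiNum πᶜ (orderOf d) := (hDc ▸ hCπ).of_dvd (D.orderOf_dvd_natCard hd)
      have h3 := Commute.orderOf_mul_eq_mul_orderOf_of_coprime (show Commute d k from hdk)
        (h1.coprime h2).symm
      obtain ⟨x, hx⟩ := e.surjective (d * k)
      rw [← hx, he] at h3
      by_cases hxK : x ∈ frobeniusKernel C
      · rw [← hK] at hxK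
        have h4 : IsPiNum π (orderOf x) :=
          (isPiHall_iff.mp hKh).1.of_dvd (K'.orderOf_dvd_natCard hxK)
        exact absurd (orderOf_eq_one_iff.mp
          (IsPiNum.eq_one (h4.of_dvd (h3 ▸ Dvd.intro _ rfl)) h2)) hd1
      · rw [H5.mem_frobeniusKernel_iff] at hxK
        push Not at hxK
        obtain ⟨-, g, hg⟩ := hxK
        have h4 : IsPiNum πᶜ (orderOf x) := by
          have := hCπ.of_dvd (C.orderOf_dvd_natCard hg)
          rwa [show orderOf (g⁻¹ * x * g) = orderOf x from (MulAut.conj g).symm.orderOf_eq x] at this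
        exact orderOf_eq_one_iff.mp (IsPiNum.eq_one h1 (h4.of_dvd (h3 ▸ Dvd.intro_left _ rfl)))
  · have hsm : SmallSyl (F ⧸ K') := (hasIntFPF_of_frob hC).smallSyl.of_surjective
      (f := (QuotientGroup.mk' K').comp C.subtype) (by
        intro y
        obtain ⟨x, rfl⟩ := QuotientGroup.mk'_surjective K' y
        obtain ⟨⟨k, c⟩, rfl⟩ := hc.2 x
        refine ⟨c, ?_⟩
        simp [(QuotientGroup.eq_one_iff (k : F)).mpr k.2])
    obtain ⟨M, hMn, hM, hMs⟩ := tower_of_orderType he (fun m => π ∪ {p | m ≤ p})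
      (fun m => Set.union_subset_union_right _ fun p (hp : m + 1 ≤ p) => Nat.le_of_succ_le hp)
      (fun m q hq => hq.elim (fun h => Or.inr (Or.inl h)) fun h =>
        (Nat.eq_or_lt_of_le h).imp Eq.symm fun h => Or.inr h)
      (Nat.le_add_left 5 (Nat.card G)) (fun m hm => by
        obtain ⟨L, hL, hL1⟩ := hsm.exists_normal_hall hm
        exact ⟨_, inferInstance, isPiHall_comap_mk' (isPiHall_iff.mp hKh).1 hL1
          ((isPiHall_iff.mp hKh).2.of_dvd L.index_dvd_card)⟩)
      ⟨N, isPiHall_iff.2 ⟨(isPiHall_iff.mp hN).1.mono Set.subset_union_left, fun p hp h2 h3 => by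
        rcases h3 with h3 | h3
        · exact (isPiHall_iff.mp hN).2 p hp h2 h3
        · have h4 : Nat.card G + 5 ≤ p := h3
          exact absurd (Nat.le_of_dvd Nat.card_pos (h2.trans N.index_dvd_card)) (by omega)⟩, hNs⟩
    have h23 : ∀ r : ℕ, r.Prime → r ∣ Nat.card (G ⧸ M) → r = 2 ∨ r = 3 := by
      intro r hr hd
      have h1 : ¬ 5 ≤ r := fun h => (isPiHall_iff.mp hM).2 r hr hd (Or.inr h)
      have h2 := hr.two_le
      have h3 : r ≠ 4 := by rintro rfl; exact absurd hr (by norm_num)
      omega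
    obtain ⟨a, m, hm, h1⟩ := Nat.exists_eq_pow_mul_and_not_dvd
      (Nat.card_pos (α := G ⧸ M)).ne' 2 (by norm_num)
    obtain ⟨b, rfl⟩ := H91.exists_pow_of_prime_dvd_imp_eq (n := m) (p := 3)
      (fun h => hm (by simp [h])) (fun r hr hd =>
        (h23 r hr (h1 ▸ Dvd.dvd.mul_left hd _)).resolve_left (fun h => hm (h ▸ hd)))
    have := S0144.result 2 3 a b Nat.prime_two Nat.prime_three h1
    exact H1.isSolvable_of_normal_of_quotient M

/-- Let F be a finite Frobenius group (it has a Frobenius complement) and G a finite group with the same order type as F (for every m the same number of elements of order m). Then G is a Frobenius group; moreover G is solvable if and only if F is. -/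
theorem result {F G : Type*} [Group F] [Finite F] [Group G] [Finite G] (hF : (∃ C : Subgroup F, Cfsg.IsFrobeniusComplement C)) (hT : (∀ m : ℕ, Nat.card {g : F // orderOf g = m} = Nat.card {h : G // orderOf h = m})) :
    (∃ C : Subgroup G, Cfsg.IsFrobeniusComplement C) ∧ (Group.IsSolvable G ↔ Group.IsSolvable F) := by
  obtain ⟨e, he⟩ := H91.exists_equiv_of_orderType hT
  obtain ⟨h1, h2⟩ := main hF he
  exact ⟨h1, (main h1 (e := e.symm) fun g => by rw [← he, e.apply_symm_apply]).2, h2⟩

end Cfsg.Agent.S3999
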