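import Cfsg.Statements.S4002
import Cfsg.Agent.H57.GK

set_option autoImplicit false
open Cfsg

namespace Cfsg.Agent.S4002



theorem exists_three (n : ℕ) (hn : 7 ≤ n) : ∃ p q r : ℕ, p.Prime ∧ q.Prime ∧ r.Prime ∧ p < q ∧ q < r ∧
    r ≤ n ∧ n < p * q := by
  by_cases h1 : n ≤ 14
  · exact ⟨3, 5, 7, by norm_num, by norm_num, by norm_num, by norm_num, by norm_num, hn, by omega⟩
  by_cases h2 : n ≤ 34
  · exact ⟨5, 7, 11, by norm_num, by norm_num, by norm_num, by norm_num, by norm_num, by omega, by omega⟩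
  by_cases h3 : n ≤ 63
  · exact ⟨7, 11, 13, by norm_num, by norm_num, by norm_num, by norm_num, by norm_num, by omega, by omega⟩
  have hs : 8 ≤ n.sqrt := by rw [Nat.le_sqrt]; omega
  obtain ⟨p, hp, hp1, hp2⟩ := Nat.exists_prime_lt_and_le_two_mul n.sqrt (by omega)
  obtain ⟨q, hq, hq1, hq2⟩ := Nat.exists_prime_lt_and_le_two_mul (2 * n.sqrt) (by omega)
  obtain ⟨r, hr, hr1, hr2⟩ := Nat.exists_prime_lt_and_le_two_mul (4 * n.sqrt) (by omega)
  have h5 := Nat.sqrt_le n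
  have h6 := Nat.lt_succ_sqrt n
  refine ⟨p, q, r, hp, hq, hr, by omega, by omega, by nlinarith, ?_⟩
  calc n < (n.sqrt + 1) * (n.sqrt + 1) := h6
    _ ≤ p * q := Nat.mul_le_mul (by omega) (by omega)

/-- If the set of element orders of a finite group G is {1, 2, …, n} with n ≥ 7, then G is not solvable. -/
theorem result {G : Type*} [Group G] [Finite G] (n : ℕ) (hn : 7 ≤ n) (h : Set.range (orderOf : G → ℕ) = {k : ℕ | 1 ≤ k ∧ k ≤ n}) : ¬ Group.IsSolvable G := by
  intro hs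
  obtain ⟨p, q, r, hp, hq, hr, hpq, hqr, hrn, hlt⟩ := exists_three n hn
  have hdvd : ∀ k, 1 ≤ k → k ≤ n → k ∣ Nat.card (⊤ : Subgroup G) := by
    intro k h1 h2
    have : k ∈ Set.range (orderOf : G → ℕ) := by rw [h]; exact ⟨h1, h2⟩
    obtain ⟨g, rfl⟩ := this
    rw [Subgroup.card_top]; exact orderOf_dvd_natCard g
  have hle : ∀ g : G, orderOf g ≤ n := by
    intro g
    have : orderOf g ∈ Set.range (orderOf : G → ℕ) := ⟨g, rfl⟩
    rw [h] at this; exact this.2
  have := H57.three_primes_of_solvable (G := G) hp hq hr hpq.ne (hpq.trans hqr).ne hqr.ne (K := ⊤) inferInstance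
    (hdvd p hp.one_le (by omega)) (hdvd q hq.one_le (by omega)) (hdvd r hr.one_le hrn)
  have h2 : p * q ≤ p * r := Nat.mul_le_mul_left _ hqr.le
  have h3 : p * r ≤ q * r := Nat.mul_le_mul_right _ hpq.le
  rcases this with ⟨g, hg⟩ | ⟨g, hg⟩ | ⟨g, hg⟩ <;> have := hle g <;> omega

end Cfsg.Agent.S4002
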