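import Cfsg.Statements.S4003
import Cfsg.Agent.H1.Miller

set_option autoImplicit false
open Cfsg

namespace Cfsg.Agent.S4003

open scoped Pointwise

open Subgroup H1 in
theorem isCyclic_conj_smul {G : Type*} [Group G] (g : G) {H : Subgroup G} (h : IsCyclic H) :
    IsCyclic (MulAut.conj g • H : Subgroup G) :=
  (H.equivSMul (MulAut.conj g)).isCyclic.1 h

open Subgroup H1 in
theorem dvd_nCyc_of_sylow {G : Type*} [Group G] [Finite G] {p : ℕ} [hp : Fact p.Prime]
    (hodd : p ≠ 2) (P : Sylow p G) (hP : ¬ IsCyclic P) (n : ℕ) : p ∣ nCyc G (p ^ (n + 2)) := by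
  obtain ⟨m, hm⟩ := IsPGroup.iff_card.1 P.2
  have h1 := dvd_nCyc hp.out hm hP (fun h => absurd h hodd) n
  have h2 := card_subgroups_modEq hp.out P.2
    (fun H : Subgroup G => IsCyclic H ∧ Nat.card H = p ^ (n + 2))
    fun g _ H hH => ⟨isCyclic_conj_smul g hH.1, by rw [card_conj_smul, hH.2]⟩
  have h3 := card_subgroups_modEq hp.out P.2
    (fun H : Subgroup G => (IsCyclic H ∧ Nat.card H = p ^ (n + 2)) ∧ H ≤ P)
    fun g hg H hH => ⟨⟨isCyclic_conj_smul g hH.1.1, by rw [card_conj_smul, hH.1.2]⟩,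
      conj_smul_le_of_mem hH.2 hg⟩
  rw [card_subgroups_le, card_subtype_congr
    (q := fun L : Subgroup P => IsCyclic L ∧ Nat.card L = p ^ (n + 2)) fun L => by
      rw [card_map_of_injective (subtype_injective _),
        (L.equivMapOfInjective _ (subtype_injective _)).isCyclic],
    card_subtype_congr (q := fun H : Subgroup G => (IsCyclic H ∧ Nat.card H = p ^ (n + 2)) ∧
      (P : Subgroup G) ≤ normalizer (H : Set G)) fun H => ⟨fun h => ⟨h.1.1, h.2⟩, fun h =>
        ⟨⟨h.1, le_sylow_of_le_normalizer P (IsPGroup.of_card h.1.2) h.2⟩, h.2⟩⟩] at h3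
  exact (Nat.modEq_zero_iff_dvd).1 ((h2.trans h3.symm).trans ((Nat.modEq_zero_iff_dvd).2 h1))

/-- Let G be a finite group, p an odd prime dividing the order of G whose Sylow p-subgroups are not cyclic, and n = p^s·m with s > 1 and m coprime to p. Then the number of elements of G of order n is a multiple of p^s. -/
theorem result {G : Type*} [Group G] [Finite G] (p : ℕ) [Fact p.Prime] (hodd : p ≠ 2) (hpG : p ∣ Nat.card G)
    (P : Sylow p G) (hP : ¬ IsCyclic ↥(P : Subgroup G)) (s m : ℕ) (hs : 1 < s) (hm : Nat.Coprime p m) :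
    p ^ s ∣ Nat.card {g : G // orderOf g = p ^ s * m} := by
  have hp : p.Prime := Fact.out
  obtain ⟨n, rfl⟩ : ∃ n, s = n + 2 := ⟨s - 2, by omega⟩
  let : MulAction G G := MulAction.compHom G MulAut.conj
  refine H1.dvd_card_subtype_of_equivariant (H := G) _ (fun g : G => g ^ p ^ (n + 2))
    (fun h x => ?_) fun g hg => ?_
  · change Nat.card {t : G // orderOf t = _ ∧ _ = h * x * h⁻¹} = _
    refine Nat.card_congr ((MulAut.conj h).toEquiv.subtypeEquiv fun t => and_congr ?_ ?_).symm
    · change _ ↔ orderOf (MulAut.conj h t) = _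
      rw [MulEquiv.orderOf_eq]
    · change _ ↔ (h * t * h⁻¹) ^ _ = _
      rw [conj_pow, mul_left_inj, mul_right_inj]
  set y := g ^ p ^ (n + 2) with hy
  have hst : MulAction.stabilizer G y = Subgroup.centralizer {y} := by
    ext h
    rw [Subgroup.mem_centralizer_singleton_iff]
    exact mul_inv_eq_iff_eq_mul (a := h * y)
  have hyo : orderOf y = m := by
    rw [hy, orderOf_pow_of_dvd (pow_ne_zero _ hp.ne_zero) (hg ▸ dvd_mul_right _ _), hg,
      Nat.mul_div_cancel_left _ (pow_pos hp.pos _)]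
  have hcop : (p ^ (n + 2)).Coprime m := hm.pow_left _
  obtain ⟨t, ht⟩ := exists_pow_eq_self_of_coprime (x := y) (hyo ▸ hcop)
  have hz : (y ^ t) ^ p ^ (n + 2) = y := by rw [← pow_mul, mul_comm, pow_mul, ht]
  have hzo : orderOf (y ^ t) = m :=
    Nat.dvd_antisymm (hyo ▸ orderOf_pow_dvd t) (by
      have := orderOf_pow_dvd (x := y ^ t) (p ^ (n + 2))
      rwa [hz, hyo] at this)
  have hfib : Nat.card {u : G // orderOf u = p ^ (n + 2) * m ∧ u ^ p ^ (n + 2) = y} =
      Nat.card {x : Subgroup.centralizer ({y} : Set G) // orderOf x = p ^ (n + 2)} := by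
    refine Nat.card_congr ⟨fun u => ⟨⟨u.1 * (y ^ t)⁻¹, ?_⟩, ?_⟩, fun x => ⟨x.1 * y ^ t, ?_, ?_⟩,
      fun u => Subtype.ext ?_, fun x => Subtype.ext (Subtype.ext ?_)⟩
    · have : Commute u.1 y := by
        have := Commute.self_pow u.1 (p ^ (n + 2))
        rwa [u.2.2] at this
      exact Subgroup.mem_centralizer_singleton_iff.2
        (this.mul_left ((Commute.refl y).pow_left t).inv_left)
    · have hc : Commute u.1 y := by
        have := Commute.self_pow u.1 (p ^ (n + 2))
        rwa [u.2.2] at this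
      have h1 : (u.1 * (y ^ t)⁻¹) ^ p ^ (n + 2) = 1 := by
        rw [(hc.pow_right t).inv_right.mul_pow, u.2.2, inv_pow, hz, mul_inv_cancel]
      have h2 := orderOf_dvd_of_pow_eq_one h1
      have h3 := Commute.orderOf_mul_eq_mul_orderOf_of_coprime
        ((hc.pow_right t).mul_left (Commute.refl (y ^ t)).inv_left)
        (by rw [hzo]; exact Nat.Coprime.coprime_dvd_left h2 hcop)
      rw [inv_mul_cancel_right, u.2.1, hzo] at h3
      rw [Subgroup.orderOf_mk]
      exact (Nat.eq_of_mul_eq_mul_right (hyo ▸ orderOf_pos y) h3).symm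
    · have hc : Commute (x.1 : G) y := Subgroup.mem_centralizer_singleton_iff.1 x.1.2
      rw [(hc.pow_right t).orderOf_mul_eq_mul_orderOf_of_coprime
        (by rw [Subgroup.orderOf_coe, x.2, hzo]; exact hcop), Subgroup.orderOf_coe, x.2, hzo]
    · have hc : Commute (x.1 : G) y := Subgroup.mem_centralizer_singleton_iff.1 x.1.2
      rw [(hc.pow_right t).mul_pow, hz,
        orderOf_dvd_iff_pow_eq_one.1 ((Subgroup.orderOf_coe _).trans x.2).dvd, one_mul]
    · simp
    · simp
  rw [hst, hfib, H1.card_orderOf_eq_nCyc, Nat.totient_prime_pow_succ hp]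
  refine (pow_succ' p (n + 1)).dvd.trans ?_
  let Q : Sylow p (Subgroup.centralizer ({y} : Set G)) := default
  by_cases hQ : IsCyclic Q
  · refine Nat.mul_dvd_mul ?_ ((dvd_mul_right _ _).mul_left _)
    by_contra hnd
    obtain ⟨g, hg⟩ := H1.exists_conj_le_of_not_dvd_index P.2 hnd
    refine hP (((P : Subgroup G).equivSMul (MulAut.conj g)).isCyclic.2 ?_)
    have h1 : IsPGroup p ((MulAut.conj g • (P : Subgroup G)).subgroupOf
        (Subgroup.centralizer ({y} : Set G))) := (H1.isPGroup_conj_smul g P.2).comap_subtype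
    obtain ⟨R, hR⟩ := h1.exists_le_sylow
    have h2 : IsCyclic R := (Q.equiv R).isCyclic.1 hQ
    exact (Subgroup.subgroupOfEquivOfLe hg).isCyclic.1 (Subgroup.isCyclic_of_le hR)
  · exact Dvd.dvd.mul_left (Nat.mul_dvd_mul (dvd_nCyc_of_sylow hodd Q hQ n) (dvd_mul_right _ _)) _

end Cfsg.Agent.S4003
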