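import Cfsg.Statements.S4004
import Cfsg.Agent.H92.OrdCount
import Cfsg.Agent.H1.TwoPrimes
import Cfsg.Agent.H2.SchurZassenhaus
import Cfsg.Agent.H5.Semiregular

set_option autoImplicit false
open Cfsg

namespace Cfsg.Agent.S4004

open Subgroup Cfsg.Agent.H92 Cfsg.Agent.H63
open scoped Pointwise

section
variable {G : Type*} [Group G] [Finite G]

theorem ne_two (hodd : Odd (Nat.card G)) {p : ℕ} (hd : p ∣ Nat.card G) : p ≠ 2 := by
  rintro rfl
  exact (Nat.not_even_iff_odd.2 hodd) (even_iff_two_dvd.2 hd)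

theorem vals (hodd : Odd (Nat.card G)) {a b : ℕ}
    (h : ∀ m : ℕ, so G m = 0 ∨ so G m = 1 ∨ so G m = a ∨ so G m = b) {m : ℕ} (hm : 2 < m) :
    so G m = 0 ∨ so G m = a ∨ so G m = b := by
  have := h m
  have := two_dvd_so (G := G) hm
  omega

theorem vals_prime (hodd : Odd (Nat.card G)) {a b : ℕ}
    (h : ∀ m : ℕ, so G m = 0 ∨ so G m = 1 ∨ so G m = a ∨ so G m = b) {p : ℕ} (hp : p.Prime)
    (hd : p ∣ Nat.card G) : so G p = a ∨ so G p = b :=
  (vals hodd h (two_lt_of_prime hp (ne_two hodd hd))).resolve_left (so_ne_zero_of_prime hp hd)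

theorem same_pair (hodd : Odd (Nat.card G)) {a b : ℕ}
    (h : ∀ m : ℕ, so G m = 0 ∨ so G m = 1 ∨ so G m = a ∨ so G m = b) {p q : ℕ} (hp : p.Prime)
    (hq : q.Prime) (hpq : p ≠ q) (hd : p ∣ Nat.card G) (hd' : q ∣ Nat.card G) (hpa : so G p = a)
    (hqa : so G q = a) : so G (p * q) = b ∧ (b : ZMod p) = 1 ∧ so G (p ^ 2) = 0 := by
  have hp2 := ne_two hodd hd
  have hp3 := two_lt_of_prime hp hp2
  have hq3 := two_lt_of_prime hq (ne_two hodd hd')
  have f1 := zm_of_dvd (frob_p hp hd)
  have f2 := zm_of_dvd ((dvd_mul_right p q).trans (frob_pq hp hq hpq hd hd'))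
  rw [hpa] at f1
  rw [hpa, hqa] at f2
  push_cast at f1 f2
  have k : so G (p * q) = b ∧ (b : ZMod p) = 1 := by
    rcases vals hodd h (m := p * q) (by nlinarith) with e | e | e <;> rw [e] at f2
    · exact absurd (by linear_combination 2 * f1 - f2) (zm_one_ne hp)
    · exact absurd (by linear_combination 3 * f1 - f2) (zm_two_ne hp hp2)
    · exact ⟨e, by linear_combination f2 - 2 * f1⟩
  refine ⟨k.1, k.2, ?_⟩
  have f3 := zm_of_dvd (prime_dvd_so_of_sq_dvd (G := G) hp dvd_rfl)
  rcases vals hodd h (m := p ^ 2) (by nlinarith) with e | e | e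
  · exact e
  · rw [e] at f3; exact absurd (by linear_combination f1 - f3) (zm_one_ne hp)
  · rw [e] at f3; exact absurd (by linear_combination f3 - k.2) (zm_one_ne hp)

theorem not_same (hodd : Odd (Nat.card G)) {a b : ℕ}
    (h : ∀ m : ℕ, so G m = 0 ∨ so G m = 1 ∨ so G m = a ∨ so G m = b) {p q : ℕ} (hp : p.Prime)
    (hq : q.Prime) (hpq : p ≠ q) (hd : p ∣ Nat.card G) (hd' : q ∣ Nat.card G) (hpa : so G p = a)
    (hqa : so G q = a) : False := by
  have hp2 := ne_two hodd hd
  have hp3 := two_lt_of_prime hp hp2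
  have hq3 := two_lt_of_prime hq (ne_two hodd hd')
  obtain ⟨k1, k2, -⟩ := same_pair hodd h hp hq hpq hd hd' hpa hqa
  obtain ⟨-, k3, -⟩ := same_pair hodd h hq hp hpq.symm hd' hd hqa hpa
  have hall : ∀ r : ℕ, r.Prime → r ∣ Nat.card G → so G r = a := by
    intro r hr hrd
    by_contra hra
    have hrb := (vals_prime hodd h hr hrd).resolve_left hra
    have hr2 := ne_two hodd hrd
    have hr3 := two_lt_of_prime hr hr2
    have g1 := zm_of_dvd (frob_p hr hrd)
    rw [hrb] at g1
    push_cast at g1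
    have aux : ∀ s : ℕ, s.Prime → s ∣ Nat.card G → so G s = a → (b : ZMod s) = 1 →
        so G (s * r) = a ∧ (a : ZMod r) = 0 := by
      intro s hs hsd hsa hb
      have hsr : s ≠ r := by rintro rfl; exact hra hsa
      have hs2 := ne_two hodd hsd
      have hs3 := two_lt_of_prime hs hs2
      have f1 := zm_of_dvd (frob_p hs hsd)
      have f2 := zm_of_dvd ((dvd_mul_right s r).trans (frob_pq hs hr hsr hsd hrd))
      have f3 := zm_of_dvd ((dvd_mul_left r s).trans (frob_pq hs hr hsr hsd hrd))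
      rw [hsa] at f1
      rw [hsa, hrb] at f2 f3
      push_cast at f1 f2 f3
      rcases vals hodd h (m := s * r) (by nlinarith) with e | e | e <;> rw [e] at f2 f3
      · exact absurd (by linear_combination f2 - f1 - hb) (zm_one_ne hs)
      · refine ⟨e, ?_⟩
        haveI := Fact.mk hr
        exact (mul_eq_zero.1 (show (2 : ZMod r) * a = 0 by linear_combination f3 - g1)).resolve_left
          (zm_two_ne hr hr2)
      · exact absurd (by linear_combination f2 - f1 - 2 * hb) (zm_two_ne hs hs2)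
    obtain ⟨m1, m2⟩ := aux p hp hd hpa k2
    obtain ⟨m3, -⟩ := aux q hq hd' hqa k3
    have hpr : p ≠ r := by rintro rfl; exact hra hpa
    have hqr : q ≠ r := by rintro rfl; exact hra hqa
    have F := frob_pqr hp hq hr hpq hpr hqr hd hd' hrd
    rw [hpa, hqa, hrb, k1, m1, m3] at F
    have f1 := zm_of_dvd (frob_p hp hd)
    have f2 := zm_of_dvd (((dvd_mul_right p q).trans (dvd_mul_right _ r)).trans F)
    have f3 := zm_of_dvd ((dvd_mul_left r _).trans F)
    rw [hpa] at f1
    push_cast at f1 f2 f3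
    have h9 : 9 ≤ p * q := by nlinarith
    rcases vals hodd h (m := p * q * r) (by nlinarith) with e | e | e <;> rw [e] at f2 f3
    · exact zm_one_ne hp (by linear_combination 4 * f1 + 2 * k2 - f2)
    · exact zm_two_ne hp hp2 (by linear_combination 5 * f1 + 2 * k2 - f2)
    · exact zm_two_ne hr hr2 (by linear_combination 3 * g1 + 4 * m2 - f3)
  have hsq : ∀ r : ℕ, r.Prime → r ∣ Nat.card G → so G (r ^ 2) = 0 := by
    intro r hr hrd
    by_cases hrp : r = p
    · subst hrp; exact (same_pair hodd h hr hq hpq hrd hd' hpa hqa).2.2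
    · exact (same_pair hodd h hr hp hrp hrd hd (hall r hr hrd) hpa).2.2
  have hdvd : Nat.card G ∣ 1 + a := by
    rw [Nat.dvd_iff_prime_pow_dvd_dvd]
    intro r k hr hk
    rcases Nat.eq_zero_or_pos k with rfl | hk0
    · simp
    · have hrd : r ∣ Nat.card G := (dvd_pow_self r hk0.ne').trans hk
      rw [← hall r hr hrd]
      exact frob_pow hr (hsq r hr hrd) hk0 hk
  have hle := Nat.le_of_dvd (by omega) hdvd
  have hsub : ({1, p, q} : Finset ℕ) ⊆ (Nat.card G).divisors := by
    intro x hx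
    simp only [Finset.mem_insert, Finset.mem_singleton] at hx
    rw [Nat.mem_divisors]
    refine ⟨?_, Nat.card_pos.ne'⟩
    rcases hx with rfl | rfl | rfl
    · exact one_dvd _
    · exact hd
    · exact hd'
  have h5 := Finset.sum_le_sum_of_subset (f := so G) hsub
  rw [sum_so_card, Finset.sum_insert (by simp; omega), Finset.sum_insert (by simpa using hpq),
    Finset.sum_singleton, so_one, hpa, hqa] at h5
  have := so_ne_zero_of_prime hp hd
  omega

theorem pq_ne (hodd : Odd (Nat.card G)) {a b : ℕ} {p q : ℕ} (hp : p.Prime)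
    (hq : q.Prime) (hpq : p ≠ q) (hd : p ∣ Nat.card G) (hd' : q ∣ Nat.card G) (hpa : so G p = a)
    (hqb : so G q = b) : so G (p * q) ≠ a := by
  intro e
  have f1 := zm_of_dvd (frob_p hp hd)
  have f2 := zm_of_dvd ((dvd_mul_right p q).trans (frob_pq hp hq hpq hd hd'))
  rw [hpa] at f1
  rw [hpa, hqb, e] at f2
  push_cast at f1 f2
  have hb : ¬ p ∣ so G q := fun hdd => by
    have f3 := zm_of_dvd hdd
    rw [hqb] at f3
    exact zm_one_ne hp (by linear_combination 2 * f1 + f3 - f2)
  have hq2 := ne_two hodd hd'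
  have := two_mul_so_le (G := G) ((Nat.coprime_primes hp hq).2 hpq) (two_lt_of_prime hq hq2)
    (hq.odd_of_ne_two hq2) fun x hx => exists_commute_of_not_dvd_so hp hx hb
  have := so_ne_zero_of_prime hp hd
  omega

theorem sq_zero (hodd : Odd (Nat.card G)) {a b : ℕ}
    (h : ∀ m : ℕ, so G m = 0 ∨ so G m = 1 ∨ so G m = a ∨ so G m = b) {p q : ℕ} (hp : p.Prime)
    (hq : q.Prime) (hpq : p ≠ q) (hd : p ∣ Nat.card G) (hd' : q ∣ Nat.card G) (hpa : so G p = a)
    (hqb : so G q = b) (h0 : so G (p * q) = 0) : so G (p ^ 2) = 0 := by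
  have hp3 := two_lt_of_prime hp (ne_two hodd hd)
  have f1 := zm_of_dvd (frob_p hp hd)
  have f2 := zm_of_dvd (frob_p hq hd')
  rw [hpa] at f1
  rw [hqb] at f2
  push_cast at f1 f2
  have f3 := zm_of_dvd (prime_dvd_so_of_sq_dvd (G := G) hp dvd_rfl)
  have f4 : q ∣ so G (p ^ 2) := by
    by_contra hc
    obtain ⟨x, hx⟩ := so_ne_zero_iff.1 (so_ne_zero_of_prime hq hd')
    obtain ⟨y, hy, hxy⟩ := exists_commute_of_not_dvd_so hq hx hc
    exact so_ne_zero_iff.2 (H57.exists_orderOf_mul_of_commute hxy.symm ((Nat.coprime_primes hp hq).2 hpq)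
      (hy ▸ dvd_pow_self p two_ne_zero) (hx ▸ dvd_rfl)) h0
  have f5 := zm_of_dvd f4
  rcases vals hodd h (m := p ^ 2) (by nlinarith) with e | e | e
  · exact e
  · rw [e] at f3; exact absurd (by linear_combination f1 - f3) (zm_one_ne hp)
  · rw [e] at f5; exact absurd (by linear_combination f2 - f5) (zm_one_ne hq)

theorem ord_eq {p : ℕ} (hp : p.Prime) (h0 : so G (p ^ 2) = 0) {P : Subgroup G} (hP : IsPGroup p P)
    {x : G} (hx : x ∈ P) (h1 : x ≠ 1) : orderOf x = p := by
  haveI := Fact.mk hp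
  obtain ⟨k, hk⟩ := orderOf_eq_pow_of_mem hP hx
  rcases k with _ | _ | k
  · exact absurd (orderOf_eq_one_iff.1 hk) h1
  · simpa using hk
  · exact absurd (so_eq_zero_of_dvd h0 (hk ▸ pow_dvd_pow p (by omega))) (so_orderOf_ne_zero x)

theorem frob (hodd : Odd (Nat.card G)) {p q : ℕ} (hp : p.Prime)
    (hq : q.Prime) (hpq : p ≠ q) (hd : p ∣ Nat.card G) (hd' : q ∣ Nat.card G)
    (hall : ∀ r : ℕ, r.Prime → r ∣ Nat.card G → r = p ∨ r = q)
    (h0 : so G (p * q) = 0) (hp0 : so G (p ^ 2) = 0) (hq0 : so G (q ^ 2) = 0)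
    {V : Subgroup G} [V.Normal] (hV : V ≠ ⊥) (hVp : IsPGroup p V) :
    ∃ C : Subgroup G, Cfsg.IsFrobeniusComplement C ∧ (Nat.card ↥C).Prime := by
  haveI := Fact.mk hp
  haveI := Fact.mk hq
  have hc := (Nat.coprime_primes hp hq).2 hpq
  have hnc : ∀ x y : G, Commute x y → p ∣ orderOf x → q ∣ orderOf y → False := fun x y hxy h1 h2 =>
    so_ne_zero_iff.2 (H57.exists_orderOf_mul_of_commute hxy hc h1 h2) h0
  obtain ⟨Q⟩ : Nonempty (Sylow q G) := inferInstance
  have hQ1 : (Q : Subgroup G) ≠ ⊥ := Q.ne_bot_of_dvd_card hd'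
  have hVN : ∀ K : Subgroup G, K ≤ N[V] := fun K => by rw [normalizer_eq_top]; exact le_top
  have hcyc : IsCyclic Q := by
    letI := H5.conjAction (Q : Subgroup G) V (hVN _)
    haveI : Nontrivial V := (nontrivial_iff_ne_bot V).2 hV
    have hs := H5.semireg_conjAction (hVN (Q : Subgroup G)) (fun y hy hy1 => by
      rw [eq_bot_iff]
      intro v hv
      by_contra hv1
      exact hnc v y (mem_C.1 hv.2) (H57.prime_dvd_orderOf_of_isPGroup hVp hv.1 hv1)
        (H57.prime_dvd_orderOf_of_isPGroup Q.isPGroup' hy hy1))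
    rcases hs.isCyclic_or_quaternion Q.isPGroup' with h | h
    · exact h
    · exact absurd h.1 (ne_two hodd hd')
  have hQc : Nat.card Q = q := by
    obtain ⟨g, hg⟩ := IsCyclic.exists_generator (α := Q)
    have hg1 : g ≠ 1 := by
      rintro rfl
      apply hQ1
      rw [eq_bot_iff]
      intro y hy
      have := hg ⟨y, hy⟩
      rw [zpowers_one_eq_bot, mem_bot] at this
      exact congrArg Subtype.val this
    rw [← orderOf_eq_card_of_forall_mem_zpowers hg, ← Subgroup.orderOf_coe]
    exact ord_eq hq hq0 Q.isPGroup' g.2 (fun h => hg1 (Subtype.ext h))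
  have hN : N[(Q : Subgroup G)] ≤ Q := by
    by_contra hcon
    obtain ⟨g, hg, hgQ⟩ := SetLike.not_le_iff_exists.1 hcon
    obtain ⟨y, hy, r, hr, hrd, hyr, hyQ⟩ := exists_primePow_not_mem hgQ
    have hyN : y ∈ N[(Q : Subgroup G)] := zpowers_le.2 hg hy
    rcases hall r hr (hrd.trans (orderOf_dvd_natCard g)) with rfl | rfl
    · have hzp : IsPGroup r (zpowers y) := (isPGroup_zpowers_iff y).2 hyr
      have hy1 : y ≠ 1 := fun h => hyQ (h ▸ one_mem _)
      have hyo := ord_eq hp hp0 hzp (mem_zpowers y) hy1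
      have hsup : IsPGroup r ↥(V ⊔ zpowers y) := IsPGroup.to_sup_of_normal_left hVp hzp
      have := H57.le_cent_of_norm_trivial (P := V) (R := (Q : Subgroup G)) (h := y) (n := r) hp.pos
        (H67.isNilpotent_of_isPGroup hp hVp) (hVN _) (hVN ⊤ trivial) hyN
        (IsPGroup.coprime_card_of_ne q r hpq.symm _ _ Q.isPGroup' hVp) (fun i hi hir ρ hρ hcm => by
          by_contra hρ1
          refine hnc (y ^ i) ρ hcm (H57.prime_dvd_orderOf_of_isPGroup hzp (pow_mem (mem_zpowers y) i) ?_)
            (H57.prime_dvd_orderOf_of_isPGroup Q.isPGroup' hρ hρ1)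
          exact pow_ne_one_of_lt_orderOf hi.ne' (hyo ▸ hir)) (fun v hv => by
          have h1 : y ^ r = 1 := by rw [← hyo, pow_orderOf_eq_one]
          rw [h1]
          by_cases hvy : v * y = 1
          · rw [hvy, one_pow]
          · rw [← ord_eq hp hp0 hsup (mul_mem_sup hv (mem_zpowers y)) hvy, pow_orderOf_eq_one])
      obtain ⟨v, hv, hv1⟩ := H67.exists_ne_one_of_ne_bot hV
      obtain ⟨w, hw, hw1⟩ := H67.exists_ne_one_of_ne_bot hQ1
      exact hnc v w (mem_centralizer_iff.1 (this hw) v hv) (H57.prime_dvd_orderOf_of_isPGroup hVp hv hv1)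
        (H57.prime_dvd_orderOf_of_isPGroup Q.isPGroup' hw hw1)
    · have hzp : IsPGroup r (zpowers y) := (isPGroup_zpowers_iff y).2 hyr
      have h1 := IsPGroup.inf_normalizer_sylow hzp Q
      exact hyQ ((h1.le ⟨mem_zpowers y, hyN⟩).2)
  refine ⟨Q, ⟨hQ1, ?_, fun g hg => ?_⟩, by rw [hQc]; exact hq⟩
  · intro ht
    rw [ht, card_top] at hQc
    exact hpq ((Nat.prime_dvd_prime_iff_eq hp hq).1 (hQc ▸ hd))
  · by_contra hne
    have h1 : (Q : Subgroup G) ⊓ MulAut.conj g • (Q : Subgroup G) = Q := by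
      refine eq_of_le_of_card_ge inf_le_left ?_
      have h2 := card_dvd_of_le (inf_le_left : (Q : Subgroup G) ⊓ MulAut.conj g • (Q : Subgroup G) ≤ Q)
      rw [hQc] at h2 ⊢
      rcases (Nat.dvd_prime hq).1 h2 with h3 | h3
      · exact absurd (card_eq_one.1 h3) hne
      · exact h3.ge
    have h2 : (Q : Subgroup G) = MulAut.conj g • (Q : Subgroup G) :=
      eq_of_le_of_card_ge (h1.ge.trans inf_le_right) (card_conj_smul _ g).le
    exact hg (hN (H67.cj_eq_self_iff.1 (by rw [H67.cj_eq_smul]; exact h2.symm)))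

end

/-- Let G be a finite group of odd order in which the numbers of elements of each order that occurs (the numbers #{g : o(g) = m}, m ranging over the element orders of G) take exactly three different values. Then the order of G has at most two prime divisors; and if it has exactly two, then every Sylow subgroup of G for a prime dividing its order has prime exponent, G is a Frobenius group, and some Frobenius complement of G has prime order. -/
theorem result {G : Type*} [Group G] [Finite G] (hodd : Odd (Nat.card G)) (h : (((fun m : ℕ => Nat.card {g : G // orderOf g = m}) '' Set.range (orderOf : G → ℕ))).ncard = 3) :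
    (Nat.card G).primeFactors.card ≤ 2 ∧
      ((Nat.card G).primeFactors.card = 2 →
        (∀ (p : ℕ) [Fact p.Prime] (P : Sylow p G), p ∣ Nat.card G → Monoid.exponent ↥(P : Subgroup G) = p) ∧
        ∃ C : Subgroup G, Cfsg.IsFrobeniusComplement C ∧ (Nat.card ↥C).Prime) := by
  obtain ⟨a, b, hab⟩ := exists_values_of_ncard_eq_three h
  have hba : ∀ m : ℕ, so G m = 0 ∨ so G m = 1 ∨ so G m = b ∨ so G m = a := fun m => by
    have := hab m; omega
  have hne : ∀ p q : ℕ, p.Prime → q.Prime → p ≠ q → p ∣ Nat.card G → q ∣ Nat.card G →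
      so G p ≠ so G q := by
    intro p q hp hq hpq hd hd' he
    rcases vals_prime hodd hab hp hd with e | e
    · exact not_same hodd hab hp hq hpq hd hd' e (he ▸ e)
    · exact not_same hodd hba hp hq hpq hd hd' e (he ▸ e)
  refine ⟨?_, fun h2 => ?_⟩
  · by_contra hcon
    obtain ⟨p, q, r, hp, hq, hr, hpq, hpr, hqr⟩ := Finset.two_lt_card_iff.1 (not_le.1 hcon)
    obtain ⟨hp, hp', -⟩ := Nat.mem_primeFactors.1 hp
    obtain ⟨hq, hq', -⟩ := Nat.mem_primeFactors.1 hq
    obtain ⟨hr, hr', -⟩ := Nat.mem_primeFactors.1 hr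
    have := hne p q hp hq hpq hp' hq'
    have := hne p r hp hr hpr hp' hr'
    have := hne q r hq hr hqr hq' hr'
    have := vals_prime hodd hab hp hp'
    have := vals_prime hodd hab hq hq'
    have := vals_prime hodd hab hr hr'
    omega
  have main : ∀ p q : ℕ, p ≠ q → (Nat.card G).primeFactors = {p, q} → so G p = a →
      (∀ (p : ℕ) [Fact p.Prime] (P : Sylow p G), p ∣ Nat.card G → Monoid.exponent ↥(P : Subgroup G) = p) ∧
        ∃ C : Subgroup G, Cfsg.IsFrobeniusComplement C ∧ (Nat.card ↥C).Prime := by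
    intro p q hpq hS hpa
    obtain ⟨hp, hp', -⟩ := Nat.mem_primeFactors.1 (show p ∈ (Nat.card G).primeFactors by simp [hS])
    obtain ⟨hq, hq', -⟩ := Nat.mem_primeFactors.1 (show q ∈ (Nat.card G).primeFactors by simp [hS])
    have hall : ∀ r : ℕ, r.Prime → r ∣ Nat.card G → r = p ∨ r = q := fun r hr hd => by
      have : r ∈ (Nat.card G).primeFactors := Nat.mem_primeFactors.2 ⟨hr, hd, Nat.card_pos.ne'⟩
      simpa [hS] using this
    have hqb : so G q = b := (vals_prime hodd hab hq hq').resolve_left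
      (fun e => hne p q hp hq hpq hp' hq' (hpa.trans e.symm))
    have hp3 := two_lt_of_prime hp (ne_two hodd hp')
    have hq3 := two_lt_of_prime hq (ne_two hodd hq')
    have h0 : so G (p * q) = 0 := by
      have h1 := pq_ne hodd hp hq hpq hp' hq' hpa hqb
      have h2 := pq_ne hodd hq hp hpq.symm hq' hp' hqb hpa
      rw [mul_comm] at h2
      have := vals hodd hab (m := p * q) (by nlinarith)
      omega
    have hp0 := sq_zero hodd hab hp hq hpq hp' hq' hpa hqb h0
    have hq0 := sq_zero hodd hba hq hp hpq.symm hq' hp' hqb hpa (by rwa [mul_comm])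
    refine ⟨fun r hr P hd => ?_, ?_⟩
    · haveI : Nontrivial P := (nontrivial_iff_ne_bot _).2 (P.ne_bot_of_dvd_card hd)
      rw [Monoid.exponent_eq_prime_iff hr.out]
      intro g hg
      rw [← Subgroup.orderOf_coe]
      refine ord_eq hr.out ?_ P.isPGroup' g.2 (fun h => hg (Subtype.ext h))
      rcases hall r hr.out hd with rfl | rfl
      · exact hp0
      · exact hq0
    · haveI : Group.IsSolvable G := H1.isSolvable_of_two_primes hp hq hall
      haveI : Nontrivial G := Finite.one_lt_card_iff_nontrivial.1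
        (lt_of_lt_of_le hp.one_lt (Nat.le_of_dvd Nat.card_pos hp'))
      obtain ⟨V, hVn, hV, -, r, hr, hVr⟩ := H2.exists_abelian_pgroup_normal (G := G)
      rcases hall r hr ((H67.dvd_card_of_isPGroup hr hVr hV).trans (card_subgroup_dvd_card V)) with rfl | rfl
      · exact frob hodd hp hq hpq hp' hq' hall h0 hp0 hq0 hV hVr
      · exact frob hodd hq hp hpq.symm hq' hp' (fun r hr hd => (hall r hr hd).symm) (by rwa [mul_comm])
          hq0 hp0 hV hVr
  obtain ⟨p, q, hpq, hS⟩ := Finset.card_eq_two.1 h2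
  obtain ⟨hp, hp', -⟩ := Nat.mem_primeFactors.1 (show p ∈ (Nat.card G).primeFactors by simp [hS])
  obtain ⟨hq, hq', -⟩ := Nat.mem_primeFactors.1 (show q ∈ (Nat.card G).primeFactors by simp [hS])
  rcases vals_prime hodd hab hp hp' with e | e
  · exact main p q hpq hS e
  · refine main q p hpq.symm (by rw [hS, Finset.pair_comm]) ?_
    exact (vals_prime hodd hab hq hq').resolve_right
      (fun e' => hne p q hp hq hpq hp' hq' (e.trans e'.symm))

end Cfsg.Agent.S4004
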