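import Cfsg.Statements.S4005
import Cfsg.Agent.H5.Semiregular
import Cfsg.Agent.H3.Fitting
import Cfsg.Agent.H12.Burnside
import Cfsg.Agent.H9.InvCount

set_option autoImplicit false
open Cfsg

namespace Cfsg.Agent.S4005

theorem semi {G : Type*} [Group G] (A K : Subgroup G) [K.Normal] {m n : ℕ} (hmn : m.Coprime n)
    (hA : ∀ a ∈ A, a ≠ 1 → orderOf a = m) (hK : ∀ k ∈ K, k ≠ 1 → orderOf k = n)
    (h : ∀ g : G, orderOf g ≠ m * n) :
    letI := H5.conjAction A K Subgroup.le_normalizer_of_normal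
    H5.Semireg A K := by
  apply H5.semireg_conjAction
  intro a ha h1
  rw [eq_bot_iff]
  intro k hk
  by_contra hk1
  have hc : Commute a k := (Subgroup.mem_centralizer_singleton_iff.mp hk.2).symm
  apply h (a * k)
  rw [hc.orderOf_mul_eq_mul_orderOf_of_coprime (by rwa [hA a ha h1, hK k hk.1 hk1]),
    hA a ha h1, hK k hk.1 hk1]

theorem card_dvd_of_cyclic {A : Type*} [Group A] [Finite A] [IsCyclic A] {m : ℕ}
    (h : ∀ a : A, a ^ m = 1) : Nat.card A ∣ m := by
  rw [← IsCyclic.exponent_eq_card]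
  exact Monoid.exponent_dvd_of_forall_pow_eq_one h

/-- A finite group whose set of element orders is exactly {1, 2, 3} has either a normal elementary abelian 3-subgroup of index 2 or a normal elementary abelian 2-subgroup of index 3. -/
theorem result {G : Type*} [Group G] [Finite G] (h : Set.range (orderOf : G → ℕ) = {k : ℕ | 1 ≤ k ∧ k ≤ 3}) :
    (∃ N : Subgroup G, N.Normal ∧ Cfsg.IsElementaryAbelian 3 N ∧ N.index = 2) ∨
      (∃ N : Subgroup G, N.Normal ∧ Cfsg.IsElementaryAbelian 2 N ∧ N.index = 3) := by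
  have h3p : Fact (Nat.Prime 3) := ⟨Nat.prime_three⟩
  have ho : ∀ g : G, orderOf g = 1 ∨ orderOf g = 2 ∨ orderOf g = 3 := by
    intro g
    have : orderOf g ∈ {k : ℕ | 1 ≤ k ∧ k ≤ 3} := h ▸ ⟨g, rfl⟩
    obtain ⟨h1, h2⟩ := this
    omega
  have h6 : ∀ g : G, orderOf g ≠ 2 * 3 := fun g => by rcases ho g with h | h | h <;> omega
  have h6' : ∀ g : G, orderOf g ≠ 3 * 2 := h6
  obtain ⟨t, ht⟩ : (2 : ℕ) ∈ Set.range (orderOf : G → ℕ) := by rw [h]; constructor <;> norm_num
  obtain ⟨d, hd⟩ : (3 : ℕ) ∈ Set.range (orderOf : G → ℕ) := by rw [h]; constructor <;> norm_num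
  have h2G : 2 ∣ Nat.card G := ht ▸ orderOf_dvd_natCard t
  have h3G : 3 ∣ Nat.card G := hd ▸ orderOf_dvd_natCard d
  have hodd : ∀ K : Subgroup G, ¬ 2 ∣ Nat.card K → ∀ k ∈ K, k ≠ 1 → orderOf k = 3 := by
    intro K hK k hk h1
    rcases ho k with h | h | h
    · exact absurd (orderOf_eq_one_iff.mp h) h1
    · exact absurd (h ▸ Subgroup.orderOf_dvd_natCard K hk) hK
    · exact h
  have htwo : ∀ K : Subgroup G, ¬ 3 ∣ Nat.card K → ∀ k ∈ K, k ≠ 1 → orderOf k = 2 := by
    intro K hK k hk h1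
    rcases ho k with h | h | h
    · exact absurd (orderOf_eq_one_iff.mp h) h1
    · exact h
    · exact absurd (h ▸ Subgroup.orderOf_dvd_natCard K hk) hK
  have hpw : ∀ (K : Subgroup G) (m : ℕ), (∀ k ∈ K, k ≠ 1 → orderOf k = m) → ∀ k ∈ K, k ^ m = 1 := by
    intro K m hK k hk
    by_cases h1 : k = 1
    · simp [h1]
    · rw [← hK k hk h1, pow_orderOf_eq_one]
  obtain ⟨T⟩ : Nonempty (Sylow 2 G) := inferInstance
  obtain ⟨R⟩ : Nonempty (Sylow 3 G) := inferInstance
  have hT3 : ¬ 3 ∣ Nat.card (T : Subgroup G) := by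
    obtain ⟨k, hk⟩ := T.2.exists_card_eq
    rw [hk]; intro h
    exact absurd (Nat.prime_three.dvd_of_dvd_pow h) (by norm_num)
  have hR2 : ¬ 2 ∣ Nat.card (R : Subgroup G) := by
    obtain ⟨k, hk⟩ := R.2.exists_card_eq
    rw [hk]; intro h
    exact absurd (Nat.prime_two.dvd_of_dvd_pow h) (by norm_num)
  have hT := htwo _ hT3
  have hTc : IsMulCommutative (T : Subgroup G) := ⟨⟨fun a b => by
    have h1 : ∀ x : (T : Subgroup G), x⁻¹ = x := fun x => by
      rw [inv_eq_iff_mul_eq_one, ← sq]; exact Subtype.ext (hpw _ 2 hT x x.2)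
    rw [← h1 (a * b), mul_inv_rev, h1, h1]⟩⟩
  have hcard : Nat.card G = Nat.card (T : Subgroup G) * Nat.card (R : Subgroup G) := by
    rw [T.card_eq_multiplicity, R.card_eq_multiplicity]
    conv_lhs => rw [← Nat.prod_factorization_pow_eq_self (Nat.card_pos (α := G)).ne']
    rw [Finsupp.prod_of_support_subset _ (s := {2, 3}) _ _ (by simp)]
    · simp
    · intro p hp
      have hp' := Nat.mem_primeFactors.mp hp
      have := Fact.mk hp'.1
      obtain ⟨g, hg⟩ := exists_prime_orderOf_dvd_card' p hp'.2.1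
      have := hp'.1.one_lt
      rcases ho g with h | h | h <;> simp <;> omega
  by_cases hc : Cfsg.pPrimeCore 2 G = ⊥
  · right
    have hsol : Group.IsSolvable G := by
      obtain ⟨a, ha⟩ := T.2.exists_card_eq
      obtain ⟨b, hb⟩ := R.2.exists_card_eq
      exact H12.isSolvable_of_card_dvd_pow_mul_pow Nat.prime_two Nat.prime_three (by rw [hcard, ha, hb])
    have h1 : (T : Subgroup G) ≤ Cfsg.pCore 2 G := by
      refine le_trans ?_ (H3.centralizer_pCore_le hc)
      intro a ha
      exact Subgroup.mem_centralizer_iff.mpr fun b hb =>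
        setLike_mul_comm (s := (T : Subgroup G)) (H3.pCore_le_sylow T hb) ha
    have hTn : (T : Subgroup G).Normal := by
      rw [le_antisymm h1 (H3.pCore_le_sylow T)]; infer_instance
    refine ⟨T, hTn, ⟨hTc, hpw _ 2 hT⟩, ?_⟩
    have hnt : Nontrivial (T : Subgroup G) :=
      (Subgroup.nontrivial_iff_ne_bot _).mpr (T.ne_bot_of_dvd_card h2G)
    let := H5.conjAction (R : Subgroup G) (T : Subgroup G) Subgroup.le_normalizer_of_normal
    have hs := semi (R : Subgroup G) (T : Subgroup G) (by norm_num) (hodd _ hR2) hT h6'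
    have hcy : IsCyclic (R : Subgroup G) :=
      (hs.isCyclic_or_quaternion R.2).resolve_right (by norm_num)
    have h2 : Nat.card (R : Subgroup G) ∣ 3 :=
      card_dvd_of_cyclic fun a => Subtype.ext (hpw _ 3 (hodd _ hR2) a a.2)
    have h3 : Nat.card (R : Subgroup G) = 3 := by
      rcases (Nat.dvd_prime Nat.prime_three).mp h2 with h | h
      · exact absurd (Subgroup.eq_bot_of_card_eq _ h) (R.ne_bot_of_dvd_card h3G)
      · exact h
    have h4 := (T : Subgroup G).card_mul_index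
    rw [hcard, h3] at h4
    exact Nat.eq_of_mul_eq_mul_left Nat.card_pos h4
  · left
    have hnt : Nontrivial (Cfsg.pPrimeCore 2 G) := (Subgroup.nontrivial_iff_ne_bot _).mpr hc
    have hcy : IsCyclic (T : Subgroup G) := by
      let := H5.conjAction (T : Subgroup G) (Cfsg.pPrimeCore 2 G) Subgroup.le_normalizer_of_normal
      exact (semi (T : Subgroup G) (Cfsg.pPrimeCore 2 G) (by norm_num) hT
        (hodd _ (H3.not_dvd_card_pPrimeCore 2 G)) h6).isCyclic_of_comm
    have h2 : Nat.card (T : Subgroup G) ∣ 2 :=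
      card_dvd_of_cyclic fun a => Subtype.ext (hpw _ 2 hT a a.2)
    have h3 : Nat.card (T : Subgroup G) = 2 := by
      rcases (Nat.dvd_prime Nat.prime_two).mp h2 with h | h
      · exact absurd (Subgroup.eq_bot_of_card_eq _ h) (T.ne_bot_of_dvd_card h2G)
      · exact h
    obtain ⟨K, hK⟩ := H9.exists_index_two_of_cyclic_sylow (even_iff_two_dvd.mpr h2G) T hcy
    have hKn := Subgroup.normal_of_index_eq_two hK
    have h4 : ¬ 2 ∣ Nat.card K := by
      have := K.index_mul_card
      rw [hcard, hK, h3] at this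
      rw [Nat.eq_of_mul_eq_mul_left two_pos this]
      exact hR2
    refine ⟨K, hKn, ⟨?_, hpw _ 3 (hodd _ h4)⟩, hK⟩
    let := H5.conjAction (T : Subgroup G) K Subgroup.le_normalizer_of_normal
    obtain ⟨s, hs⟩ := exists_prime_orderOf_dvd_card' (G := (T : Subgroup G)) 2 (by rw [h3])
    exact (semi (T : Subgroup G) K (by norm_num) hT (hodd _ h4) h6).isMulCommutative_of_involution hs

end Cfsg.Agent.S4005
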