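import Cfsg.Statements.S4197
import Cfsg.Agent.H71.ClassNum

set_option autoImplicit false
open Cfsg

namespace Cfsg.Agent.S4197

/-- A permutation group of degree n, that is a subgroup S of the symmetric group on a finite set with n elements, has at most 2^(n−1) conjugacy classes. (For n = 0 both sides equal 1 with truncated subtraction.) -/
theorem result {α : Type*} [Fintype α] [DecidableEq α] (S : Subgroup (Equiv.Perm α)) : Nat.card (ConjClasses S) ≤ 2 ^ (Fintype.card α - 1) := by
  exact Cfsg.Agent.H71.ClassNum.card_conjClasses_le (G := S) (α := α)

end Cfsg.Agent.S4197
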