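import Mathlib
import Cfsg.Statements.S4198

set_option autoImplicit false
open Cfsg

namespace Cfsg.Agent.S4198

open Equiv Equiv.Perm

/-- The cycle types of permutations of `n` points. -/
def T (n : ℕ) : Set (Multiset ℕ) := {m | m.sum ≤ n ∧ ∀ a ∈ m, 2 ≤ a}

theorem range_cycleType (n : ℕ) : Set.range (fun g : Perm (Fin n) => g.cycleType) = T n := by
  ext m
  have := exists_with_cycleType_iff (α := Fin n) (m := m)
  rw [Fintype.card_fin] at this
  exact this

theorem T_finite (n : ℕ) : (T n).Finite := range_cycleType n ▸ Set.finite_range _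

theorem card_eq (n : ℕ) : Nat.card (ConjClasses (Perm (Fin n))) = (T n).ncard := by
  rw [← Nat.card_coe_set_eq]
  refine Nat.card_congr (Equiv.ofBijective (Quotient.lift
    (fun g : Perm (Fin n) => (⟨g.cycleType, range_cycleType n ▸ ⟨g, rfl⟩⟩ : T n))
    fun a b h => Subtype.ext (isConj_iff_cycleType_eq.mp h)) ⟨?_, ?_⟩)
  · rintro ⟨a⟩ ⟨b⟩ h
    have h' : a.cycleType = b.cycleType := congrArg Subtype.val h
    exact Quotient.sound (isConj_iff_cycleType_eq.mpr h')
  · rintro ⟨m, hm⟩
    rw [← range_cycleType] at hm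
    obtain ⟨g, rfl⟩ := hm
    exact ⟨Quotient.mk _ g, rfl⟩

theorem T_small {n : ℕ} (hn : n ≤ 1) : (T n).ncard ≤ 1 := by
  rw [← Set.ncard_singleton (0 : Multiset ℕ)]
  refine Set.ncard_le_ncard (fun m hm => ?_) (Set.finite_singleton _)
  by_contra h
  obtain ⟨a, ha⟩ := Multiset.exists_mem_of_ne_zero h
  have := Multiset.le_sum_of_mem ha
  have := hm.1
  have := hm.2 a ha
  omega

theorem T_rec (n : ℕ) : (T (n + 2)).ncard ≤ (T (n + 1)).ncard + (T n).ncard := by
  have h : T (n + 2) ⊆ T (n + 1) ∪ (fun r : Multiset ℕ => (n + 2 - r.sum) ::ₘ r) '' T n := by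
    rintro m ⟨h1, h2⟩
    by_cases h : m.sum ≤ n + 1
    · exact Or.inl ⟨h, h2⟩
    · have h0 : m ≠ 0 := by rintro rfl; simp at h
      obtain ⟨a, ha⟩ := Multiset.exists_mem_of_ne_zero h0
      obtain ⟨r, rfl⟩ := Multiset.exists_cons_of_mem ha
      have := h2 a ha
      rw [Multiset.sum_cons] at h h1
      refine Or.inr ⟨r, ⟨by omega, fun b hb => h2 b (Multiset.mem_cons_of_mem hb)⟩, ?_⟩
      simp only
      congr 1
      omega
  exact (Set.ncard_le_ncard h ((T_finite _).union ((T_finite _).image _))).trans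
    ((Set.ncard_union_le _ _).trans (Nat.add_le_add_left (Set.ncard_image_le (T_finite _)) _))

theorem T_le (n : ℕ) : (T (n + 5)).ncard ≤ 2 ^ (n + 3) ∧ (T (n + 6)).ncard ≤ 2 ^ (n + 4) := by
  induction n with
  | zero =>
    have h0 := T_small (n := 0) (by omega)
    have h1 := T_small (n := 1) (by omega)
    have h2 := T_rec 0
    have h3 := T_rec 1
    have h4 := T_rec 2
    have h5 := T_rec 3
    have h6 := T_rec 4
    norm_num at *
    omega
  | succ n ih =>
    have := T_rec (n + 5)
    refine ⟨ih.2, ?_⟩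
    have h1 := ih.1
    have h2 := ih.2
    change (T (n + 7)).ncard ≤ (T (n + 6)).ncard + (T (n + 5)).ncard at this
    change (T (n + 7)).ncard ≤ 2 ^ (n + 3 + 1 + 1)
    change (T (n + 6)).ncard ≤ 2 ^ (n + 3 + 1) at h2
    rw [pow_succ] at h2
    rw [pow_succ, pow_succ]
    omega

theorem even_of_mem {n : ℕ} (g : alternatingGroup (Fin n)) :
    Even ((g : Perm (Fin n)).cycleType.sum + (g : Perm (Fin n)).cycleType.card) := by
  have := mem_alternatingGroup.mp g.2
  rwa [sign_of_cycleType, neg_one_pow_eq_one_iff_even (by decide)] at this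

theorem isConj_or {n : ℕ} {a b : alternatingGroup (Fin n)}
    (h : (a : Perm (Fin n)).cycleType = (b : Perm (Fin n)).cycleType) (h' : ¬ IsConj a b) :
    ∃ c : Perm (Fin n), c ∉ alternatingGroup (Fin n) ∧ c * a * c⁻¹ = b := by
  obtain ⟨c, hc⟩ := isConj_iff.mp (isConj_iff_cycleType_eq.mpr h)
  exact ⟨c, fun hc' => h' (isConj_iff.mpr ⟨⟨c, hc'⟩, Subtype.ext hc⟩), hc⟩

theorem mul_mem_of_not_mem {n : ℕ} {a b : Perm (Fin n)} (ha : a ∉ alternatingGroup (Fin n))
    (hb : b ∉ alternatingGroup (Fin n)) : a * b ∈ alternatingGroup (Fin n) := by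
  rw [mem_alternatingGroup] at *
  rw [map_mul, Int.units_ne_iff_eq_neg.mp ha, Int.units_ne_iff_eq_neg.mp hb]
  simp

theorem split_type {n : ℕ} {a b : alternatingGroup (Fin n)}
    (h : (a : Perm (Fin n)).cycleType = (b : Perm (Fin n)).cycleType) (h' : ¬ IsConj a b) :
    (∀ c ∈ (a : Perm (Fin n)).cycleType, Odd c) ∧ n ≤ (a : Perm (Fin n)).cycleType.sum + 1 := by
  obtain ⟨c, hc, hcab⟩ := isConj_or h h'
  have : Subgroup.centralizer {(a : Perm (Fin n))} ≤ alternatingGroup (Fin n) := by
    intro z hz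
    by_contra hz'
    refine h' (isConj_iff.mpr ⟨⟨c * z, mul_mem_of_not_mem hc hz'⟩, Subtype.ext ?_⟩)
    rw [Subgroup.mem_centralizer_singleton_iff] at hz
    change c * z * a * (c * z)⁻¹ = b
    rw [← hcab, mul_assoc c z, hz]
    group
  have := centralizer_le_alternating_iff.mp this
  rw [Fintype.card_fin] at this
  exact ⟨this.1, this.2.1⟩

/-- For n ≥ 5 the alternating group of degree n has strictly fewer conjugacy classes than the symmetric group of degree n, and the symmetric group of degree n (whose classes correspond to the partitions of n) has at most 2^(n−2) conjugacy classes. -/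
theorem result (n : ℕ) (hn : 5 ≤ n) : Nat.card (ConjClasses (alternatingGroup (Fin n))) < Nat.card (ConjClasses (Equiv.Perm (Fin n))) ∧ Nat.card (ConjClasses (Equiv.Perm (Fin n))) ≤ 2 ^ (n - 2) := by
  classical
  refine ⟨?_, ?_⟩
  swap
  · obtain ⟨k, rfl⟩ : ∃ k, n = k + 5 := ⟨n - 5, by omega⟩
    rw [card_eq]
    exact (T_le k).1
  rw [card_eq, ← Nat.card_coe_set_eq]
  haveI := (T_finite n).to_subtype
  let ct : alternatingGroup (Fin n) → Multiset ℕ := fun g => (g : Perm (Fin n)).cycleType
  obtain ⟨r, hr, hrr⟩ : ∃ r : alternatingGroup (Fin n) → alternatingGroup (Fin n),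
      (∀ g, ct (r g) = ct g) ∧ ∀ g h, ct g = ct h → r g = r h :=
    ⟨fun g => Function.invFun ct (ct g), fun g => Function.invFun_eq ⟨g, rfl⟩,
      fun g h e => by simp only [e]⟩
  have hsplit : ∀ g : alternatingGroup (Fin n), ∃ (a : ℕ) (s : Multiset ℕ), ¬ IsConj g (r g) →
      ct g = (a + 1) ::ₘ s ∧ Even a ∧ 2 ≤ a ∧ (∀ c ∈ s, Odd c) ∧ n ≤ a + s.sum + 2 := by
    intro g
    by_cases h : IsConj g (r g)
    · exact ⟨0, 0, fun h' => absurd h h'⟩
    obtain ⟨h1, h2⟩ := split_type (hr g).symm h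
    have h0 : ct g ≠ 0 := fun h0 => by
      change ct g = 0 at h0
      change n ≤ (ct g).sum + 1 at h2
      rw [h0] at h2
      simp at h2
      omega
    obtain ⟨a, ha⟩ := Multiset.exists_mem_of_ne_zero h0
    obtain ⟨s, hs⟩ := Multiset.exists_cons_of_mem ha
    have h3 := two_le_of_mem_cycleType ha
    obtain ⟨k, hk⟩ := h1 a ha
    change n ≤ (ct g).sum + 1 at h2
    refine ⟨2 * k, s, fun _ => ⟨by rw [hs, hk], even_two_mul k, by omega, fun c hc => h1 c ?_, ?_⟩⟩
    · change c ∈ ct g
      rw [hs]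
      exact Multiset.mem_cons_of_mem hc
    · rw [hs, Multiset.sum_cons] at h2
      omega
  choose a s has using hsplit
  have hT : ∀ g, ct g ∈ T n := fun g => range_cycleType n ▸ ⟨g, rfl⟩
  let f : alternatingGroup (Fin n) → Multiset ℕ := fun g =>
    if IsConj g (r g) then ct g else a g ::ₘ s g
  have hf : ∀ g, f g ∈ T n := by
    intro g
    by_cases h : IsConj g (r g)
    · simp only [f, if_pos h]
      exact hT g
    · simp only [f, if_neg h]
      obtain ⟨h1, -, h2, -⟩ := has g h
      obtain ⟨h3, h4⟩ := hT g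
      rw [h1] at h3 h4
      rw [Multiset.sum_cons] at h3
      refine ⟨by rw [Multiset.sum_cons]; omega, fun b hb => ?_⟩
      rcases Multiset.mem_cons.mp hb with rfl | hb
      · exact h2
      · exact h4 b (Multiset.mem_cons_of_mem hb)
  have hpar : ∀ g, ¬ IsConj g (r g) → ¬ Even ((a g ::ₘ s g).sum + (a g ::ₘ s g).card) := by
    intro g h
    have h1 : Even ((ct g).sum + (ct g).card) := even_of_mem g
    rw [(has g h).1] at h1
    simp only [Multiset.sum_cons, Multiset.card_cons, Nat.even_iff] at h1 ⊢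
    omega
  have hinj : ∀ g h, f g = f h → IsConj g h := by
    intro g h hgh
    by_cases h1 : IsConj g (r g) <;> by_cases h2 : IsConj h (r h) <;>
      simp only [f, h1, h2, if_true, if_false] at hgh
    · have : r g = r h := hrr _ _ hgh
      exact h1.trans (this ▸ h2.symm)
    · exact absurd (hgh ▸ even_of_mem g) (hpar h h2)
    · exact absurd (hgh ▸ even_of_mem h) (hpar g h1)
    · obtain ⟨a1, a2, -, a3, -⟩ := has g h1
      obtain ⟨b1, b2, -, b3, -⟩ := has h h2
      have e1 : a g = a h := by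
        have : a g ∈ a h ::ₘ s h := hgh ▸ Multiset.mem_cons_self _ _
        exact (Multiset.mem_cons.mp this).resolve_right fun h' =>
          Nat.not_odd_iff_even.mpr a2 (b3 _ h')
      rw [e1, Multiset.cons_inj_right] at hgh
      have e2 : ct g = ct h := by rw [a1, b1, e1, hgh]
      have e3 : r g = r h := hrr _ _ e2
      obtain ⟨c, hc, hc'⟩ := isConj_or (hr g).symm h1
      obtain ⟨d, hd, hd'⟩ := isConj_or (hr h).symm h2
      refine isConj_iff.mpr ⟨⟨d⁻¹ * c, mul_mem_of_not_mem (fun h => hd (inv_mem_iff.mp h)) hc⟩,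
        Subtype.ext ?_⟩
      change d⁻¹ * c * g * (d⁻¹ * c)⁻¹ = h
      rw [e3, ← hd'] at hc'
      calc _ = d⁻¹ * (c * g * c⁻¹) * d := by group
        _ = _ := by rw [hc']; group
  have hne : ∀ g, f g ≠ {2} := by
    intro g hc'
    by_cases h : IsConj g (r g) <;> simp only [f, h, if_true, if_false] at hc'
    · have := even_of_mem g
      change Even ((ct g).sum + (ct g).card) at this
      rw [hc'] at this
      simp at this
      exact absurd this (by decide)
    · have h1 := congrArg Multiset.sum hc'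
      have h2 := (has g h).2.2.2.2
      simp at h1
      omega
  clear_value f
  haveI := Fintype.ofFinite (T n)
  haveI := Fintype.ofFinite (ConjClasses (alternatingGroup (Fin n)))
  rw [Nat.card_eq_fintype_card, Nat.card_eq_fintype_card]
  refine Fintype.card_lt_of_injective_not_surjective
    (fun c => (⟨f (Quotient.out c), hf _⟩ : T n)) (fun c d h => ?_) fun hs => ?_
  · have h' : f (Quotient.out c) = f (Quotient.out d) := Subtype.ext_iff.mp h
    exact Quotient.out_equiv_out.mp (hinj _ _ h')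
  · obtain ⟨c, hc⟩ := hs ⟨{2}, by simp; omega, by simp⟩
    exact hne _ (Subtype.ext_iff.mp hc)

end Cfsg.Agent.S4198
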