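import Cfsg.Statements.S4204
import Cfsg.Agent.H90.Ladder

set_option autoImplicit false
open Cfsg

namespace Cfsg.Agent.S4204

/-- If `H` and `K` are normal subgroups of a finite group with `H` nilpotent of class at most `c` and `K` nilpotent of class at most `d` (the terms with index `c`, respectively `d`, of their lower central series are trivial, indices starting at `0`), then `HK` is nilpotent of class at most `c + d`. -/
theorem result {G : Type*} [Group G] [Finite G] (H K : Subgroup G) [H.Normal] [K.Normal] (c d : ℕ) (hH : H.lowerCentralSeries c = ⊥) (hK : K.lowerCentralSeries d = ⊥) : (H ⊔ K).lowerCentralSeries (c + d) = ⊥ := by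
  let L : Subgroup G → ℕ → Subgroup G := fun A i => Nat.casesOn i ⊤ A.lowerCentralSeries
  have hL : ∀ (A : Subgroup G) [A.Normal] (i : ℕ), (L A i).Normal := by
    intro A _ i
    cases i
    · exact (inferInstance : (⊤ : Subgroup G).Normal)
    · exact H90.lowerCentralSeries_normal A _
  have hL' : ∀ (A : Subgroup G) [A.Normal] (i : ℕ), ⁅L A i, A⁆ ≤ L A (i + 1) := by
    intro A _ i
    cases i
    · exact Subgroup.commutator_le_right _ _
    · exact le_rfl
  let T : ℕ → Subgroup G := fun n => ⨆ x : {x : ℕ × ℕ // x.1 + x.2 = n}, L H x.1.1 ⊓ L K x.1.2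
  have hT : ∀ n, (T n).Normal := by
    intro n
    have : ∀ x : {x : ℕ × ℕ // x.1 + x.2 = n}, (L H x.1.1 ⊓ L K x.1.2).Normal := by
      intro x
      exact @Subgroup.normal_inf_normal _ _ _ _ (hL H x.1.1) (hL K x.1.2)
    exact @Subgroup.iSup_normal _ _ _ _ this
  have key : ∀ n, (H ⊔ K).lowerCentralSeries n ≤ T (n + 1) := by
    intro n
    induction n with
    | zero =>
      exact sup_le (le_iSup_of_le ⟨(1, 0), rfl⟩ (le_inf le_rfl le_top))
        (le_iSup_of_le ⟨(0, 1), rfl⟩ (le_inf le_top le_rfl))
    | succ n ih =>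
      have := hT (n + 1 + 1)
      refine (Subgroup.commutator_mono ih le_rfl).trans (H54.commutator_iSup_le
        (fun _ => H90.le_normalizer_of_normal' _ _) ?_)
      rintro ⟨⟨i, j⟩, hij⟩
      change ⁅L H i ⊓ L K j, H ⊔ K⁆ ≤ _
      refine H90.commutator_sup_le_of_normal' ?_ ?_
      · exact le_iSup_of_le ⟨(i + 1, j), by simp only at hij ⊢; omega⟩ (le_inf
          ((Subgroup.commutator_mono inf_le_left le_rfl).trans (hL' H i))
          ((Subgroup.commutator_mono inf_le_right le_rfl).trans (@Subgroup.commutator_le_left _ _ _ _ (hL K j))))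
      · exact le_iSup_of_le ⟨(i, j + 1), by simp only at hij ⊢; omega⟩ (le_inf
          ((Subgroup.commutator_mono inf_le_left le_rfl).trans (@Subgroup.commutator_le_left _ _ _ _ (hL H i)))
          ((Subgroup.commutator_mono inf_le_right le_rfl).trans (hL' K j)))
  refine le_bot_iff.1 ((key _).trans (iSup_le ?_))
  rintro ⟨⟨i, j⟩, hij⟩
  simp only at hij ⊢
  by_cases hi : c + 1 ≤ i
  · obtain ⟨i, rfl⟩ : ∃ i', i = i' + 1 := ⟨i - 1, by omega⟩
    exact inf_le_left.trans ((H.lowerCentralSeries_antitone (by omega : c ≤ i)).trans hH.le)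
  · obtain ⟨j, rfl⟩ : ∃ j', j = j' + 1 := ⟨j - 1, by omega⟩
    exact inf_le_right.trans ((K.lowerCentralSeries_antitone (by omega : d ≤ j)).trans hK.le)

end Cfsg.Agent.S4204
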