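import Cfsg.Statements.S4207
import Cfsg.Agent.H1.AutP

set_option autoImplicit false
open Cfsg

namespace Cfsg.Agent.S4207

/-- Let `P` be a group of order `p^n` whose Frattini subgroup has index `p^r`. Then any group of automorphisms of `P` each of which induces the identity on the Frattini quotient has order dividing `p^(r(n-r))`; in particular it is a `p`-group. -/
theorem result {P : Type*} [Group P] [Finite P] {p n r : ℕ} [Fact p.Prime] (hP : Nat.card P = p ^ n) (hr : (frattini P).index = p ^ r) (A : Subgroup (MulAut P)) (hA : ∀ α ∈ A, ∀ x : P, α x * x⁻¹ ∈ frattini P) : Nat.card A ∣ p ^ (r * (n - r)) := by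
  classical
  have := Fintype.ofFinite P
  obtain ⟨T, -, hT, hT'⟩ := H3.burnside_basis_exists (IsPGroup.of_card hP) hr Finset.univ (by simp)
  let x : Fin r → P := fun i => (T.equivFinOfCardEq hT).symm i
  have hx : Subgroup.closure (Set.range x) = ⊤ := by
    rw [← hT']
    congr 1
    ext y
    exact ⟨fun ⟨i, hi⟩ => hi ▸ ((T.equivFinOfCardEq hT).symm i).2,
      fun hy => ⟨T.equivFinOfCardEq hT ⟨y, hy⟩, by simp [x]⟩⟩
  have h := H1.card_dvd_card_tuples A (r := r)
    (fun t => (fun i => (t i : P ⧸ frattini P)) = fun i => (x i : P ⧸ frattini P))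
    (fun t ht => (H1.closure_range_eq_top_iff_frattini t).1
      (ht ▸ (H1.closure_range_eq_top_iff_frattini x).2 hx)) fun α hα t ht => by
      rw [← ht]
      funext i
      exact QuotientGroup.eq_iff_div_mem.2 (by rw [div_eq_mul_inv]; exact hA α hα _)
  rwa [H1.card_tuples_fiber, H1.card_frattini_eq hP hr, ← pow_mul, mul_comm] at h

end Cfsg.Agent.S4207
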