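import Cfsg.Statements.S4212
import Cfsg.Agent.H1.FrobCount
import Cfsg.Agent.H9.InvCount

set_option autoImplicit false
open Cfsg

namespace Cfsg.Agent.S4212

/-- Let `G` be a finite group of order `g`, `c` an element whose conjugacy class has `h` elements, and `n` a natural number. Then the number of elements `x` of `G` with `x^n` conjugate to `c` is a multiple of `gcd(hn, g)`. -/
theorem result {G : Type*} [Group G] [Finite G] (c : G) (n : ℕ) : Nat.gcd (Nat.card {y : G // IsConj c y} * n) (Nat.card G) ∣ Nat.card {x : G // IsConj c (x ^ n)} := by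
  have h1 : Nat.card {x : G // IsConj c (x ^ n)} =
      Nat.card {y : G // IsConj c y} * Nat.card {x : G // x ^ n = c} := by
    classical
    have := Fintype.ofFinite {y : G // IsConj c y}
    let f : {x : G // IsConj c (x ^ n)} → {y : G // IsConj c y} := fun x => ⟨x.1 ^ n, x.2⟩
    rw [← Nat.card_congr (Equiv.sigmaFiberEquiv f), Nat.card_sigma, Nat.card_eq_fintype_card,
      ← smul_eq_mul, ← Finset.card_univ, ← Finset.sum_const]
    refine Finset.sum_congr rfl ?_
    rintro ⟨y, hy⟩ -
    obtain ⟨g, rfl⟩ := isConj_iff.1 hy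
    refine Nat.card_congr ⟨fun x => ⟨g⁻¹ * x.1.1 * g⁻¹⁻¹, ?_⟩,
      fun x => ⟨⟨g * x.1 * g⁻¹, by rwa [conj_pow, x.2]⟩, Subtype.ext ?_⟩, fun x => ?_, fun x => ?_⟩
    · have : x.1.1 ^ n = g * c * g⁻¹ := congrArg Subtype.val x.2
      rw [conj_pow, this]; group
    · change (g * x.1 * g⁻¹) ^ n = _
      rw [conj_pow, x.2]
    · ext; simp [mul_assoc]
    · ext; simp [mul_assoc]
  rw [h1, ← H9.card_isConj_mul_card_centralizer c, Nat.gcd_mul_left]
  exact Nat.mul_dvd_mul_left _ (H1.gcd_dvd_card_pow_eq c n)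

end Cfsg.Agent.S4212
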