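import Cfsg.Statements.S4213
import Cfsg.Agent.H1.FrobCount

set_option autoImplicit false
open Cfsg

namespace Cfsg.Agent.S4213

open Subgroup in
theorem aux (G : Type*) [Group G] [Finite G] : Group.IsSolvable G → ∀ n : ℕ, n ∣ Nat.card G →
    Nat.card {x : G // x ^ n = 1} ≤ n → ∃ H : Subgroup G, (H : Set G) = {x : G | x ^ n = 1} := by
  refine H1.card_induction (P := fun G _ _ => Group.IsSolvable G → ∀ n : ℕ, n ∣ Nat.card G →
    Nat.card {x : G // x ^ n = 1} ≤ n → ∃ H : Subgroup G, (H : Set G) = {x : G | x ^ n = 1})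
    (fun G _ _ ih => ?_) G
  intro hs n hn hc
  have hn0 : n ≠ 0 := by
    rintro rfl
    exact Nat.card_pos.ne' (zero_dvd_iff.1 hn)
  -- a subgroup of order at least `n` consisting of solutions is the solution set
  have key : ∀ H : Subgroup G, n ≤ Nat.card H → (∀ x ∈ H, x ^ n = 1) →
      (H : Set G) = {x : G | x ^ n = 1} := fun H h1 h2 =>
    Set.Finite.eq_of_subset_of_card_le (Set.toFinite _) h2 (hc.trans h1)
  have pos : ∀ (X : Type _) [Group X] [Finite X] (m : ℕ), 0 < Nat.card {x : X // x ^ m = 1} :=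
    fun X _ _ m => Nat.card_pos_iff.2 ⟨⟨⟨1, one_pow m⟩⟩, inferInstance⟩
  by_cases htop : (⊤ : Subgroup G) = ⊥
  · refine ⟨⊤, key _ ?_ fun x hx => ?_⟩
    · rw [card_top]; exact Nat.le_of_dvd Nat.card_pos hn
    · rw [htop, mem_bot] at hx; simp [hx]
  obtain ⟨p, A, hp, hAp, hAc, hA0, -, hAn⟩ := H1.exists_pGroup_of_isSolvable htop
  have : Fact p.Prime := ⟨hp⟩
  have hA : A.Normal := H1.normal_of_top_le_normalizer (le_normalizer.trans hAn)
  let K : Subgroup G :=
    { carrier := {x | x ∈ A ∧ x ^ p = 1}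
      one_mem' := ⟨A.one_mem, one_pow _⟩
      mul_mem' := fun {a b} ha hb => ⟨A.mul_mem ha.1 hb.1, by
        rw [Commute.mul_pow (setLike_mul_comm (s := A) ha.1 hb.1), ha.2, hb.2, one_mul]⟩
      inv_mem' := fun {a} ha => ⟨A.inv_mem ha.1, by rw [inv_pow, ha.2, inv_one]⟩ }
  have hK : K.Normal := ⟨fun x hx g => ⟨hA.conj_mem x hx.1 g, by rw [conj_pow, hx.2]; simp⟩⟩
  have hKp : IsPGroup p K := hAp.to_le fun x hx => hx.1
  have hK0 : K ≠ ⊥ := by
    obtain ⟨k, hk⟩ := IsPGroup.iff_card.1 hAp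
    obtain ⟨x, hx⟩ := exists_prime_orderOf_dvd_card' (G := A) p
      (hAp.card_eq_or_dvd.resolve_left fun e => hA0 (card_eq_one.1 e))
    intro e
    have h1 : (x : G) ∈ K := ⟨x.2, by rw [← hx, ← orderOf_coe, pow_orderOf_eq_one]⟩
    rw [e, mem_bot] at h1
    rw [← orderOf_coe, h1, orderOf_one] at hx
    exact hp.one_lt.ne hx
  obtain ⟨i, hi⟩ := IsPGroup.iff_card.1 hKp
  have hi0 : i ≠ 0 := by
    rintro rfl
    exact hK0 (card_eq_one.1 hi)
  have hG := K.card_eq_card_quotient_mul_card_subgroup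
  let f := QuotientGroup.mk' K
  have hf : Function.Surjective f := QuotientGroup.mk'_surjective K
  have hcomap : ∀ H : Subgroup (G ⧸ K), Nat.card (H.comap f) = Nat.card H * p ^ i := by
    intro H
    rw [← hi]
    exact (Nat.card_congr (QuotientGroup.preimageMkEquivSubgroupProdSet K H)).trans
      (by rw [Nat.card_prod, mul_comm]; rfl)
  have hpow : ∀ (x : G) (u : ℕ), f x ^ u = 1 → x ^ (u * p) = 1 := fun x u hx => by
    rw [← map_pow, QuotientGroup.mk'_apply, QuotientGroup.eq_one_iff] at hx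
    rw [pow_mul]; exact hx.2
  by_cases hpn : p ∣ n
  · have hpre : ∀ u, u * p ∣ n → Nat.card {y : G ⧸ K // y ^ u = 1} * p ^ i ≤ n := by
      intro u hu
      refine le_trans ?_ hc
      have := Nat.card_congr (QuotientGroup.preimageMkEquivSubgroupProdSet K {y | y ^ u = 1})
      rw [Nat.card_prod, hi, mul_comm] at this
      refine this.symm.le.trans (Nat.card_le_card_of_injective
        (fun x => ⟨x.1, ?_⟩) fun x y h => Subtype.ext (by simpa using h))
      obtain ⟨k, rfl⟩ := hu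
      rw [pow_mul, hpow x.1 u x.2, one_pow]
    obtain ⟨j, n', hn', rfl⟩ := Nat.exists_eq_pow_mul_and_not_dvd hn0 p hp.ne_one
    have hcop : n'.Coprime (p ^ i) := ((Nat.Prime.coprime_iff_not_dvd hp).2 hn').symm.pow_right _
    have hij : i ≤ j := by
      have h1 := hpre n' (by
        rw [mul_comm]
        exact Nat.mul_dvd_mul_right ((hp.dvd_mul.1 hpn).resolve_right hn') _)
      have h2 : n' ∣ Nat.card (G ⧸ K) :=
        hcop.dvd_of_dvd_mul_right (hi ▸ hG ▸ (Dvd.intro_left _ rfl).trans hn)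
      have h3 := Nat.le_of_dvd (pos _ _) (H1.dvd_card_pow_eq_one h2)
      have h4 : n' * p ^ i ≤ n' * p ^ j := by nlinarith [pow_pos hp.pos i]
      exact (Nat.pow_le_pow_iff_right hp.one_lt).1
        (Nat.le_of_mul_le_mul_left h4 (Nat.pos_of_ne_zero (right_ne_zero_of_mul hn0)))
    obtain ⟨d, rfl⟩ := Nat.exists_eq_add_of_le hij
    have e : p ^ (i + d) * n' = p ^ d * n' * p ^ i := by ring
    have hu : p ^ d * n' * p ∣ p ^ (i + d) * n' :=
      e ▸ Nat.mul_dvd_mul_left _ (dvd_pow_self p hi0)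
    have h2 : p ^ d * n' ∣ Nat.card (G ⧸ K) :=
      Nat.dvd_of_mul_dvd_mul_right (pow_pos hp.pos i) (e ▸ hi ▸ hG ▸ hn)
    have h1 := hpre _ hu
    rw [e] at h1
    obtain ⟨H, hH⟩ := ih (G ⧸ K) (H1.card_quotient_lt hK0) inferInstance _ h2
      (Nat.le_of_mul_le_mul_right h1 (pow_pos hp.pos i))
    refine ⟨H.comap f, key _ ?_ fun x hx => ?_⟩
    · rw [hcomap, e]
      refine Nat.mul_le_mul_right _ ((Nat.le_of_dvd (pos _ _) (H1.dvd_card_pow_eq_one h2)).trans ?_)
      exact (Nat.card_congr (Equiv.setCongr hH)).ge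
    · obtain ⟨k, hk⟩ := hu
      rw [hk, pow_mul, hpow x _ (hH.le hx), one_pow]
  · have hcop : n.Coprime p := ((Nat.Prime.coprime_iff_not_dvd hp).2 hpn).symm
    have h2 : n ∣ Nat.card (G ⧸ K) := (hcop.pow_right i).dvd_of_dvd_mul_right (hi ▸ hG ▸ hn)
    have h1 : Nat.card {y : G ⧸ K // y ^ n = 1} ≤ n := by
      refine le_trans (Nat.card_le_card_of_surjective
        (fun x : {x : G // x ^ n = 1} => ⟨f x.1, by rw [← map_pow, x.2, map_one]⟩) ?_) hc
      rintro ⟨y, hy⟩
      obtain ⟨t, ht⟩ := exists_pow_eq_self_of_coprime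
        (Nat.Coprime.coprime_dvd_right (orderOf_dvd_of_pow_eq_one hy) hcop.symm)
      obtain ⟨x, rfl⟩ := hf y
      refine ⟨⟨(x ^ p) ^ t, ?_⟩, Subtype.ext ?_⟩
      · rw [← pow_mul, ← pow_mul, mul_comm t n, ← mul_assoc, mul_comm p n, pow_mul, hpow x n hy,
          one_pow]
      · simpa using ht
    obtain ⟨H, hH⟩ := ih (G ⧸ K) (H1.card_quotient_lt hK0) inferInstance _ h2 h1
    have hHc : Nat.card H = n := le_antisymm ((Nat.card_congr (Equiv.setCongr hH)).le.trans h1)
      ((Nat.le_of_dvd (pos _ _) (H1.dvd_card_pow_eq_one h2)).trans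
        (Nat.card_congr (Equiv.setCongr hH)).ge)
    have hKH : K ≤ H.comap f := fun x hx => by
      rw [mem_comap, QuotientGroup.mk'_apply, (QuotientGroup.eq_one_iff x).2 hx]; exact H.one_mem
    have hc1 : Nat.card (K.subgroupOf (H.comap f)) = p ^ i := by
      rw [H1.card_subgroupOf, inf_of_le_left hKH, hi]
    have hc2 : (K.subgroupOf (H.comap f)).index = n := by
      have := (K.subgroupOf (H.comap f)).index_mul_card
      rw [hc1, hcomap, hHc] at this
      exact Nat.eq_of_mul_eq_mul_right (pow_pos hp.pos i) this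
    obtain ⟨L, hL⟩ := exists_right_complement'_of_coprime (N := K.subgroupOf (H.comap f))
      (by rw [hc1, hc2]; exact (hcop.pow_right i).symm)
    have hLc : Nat.card (L.map (H.comap f).subtype) = n := by
      rw [card_map_of_injective (subtype_injective _), ← hc2, hL.symm.index_eq_card]
    refine ⟨_, key _ hLc.ge fun x hx => ?_⟩
    rw [← hLc]
    exact congrArg Subtype.val (pow_card_eq_one' (x := (⟨x, hx⟩ : L.map (H.comap f).subtype)))

/-- If `G` is a finite solvable group and `n` divides the order of `G` and exactly `n` elements `x` of `G` satisfy `x^n = 1`, then these elements form a normal subgroup. -/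
theorem result {G : Type*} [Group G] [Finite G] [Group.IsSolvable G] (n : ℕ) (hn : n ∣ Nat.card G) (hcount : Nat.card {x : G // x ^ n = 1} = n) : ∃ H : Subgroup G, H.Normal ∧ (H : Set G) = {x : G | x ^ n = 1} := by
  obtain ⟨H, hH⟩ := aux G inferInstance n hn hcount.le
  refine ⟨H, ⟨fun x hx g => ?_⟩, hH⟩
  have h1 : x ^ n = 1 := hH.le hx
  exact hH.ge (show (g * x * g⁻¹) ^ n = 1 by rw [conj_pow, h1]; simp)

end Cfsg.Agent.S4213
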