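import Cfsg.Statements.S4216
import Cfsg.Agent.H8.Alperin

set_option autoImplicit false
open Cfsg

namespace Cfsg.Agent.S4216

open scoped Pointwise commutatorElement in

/-- Grün's first Theorem: if `P` is a Sylow `p`-subgroup of the finite group `G`, then `P ∩ G'` is the subgroup generated by `P ∩ N_G(P)'` together with the subgroups `P ∩ z P' z⁻¹` for all `z ∈ G`, where `'` denotes the derived subgroup and `N_G(P)` the normalizer of `P`. -/
theorem result {G : Type*} [Group G] [Finite G] {p : ℕ} [Fact p.Prime] (P : Sylow p G) : (P : Subgroup G) ⊓ commutator G = ((P : Subgroup G) ⊓ ⁅Subgroup.normalizer ((P : Subgroup G) : Set G), Subgroup.normalizer ((P : Subgroup G) : Set G)⁆) ⊔ ⨆ z : G, (P : Subgroup G) ⊓ (⁅(P : Subgroup G), (P : Subgroup G)⁆).map (MulAut.conj z).toMonoidHom := by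
  set D := ((P : Subgroup G) ⊓ ⁅Subgroup.normalizer ((P : Subgroup G) : Set G), Subgroup.normalizer ((P : Subgroup G) : Set G)⁆) ⊔ ⨆ z : G, (P : Subgroup G) ⊓ (⁅(P : Subgroup G), (P : Subgroup G)⁆).map (MulAut.conj z).toMonoidHom with hD
  apply le_antisymm
  swap
  · refine sup_le (inf_le_inf_left _ (Subgroup.commutator_mono le_top le_top))
      (iSup_le fun z => inf_le_inf_left _ ?_)
    rw [Subgroup.map_commutator]
    exact Subgroup.commutator_mono le_top le_top
  have hcomm : ∀ a g : G, a * (g * a * g⁻¹)⁻¹ = ⁅a, g⁆ := fun a g => by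
    rw [commutatorElement_def]; group
  -- a `p`-element normalizing a subgroup of `P`
  have hpel : ∀ Q : Subgroup G, Q ≤ P → ∀ g ∈ Subgroup.normalizer (Q : Set G),
      IsPGroup p (Subgroup.zpowers g) → ∀ a ∈ Q, a * (g * a * g⁻¹)⁻¹ ∈ D := by
    intro Q hQ g hg hgp a ha
    obtain ⟨R, hR⟩ := (IsPGroup.to_sup_of_normal_left' (P.isPGroup'.to_le hQ) hgp
      (Subgroup.zpowers_le.2 hg)).exists_le_sylow
    obtain ⟨z, rfl⟩ := MulAction.exists_smul_eq G P R
    refine Subgroup.mem_sup_right (Subgroup.mem_iSup_of_mem z ⟨hQ (Q.mul_mem ha (Q.inv_mem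
      ((Subgroup.mem_normalizer_iff.1 hg a).1 ha))), ?_⟩)
    rw [Subgroup.map_commutator, hcomm]
    exact Subgroup.commutator_mem_commutator (hR (Subgroup.mem_sup_left ha))
      (hR (Subgroup.mem_sup_right (Subgroup.mem_zpowers g)))
  have key : ∀ (k : ℕ) (A : Subgroup G), A ≤ P → ∀ g : G, MulAut.conj g • A ≤ P →
      Nat.card G ≤ Nat.card A + k → ∀ a ∈ A, a * (g * a * g⁻¹)⁻¹ ∈ D := by
    intro k
    induction k with
    | zero =>
      intro A hA g hg hk a ha
      have h1 : A = ⊤ := Subgroup.eq_top_of_le_card _ hk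
      subst h1
      exact hpel ⊤ hA g (Subgroup.le_normalizer (Subgroup.mem_top g)) (P.isPGroup'.to_le (le_top.trans hA)) a ha
    | succ k ih =>
      intro A hA g hg
      refine H8.alperin_induction P
        (fun A g => Nat.card G ≤ Nat.card A + (k + 1) → ∀ a ∈ A, a * (g * a * g⁻¹)⁻¹ ∈ D)
        ?_ ?_ ?_ ?_ hA hg
      · intro A g h _ _ h1 h2 hk a ha
        have h3 := D.mul_mem (h1 hk a ha) (h2 (by rwa [H8.card_conj_smul]) _
          (H8.conj_mem_conj_smul.2 ha))
        convert h3 using 1
        group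
      · intro A _ c hc _ a ha
        rw [← Subgroup.mem_centralizer_iff.1 hc a ha]
        simp
      · intro A hA s hs _ a ha
        exact hpel P le_rfl s (Subgroup.le_normalizer hs)
          (P.isPGroup'.to_le (Subgroup.zpowers_le.2 hs)) a (hA ha)
      · intro Q hQ hS _ n hn _ _ A hAQ hk a ha
        by_cases hQP : Q = P
        · subst hQP
          refine Subgroup.mem_sup_left ⟨Subgroup.mul_mem _ (hAQ ha) (Subgroup.inv_mem _
            ((Subgroup.mem_normalizer_iff.1 hn a).1 (hAQ ha))), ?_⟩
          rw [hcomm]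
          exact Subgroup.commutator_mem_commutator (Subgroup.le_normalizer (hAQ ha)) hn
        set N := Subgroup.normalizer (Q : Set G)
        set P₁ := (P : Subgroup G) ⊓ N
        have hlt : Q < P₁ := H8.lt_inf_normalizer_of_lt P.isPGroup' (lt_of_le_of_ne hQ hQP)
        let K : Subgroup G :=
          { carrier := {g | g ∈ N ∧ ∀ a ∈ Q, a * (g * a * g⁻¹)⁻¹ ∈ D}
            one_mem' := ⟨N.one_mem, fun a _ => by simp⟩
            mul_mem' := by
              rintro g h ⟨hg, hg'⟩ ⟨hh, hh'⟩
              refine ⟨N.mul_mem hg hh, fun a ha => ?_⟩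
              convert D.mul_mem (hh' a ha) (hg' _ ((Subgroup.mem_normalizer_iff.1 hh a).1 ha))
                using 1
              group
            inv_mem' := by
              rintro g ⟨hg, hg'⟩
              refine ⟨N.inv_mem hg, fun a ha => ?_⟩
              convert D.inv_mem (hg' _ ((Subgroup.mem_normalizer_iff.1 (N.inv_mem hg) a).1 ha))
                using 1
              group }
        have hPK : ∀ h ∈ N, MulAut.conj h • P₁ ≤ K := fun h hh x hx => by
          have h1 := hS.conj_smul_of_mem_normalizer (Subgroup.le_normalizer hh)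
          exact ⟨h1.le hx, hpel Q hQ x (h1.le hx) (h1.isPGroup.to_le (Subgroup.zpowers_le.2 hx))⟩
        have h1 : H8.IsSylowIn p P₁ K := hS.mono (by simpa using hPK 1 N.one_mem) fun x hx => hx.1
        have h2 : H8.IsSylowIn p (MulAut.conj n • P₁) K :=
          (hS.conj_smul_of_mem_normalizer (Subgroup.le_normalizer hn)).mono (hPK n hn)
            fun x hx => hx.1
        obtain ⟨c, hc, h3⟩ := h1.exists_conj_eq h2
        have h4 : MulAut.conj (c⁻¹ * n) • P₁ = P₁ := by
          rw [← H8.conj_smul_conj_smul, ← h3, H8.conj_inv_smul_conj_smul]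
        have h5 : c⁻¹ * n ∈ K := by
          refine ⟨N.mul_mem (N.inv_mem hc.1) hn, fun a ha => ?_⟩
          refine ih P₁ inf_le_left _ (h4.le.trans inf_le_left) ?_ a (hlt.le ha)
          have := H8.card_lt_of_lt hlt
          have := Subgroup.card_le_of_le hAQ
          omega
        have h6 := K.mul_mem hc h5
        rw [mul_inv_cancel_left] at h6
        exact h6.2 a (hAQ ha)
  rw [inf_comm]
  refine H8.commutator_inf_le_of_fusion P fun x hx g hg => ?_
  refine key (Nat.card G) (Subgroup.zpowers x) (Subgroup.zpowers_le.2 hx) g ?_ (by omega) x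
    (Subgroup.mem_zpowers x)
  rw [← H8.map_conj_eq_smul, MonoidHom.map_zpowers]
  exact Subgroup.zpowers_le.2 hg

end Cfsg.Agent.S4216
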