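import Cfsg.Statements.S4217
import Cfsg.Agent.H2.Gaschutz
import Cfsg.Agent.H3.Frattini

set_option autoImplicit false
open Cfsg

namespace Cfsg.Agent.S4217

universe u

open Subgroup

/-- elements of `A` killed by `n`. -/
def tors {G : Type*} [Group G] (A : Subgroup G) (hA : IsMulCommutative A) (n : ℕ) : Subgroup G where
  carrier := {a | a ∈ A ∧ a ^ n = 1}
  one_mem' := ⟨A.one_mem, one_pow n⟩
  mul_mem' := by
    rintro a b ⟨ha, ha'⟩ ⟨hb, hb'⟩
    refine ⟨A.mul_mem ha hb, ?_⟩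
    have : Commute a b := congrArg Subtype.val (hA.is_comm.comm ⟨a, ha⟩ ⟨b, hb⟩)
    rw [this.mul_pow, ha', hb', one_mul]
  inv_mem' := by
    rintro a ⟨ha, ha'⟩
    exact ⟨A.inv_mem ha, by rw [inv_pow, ha', inv_one]⟩

theorem tors_normal {G : Type*} [Group G] (A : Subgroup G) [hN : A.Normal]
    (hA : IsMulCommutative A) (n : ℕ) : (tors A hA n).Normal :=
  ⟨fun a ha g => ⟨hN.conj_mem a ha.1 g, by rw [conj_pow, ha.2]; simp⟩⟩

theorem aux (n : ℕ) : ∀ (G : Type u) [Group G] [Finite G] (A : Subgroup G) [A.Normal],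
    IsMulCommutative A → Nat.card A = n →
    (∀ p : ℕ, p.Prime → ∃ U K : Subgroup G, ¬ p ∣ U.index ∧ K ⊓ A = ⊥ ∧ K ⊔ A = U) →
    ∃ K : Subgroup G, K ⊓ A = ⊥ ∧ K ⊔ A = ⊤ := by
  induction n using Nat.strong_induction_on with
  | _ n ih =>
  intro G _ _ A _ hA hn h
  have quot : ∀ B : Subgroup G, B.Normal → B ≤ A → B ≠ ⊥ →
      ∃ H : Subgroup G, H ⊓ A = B ∧ H ⊔ A = ⊤ := by
    intro B _ hBA hB
    set π := QuotientGroup.mk' B with hπ
    have hs : Function.Surjective π := QuotientGroup.mk'_surjective B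
    haveI : (A.map π).Normal := Normal.map inferInstance _ hs
    have hlt : Nat.card (A.map π) < n := by
      have h1 : Nat.card (A.map π) * Nat.card B = n := by
        rw [← hn, ← relIndex_ker, hπ, QuotientGroup.ker_mk', mul_comm, relIndex,
          ← Nat.card_congr (subgroupOfEquivOfLe hBA).toEquiv, card_mul_index]
      have h2 := (one_lt_card_iff_ne_bot B).mpr hB
      have h3 : 0 < Nat.card (A.map π) := Nat.card_pos
      nlinarith
    obtain ⟨K, hK1, hK2⟩ := ih _ hlt (G ⧸ B) (A.map π) inferInstance rfl (by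
      intro p hp
      obtain ⟨U, K, hU, hK1, hK2⟩ := h p hp
      refine ⟨U.map π, K.map π, fun hd => hU (hd.trans (U.index_map_dvd hs)), ?_,
        by rw [← Subgroup.map_sup, hK2]⟩
      rw [eq_bot_iff]
      rintro _ ⟨⟨k, hk, rfl⟩, a, ha, hak⟩
      have : k ∈ K ⊓ A := ⟨hk, by simpa using A.mul_mem ha (hBA (QuotientGroup.eq.mp hak))⟩
      rw [hK1, mem_bot] at this
      rw [this, map_one]
      exact one_mem _)
    have hAc : (A.map π).comap π = A := by
      rw [comap_map_eq, hπ, QuotientGroup.ker_mk', sup_eq_left.mpr hBA]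
    refine ⟨K.comap π, ?_, ?_⟩
    · rw [← hAc, ← comap_inf, hK1, MonoidHom.comap_bot, hπ, QuotientGroup.ker_mk']
    · rw [← hAc, comap_sup_eq _ _ _ hs, hK2, comap_top]
  by_cases h1 : Nat.card A = 1
  · refine ⟨⊤, ?_, top_sup_eq _⟩
    rw [top_inf_eq, ← card_eq_one, h1]
  obtain ⟨p, hp, hpA⟩ := Nat.exists_prime_and_dvd h1
  haveI := Fact.mk hp
  obtain ⟨k, m, hm, hkm⟩ := Nat.exists_eq_pow_mul_and_not_dvd (Nat.card_pos (α := A)).ne' p hp.ne_one
  by_cases hm1 : m = 1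
  · obtain ⟨U, K, hU, hK1, hK2⟩ := h p hp
    obtain ⟨H, hH⟩ := H2.gaschutz_exists A U (hK2 ▸ le_sup_right)
      (by rw [hkm, hm1, mul_one]; exact ((hp.coprime_iff_not_dvd).mpr hU).pow_left k) K
      (hK2 ▸ le_sup_left) hK1 (by rw [sup_comm, hK2])
    exact ⟨H, hH.symm.disjoint.eq_bot, hH.symm.sup_eq_top⟩
  have hcop : (p ^ k).Coprime m := ((hp.coprime_iff_not_dvd).mpr hm).pow_left k
  have hne : ∀ (q e : ℕ), q.Prime → q ∣ Nat.card A → q ∣ e → tors A hA e ≠ ⊥ := by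
    intro q e hq hqA hqe hb
    haveI := Fact.mk hq
    obtain ⟨a, ha⟩ := exists_prime_orderOf_dvd_card' q hqA
    have : (a : G) ∈ tors A hA e :=
      ⟨a.2, orderOf_dvd_iff_pow_eq_one.mp (by rw [orderOf_coe, ha]; exact hqe)⟩
    rw [hb, mem_bot] at this
    rw [show a = 1 from Subtype.ext this, orderOf_one] at ha
    exact hq.one_lt.ne ha
  obtain ⟨q, hq, hqm⟩ := Nat.exists_prime_and_dvd hm1
  have hpk : p ∣ p ^ k := (hp.dvd_mul.mp (hkm ▸ hpA)).resolve_right hm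
  obtain ⟨H₁, h11, h12⟩ := quot _ (tors_normal A hA (p ^ k)) (fun _ h => h.1)
    (hne p _ hp hpA hpk)
  obtain ⟨H₂, h21, h22⟩ := quot _ (tors_normal A hA m) (fun _ h => h.1)
    (hne q _ hq (hkm ▸ hqm.mul_left _) hqm)
  have hdec : ∀ a ∈ A, ∃ b ∈ H₁ ⊓ A, ∃ c ∈ H₂ ⊓ A, a = b * c := by
    intro a ha
    rw [h11, h21]
    have h0 : a ^ (p ^ k * m) = 1 := by
      rw [← hkm]
      exact congrArg Subtype.val (pow_card_eq_one' (x := (⟨a, ha⟩ : A)))
    obtain ⟨u, v, huv⟩ := Nat.isCoprime_iff_coprime.mpr hcop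
    refine ⟨a ^ (v * m), ⟨A.zpow_mem ha _, ?_⟩, a ^ (u * (p ^ k : ℕ)), ⟨A.zpow_mem ha _, ?_⟩, ?_⟩
    · rw [← zpow_natCast, ← zpow_mul, mul_assoc, mul_comm, zpow_mul, ← Nat.cast_mul, zpow_natCast,
        mul_comm, h0, one_zpow]
    · rw [← zpow_natCast, ← zpow_mul, mul_assoc, mul_comm, zpow_mul, ← Nat.cast_mul, zpow_natCast,
        h0, one_zpow]
    · rw [← zpow_add, add_comm, huv, zpow_one]
  refine ⟨H₁ ⊓ H₂, ?_, ?_⟩
  · rw [eq_bot_iff]
    rintro a ⟨⟨ha1, ha2⟩, ha⟩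
    have e1 : a ∈ tors A hA (p ^ k) := h11 ▸ ⟨ha1, ha⟩
    have e2 : a ∈ tors A hA m := h21 ▸ ⟨ha2, ha⟩
    exact orderOf_eq_one_iff.mp (Nat.eq_one_of_dvd_coprimes hcop
      (orderOf_dvd_of_pow_eq_one e1.2) (orderOf_dvd_of_pow_eq_one e2.2))
  · rw [eq_top_iff]
    intro g _
    have e1 : g ∈ ((H₁ ⊔ A : Subgroup G) : Set G) := h12 ▸ mem_top g
    have e2 : g ∈ ((H₂ ⊔ A : Subgroup G) : Set G) := h22 ▸ mem_top g
    rw [mul_normal] at e1 e2
    obtain ⟨x, hx, a, ha, hxa⟩ := e1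
    obtain ⟨y, hy, a', ha', hya⟩ := e2
    obtain ⟨b, hb, c, hc, hbc⟩ := hdec (a * a'⁻¹) (A.mul_mem ha (A.inv_mem ha'))
    simp only at hxa hya
    have e3 : x * b = y * c⁻¹ := by
      have : y = x * (a * a'⁻¹) := by rw [← mul_assoc, hxa, ← hya]; group
      rw [this, hbc]; group
    have e4 : g = x * b * (b⁻¹ * a) := by rw [← hxa]; group
    rw [e4]
    exact mul_mem (mem_sup_left ⟨H₁.mul_mem hx hb.1, e3 ▸ H₂.mul_mem hy (H₂.inv_mem hc.1)⟩)
      (mem_sup_right (A.mul_mem (A.inv_mem hb.2) ha))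

/-- Let `A` be an abelian normal subgroup of the finite group `G`. Then `A` has a complement in `G` if and only if, for every prime `p` dividing the index of `A`, there are a Sylow `p`-subgroup `S` of `G/A` and a subgroup `K` of `G` with `K ∩ A = 1` and `KA` equal to the preimage of `S` (that is, `A` has a complement in the preimage of a Sylow `p`-subgroup of `G/A`). -/
theorem result {G : Type*} [Group G] [Finite G] (A : Subgroup G) [A.Normal] (hA : IsMulCommutative A) : (∃ K : Subgroup G, K.IsComplement' A) ↔ ∀ p : ℕ, p.Prime → p ∣ A.index → ∃ (S : Sylow p (G ⧸ A)) (K : Subgroup G), K ⊓ A = ⊥ ∧ K ⊔ A = (S : Subgroup (G ⧸ A)).comap (QuotientGroup.mk' A) := by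
  have hs := QuotientGroup.mk'_surjective A
  constructor
  · rintro ⟨K, hK⟩ p hp _
    haveI := Fact.mk hp
    obtain ⟨S⟩ := (inferInstance : Nonempty (Sylow p (G ⧸ A)))
    have hA' : A ≤ (S : Subgroup (G ⧸ A)).comap (QuotientGroup.mk' A) := fun a ha => by
      rw [mem_comap, QuotientGroup.mk'_apply, (QuotientGroup.eq_one_iff a).mpr ha]
      exact one_mem _
    refine ⟨S, K ⊓ (S : Subgroup (G ⧸ A)).comap (QuotientGroup.mk' A), ?_, ?_⟩
    · rw [eq_bot_iff, ← hK.disjoint.eq_bot]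
      exact inf_le_inf_right _ inf_le_left
    · rw [← H3.sup_inf_of_normal_le hA', hK.sup_eq_top, top_inf_eq]
  · intro h
    obtain ⟨K, hK1, hK2⟩ := aux _ G A hA rfl (by
      intro p hp
      by_cases hd : p ∣ A.index
      · haveI := Fact.mk hp
        obtain ⟨S, K, hK1, hK2⟩ := h p hp hd
        refine ⟨_, K, ?_, hK1, hK2⟩
        rw [index_comap_of_surjective _ hs]
        exact S.not_dvd_index
      · exact ⟨A, ⊥, hd, bot_inf_eq _, bot_sup_eq _⟩)
    exact ⟨K, (H3.isComplement'_of_inf_eq_bot_of_sup_eq_top (by rw [inf_comm, hK1])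
      (by rw [sup_comm, hK2])).symm⟩

end Cfsg.Agent.S4217
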