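import Cfsg.Statements.S4219

set_option autoImplicit false
open Cfsg

namespace Cfsg.Agent.S4219

open scoped Pointwise in
theorem aux {G : Type*} [Group G] [Finite G] {β : Type*} [MulAction G β] (x : β) {p : ℕ}
    [Fact p.Prime] (P : Sylow p (MulAction.stabilizer G x)) (a : β) (g : G) (hg : g • x = a)
    (ha : ∀ y ∈ (P : Subgroup (MulAction.stabilizer G x)).map (MulAction.stabilizer G x).subtype,
      y • a = a) :
    ∃ n ∈ Subgroup.normalizer ((((P : Subgroup (MulAction.stabilizer G x)).map
      (MulAction.stabilizer G x).subtype) : Subgroup G) : Set G), n • x = a := by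
  let S := MulAction.stabilizer G x
  have hS : S = MulAction.stabilizer G x := rfl
  let R : Subgroup G := (P : Subgroup S).map S.subtype
  -- R' = g⁻¹ R g ≤ S
  let R' : Subgroup G := R.map (MulAut.conj g⁻¹).toMonoidHom
  have hR'S : R' ≤ S := by
    rintro _ ⟨y, hy, rfl⟩
    have := ha y hy
    simp only [hS, MulAction.mem_stabilizer_iff, MulEquiv.toMonoidHom_eq_coe, MonoidHom.coe_coe,
      MulAut.conj_apply, inv_inv, mul_smul, hg, this]
    rw [← hg, inv_smul_smul]
  have hRp : IsPGroup p R := P.isPGroup'.map _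
  have hR'p : IsPGroup p R' := hRp.map _
  have hcard : Nat.card (R'.subgroupOf S) = Nat.card P := by
    rw [Nat.card_congr (Subgroup.subgroupOfEquivOfLe hR'S).toEquiv]
    have h1 : Nat.card R' = Nat.card R :=
      Subgroup.card_map_of_injective (MulAut.conj g⁻¹).injective
    rw [h1]
    exact Subgroup.card_map_of_injective S.subtype_injective
  let Q : Sylow p S := Sylow.ofCard (R'.subgroupOf S) (by rw [hcard, P.card_eq_multiplicity])
  obtain ⟨h, hh⟩ := MulAction.exists_smul_eq S P Q
  have hh' : ∀ y : G, y ∈ R' ↔ (h : G)⁻¹ * y * h ∈ R := by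
    intro y
    constructor
    · intro hy
      have h1 : (⟨y, hR'S hy⟩ : S) ∈ (Q : Subgroup S) := hy
      rw [← hh, Sylow.coe_subgroup_smul, Subgroup.mem_pointwise_smul_iff_inv_smul_mem] at h1
      exact ⟨_, h1, by simp⟩
    · rintro ⟨z, hz, hz'⟩
      have h1 : h * z * h⁻¹ ∈ (Q : Subgroup S) := by
        rw [← hh, Sylow.coe_subgroup_smul, Subgroup.mem_pointwise_smul_iff_inv_smul_mem]
        have e : (MulAut.conj h)⁻¹ • (h * z * h⁻¹) = z := by simp [mul_assoc]
        rw [e]; exact hz
      have h2 : ((h * z * h⁻¹ : S) : G) = y := by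
        have : (z : G) = (h : G)⁻¹ * y * h := hz'
        push_cast
        rw [this]; group
      rw [← h2]
      exact h1
  refine ⟨g * h, ?_, ?_⟩
  · rw [← inv_mem_iff, Subgroup.mem_normalizer_iff]
    intro y
    have h1 : y ∈ R ↔ g⁻¹ * y * g ∈ R' := by
      constructor
      · intro hy; exact ⟨y, hy, by simp⟩
      · rintro ⟨z, hz, hz'⟩
        have : z = y := by simpa using hz'
        exact this ▸ hz
    change y ∈ R ↔ _ ∈ R
    rw [h1, hh']
    simp [mul_assoc]
  · rw [mul_smul]
    have : (h : G) • x = x := h.2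
    rw [this, hg]

/-- Let a finite group `G` act `t`-fold transitively on a finite set, let `H` be the stabilizer of `t` distinct points and `P` a Sylow `p`-subgroup of `H`. Then the normalizer of `P` in `G` is `t`-fold transitive on the fixed points of `P`: any `t` distinct fixed points of `P` can be carried to any other `t` distinct fixed points of `P` by an element normalizing `P`. -/
theorem result {G : Type*} [Group G] [Finite G] {α : Type*} [Fintype α] [MulAction G α] {t : ℕ} (hG : MulAction.IsMultiplyPretransitive G α t) (x : Fin t ↪ α) {p : ℕ} [Fact p.Prime] (P : Sylow p (MulAction.stabilizer G x)) (a b : Fin t ↪ α) (ha : ∀ i, a i ∈ MulAction.fixedPoints ((P : Subgroup (MulAction.stabilizer G x)).map (MulAction.stabilizer G x).subtype) α) (hb : ∀ i, b i ∈ MulAction.fixedPoints ((P : Subgroup (MulAction.stabilizer G x)).map (MulAction.stabilizer G x).subtype) α) : ∃ g ∈ Subgroup.normalizer ((((P : Subgroup (MulAction.stabilizer G x)).map (MulAction.stabilizer G x).subtype) : Subgroup G) : Set G),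 g • a = b := by
  have hfix : ∀ c : Fin t ↪ α, (∀ i, c i ∈ MulAction.fixedPoints ((P : Subgroup (MulAction.stabilizer G x)).map (MulAction.stabilizer G x).subtype) α) → ∀ y ∈ (P : Subgroup (MulAction.stabilizer G x)).map (MulAction.stabilizer G x).subtype, y • c = c := by
    intro c hc y hy
    ext i
    exact hc i ⟨y, hy⟩
  obtain ⟨g₁, hg₁⟩ := hG.exists_smul_eq x a
  obtain ⟨g₂, hg₂⟩ := hG.exists_smul_eq x b
  obtain ⟨n₁, hn₁, h₁⟩ := aux x P a g₁ hg₁ (hfix a ha)
  obtain ⟨n₂, hn₂, h₂⟩ := aux x P b g₂ hg₂ (hfix b hb)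
  refine ⟨n₂ * n₁⁻¹, mul_mem hn₂ (inv_mem hn₁), ?_⟩
  rw [mul_smul, ← h₁, inv_smul_smul, h₂]

end Cfsg.Agent.S4219
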