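import Cfsg.Statements.S4223
import Cfsg.Agent.H1.Nilp

set_option autoImplicit false
open Cfsg

namespace Cfsg.Agent.S4223

/-- directly indecomposable -/
def Indec (A : Type*) [Group A] : Prop :=
  ∀ H K : Subgroup A, H.Normal → K.Normal → H ⊓ K = ⊥ → H ⊔ K = ⊤ → H = ⊥ ∨ K = ⊥

/-- normal endomorphism -/
def NormalEnd {A : Type*} [Group A] (f : A →* A) : Prop :=
  ∀ g x, f (g * x * g⁻¹) = g * f x * g⁻¹

open Subgroup in
theorem split_of_injective {A B : Type*} [Group A] [Group B] [Finite A] (hB : Indec B)
    (φ : A →* B) (ψ : B →* A) (hn : φ.range.Normal) (h : Function.Injective (ψ.comp φ)) :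
    φ.range = ⊥ ∨ ψ.ker = ⊥ := by
  refine hB _ _ hn inferInstance ?_ ?_
  · rw [eq_bot_iff]
    rintro _ ⟨⟨a, rfl⟩, ha⟩
    rw [(injective_iff_map_eq_one _).1 h a ha, map_one]
    exact one_mem _
  · rw [eq_top_iff]
    intro b _
    obtain ⟨a, ha⟩ := Finite.surjective_of_injective h (ψ b)
    rw [← mul_inv_cancel_left (φ a) b]
    refine mul_mem_sup ⟨a, rfl⟩ ?_
    rw [MonoidHom.mem_ker, map_mul, map_inv, ← ha, MonoidHom.comp_apply, inv_mul_cancel]

/-- Fitting's lemma -/
theorem fitting {A : Type*} [Group A] [Finite A] (hA : Indec A) {f : A →* A} (hf : NormalEnd f)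
    (hi : ¬ Function.Injective f) {x : A} (hx : f x = x) : x = 1 := by
  let F : ℕ → A →* A := fun n => ((show Monoid.End A from f) ^ n : Monoid.End A)
  have hF : ∀ n x, F (n + 1) x = F n (f x) := fun n x => rfl
  have hFF : ∀ m n x, F (m + n) x = F m (F n x) := fun m n x =>
    DFunLike.congr_fun (pow_add (show Monoid.End A from f) m n) x
  have hn : ∀ n, NormalEnd (F n) := by
    intro n
    induction n with
    | zero => exact fun _ _ => rfl
    | succ n ih => intro g x; rw [hF, hF, hf, ih]
  have hfix : ∀ n, F n x = x := by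
    intro n
    induction n with
    | zero => rfl
    | succ n ih => rw [hF, hx, ih]
  have hmono : Monotone fun n => (F n).ker := monotone_nat_of_le_succ fun n y hy => by
    rw [MonoidHom.mem_ker] at hy ⊢
    rw [add_comm, hFF, hy, map_one]
  obtain ⟨n, hn'⟩ := WellFoundedGT.monotone_chain_condition ⟨_, hmono⟩
  let φ := (F (n + 1)).range.subtype
  let ψ := (F (n + 1)).rangeRestrict
  have hr : φ.range.Normal := by
    rw [Subgroup.range_subtype]
    refine ⟨?_⟩
    rintro _ ⟨a, rfl⟩ g
    exact ⟨_, hn _ g a⟩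
  have hinj : Function.Injective (ψ.comp φ) := by
    rw [injective_iff_map_eq_one]
    rintro ⟨_, a, rfl⟩ ha
    have h1 : a ∈ (F (n + 1 + (n + 1))).ker := by
      rw [MonoidHom.mem_ker, hFF]
      exact congrArg Subtype.val ha
    have h2 : (F n).ker = (F (n + 1 + (n + 1))).ker := hn' _ (by omega)
    exact Subtype.ext (hmono (Nat.le_succ n) (h2.ge h1))
  rcases split_of_injective hA φ ψ hr hinj with h | h
  · rw [Subgroup.range_subtype] at h
    exact Subgroup.mem_bot.1 (h ▸ ⟨x, hfix _⟩)
  · rw [MonoidHom.ker_rangeRestrict] at h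
    refine absurd ((injective_iff_map_eq_one _).2 fun a ha => ?_) hi
    refine Subgroup.mem_bot.1 (h ▸ ?_)
    rw [MonoidHom.mem_ker, hF, ha, map_one]

theorem injective_or {A : Type*} [Group A] [Finite A] (hA : Indec A) {f g h : A →* A}
    (hf : NormalEnd f) (hh : NormalEnd h) (e : ∀ x, h x = f x * g x) (hi : Function.Injective h) :
    Function.Injective f ∨ Function.Injective g := by
  refine or_iff_not_imp_left.2 fun h1 => (injective_iff_map_eq_one _).2 fun x hx => ?_
  let α := MulEquiv.ofBijective h (Finite.injective_iff_bijective.1 hi)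
  refine fitting hA (f := α.symm.toMonoidHom.comp f) (fun a y => ?_)
    (fun h3 => absurd h3 (fun h3 => h1 <| by
      refine (injective_iff_map_eq_one _).2 fun a ha => (injective_iff_map_eq_one _).1 h3 a ?_
      rw [MonoidHom.comp_apply, ha, map_one])) ?_
  · refine α.injective ?_
    change α (α.symm (f _)) = h (a * α.symm (f y) * a⁻¹)
    rw [hh, MulEquiv.apply_symm_apply, hf]
    change _ = a * α (α.symm (f y)) * a⁻¹
    rw [MulEquiv.apply_symm_apply]
  · refine α.injective ?_
    change α (α.symm (f _)) = h x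
    rw [MulEquiv.apply_symm_apply, e, hx, mul_one]

/-- projection onto a set of coordinates -/
def proj {n : ℕ} (B : Fin n → Type*) [∀ j, Group (B j)] (S : Finset (Fin n)) :
    ((j : Fin n) → B j) →* ((j : Fin n) → B j) where
  toFun x j := if j ∈ S then x j else 1
  map_one' := by ext j; simp
  map_mul' x y := by ext j; by_cases h : j ∈ S <;> simp [h]

theorem exchange {n : ℕ} {A : Type*} [Group A] [Finite A] [Nontrivial A] (hA : Indec A)
    {B : Fin n → Type*} [∀ j, Group (B j)] (hB : ∀ j, Indec (B j))
    (ι : A →* ((j : Fin n) → B j)) (π : ((j : Fin n) → B j) →* A) (h : ∀ a, π (ι a) = a)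
    (hn : ι.range.Normal) : ∃ j, Function.Bijective (π.comp (MonoidHom.mulSingle B j)) := by
  let F : Finset (Fin n) → A →* A := fun S => π.comp ((proj B S).comp ι)
  have hF : ∀ S, NormalEnd (F S) := by
    intro S g x
    have : proj B S (ι (g * x * g⁻¹)) = ι g * proj B S (ι x) * (ι g)⁻¹ := by
      ext j
      by_cases hj : j ∈ S <;> simp [proj, hj]
    change π (proj B S _) = g * π (proj B S _) * g⁻¹
    rw [this, map_mul, map_mul, map_inv, h]
  have key : ∀ S, Function.Injective (F S) → ∃ j, Function.Injective (F {j}) := by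
    intro S
    induction S using Finset.induction_on with
    | empty =>
      intro hi
      obtain ⟨a, ha⟩ := exists_ne (1 : A)
      refine absurd ((injective_iff_map_eq_one _).1 hi a ?_) ha
      have : proj B ∅ (ι a) = 1 := by ext j; simp [proj]
      change π (proj B ∅ (ι a)) = 1
      rw [this, map_one]
    | insert j S hj ih =>
      intro hi
      refine (injective_or hA (hF {j}) (hF _) (fun x => ?_) hi).elim (fun h => ⟨j, h⟩) ih
      have : proj B (insert j S) (ι x) = proj B {j} (ι x) * proj B S (ι x) := by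
        ext k
        by_cases hk : k = j
        · subst hk; simp [proj, hj]
        · simp [proj, hk]
      change π (proj B _ _) = π (proj B _ _) * π (proj B _ _)
      rw [this, map_mul]
  obtain ⟨j, hj⟩ := key Finset.univ (by
    have : ∀ x, F Finset.univ x = x := fun x => by
      have : proj B Finset.univ (ι x) = ι x := by ext j; simp [proj]
      change π (proj B _ _) = x
      rw [this, h]
    intro x y e
    rwa [this, this] at e)
  have e : F {j} = (π.comp (MonoidHom.mulSingle B j)).comp ((Pi.evalMonoidHom B j).comp ι) := by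
    ext x
    change π (proj B _ _) = π (Pi.mulSingle j (ι x j))
    congr 1
    ext k
    by_cases hk : k = j
    · subst hk; simp [proj]
    · simp [proj, hk]
  rw [e] at hj
  have hn' : ((Pi.evalMonoidHom B j).comp ι).range.Normal := by
    rw [MonoidHom.range_comp]
    exact hn.map _ (Function.surjective_eval j)
  refine ⟨j, ?_, Function.Surjective.of_comp (Finite.surjective_of_injective hj)⟩
  rcases split_of_injective (hB j) _ _ hn' hj with h1 | h1
  · obtain ⟨a, ha⟩ := exists_ne (1 : A)
    refine absurd ((injective_iff_map_eq_one _).1 hj a ?_) ha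
    rw [MonoidHom.comp_apply, Subgroup.mem_bot.1 (h1 ▸ ⟨a, rfl⟩ :
      ((Pi.evalMonoidHom B j).comp ι) a ∈ (⊥ : Subgroup _)), map_one]
  · exact (MonoidHom.ker_eq_bot_iff _).1 h1

theorem aux (m : ℕ) : ∀ (n : ℕ) (A : Fin m → Type*) (B : Fin n → Type*) [∀ i, Group (A i)]
    [∀ j, Group (B j)] [∀ i, Finite (A i)] [∀ j, Finite (B j)],
    (∀ i, Nontrivial (A i) ∧ Indec (A i)) → (∀ j, Nontrivial (B j) ∧ Indec (B j)) →
    (((i : Fin m) → A i) ≃* ((j : Fin n) → B j)) →
    ∃ σ : Fin m ≃ Fin n, ∀ i, Nonempty (A i ≃* B (σ i)) := by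
  induction m with
  | zero =>
    intro n A B _ _ _ _ _ hB e
    cases n with
    | zero => exact ⟨Equiv.refl _, fun i => i.elim0⟩
    | succ n =>
      have := (hB 0).1
      obtain ⟨b, hb⟩ := exists_ne (1 : B 0)
      have : Subsingleton ((j : Fin (n + 1)) → B j) := e.symm.injective.subsingleton
      exact absurd (by simpa using congrFun (Subsingleton.elim (Pi.mulSingle 0 b :
        (j : Fin (n + 1)) → B j) 1) 0) hb
  | succ m ih =>
    intro n A B _ _ _ _ hA hB e
    have := (hA 0).1
    have hn : (e.toMonoidHom.comp (MonoidHom.mulSingle A 0)).range.Normal := by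
      rw [MonoidHom.range_comp]
      refine Subgroup.Normal.map ⟨?_⟩ _ e.surjective
      rintro _ ⟨a, rfl⟩ g
      refine ⟨g 0 * a * (g 0)⁻¹, ?_⟩
      ext k
      by_cases hk : k = 0
      · subst hk; simp
      · simp [hk]
    obtain ⟨j, hj⟩ := exchange (hA 0).2 (fun j => (hB j).2)
      (e.toMonoidHom.comp (MonoidHom.mulSingle A 0))
      ((Pi.evalMonoidHom A 0).comp e.symm.toMonoidHom) (fun a => by simp) hn
    obtain ⟨n, rfl⟩ : ∃ k, n = k + 1 := Nat.exists_eq_succ_of_ne_zero j.pos.ne'
    let ι : ((i : Fin m) → A i.succ) →* ((i : Fin (m + 1)) → A i) :=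
      { toFun c := Fin.cons 1 c
        map_one' := by ext i; refine Fin.cases ?_ (fun i => ?_) i <;> simp
        map_mul' x y := by ext i; refine Fin.cases ?_ (fun i => ?_) i <;> simp }
    let ρ : ((k : Fin (n + 1)) → B k) →* ((k : Fin n) → B (j.succAbove k)) :=
      MonoidHom.pi fun k => Pi.evalMonoidHom B (j.succAbove k)
    let θ := ρ.comp (e.toMonoidHom.comp ι)
    have hθ : Function.Injective θ := by
      rw [injective_iff_map_eq_one]
      intro c hc
      have h1 : e (ι c) = Pi.mulSingle j (e (ι c) j) := by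
        ext k
        refine Fin.succAboveCases j (by simp) (fun k => ?_) k
        rw [Pi.mulSingle_eq_of_ne (j.succAbove_ne k)]
        exact congrFun hc k
      have h2 : e (ι c) j = 1 := (injective_iff_map_eq_one _).1 hj.1 _ (by
        change e.symm (Pi.mulSingle j (e (ι c) j)) 0 = 1
        rw [← h1, MulEquiv.symm_apply_apply]
        rfl)
      rw [h2, Pi.mulSingle_one, map_eq_one_iff _ e.injective] at h1
      ext i
      exact congrFun h1 i.succ
    have hc : Nat.card ((i : Fin m) → A i.succ) = Nat.card ((k : Fin n) → B (j.succAbove k)) := by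
      have h1 := Nat.card_congr e.toEquiv
      rw [Nat.card_pi, Nat.card_pi, Fin.prod_univ_succ, Fin.prod_univ_succAbove _ j,
        Nat.card_congr (Equiv.ofBijective _ hj)] at h1
      rw [Nat.card_pi, Nat.card_pi]
      exact Nat.eq_of_mul_eq_mul_left Nat.card_pos h1
    obtain ⟨σ, hσ⟩ := ih n (fun i => A i.succ) (fun k => B (j.succAbove k)) (fun i => hA _)
      (fun k => hB _)
      (MulEquiv.ofBijective θ ((Nat.bijective_iff_injective_and_card θ).2 ⟨hθ, hc⟩))
    refine ⟨(finSuccEquiv m).trans ((Equiv.optionCongr σ).trans (finSuccEquiv' j).symm),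
      fun i => Fin.cases ?_ (fun i => ?_) i⟩
    · exact ⟨(MulEquiv.ofBijective _ hj).symm⟩
    · exact hσ i

/-- If a finite group is isomorphic both to a direct product of `m` directly indecomposable nontrivial groups and to a direct product of `n` such groups (a group is directly indecomposable when it is not the internal direct product of two nontrivial normal subgroups), then `m = n` and the factors are isomorphic in pairs after a suitable matching. -/
theorem result {m n : ℕ} {A : Fin m → Type*} {B : Fin n → Type*} [∀ i, Group (A i)] [∀ j, Group (B j)] [∀ i, Finite (A i)] [∀ j, Finite (B j)] (hA : ∀ i, Nontrivial (A i) ∧ ∀ H K : Subgroup (A i), H.Normal → K.Normal → H ⊓ K = ⊥ → H ⊔ K = ⊤ → H = ⊥ ∨ K = ⊥) (hB : ∀ j, Nontrivial (B j) ∧ ∀ H K : Subgroup (B j), H.Normal → K.Normal → H ⊓ K = ⊥ → H ⊔ K = ⊤ → H = ⊥ ∨ K = ⊥) (e : ((i : Fin m) → A i) ≃* ((j : Fin n) → B j)) : ∃ σ : Fin m ≃ Fin n, ∀ i, Nonempty (A i ≃* B (σ i)) := by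
  exact aux m n A B hA hB e

end Cfsg.Agent.S4223
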