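import Cfsg.Statements.S4227
import Cfsg.Agent.H4.PLength
import Cfsg.Agent.S0144
import Cfsg.Agent.H24.PSolv

set_option autoImplicit false
open Cfsg

namespace Cfsg.Agent.S4227

theorem pow_eq_one_of_pow_pow {G : Type*} [Group G] {p q : ℕ} (hp : p.Prime) (hpq : p.Coprime q)
    {x : G} (h : x ^ (p * q) = 1) {k : ℕ} (hk : x ^ p ^ k = 1) : x ^ p = 1 := by
  have h1 : orderOf x ∣ p * q := orderOf_dvd_of_pow_eq_one h
  have h2 : orderOf x ∣ p ^ k := orderOf_dvd_of_pow_eq_one hk
  have h3 : (orderOf x).Coprime q := (hpq.pow_left k).coprime_dvd_left h2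
  exact orderOf_dvd_iff_pow_eq_one.1 (h3.dvd_of_dvd_mul_right h1)

/-- A finite group in which every element has order dividing `6` has `2`-length at most `1` and `3`-length at most `1`. -/
theorem result {G : Type*} [Group G] [Finite G] (h : ∀ x : G, x ^ 6 = 1) : Cfsg.PLengthLE 2 1 G ∧ Cfsg.PLengthLE 3 1 G := by
  have hcard : Nat.card G = 2 ^ (Nat.card G).factorization 2 * 3 ^ (Nat.card G).factorization 3 := by
    have hsub : (Nat.card G).factorization.support ⊆ {2, 3} := by
      intro r hr
      rw [Nat.support_factorization] at hr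
      have hr' := Nat.prime_of_mem_primeFactors hr
      haveI := Fact.mk hr'
      obtain ⟨g, hg⟩ := exists_prime_orderOf_dvd_card' r (Nat.dvd_of_mem_primeFactors hr)
      have h1 : r ∣ 2 * 3 := hg ▸ orderOf_dvd_of_pow_eq_one (h g)
      rcases (Nat.Prime.dvd_mul hr').1 h1 with h2 | h2
      · simp [(Nat.prime_dvd_prime_iff_eq hr' Nat.prime_two).1 h2]
      · simp [(Nat.prime_dvd_prime_iff_eq hr' Nat.prime_three).1 h2]
    conv_lhs => rw [← Nat.prod_factorization_pow_eq_self (Nat.card_pos (α := G)).ne']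
    rw [Finsupp.prod_of_support_subset _ hsub _ (by simp), Finset.prod_pair (by norm_num)]
  have hs := S0144.result 2 3 _ _ Nat.prime_two Nat.prime_three hcard
  have h2 : ∀ S : Sylow 2 G, IsMulCommutative (S : Subgroup G) := by
    intro S
    have hsq : ∀ x : (S : Subgroup G), x ^ 2 = 1 := fun x => by
      obtain ⟨k, hk⟩ := S.isPGroup' x
      exact pow_eq_one_of_pow_pow Nat.prime_two (q := 3) (by norm_num) (Subtype.ext (h x)) hk
    refine ⟨⟨fun a b => ?_⟩⟩
    have hinv : ∀ x : (S : Subgroup G), x⁻¹ = x := fun x =>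
      inv_eq_of_mul_eq_one_right (by rw [← sq, hsq])
    rw [← hinv (a * b), mul_inv_rev, hinv, hinv]
  haveI : Fact (Nat.Prime 3) := ⟨Nat.prime_three⟩
  constructor
  · let S : Sylow 2 G := default
    haveI := h2 S
    exact H51.pLengthLE_of_nilpotencyClass_le 1 G (H24.isPSolvable_of_isSolvable Nat.prime_two G hs)
      S (@CommGroup.nilpotencyClass_le_one _ IsMulCommutative.instCommGroup)
  · exact H4.pLengthLE_of_expLE 1 G (H24.isPSolvable_of_isSolvable Nat.prime_three G hs)
      (H4.nonExc_of_odd (by norm_num) h2) fun g k hk => by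
        rw [pow_one]
        exact pow_eq_one_of_pow_pow Nat.prime_three (q := 2) (by norm_num) (h g) hk

end Cfsg.Agent.S4227
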