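import Cfsg.Statements.S4276
import Cfsg.Agent.H60.Jordan

set_option autoImplicit false
open Cfsg

namespace Cfsg.Agent.S4276

open MulAction Matrix

theorem arith {n k N l a b : ℤ} {r : ℕ} (hn : 2 ≤ n) (hk1 : 1 ≤ k) (hkn : k ≤ n) (hl : 0 ≤ l)
    (hcop : IsCoprime k n) (h1 : k = N + l) (h2 : k ^ 2 = N + l * n)
    (h3 : k ^ (2 * r + 1) = a + b * n) (h4 : a ^ 2 = N ^ (2 * r + 1)) : k = 1 ∨ k = n - 1 := by
  have hkn' : k ≠ n := by
    rintro rfl
    rcases Int.isUnit_iff.1 (isCoprime_self.1 hcop) with h | h <;> omega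
  have hN : N ≠ 0 := by
    rintro rfl
    apply hkn'
    have : k * k = k * n := by rw [← sq, h2, h1]; ring
    exact mul_left_cancel₀ (by omega) this
  obtain ⟨t, rfl⟩ : N ^ r ∣ a := by
    rw [← Int.pow_dvd_pow_iff (n := 2) two_ne_zero, h4]
    exact ⟨N, by ring⟩
  have ht : t ^ 2 = N := mul_left_cancel₀ (pow_ne_zero (2 * r) hN) (by
    rw [← pow_succ, ← h4]; ring)
  have hNn : IsCoprime n (N ^ r) := by
    apply IsCoprime.pow_right
    have h5 : N = k ^ 2 + n * (-l) := by rw [h2]; ring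
    rw [h5]
    exact (hcop.symm.pow_right).add_mul_left_right _
  obtain ⟨c, hc⟩ : n ∣ k - t := by
    apply hNn.dvd_of_dvd_mul_right
    have h5 : n ∣ (k ^ 2) ^ r - N ^ r := Dvd.dvd.trans ⟨l, by rw [h2]; ring⟩ (sub_dvd_pow_sub_pow _ _ r)
    have h6 : (k - t) * N ^ r = b * n - k * ((k ^ 2) ^ r - N ^ r) := by
      rw [← pow_mul, mul_sub k, ← pow_succ', h3]; ring
    rw [h6]
    exact dvd_sub (Dvd.intro_left _ rfl) (h5.mul_left _)
  have h5 : c * (k + t) = k - t ^ 2 := mul_left_cancel₀ (show n ≠ 0 by omega) (by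
    rw [← mul_assoc, ← hc, ht]
    linear_combination h2 - ht - n * h1)
  have h6 : t ≤ k := by nlinarith [sq_nonneg (t - 1), sq_nonneg t]
  have h7 : -k ≤ t := by nlinarith [sq_nonneg (t + 1), sq_nonneg t]
  have hc0 : 0 ≤ c := by nlinarith
  have hc2 : c < 2 := by
    have : k < n := lt_of_le_of_ne hkn hkn'
    nlinarith
  interval_cases c
  · left
    have : t = k := by omega
    subst this
    nlinarith
  · right
    have h8 : t * (t + 1) = 0 := by linear_combination h5
    rcases mul_eq_zero.1 h8 with h | h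
    · exact absurd (by rw [← ht, h]; ring) hN
    · omega

theorem exists_eq_of_invariant {G Ω : Type*} [Group G] [MulAction G Ω] [Finite Ω] [DecidableEq Ω]
    (h2 : IsMultiplyPretransitive G Ω 2) (htr : IsPretransitive G Ω) {u v : Ω} (huv : u ≠ v)
    (M : Matrix Ω Ω ℤ) (hM : ∀ (g : G) x y, M (g • x) (g • y) = M x y) (x y : Ω) :
    M x y = (if x = y then M u u - M u v else 0) + M u v := by
  split_ifs with h
  · obtain ⟨g, rfl⟩ := htr.exists_smul_eq u x
    rw [← h, hM, sub_add_cancel]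
  · obtain ⟨g, rfl, rfl⟩ := H60.exists_smul_pair h2 huv h
    rw [hM, zero_add]

theorem card_orbit {G Ω : Type*} [Group G] [MulAction G Ω] [Fintype Ω]
    (h2 : IsMultiplyPretransitive G Ω 2) (o : Ω) (α : MulAut G) (hα : Odd (orderOf α)) (ω : Ω)
    (hk : (Nat.card (orbit ((stabilizer G o).map α.toMonoidHom) ω)).Coprime (Fintype.card Ω)) :
    Nat.card (orbit ((stabilizer G o).map α.toMonoidHom) ω) = 1 ∨
      Nat.card (orbit ((stabilizer G o).map α.toMonoidHom) ω) = Fintype.card Ω - 1 := by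
  classical
  set O := orbit ((stabilizer G o).map α.toMonoidHom) ω with hO
  have hk1 : 1 ≤ Nat.card O := by
    have : Nonempty O := ⟨⟨ω, mem_orbit_self ω⟩⟩
    exact Nat.card_pos
  have hkn : Nat.card O ≤ Fintype.card Ω := by
    rw [← Nat.card_eq_fintype_card]
    exact Nat.card_le_card_of_injective _ Subtype.val_injective
  rcases le_or_gt (Fintype.card Ω) 1 with hn | hn
  · omega
  have : Nontrivial Ω := Fintype.one_lt_card_iff_nontrivial.1 hn
  have htr : IsPretransitive G Ω := (isPreprimitive_of_is_two_pretransitive h2).toIsPretransitive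
  let A : Matrix Ω Ω ℤ := fun x y => if ∃ g : G, α g • ω = x ∧ g • o = y then 1 else 0
  have hA : ∀ (g : G) x y, A (α g • x) (g • y) = A x y := by
    intro g x y
    apply if_congr _ rfl rfl
    constructor
    · rintro ⟨h, h1, h3⟩
      exact ⟨g⁻¹ * h, by rw [map_mul, map_inv, mul_smul, h1, inv_smul_smul],
        by rw [mul_smul, h3, inv_smul_smul]⟩
    · rintro ⟨h, h1, h3⟩
      exact ⟨g * h, by rw [map_mul, mul_smul, h1], by rw [mul_smul, h3]⟩
  have hsum : ∀ (g : G) (f : Ω → ℤ), ∑ x, f (g • x) = ∑ x, f x := fun g f =>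
    Equiv.sum_comp (toPerm g) f
  have hcol : ∀ y, ∑ x, A x y = Nat.card O := by
    intro y
    obtain ⟨g, rfl⟩ := htr.exists_smul_eq o y
    rw [← hsum (α g)]
    simp only [hA]
    simp only [A, Finset.sum_boole]
    rw [Nat.card_eq_fintype_card, Fintype.card_subtype]
    congr 2
    ext x
    simp only [Finset.mem_filter, Finset.mem_univ, true_and]
    constructor
    · rintro ⟨h, h1, h3⟩
      exact ⟨⟨α h, h, h3, rfl⟩, h1⟩
    · rintro ⟨⟨_, h, h3, rfl⟩, h1⟩
      exact ⟨h, h1, h3⟩
  have hrow : ∀ x, ∑ y, A x y = Nat.card O := by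
    have h3 : ∀ x, ∑ y, A x y = ∑ y, A ω y := fun x => by
      obtain ⟨g, rfl⟩ := htr.exists_smul_eq ω x
      rw [← hsum (α.symm g)]
      simpa using Finset.sum_congr rfl fun y _ => hA (α.symm g) ω y
    have h4 : ∑ x, ∑ y, A x y = ∑ y, ∑ x, A x y := Finset.sum_comm
    simp only [h3, hcol, Finset.sum_const, Finset.card_univ, nsmul_eq_mul] at h4
    intro x
    rw [h3, mul_left_cancel₀ (by positivity) h4]
  have hpow : ∀ (j : ℕ) (g : G) x y, (A ^ j) ((α ^ j) g • x) (g • y) = (A ^ j) x y := by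
    intro j
    induction j with
    | zero => intro g x y; simp [Matrix.one_apply]
    | succ j ih =>
      intro g x y
      rw [pow_succ' A, pow_succ' α, Matrix.mul_apply, Matrix.mul_apply, ← hsum ((α ^ j) g)]
      exact Finset.sum_congr rfl fun z _ => by rw [MulAut.mul_apply, hA, ih]
  obtain ⟨u, v, huv⟩ := exists_pair_ne Ω
  have hB := exists_eq_of_invariant h2 htr huv (Aᵀ * A) fun g x y => by
    rw [Matrix.mul_apply, Matrix.mul_apply, ← hsum (α g)]
    exact Finset.sum_congr rfl fun z _ => by simp only [transpose_apply, hA]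
  have hC := exists_eq_of_invariant h2 htr huv (A ^ orderOf α) fun g x y => by
    simpa [pow_orderOf_eq_one] using hpow (orderOf α) g x y
  have hl : 0 ≤ (Aᵀ * A) u v := by
    rw [Matrix.mul_apply]
    refine Finset.sum_nonneg fun z _ => ?_
    rw [transpose_apply]
    simp only [A]
    split_ifs <;> norm_num
  have hd : (Aᵀ * A) u u = Nat.card O := by
    rw [Matrix.mul_apply, ← hcol u]
    refine Finset.sum_congr rfl fun z _ => ?_
    rw [transpose_apply]
    simp only [A]
    split_ifs <;> norm_num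
  generalize (A ^ orderOf α) u u - (A ^ orderOf α) u v = a at hC
  generalize (A ^ orderOf α) u v = b at hC
  generalize hN : (Aᵀ * A) u u - (Aᵀ * A) u v = N at hB
  generalize hl' : (Aᵀ * A) u v = l at hB hN hl
  have hone : A *ᵥ (fun _ => 1) = (Nat.card O : ℤ) • fun _ => 1 := by
    ext x; simp [mulVec, dotProduct, hrow]
  have hone' : Aᵀ *ᵥ (fun _ => 1) = (Nat.card O : ℤ) • fun _ => 1 := by
    ext x; simp [mulVec, dotProduct, hcol]
  have hform : ∀ (M : Matrix Ω Ω ℤ) (c d : ℤ), (∀ x y, M x y = (if x = y then c else 0) + d) →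
      ∀ (w : Ω → ℤ) (x : Ω), (M *ᵥ w) x = c * w x + d * ∑ y, w y := by
    intro M c d hM w x
    simp [mulVec, dotProduct, hM, add_mul, Finset.sum_add_distrib, Finset.mul_sum]
  have e2 : (Nat.card O : ℤ) ^ 2 = N + l * Fintype.card Ω := by
    have := hform _ _ _ hB (fun _ => 1) u
    rw [← mulVec_mulVec, hone, mulVec_smul, hone'] at this
    simpa [sq] using this
  have e3 : (Nat.card O : ℤ) ^ orderOf α = a + b * Fintype.card Ω := by
    have h3 : ∀ j : ℕ, (A ^ j) *ᵥ (fun _ => 1) = ((Nat.card O : ℤ) ^ j) • fun _ => 1 := by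
      intro j
      induction j with
      | zero => simp
      | succ j ih => rw [pow_succ, ← mulVec_mulVec, hone, mulVec_smul, ih, smul_smul, pow_succ']
    have := hform _ _ _ hC (fun _ => 1) u
    rw [h3] at this
    simpa using this
  have e4 : a ^ 2 = N ^ orderOf α := by
    have h3 : ∀ (j : ℕ) (w : Ω → ℤ), ∑ y, w y = 0 →
        ((A ^ j) *ᵥ w) ⬝ᵥ ((A ^ j) *ᵥ w) = N ^ j * (w ⬝ᵥ w) := by
      intro j
      induction j with
      | zero => intro w _; simp
      | succ j ih =>
        intro w hw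
        have h4 : ∑ y, (A *ᵥ w) y = 0 := by
          simp only [mulVec, dotProduct]
          rw [Finset.sum_comm]
          simp only [← Finset.sum_mul, hcol]
          rw [← Finset.mul_sum, hw, mul_zero]
        have h5 : (Aᵀ * A) *ᵥ w = N • w := by
          ext x; rw [hform _ _ _ hB, hw]; simp
        rw [pow_succ, ← mulVec_mulVec, ih _ h4, dotProduct_mulVec, ← mulVec_transpose,
          mulVec_mulVec, h5, smul_dotProduct, pow_succ, smul_eq_mul, mul_assoc]
    let w : Ω → ℤ := Pi.single u 1 - Pi.single v 1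
    have hw : ∑ y, w y = 0 := by simp [w, Finset.sum_sub_distrib]
    have hw2 : w ⬝ᵥ w = 2 := by simp [w, huv, huv.symm]
    have h4 := h3 (orderOf α) w hw
    have h5 : (A ^ orderOf α) *ᵥ w = a • w := by
      ext x; rw [hform _ _ _ hC, hw]; simp
    rw [h5, smul_dotProduct, dotProduct_smul, hw2] at h4
    simp only [smul_eq_mul] at h4
    linarith
  obtain ⟨r, hr⟩ := hα
  rw [hr] at e3 e4
  have := arith (n := Fintype.card Ω) (by exact_mod_cast hn) (by exact_mod_cast hk1)
    (by exact_mod_cast hkn) hl (Nat.isCoprime_iff_coprime.2 hk) (by rw [← hN, ← hd]; ring) e2 e3 e4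
  omega

/-- Let G be a doubly transitive group of permutations of a finite set Ω of size n, let o ∈ Ω, and let α be an automorphism of G of odd order. Suppose that the image under α of the stabilizer of o has an orbit on Ω whose length k is coprime to n. Then α is induced by conjugation by a permutation of Ω normalizing G, and k = 1 or k = n − 1. -/
theorem result {Ω : Type*} [Fintype Ω] (G : Subgroup (Equiv.Perm Ω)) (h2 : MulAction.IsMultiplyPretransitive G Ω 2) (o : Ω) (α : MulAut G) (hα : Odd (orderOf α)) (ω : Ω) (hk : (Nat.card (MulAction.orbit ((MulAction.stabilizer G o).map α.toMonoidHom) ω)).Coprime (Fintype.card Ω)) : (∃ σ : Equiv.Perm Ω, σ ∈ Subgroup.normalizer (G : Set (Equiv.Perm Ω)) ∧ ∀ g : G, ((α g : G) : Equiv.Perm Ω) = σ * (g : Equiv.Perm Ω) * σ⁻¹) ∧ (Nat.card (MulAction.orbit ((MulAction.stabilizer G o).map α.toMonoidHom) ω) = 1 ∨ Nat.card (MulAction.orbit ((MulAction.stabilizer G o).map α.toMonoidHom) ω) = Fintype.card Ω - 1) := by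
  classical
  have hc := card_orbit h2 o α hα ω hk
  refine ⟨?_, hc⟩
  have htr : IsPretransitive G Ω := by
    rcases subsingleton_or_nontrivial Ω with h | h
    · exact ⟨fun x y => ⟨1, Subsingleton.elim _ _⟩⟩
    · exact (isPreprimitive_of_is_two_pretransitive h2).toIsPretransitive
  obtain ⟨w, hw⟩ : ∃ w : Ω, ∀ g : G, g • o = o → α g • w = w := by
    rw [Nat.card_coe_set_eq] at hc
    rcases hc with hc | hc
    · obtain ⟨w, hw⟩ := Set.ncard_eq_one.1 hc
      refine ⟨ω, fun g hg => ?_⟩
      have h1 : α g • ω ∈ orbit ((stabilizer G o).map α.toMonoidHom) ω := ⟨⟨α g, g, hg, rfl⟩, rfl⟩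
      have h3 := mem_orbit_self (M := (stabilizer G o).map α.toMonoidHom) ω
      rw [hw] at h1 h3
      exact h1.trans h3.symm
    · have h1 := Set.ncard_add_ncard_compl (orbit ((stabilizer G o).map α.toMonoidHom) ω)
      have h3 : 0 < Fintype.card Ω := Fintype.card_pos_iff.2 ⟨o⟩
      rw [Nat.card_eq_fintype_card] at h1
      obtain ⟨w, hw⟩ := (Set.ncard_eq_one (s := (orbit ((stabilizer G o).map α.toMonoidHom) ω)ᶜ)).1
        (by omega)
      refine ⟨w, fun g hg => ?_⟩
      have h4 : w ∈ (orbit ((stabilizer G o).map α.toMonoidHom) ω)ᶜ := hw ▸ rfl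
      have h5 : α g • w ∈ (orbit ((stabilizer G o).map α.toMonoidHom) ω)ᶜ := fun h => h4 (by
        have := mem_orbit_of_mem_orbit
          (⟨α g, g, hg, rfl⟩ : (stabilizer G o).map α.toMonoidHom)⁻¹ h
        rwa [show α g • w = (⟨α g, g, hg, rfl⟩ : (stabilizer G o).map α.toMonoidHom) • w from rfl,
          inv_smul_smul] at this)
      rwa [hw] at h5
  choose t ht using fun x => htr.exists_smul_eq o x
  have hf : ∀ (g : G) x, α (t (g • x)) • w = α g • α (t x) • w := by
    intro g x
    have := hw ((t (g • x))⁻¹ * (g * t x)) (by rw [mul_smul, mul_smul, ht, inv_smul_eq_iff, ht])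
    rw [map_mul, map_inv, mul_smul, inv_smul_eq_iff, map_mul, mul_smul] at this
    exact this.symm
  have hsurj : Function.Surjective fun x => α (t x) • w := by
    intro y
    obtain ⟨g, rfl⟩ := htr.exists_smul_eq (α (t o) • w) y
    exact ⟨α.symm g • o, by simp only [hf, MulEquiv.apply_symm_apply]⟩
  let σ : Equiv.Perm Ω := Equiv.ofBijective _ (Finite.injective_iff_surjective.2 hsurj).bijective_of_finite
  have hσ : ∀ g : G, ((α g : G) : Equiv.Perm Ω) = σ * (g : Equiv.Perm Ω) * σ⁻¹ := by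
    intro g
    rw [eq_mul_inv_iff_mul_eq]
    ext x
    exact (hf g x).symm
  refine ⟨σ, Subgroup.mem_normalizer_iff.2 fun h => ⟨fun hh => ?_, fun hh => ?_⟩, hσ⟩
  · rw [← hσ ⟨h, hh⟩]
    exact (α ⟨h, hh⟩).2
  · have h1 := hσ (α.symm ⟨_, hh⟩)
    rw [MulEquiv.apply_symm_apply, mul_left_inj, mul_right_inj] at h1
    rw [h1]
    exact (α.symm ⟨_, hh⟩).2

end Cfsg.Agent.S4276
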