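import Cfsg.Statements.S4277
import Cfsg.Agent.H93.AbSylow

set_option autoImplicit false
open Cfsg

namespace Cfsg.Agent.S4277

open Subgroup
open scoped Pointwise commutatorElement

theorem sum_pow_char_of_commute {R ι : Type*} [Semiring R] (p : ℕ) [Fact p.Prime] [CharP R p]
    (s : Finset ι) (a : ι → R) (h : ∀ i j, Commute (a i) (a j)) :
    (∑ i ∈ s, a i) ^ p = ∑ i ∈ s, a i ^ p := by
  classical
  induction s using Finset.induction_on with
  | empty => simp [(Fact.out : p.Prime).ne_zero]
  | insert i s hi ih =>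
    rw [Finset.sum_insert hi, Finset.sum_insert hi,
      add_pow_char_of_commute _ (Commute.sum_right _ _ _ fun j _ => h i j), ih]

/-- Wielandt: an automorphism centralizing a regular subgroup of order `p` has order dividing `p`. -/
theorem eq_one {G : Type*} [Group G] [Finite G] {p : ℕ} [Fact p.Prime] {H P : Subgroup G}
    (hcore : H.normalCore = ⊥) (hP : Nat.card P = p) (hc : IsComplement' P H)
    (hH : ¬ p ∣ Nat.card H) (α : MulAut G) (hα : ∀ y ∈ P, α y = y) :
    α ^ p = 1 := by
  classical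
  have hp : p.Prime := Fact.out
  haveI := Fintype.ofFinite H
  haveI : IsCyclic P := isCyclic_of_prime_card hP
  let ρ : G →* Module.End (ZMod p) ((G ⧸ H) →₀ ZMod p) :=
    { toFun := fun g => Finsupp.lmapDomain _ _ (g • ·)
      map_one' := by ext; simp
      map_mul' := fun a b => by
        ext1 ω
        ext1
        simp [mul_smul] }
  have hρ : ∀ (g : G) (ω : G ⧸ H), ρ g (Finsupp.single ω 1) = Finsupp.single (g • ω) 1 := by
    intro g ω
    simp [ρ]
  haveI : CharP (Module.End (ZMod p) ((G ⧸ H) →₀ ZMod p)) p :=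
    charP_of_injective_algebraMap (algebraMap (ZMod p) _).injective p
  have hdec : ∀ g : G, ∃ y ∈ P, ∃ h ∈ H, y * h = g := fun g => by
    obtain ⟨⟨y, h⟩, e⟩ := hc.2 g
    exact ⟨y, y.2, h, h.2, e⟩
  choose y hy k hk hyk using hdec
  set ω₀ : G ⧸ H := ((1 : G) : G ⧸ H) with hω₀
  have hfix : ∀ h ∈ H, h • ω₀ = ω₀ := fun h hh => by
    rw [hω₀, MulAction.Quotient.smul_mk, QuotientGroup.eq]
    simpa using hh
  have hyω : ∀ g, y g • ω₀ = g • ω₀ := fun g => by
    conv_rhs => rw [← hyk g, mul_smul, hfix _ (hk g)]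
  have hcomm : ∀ a ∈ P, ∀ b ∈ P, Commute (ρ a) (ρ b) := fun a ha b hb =>
    Commute.map (congrArg Subtype.val (mul_comm' (⟨a, ha⟩ : P) ⟨b, hb⟩)) ρ
  set T := ∑ h : H, ρ (y (α h)) with hT
  have hTP : ∀ a ∈ P, Commute T (ρ a) := fun a ha =>
    Commute.sum_left _ _ _ fun h _ => hcomm _ (hy _) a ha
  have hT0 : T (Finsupp.single ω₀ 1) = ∑ h : H, Finsupp.single (α h • ω₀) 1 := by
    rw [hT, LinearMap.sum_apply]
    exact Finset.sum_congr rfl fun h _ => by rw [hρ, hyω]
  have hT1 : ∀ g, T (Finsupp.single (g • ω₀) 1) = ρ (α g) (T (Finsupp.single ω₀ 1)) := by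
    intro g
    rw [← hyω, ← hρ, ← Module.End.mul_apply, (hTP _ (hy g)).eq, Module.End.mul_apply]
    conv_rhs => rw [← hyk g, map_mul, hα _ (hy g), map_mul, Module.End.mul_apply]
    congr 1
    rw [hT0, map_sum]
    refine (Fintype.sum_equiv (Equiv.mulLeft (⟨k g, hk g⟩ : H)) _ _ fun h => ?_).symm
    rw [hρ, smul_smul, ← map_mul]
    rfl
  have hT2 : ∀ g, T * ρ g = ρ (α g) * T := by
    intro g
    ext1 ω
    ext1
    obtain ⟨a, rfl⟩ : ∃ a : G, a • ω₀ = ω := MulAction.exists_smul_eq G ω₀ ω
    simp only [LinearMap.comp_apply, Finsupp.lsingle_apply, Module.End.mul_apply]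
    rw [hρ, smul_smul, hT1, hT1 a, map_mul, map_mul, Module.End.mul_apply]
  have hT3 : ∀ (n : ℕ) (g : G), T ^ n * ρ g = ρ ((α ^ n) g) * T ^ n := by
    intro n
    induction n with
    | zero => simp
    | succ n ih =>
      intro g
      rw [pow_succ', mul_assoc, ih, ← mul_assoc, hT2, mul_assoc, pow_succ' α, MulAut.mul_apply]
  set c : ZMod p := ((Nat.card H : ℕ) : ZMod p) with hcdef
  have hc0 : c ≠ 0 := by rwa [hcdef, Ne, ZMod.natCast_eq_zero_iff]
  have hTp : T ^ p = c • (1 : Module.End (ZMod p) ((G ⧸ H) →₀ ZMod p)) := by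
    rw [hT, sum_pow_char_of_commute p _ _ (fun i j => hcomm _ (hy _) _ (hy _))]
    have : ∀ h : H, ρ (y (α h)) ^ p = 1 := fun h => by
      have h1 : (⟨y (α h), hy _⟩ : P) ^ p = 1 := by rw [← hP]; exact pow_card_eq_one'
      rw [← map_pow, show y (α h) ^ p = 1 from congrArg Subtype.val h1, map_one]
    rw [Finset.sum_congr rfl fun h _ => this h, Finset.sum_const, Finset.card_univ,
      ← Nat.card_eq_fintype_card, hcdef, Nat.cast_smul_eq_nsmul]
  have hαp : α ^ p = 1 := by
    ext g
    have h1 := hT3 p g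
    rw [hTp, smul_mul_assoc, mul_smul_comm, one_mul, mul_one] at h1
    have h2 := smul_right_injective _ hc0 h1
    have h3 : g⁻¹ * (α ^ p) g ∈ H.normalCore := by
      rw [normalCore_eq_ker, MonoidHom.mem_ker]
      ext ω
      have := LinearMap.congr_fun h2 (Finsupp.single ω 1)
      rw [hρ, hρ] at this
      have h4 := Finsupp.single_left_injective one_ne_zero this
      simp [mul_smul, ← h4]
    rw [hcore, mem_bot, inv_mul_eq_one] at h3
    exact h3.symm
  exact hαp

/-- A case of the Schreier conjecture: if a finite simple group G has a subgroup of prime index, then the outer automorphism group of G is solvable. -/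
theorem result {G : Type*} [Group G] [Finite G] [IsSimpleGroup G] (H : Subgroup G) (hH : H.index.Prime) : Group.IsSolvable (Cfsg.Out G) := by
  set p := H.index with hp
  haveI := Fact.mk hH
  have hcore : H.normalCore = ⊥ := by
    refine (H.normalCore_normal.eq_bot_or_eq_top).resolve_right fun h => hH.one_lt.ne' ?_
    rw [hp, index_eq_one, eq_top_iff, ← h]
    exact H.normalCore_le
  have hfac : Nat.card G ∣ p.factorial := by
    haveI := Fintype.ofFinite (G ⧸ H)
    classical
    have := card_dvd_of_injective (MulAction.toPermHom G (G ⧸ H))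
      ((MonoidHom.ker_eq_bot_iff _).mp (by rw [← normalCore_eq_ker, hcore]))
    rwa [Nat.card_perm] at this
  have hHp : ¬ p ∣ Nat.card H := by
    intro h
    have h1 : p * p ∣ p.factorial := by
      refine dvd_trans ?_ hfac
      rw [← H.card_mul_index]
      exact Nat.mul_dvd_mul h dvd_rfl
    rw [← Nat.mul_factorial_pred hH.ne_zero] at h1
    have := (hH.dvd_factorial).mp (Nat.dvd_of_mul_dvd_mul_left hH.pos h1)
    have := hH.pos
    omega
  obtain ⟨P⟩ := (inferInstance : Nonempty (Sylow p G))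
  have hP : Nat.card P = p := by
    rw [P.card_eq_multiplicity, ← H.card_mul_index, Nat.factorization_mul Nat.card_pos.ne' hH.ne_zero,
      Finsupp.add_apply, hH.factorization_self, Nat.factorization_eq_zero_of_not_dvd hHp]
    simp
  have hc : IsComplement' (P : Subgroup G) H :=
    isComplement'_of_coprime (by rw [hP, mul_comm, H.card_mul_index])
      (by rw [hP]; exact (hH.coprime_iff_not_dvd).mpr hHp)
  haveI hcyc : IsCyclic (P : Subgroup G) := isCyclic_of_prime_card hP
  set N := MulAction.stabilizer (MulAut G) (P : Subgroup G) with hN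
  obtain ⟨⟨x, hxP⟩, hx⟩ := hcyc.exists_generator
  have hx' : ∀ y ∈ (P : Subgroup G), ∃ n : ℤ, x ^ n = y := fun y hy => by
    obtain ⟨n, hn⟩ := hx ⟨y, hy⟩
    exact ⟨n, congrArg Subtype.val hn⟩
  have hNx : ∀ α ∈ N, ∃ n : ℤ, α x = x ^ n := fun α hα => by
    have h1 : α • x ∈ α • (P : Subgroup G) := smul_mem_pointwise_smul x α _ hxP
    rw [show α • (P : Subgroup G) = P from hα] at h1
    obtain ⟨n, hn⟩ := hx' _ h1
    exact ⟨n, hn.symm⟩
  have hC : IsPGroup p (MulAction.stabilizer (MulAut G) x) := by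
    rintro ⟨α, hα⟩
    refine ⟨1, Subtype.ext ?_⟩
    rw [pow_one]
    refine eq_one hcore hP hc hHp α fun y hy => ?_
    obtain ⟨n, rfl⟩ := hx' y hy
    rw [map_zpow, show α x = x from hα]
  haveI := hC.isNilpotent
  have hNC : ⁅N, N⁆ ≤ MulAction.stabilizer (MulAut G) x := by
    rw [commutator_le]
    intro α hα β hβ
    obtain ⟨a, ha⟩ := hNx α hα
    obtain ⟨b, hb⟩ := hNx β hβ
    obtain ⟨c, hc⟩ := hNx _ (N.inv_mem (N.mul_mem hβ hα))
    have h1 : (α * β) x = (β * α) x := by
      rw [MulAut.mul_apply, MulAut.mul_apply, ha, hb, map_zpow, map_zpow, ha, hb, ← zpow_mul,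
        ← zpow_mul, mul_comm]
    have h2 : ⁅α, β⁆ = (α * β) * (β * α)⁻¹ := by rw [commutatorElement_def]; group
    change ⁅α, β⁆ x = x
    rw [h2, MulAut.mul_apply, hc, map_zpow, h1, ← map_zpow, ← hc, ← MulAut.mul_apply,
      mul_inv_cancel, MulAut.one_apply]
  haveI : Group.IsSolvable (⁅N, N⁆ : Subgroup (MulAut G)) :=
    Group.isSolvable_of_isSolvable_injective (inclusion_injective hNC)
  haveI : Group.IsSolvable N := by
    refine Group.isSolvable_of_ker_le_range (inclusion (commutator_le_self N))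
      Abelianization.of ?_
    rw [Abelianization.ker_of, inclusion_range, _root_.commutator_def, subgroupOf,
      ← map_le_iff_le_comap, map_commutator, ← MonoidHom.range_eq_map, range_subtype]
  refine Group.isSolvable_of_surjective
    (f := (QuotientGroup.mk' (Cfsg.Inn G)).comp N.subtype) fun q => ?_
  obtain ⟨α, rfl⟩ := QuotientGroup.mk_surjective q
  obtain ⟨g, hg⟩ := MulAction.exists_smul_eq G (α • P) P
  refine ⟨⟨MulAut.conj g * α, ?_⟩, ?_⟩
  · rw [Sylow.smul_def, ← mul_smul] at hg
    exact congrArg (fun Q : Sylow p G => (Q : Subgroup G)) hg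
  · change ((MulAut.conj g * α : MulAut G) : Cfsg.Out G) = α
    rw [QuotientGroup.mk_mul, (QuotientGroup.eq_one_iff (N := Cfsg.Inn G) (MulAut.conj g)).mpr ⟨g, rfl⟩, one_mul]

end Cfsg.Agent.S4277
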