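import Cfsg.Statements.S4280
import Cfsg.Agent.H40.InvCertG2F4
-- import your own Cfsg.Agent.* helpers here

set_option autoImplicit false
open Cfsg

namespace Cfsg.Agent.S4280

/-- In the Chevalley group of type F₄ over a finite field of odd order q there are exactly two conjugacy classes of involutions; the centralizer of an involution in one class has order q¹⁶(q² − 1)(q⁴ − 1)(q⁶ − 1)(q⁸ − 1), and in the other class q¹⁰(q² − 1)²(q⁴ − 1)(q⁶ − 1). -/
theorem result {F : Type*} [Field F] [Fintype F] (hF : Odd (Fintype.card F)) : ∃ s t : ↥(Cfsg.Lie.chevF4.group F), orderOf s = 2 ∧ orderOf t = 2 ∧ ¬ IsConj s t ∧ (∀ u : ↥(Cfsg.Lie.chevF4.group F), orderOf u = 2 → IsConj u s ∨ IsConj u t) ∧ Nat.card (Subgroup.centralizer ({s} : Set ↥(Cfsg.Lie.chevF4.group F))) = Fintype.card F ^ 16 * (Fintype.card F ^ 2 - 1) * (Fintype.card F ^ 4 - 1) * (Fintype.card F ^ 6 - 1) * (Fintype.card F ^ 8 - 1) ∧ Nat.card (Subgroup.centralizer ({t} : Set ↥(Cfsg.Lie.chevF4.group F))) = Fintype.card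 F ^ 10 * (Fintype.card F ^ 2 - 1) ^ 2 * (Fintype.card F ^ 4 - 1) * (Fintype.card F ^ 6 - 1) := by
  have C := Cfsg.Agent.H34.cert (D := Cfsg.Lie.chevF4) (by simp)
  have hF' : Odd (Nat.card F) := by rwa [Nat.card_eq_fintype_card]
  have h2 := H40.two_ne_zero_of_odd hF'
  have h3 := H40.cardF4m1 C hF
  have h4 := H40.cardF4m4 C hF
  refine ⟨_, _, H40.orderOfF4m1 C h2, H40.orderOfF4m4 C h2, fun h => ?_, fun u hu => ?_, ?_, ?_⟩
  · exact H40.pow_mul_prod_ne Fintype.one_lt_card (by decide) (by decide) _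
      (h4.symm.trans ((H40.card_centralizer_of_isConj h).symm.trans h3))
  · simpa using H40.exists_isConj_tm (C := C) hF' H40.covF4 (by simp) H40.kerF4 H40.clsF4 hu
  · rw [h3]; simp only [List.map_cons, List.map_nil, List.prod_cons, List.prod_nil]; ring
  · rw [h4]; simp only [List.map_cons, List.map_nil, List.prod_cons, List.prod_nil]; ring

end Cfsg.Agent.S4280
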