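import Cfsg.Statements.S4281
import Cfsg.Agent.H40.InvCertG2F4
import Cfsg.Agent.H40.InvCertE8
-- import your own Cfsg.Agent.* helpers here

set_option autoImplicit false
open scoped BigOperators
open Cfsg

namespace Cfsg.Agent.S4281

/-- In the Chevalley group of type E₈ over a finite field of odd order q there are exactly two conjugacy classes of involutions; the centralizer of an involution in one class has order q⁵⁶(q⁸ − 1)·∏_{i=1}^{7}(q^{2i} − 1), and in the other class q⁶⁴(q² − 1)²(q⁶ − 1)(q⁸ − 1)(q¹⁰ − 1)(q¹² − 1)(q¹⁴ − 1)(q¹⁸ − 1). -/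
theorem result {F : Type*} [Field F] [Fintype F] (hF : Odd (Fintype.card F)) : ∃ s t : ↥(Cfsg.Lie.chevE8.group F), orderOf s = 2 ∧ orderOf t = 2 ∧ ¬ IsConj s t ∧ (∀ u : ↥(Cfsg.Lie.chevE8.group F), orderOf u = 2 → IsConj u s ∨ IsConj u t) ∧ Nat.card (Subgroup.centralizer ({s} : Set ↥(Cfsg.Lie.chevE8.group F))) = Fintype.card F ^ 56 * (Fintype.card F ^ 8 - 1) * ∏ i ∈ Finset.Icc 1 7, (Fintype.card F ^ (2 * i) - 1) ∧ Nat.card (Subgroup.centralizer ({t} : Set ↥(Cfsg.Lie.chevE8.group F))) = Fintype.card F ^ 64 * (Fintype.card F ^ 2 - 1) ^ 2 * (Fintype.card F ^ 6 - 1) * (Fintype.card F ^ 8 - 1) * (Fintype.card F ^ 10 - 1) * (Fintype.card F ^ 12 - 1) * (Fintype.card F ^ 14 - 1) * (Fintype.card F ^ 18 - 1) := by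
  have C := Cfsg.Agent.H34.cert (D := Cfsg.Lie.chevE8) (by simp)
  have hF' : Odd (Nat.card F) := by rwa [Nat.card_eq_fintype_card]
  have h2 := H40.two_ne_zero_of_odd hF'
  have h3 := H40.cardE8m3 C hF
  have h4 := H40.cardE8m1 C hF
  refine ⟨_, _, H40.orderOfE8m3 C h2, H40.orderOfE8m1 C h2, fun h => ?_, fun u hu => ?_, ?_, ?_⟩
  · exact H40.pow_mul_prod_ne Fintype.one_lt_card (by decide) (by decide) _
      (h3.symm.trans ((H40.card_centralizer_of_isConj h).trans h4))
  · simpa using H40.exists_isConj_tm (C := C) hF' H40.covE8 (by simp) H40.kerE8 H40.clsE8 hu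
  · rw [h3, show Finset.Icc 1 7 = {1, 2, 3, 4, 5, 6, 7} from rfl]
    simp only [List.map_cons, List.map_nil, List.prod_cons, List.prod_nil]
    simp only [Finset.mem_insert, Finset.mem_singleton, OfNat.one_ne_ofNat, Nat.reduceEqDiff, or_self,
      not_false_eq_true, Finset.prod_insert, Finset.prod_singleton, Nat.reduceMul]
    ring
  · rw [h4]; simp only [List.map_cons, List.map_nil, List.prod_cons, List.prod_nil]; ring

end Cfsg.Agent.S4281
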