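import Cfsg.Statements.S4282
import Cfsg.Agent.H4.HallHigman

set_option autoImplicit false
open Cfsg

namespace Cfsg.Agent.S4282

/-- A critical case behind the Hall–Higman theorem. Let p ≠ q be primes and G a finite group generated by a normal q-subgroup Q and a cyclic p-subgroup generated by x, such that the centralizer of every non-identity element of that cyclic subgroup is its product with the centre of G. Let K be an algebraically closed field of characteristic p and ρ a faithful representation of G on a nonzero finite-dimensional K-space whose restriction to Q is irreducible. If s is the least exponent with (ρ(x) − 1)^s = 0, then |⟨x⟩| − 1 ≤ s ≤ |⟨x⟩|; and if s = |⟨x⟩| − 1 then |⟨x⟩| − 1 is a power of q and Q is non-abelian. -/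
theorem result {G : Type*} [Group G] [Finite G] (p q : ℕ) [Fact p.Prime] [Fact q.Prime] (hpq : p ≠ q) (Q : Subgroup G) [Q.Normal] (hQ : IsPGroup q Q) (x : G) (hx : IsPGroup p (Subgroup.zpowers x)) (hgen : Q ⊔ Subgroup.zpowers x = ⊤) (hC : ∀ y ∈ Subgroup.zpowers x, y ≠ 1 → Subgroup.centralizer ({y} : Set G) = Subgroup.zpowers x ⊔ Subgroup.center G) {K : Type*} [Field K] [IsAlgClosed K] [CharP K p] {V : Type*} [AddCommGroup V] [Module K V] [FiniteDimensional K V] [Nontrivial V] (ρ : Representation K G V) (hfaith : Function.Injective ρ) (hirr : ∀ W : Submodule K V, (∀ g ∈ Q, Submodule.map (ρ g) W ≤ W) → W = ⊥ ∨ W = ⊤) (s : ℕ) (hs : (ρ x - 1) ^ s = 0) (hmin : ∀ k < s, (ρ x - 1) ^ k ≠ 0) : Nat.card (Subgroup.zpowers x) - 1 ≤ s ∧ s ≤ Nat.card (Subgroup.zpowers x) ∧ (s = Nat.card (Subgroup.zpowers x) - 1 → (∃ b : ℕ, Nat.card (Subgroup.zpowers x) - 1 = q ^ b) ∧ ¬ IsMulCommutative Q) := by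
  classical
  have hp : p.Prime := Fact.out
  obtain ⟨n, hn⟩ := IsPGroup.iff_card.1 hx
  have hxo : orderOf x = p ^ n := by rw [← hn, Nat.card_zpowers]
  rw [hn]
  have hs1 : s ≤ p ^ n := by
    by_contra h
    apply hmin (p ^ n) (not_le.1 h)
    rw [H4.HH.sub_one_pow_char_pow K p, ← map_pow, ← hxo, pow_orderOf_eq_one, map_one, sub_self]
  have hs0 : s ≠ 0 := by
    rintro rfl
    rw [pow_zero] at hs
    exact one_ne_zero hs
  have hsimp : H4.HH.Simple ρ Q ⊤ := ⟨top_ne_bot, fun _ _ _ _ => trivial, fun W _ hW =>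
    hirr W fun g hg => by rintro _ ⟨w, hw, rfl⟩; exact hW g hg w hw⟩
  have hq : (q : K) ≠ 0 := by
    rw [Ne, CharP.cast_eq_zero_iff K p]
    exact fun hd => hpq ((Nat.prime_dvd_prime_iff_eq Fact.out Fact.out).1 hd)
  by_cases hne : ρ x = 1
  · have : x = 1 := hfaith (by rw [hne, map_one])
    rw [this, orderOf_one] at hxo
    rw [← hxo]
    rw [← hxo] at hs1
    exact ⟨by omega, hs1, fun h => absurd h hs0⟩
  have key := H4.HH.critical ρ p Q (H4.HH.natCast_card_ne_zero_of_isPGroup hq hQ)
    (fun B hB => H4.HH.schur_top ρ hsimp B hB) x n hxo (by rw [Subgroup.normalizer_eq_top]; trivial)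
    (fun t ht g hg hg1 hgt => by
      have h1 : t ∈ Subgroup.centralizer ({g} : Set G) := by
        rw [Subgroup.mem_centralizer_iff]
        rintro _ rfl
        exact hgt
      rw [hC g hg hg1] at h1
      have h2 : t ∈ ((Subgroup.zpowers x ⊔ Subgroup.center G : Subgroup G) : Set G) := h1
      rw [Subgroup.mul_normal] at h2
      obtain ⟨a, ha, z, hz, rfl⟩ := h2
      -- `t = a z` is a `q`-element; a power of it generating the same group is central
      obtain ⟨b, hb⟩ := hQ ⟨_, ht⟩
      have hb' : (a * z) ^ q ^ b = 1 := congrArg Subtype.val hb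
      have hcomm : Commute a z := (Subgroup.mem_center_iff.1 hz a)
      have ha1 : a ^ p ^ n = 1 := by
        rw [← hn]; exact congrArg Subtype.val (pow_card_eq_one' (x := (⟨a, ha⟩ : Subgroup.zpowers x)))
      have hcen : (a * z) ^ p ^ n ∈ Subgroup.center G := by
        rw [hcomm.mul_pow, ha1, one_mul]; exact pow_mem hz _
      have hmem : a * z ∈ Subgroup.zpowers ((a * z) ^ p ^ n) := by
        rw [mem_zpowers_pow_iff]
        exact Nat.Coprime.coprime_dvd_right (orderOf_dvd_of_pow_eq_one hb')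
          (Nat.Coprime.pow n b ((Nat.coprime_primes hp Fact.out).2 hpq))
      have hcen' : a * z ∈ Subgroup.center G := (Subgroup.zpowers_le.2 hcen) hmem
      exact H4.HH.schur_top ρ hsimp _ fun u _ => by
        rw [← map_mul, ← map_mul, Subgroup.mem_center_iff.1 hcen' u]) hne s hs
  have hpos : 0 < p ^ n := pow_pos hp.pos n
  refine ⟨key.1, hs1, fun h => ?_⟩
  have hd := key.2 (by omega)
  obtain ⟨b, hb⟩ := hsimp.finrank_eq_pow ρ hQ
  rw [finrank_top] at hb
  refine ⟨⟨b, by rw [← hd, hb]⟩, fun hc => ?_⟩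
  have h1 := hsimp.finrank_eq_one_of_le_scal ρ fun z hz => hsimp.le_scal_of_comm ρ
    (fun _ _ => trivial) fun t ht w _ => by
      have : z * t = t * z := congrArg Subtype.val (hc.is_comm.comm (⟨z, hz⟩ : Q) ⟨t, ht⟩)
      rw [← H4.HH.rep_mul_apply, this, H4.HH.rep_mul_apply]
  rw [finrank_top, hd, ← h] at h1
  rw [h1, pow_one, sub_eq_zero] at hs
  exact hne hs

end Cfsg.Agent.S4282
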