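import Cfsg.Statements.S4283
import Cfsg.Agent.H92.ClassSize
import Cfsg.Agent.H5.Frobenius

set_option autoImplicit false
open Cfsg

namespace Cfsg.Agent.S4283

open Cfsg.Agent.H92



/-- Let G be a finite group with centre Z and let K, H be abelian subgroups of G containing Z such that G/Z is a Frobenius group with complement H/Z and kernel K/Z. Then the conjugacy class sizes of G are exactly 1, [G : K] and [G : H], and these two indices are coprime. (This is the converse half of the characterization of finite groups whose conjugacy class sizes are exactly 1, m and n with m and n coprime.) -/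
theorem result {G : Type*} [Group G] [Finite G] (K H : Subgroup G) (hZK : Subgroup.center G ≤ K) (hZH : Subgroup.center G ≤ H) (hK : IsMulCommutative K) (hH : IsMulCommutative H) (hFrob : Cfsg.IsFrobeniusComplement (H.map (QuotientGroup.mk' (Subgroup.center G)))) (hker : Cfsg.frobeniusKernel (H.map (QuotientGroup.mk' (Subgroup.center G))) = (K.map (QuotientGroup.mk' (Subgroup.center G)) : Set (G ⧸ Subgroup.center G))) : Set.range (fun x : G => (Subgroup.centralizer ({x} : Set G)).index) = ({1, K.index, H.index} : Set ℕ) ∧ K.index.Coprime H.index := by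
  set Z := Subgroup.center G with hZ
  set f := QuotientGroup.mk' Z with hf
  have hfs : Function.Surjective f := QuotientGroup.mk'_surjective Z
  have hker' : f.ker = Z := QuotientGroup.ker_mk' Z
  have hmem : ∀ (L : Subgroup G), Z ≤ L → ∀ x, f x ∈ L.map f ↔ x ∈ L := by
    intro L hL x
    rw [← Subgroup.mem_comap, Subgroup.comap_map_eq_self (hker'.le.trans hL)]
  have hone : ∀ x, f x = 1 ↔ x ∈ Z := fun x => QuotientGroup.eq_one_iff x
  have hidx : ∀ (L : Subgroup G), Z ≤ L → (L.map f).index = L.index := by
    intro L hL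
    rw [Subgroup.index_map, hker', sup_eq_left.2 hL, f.range_eq_top_of_surjective hfs,
      Subgroup.index_top, mul_one]
  have hCH : ∀ x ∈ H, x ∉ Z → Ce[x] = H := by
    intro x hx hxZ
    refine le_antisymm (fun g hg => ?_) fun g hg => mem_C.2 (setLike_mul_comm hg hx)
    rw [← hmem H hZH]
    exact H5.frob_mem_of_commute hFrob ((hmem H hZH x).2 hx) (fun e => hxZ ((hone x).1 e))
      ((mem_C.1 hg).map f)
  have hCK : ∀ x ∈ K, x ∉ Z → Ce[x] = K := by
    intro x hx hxZ
    refine le_antisymm (fun g hg => ?_) fun g hg => mem_C.2 (setLike_mul_comm hg hx)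
    rw [← hmem K hZK, ← SetLike.mem_coe, ← hker, H5.mem_frobeniusKernel_iff]
    by_contra hc
    push Not at hc
    obtain ⟨h1, c, hc⟩ := hc
    have h2 : f x ∈ frobeniusKernel (H.map f) := by rw [hker]; exact (hmem K hZK x).2 hx
    rcases H5.mem_frobeniusKernel_iff.1 h2 with h3 | h3
    · exact hxZ ((hone x).1 h3)
    · apply h3 c
      refine H5.frob_mem_of_commute hFrob hc (fun e => h1 ?_) ?_
      · calc f g = c * (c⁻¹ * f g * c) * c⁻¹ := by group
          _ = 1 := by rw [e]; group
      · simpa using ((mem_C'.1 hg).map f).map (MulAut.conj c⁻¹)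
  have hcardK : Nat.card (K.map f) = (H.map f).index := by
    rw [← H5.ncard_frobeniusKernel hFrob, hker]; rfl
  have hKidx : (K.map f).index = Nat.card (H.map f) := by
    have h1 := (K.map f).index_mul_card
    rw [hcardK, ← (H.map f).card_mul_index] at h1
    exact Nat.eq_of_mul_eq_mul_right (Nat.pos_of_ne_zero Subgroup.index_ne_zero_of_finite) h1
  constructor
  · ext n
    simp only [Set.mem_range, Set.mem_insert_iff, Set.mem_singleton_iff]
    constructor
    · rintro ⟨x, rfl⟩
      by_cases hxZ : x ∈ Z
      · exact Or.inl (cs_eq_one_iff.2 hxZ)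
      by_cases hxK : x ∈ K
      · rw [hCK x hxK hxZ]; exact Or.inr (Or.inl rfl)
      · right; right
        rw [← hmem K hZK, ← SetLike.mem_coe, ← hker, H5.mem_frobeniusKernel_iff] at hxK
        push Not at hxK
        obtain ⟨-, c, hc⟩ := hxK
        obtain ⟨c, rfl⟩ := hfs c
        rw [← map_inv, ← map_mul, ← map_mul, hmem H hZH] at hc
        rw [← cs_conj' c x, hCH _ hc]
        intro e
        apply hxZ
        simpa [mul_assoc] using (inferInstance : Z.Normal).conj_mem _ e c
    · rintro (rfl | rfl | rfl)
      · exact ⟨1, cs_one⟩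
      · have h1 : ¬ K ≤ Z := by
          intro h
          have : K.map f = ⊥ := (Subgroup.map_eq_bot_iff K).2 (h.trans hker'.ge)
          rw [this, Subgroup.card_bot] at hcardK
          exact hFrob.2.1 (Subgroup.index_eq_one.1 hcardK.symm)
        obtain ⟨x, hx, hxZ⟩ := SetLike.not_le_iff_exists.1 h1
        exact ⟨x, by rw [hCK x hx hxZ]⟩
      · have h1 : ¬ H ≤ Z := fun h => hFrob.1 ((Subgroup.map_eq_bot_iff H).2 (h.trans hker'.ge))
        obtain ⟨x, hx, hxZ⟩ := SetLike.not_le_iff_exists.1 h1
        exact ⟨x, by rw [hCH x hx hxZ]⟩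
  · rw [← hidx K hZK, ← hidx H hZH, hKidx]
    exact H5.frob_coprime_card_index hFrob

end Cfsg.Agent.S4283
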