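import Cfsg.Statements.S4284
import Cfsg.Agent.H1.CsTools
import Cfsg.Agent.H24.SmallCenterIndex

set_option autoImplicit false
open Cfsg

namespace Cfsg.Agent.S4284

set_option linter.unusedSectionVars false
set_option linter.style.haveILetI false

open scoped Pointwise commutatorElement IsMulCommutative
open Cfsg.Agent.H92 Cfsg.Agent.H1.Cs

structure Hyp (G : Type*) [Group G] (m n : ℕ) : Prop where
  hm : 1 < m
  hn : 1 < n
  cop : m.Coprime n
  cs3 : ∀ x : G, cs[x] = 1 ∨ cs[x] = m ∨ cs[x] = m * n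
  small : ∃ x : G, cs[x] = m
  large : ∃ x : G, cs[x] = m * n

theorem dvd_of_fact_one {m r : ℕ} (hm : m ≠ 0) (h1 : ∀ s, s.Prime → s ∣ m → m.factorization s = 1)
    (h2 : ∀ s, s.Prime → s ∣ m → s ∣ r) : m ∣ r := by
  rcases eq_or_ne r 0 with rfl | hr
  · exact dvd_zero _
  rw [← Nat.factorization_prime_le_iff_dvd hm hr]
  intro p hp
  by_cases hpm : p ∣ m
  · rw [h1 p hp hpm]; exact hp.factorization_pos_of_dvd hr (h2 p hp hpm)
  · rw [Nat.factorization_eq_zero_of_not_dvd hpm]; exact Nat.zero_le _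

variable {G : Type*} [Group G] [Finite G] {m n : ℕ}

theorem centralizer_normalizer {R H : Subgroup G} (h : Subgroup.centralizer (R : Set G) = H) :
    Subgroup.normalizer (R : Set G) ≤ Subgroup.normalizer (H : Set G) :=
  h ▸ normalizer_le_normalizer_centralizer R

namespace Hyp

theorem lt (h : Hyp G m n) : m < m * n := by
  have := h.hm; have := h.hn; nlinarith

theorem cases' (h : Hyp G m n) {x : G} (hx : x ∉ Subgroup.center G) :
    cs[x] = m ∨ cs[x] = m * n := by
  rcases h.cs3 x with h1 | h1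
  · exact absurd (cs_eq_one_iff.1 h1) hx
  · exact h1

theorem nc_of_small (h : Hyp G m n) {x : G} (hx : cs[x] = m) : x ∉ Subgroup.center G :=
  one_lt_cs_iff.1 (hx ▸ h.hm)

theorem nc_of_large (h : Hyp G m n) {x : G} (hx : cs[x] = m * n) : x ∉ Subgroup.center G :=
  one_lt_cs_iff.1 (hx ▸ h.hm.trans h.lt)

theorem not_dvd_n (h : Hyp G m n) {s : ℕ} (hs : s.Prime) (hsm : s ∣ m) : ¬ s ∣ n := fun hd =>
  hs.one_lt.ne' (Nat.eq_one_of_dvd_coprimes h.cop hsm hd)

theorem fact_ne (h : Hyp G m n) {s : ℕ} (hs : s.Prime) (hsm : s ∣ m) : m.factorization s ≠ 0 :=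
  (hs.factorization_pos_of_dvd (by have := h.hm; omega) hsm).ne'

theorem same (h : Hyp G m n) {s : ℕ} (hs : s.Prime) (hsm : s ∣ m) :
    SamePart G s (m.factorization s) := by
  intro g hg
  have h0 : m ≠ 0 := by have := h.hm; omega
  have h1 : s ^ m.factorization s ∣ m := Nat.ordProj_dvd m s
  have h2 : ¬ s ^ (m.factorization s + 1) ∣ m := Nat.pow_succ_factorization_not_dvd h0 hs
  rcases h.cases' hg with e | e <;> rw [e]
  · exact ⟨h1, h2⟩
  · exact ⟨h1.mul_right _, fun hd => h2 ((Nat.Coprime.pow_left _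
      ((Nat.Prime.coprime_iff_not_dvd hs).2 (h.not_dvd_n hs hsm))).dvd_of_dvd_mul_right hd)⟩

theorem dvd_cs (h : Hyp G m n) {x : G} (hx : x ∉ Subgroup.center G) : m ∣ cs[x] := by
  rcases h.cases' hx with e | e <;> rw [e]
  exact Dvd.intro _ rfl

theorem small_of_dvd (h : Hyp G m n) {x : G} (hx : x ∉ Subgroup.center G) (hd : cs[x] ∣ m) :
    cs[x] = m := Nat.dvd_antisymm hd (h.dvd_cs hx)

theorem small_eq (h : Hyp G m n) {u y : G} (hu : cs[u] = m) (hy : y ∉ Subgroup.center G)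
    (hle : Ce[u] ≤ Ce[y]) : Ce[y] = Ce[u] :=
  (eq_of_le_of_index_eq hle (hu.trans (h.small_of_dvd hy (hu ▸ cs_dvd_of_le hle)).symm)).symm

theorem le_mn (h : Hyp G m n) (x : G) : cs[x] ≤ m * n := by
  have := h.lt; have := h.hm
  rcases h.cs3 x with e | e | e <;> omega

theorem large_eq (h : Hyp G m n) {u y : G} (hu : cs[u] = m * n) (hle : Ce[y] ≤ Ce[u]) :
    Ce[y] = Ce[u] := eq_of_le_of_index_le hle (hu ▸ h.le_mn y)

theorem large_le (h : Hyp G m n) {u y : G} (hu : cs[u] = m * n) (hc : Commute u y)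
    (hcop : (orderOf u).Coprime (orderOf y)) : Ce[u] ≤ Ce[y] := by
  have := h.large_eq hu (y := u * y) (C_le_C_of_mem_zpowers (mem_zpowers_mul_of_coprime hc hcop))
  rw [← this]
  exact C_le_C_of_mem_zpowers (mem_zpowers_mul_of_coprime' hc hcop)

theorem rel_cases (h : Hyp G m n) {u y : G} (hu : cs[u] = m) (hc : Commute u y)
    (hcop : (orderOf u).Coprime (orderOf y)) :
    (Ce[y]).relIndex (Ce[u]) = 1 ∨ (Ce[y]).relIndex (Ce[u]) = n := by
  have h1 := cs_mul_eq hc hcop
  have h0 : 0 < m := by have := h.hm; omega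
  rw [hu] at h1
  rcases h.cases' (SamePart.not_mem_center_mul (h.nc_of_small hu) hc hcop) with e | e
  · left; rw [e] at h1; exact Nat.eq_of_mul_eq_mul_right h0 (by rw [← h1, one_mul])
  · right; rw [e] at h1; exact Nat.eq_of_mul_eq_mul_right h0 (by rw [← h1, mul_comm])

theorem nc (h : Hyp G m n) {s : ℕ} (hs : s.Prime) (hsm : s ∣ m) {g : G}
    (hg : g ∉ Subgroup.center G) :
    ∃ y ∈ Ce[g], (∃ k, orderOf y = s ^ k) ∧ y ∉ Subgroup.center G :=
  (h.same hs hsm).exists_noncentral hs (h.fact_ne hs hsm) hg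

/-- absorption into a normal full subgroup -/
theorem absorbN (h : Hyp G m n) {s : ℕ} (hs : s.Prime) (hsm : s ∣ m) {D : Subgroup G} [D.Normal]
    (hD : ¬ s ^ (m.factorization s + 1) ∣ D.index) {w a : G} (hw : w ∉ Subgroup.center G)
    (hle : D ≤ Ce[w]) (ha : ∃ k, orderOf a = s ^ k) (haw : Commute a w) : a ∈ D :=
  absorb hs hle hD (h.same hs hsm w hw).1 ha (mem_C.2 haw)
    (by rw [Subgroup.normalizer_eq_top]; trivial)

/-! ### Case II: all noncentral `π(m)`-primary elements are large -/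

theorem dagger (h : Hyp G m n)
    (hII : ∀ s, s.Prime → s ∣ m → ∀ u : G, (∃ k, orderOf u = s ^ k) → cs[u] ≠ m)
    (hsq : ∀ s, s.Prime → s ∣ m → m.factorization s = 1)
    {s : ℕ} (hs : s.Prime) (hsm : s ∣ m) {p : ℕ} (hp : p.Prime) {x : G}
    (hx : ∃ k, orderOf x = p ^ k) (hxm : cs[x] = m) :
    ∃ V : Subgroup G, V.Normal ∧ IsPGroup p V ∧ x ∈ V ∧
      ¬ s ^ (m.factorization s + 1) ∣ (Subgroup.centralizer (V : Set G)).index := by
  haveI := Fact.mk hs
  have hL : ∀ t, t.Prime → t ∣ m → ∀ u : G, (∃ k, orderOf u = t ^ k) → u ∉ Subgroup.center G →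
      cs[u] = m * n := fun t ht htm u hu huZ => (h.cases' huZ).resolve_left (hII t ht htm u hu)
  have hps : ∀ t, t.Prime → t ∣ m → t ≠ p := by
    rintro t ht htm rfl
    exact hII t ht htm x hx hxm
  have hxZ := h.nc_of_small hxm
  obtain ⟨U, hUH, hUp, hUs⟩ := exists_syl s (Ce[x])
  obtain ⟨T, hTp, hTN, t, htT, htH⟩ := exists_grow (hxm ▸ hsm) hUH hUp hUs
  have hUZ : ¬ U ≤ Subgroup.center G := by
    intro hle
    obtain ⟨y, hy1, hy2, hy3⟩ := h.nc hs hsm hxZ
    apply hUs
    have := dvd_relIndex_of_not_mem hs (Subgroup.center G) _ hy2 hy1 hy3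
    exact this.trans (Subgroup.relIndex_dvd_of_le_left _ hle)
  obtain ⟨u, huU, huZ, hc, -⟩ := exists_z2 hUp hTp hTN hUZ
  have hu := orderOf_eq_pow_of_mem hUp huU
  have hul := hL s hs hsm u hu huZ
  have hux : Commute u x := mem_C.1 (hUH huU)
  have hCH : Ce[u] ≤ Ce[x] :=
    h.large_le hul hux (coprime_of_pow_of_pow hs hp (hps s hs hsm) hu hx)
  set N := Subgroup.normalizer ((Ce[u] : Subgroup G) : Set G) with hN
  have hCN : Ce[u] ≤ N := Subgroup.le_normalizer
  have hmN : m ∣ (Ce[u]).relIndex N := by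
    refine dvd_of_fact_one (by have := h.hm; omega) hsq fun q hq hqm => ?_
    by_cases hqs : q = s
    · subst hqs
      have htN : t ∈ N := mem_normalizer_C_of_commutator (hc t htT)
      exact dvd_relIndex_of_normalizer hq hCN (orderOf_eq_pow_of_mem hTp htT) htN htN
        (fun ht => htH (hCH ht))
    · haveI := Fact.mk hq
      obtain ⟨R, hRH, hRp, hRs⟩ := exists_syl q (Ce[u])
      obtain ⟨T', hTp', hTN', t', htT', htH'⟩ :=
        exists_grow (hul ▸ hqm.mul_right n) hRH hRp hRs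
      have hRC : ∀ y ∈ R, Ce[u] ≤ Ce[y] := fun y hy => h.large_le hul (mem_C'.1 (hRH hy))
        (coprime_of_pow_of_pow hs hq (Ne.symm hqs) hu (orderOf_eq_pow_of_mem hRp hy))
      obtain ⟨y, hy1, hy2⟩ : ∃ y ∈ R, y ∉ Subgroup.center G := by
        by_contra hne
        push Not at hne
        obtain ⟨y, hy1, hy2, hy3⟩ := h.nc hq hqm huZ
        apply hRs
        have := dvd_relIndex_of_not_mem hq (Subgroup.center G) _ hy2 hy1 hy3
        exact this.trans (Subgroup.relIndex_dvd_of_le_left _ hne)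
      have hyl := hL q hq hqm y (orderOf_eq_pow_of_mem hRp hy1) hy2
      have hCR : Subgroup.centralizer (R : Set G) = Ce[u] := by
        apply le_antisymm
        · rw [h.large_eq hyl (hRC y hy1)]
          exact Subgroup.centralizer_le (Set.singleton_subset_iff.2 hy1)
        · intro a ha
          rw [Subgroup.mem_centralizer_iff]
          intro b hb
          exact mem_C'.1 (hRC b hb ha)
      have htN : t' ∈ N := centralizer_normalizer hCR (hTN' htT')
      exact dvd_relIndex_of_normalizer hq hCN (orderOf_eq_pow_of_mem hTp' htT') htN htN htH'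
  have hrel : (Ce[u]).relIndex (Ce[x]) = n := by
    have := Subgroup.relIndex_mul_index hCH
    rw [hxm, hul] at this
    exact Nat.eq_of_mul_eq_mul_right (zero_lt_one.trans h.hm) (by rw [this, mul_comm])
  have hmr : m ∣ (Ce[x]).relIndex N := by
    have e := Subgroup.relIndex_mul_relIndex (Ce[u]) (Ce[x] ⊓ N) N (le_inf hCH hCN) inf_le_right
    rw [← e, Subgroup.inf_relIndex_right] at hmN
    refine Nat.Coprime.dvd_of_dvd_mul_left ?_ hmN
    refine Nat.Coprime.coprime_dvd_right ?_ h.cop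
    rw [← hrel]
    exact Dvd.intro _ (Subgroup.relIndex_mul_relIndex (Ce[u]) (Ce[x] ⊓ N) (Ce[x])
      (le_inf hCH hCN) inf_le_left)
  have hset : conjSet N x = conjSet ⊤ x := by
    refine Set.eq_of_subset_of_ncard_le ?_ ?_ (Set.toFinite _)
    · rintro _ ⟨a, -, rfl⟩; exact ⟨a, trivial, rfl⟩
    · rw [ncard_conjSet, ncard_conjSet, Subgroup.relIndex_top_right, hxm]
      exact Nat.le_of_dvd (Nat.pos_of_ne_zero Subgroup.index_ne_zero_of_finite) hmr
  have hconj : ∀ g : G, g * x * g⁻¹ ∈ Ce[u] := by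
    intro g
    have : g * x * g⁻¹ ∈ conjSet N x := hset ▸ ⟨g, trivial, rfl⟩
    obtain ⟨a, ha, e⟩ := this
    rw [← e]
    exact (Subgroup.mem_normalizer_iff.1 ha x).1 (mem_C.2 hux.symm)
  have key : ∀ y ∈ Subgroup.normalClosure ({x} : Set G),
      y ∈ Ce[u] ∧ Ce[u] ≤ Ce[y] ∧ ∃ k, y ^ p ^ k = 1 := by
    intro y hy
    unfold Subgroup.normalClosure at hy
    induction hy using Subgroup.closure_induction with
    | mem y hy =>
      obtain ⟨a, ha, hya⟩ := Group.mem_conjugatesOfSet_iff.1 hy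
      rw [Set.mem_singleton_iff] at ha
      subst ha
      obtain ⟨c, rfl⟩ := isConj_iff.1 hya
      have ho : ∃ k, orderOf (c * a * c⁻¹) = p ^ k := by rw [orderOf_conj]; exact hx
      refine ⟨hconj c, h.large_le hul (mem_C'.1 (hconj c))
        (coprime_of_pow_of_pow hs hp (hps s hs hsm) hu ho), ?_⟩
      obtain ⟨k, hk⟩ := ho
      exact ⟨k, by rw [← hk]; exact pow_orderOf_eq_one _⟩
    | one => exact ⟨Subgroup.one_mem _, by rw [C_one]; exact le_top, 0, by simp⟩
    | mul a b _ _ ha hb =>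
      obtain ⟨ha1, ha2, i, hi⟩ := ha
      obtain ⟨hb1, hb2, j, hj⟩ := hb
      refine ⟨Subgroup.mul_mem _ ha1 hb1, (le_inf ha2 hb2).trans (inf_le_C_mul a b), i + j, ?_⟩
      have hab : Commute a b := mem_C.1 (hb2 ha1)
      rw [hab.mul_pow, pow_add, pow_mul, hi, mul_comm (p ^ i), pow_mul, hj]; simp
    | inv a _ ha =>
      obtain ⟨ha1, ha2, i, hi⟩ := ha
      exact ⟨Subgroup.inv_mem _ ha1, by rwa [C_inv], i, by rw [inv_pow, hi, inv_one]⟩
  refine ⟨Subgroup.normalClosure {x}, inferInstance, ?_, Subgroup.subset_normalClosure rfl, ?_⟩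
  · rintro ⟨y, hy⟩
    obtain ⟨-, -, k, hk⟩ := key y hy
    exact ⟨k, Subtype.ext (by simpa using hk)⟩
  · refine full_of_le (D := Ce[u]) ?_ (h.same hs hsm u huZ).2
    intro a ha
    rw [Subgroup.mem_centralizer_iff]
    intro b hb
    exact mem_C'.1 ((key b hb).2.1 ha)

theorem caseII (h : Hyp G m n)
    (hII : ∀ s, s.Prime → s ∣ m → ∀ u : G, (∃ k, orderOf u = s ^ k) → cs[u] ≠ m) : False := by
  have hL : ∀ t, t.Prime → t ∣ m → ∀ u : G, (∃ k, orderOf u = t ^ k) → u ∉ Subgroup.center G →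
      cs[u] = m * n := fun t ht htm u hu huZ => (h.cases' huZ).resolve_left (hII t ht htm u hu)
  obtain ⟨x0, hx0⟩ := h.small
  obtain ⟨x, hx1, p, hp, -, hx, hxZ⟩ := exists_primePow_not_mem (h.nc_of_small hx0)
  have hxm : cs[x] = m := h.small_of_dvd hxZ (hx0 ▸ cs_dvd_of_mem_zpowers hx1)
  have hps : ∀ t, t.Prime → t ∣ m → t ≠ p := by
    rintro t ht htm rfl
    exact hII t ht htm x hx hxm
  obtain ⟨s, hs, hsm⟩ := Nat.exists_prime_and_dvd h.hm.ne'
  have hsp := hps s hs hsm
  haveI := Fact.mk hp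
  obtain ⟨u1, hu1, hu1s, hu1Z⟩ := h.nc hs hsm hxZ
  have hpel : ∀ u : G, cs[u] = m * n →
      ∃ y ∈ Ce[u], (∃ k, orderOf y = p ^ k) ∧ y ∉ Subgroup.center G := fun u hu =>
    exists_noncentral_of_cs_eq ((hL s hs hsm u1 hu1s hu1Z).trans hu.symm) hp hx
      (mem_C_comm.1 hu1) hxZ
  have hsq : ∀ t, t.Prime → t ∣ m → m.factorization t = 1 := by
    intro t ht htm
    refine (h.same ht htm).le_one' ht (h.fact_ne ht htm) hxZ fun u hu huZ => ?_
    obtain ⟨y, hy1, hy2, hy3⟩ := hpel u (hL t ht htm u hu huZ)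
    exact ⟨y, hy1, not_dvd_of_eq_pow ht hp (hps t ht htm) hy2, hy3⟩
  obtain ⟨V, hVn, hVp, hxV, hVf⟩ := h.dagger hII hsq hs hsm hp hx hxm
  have hCV : ∀ (W : Subgroup G), ∀ v ∈ W, Subgroup.centralizer (W : Set G) ≤ Ce[v] :=
    fun W v hv => Subgroup.centralizer_le (Set.singleton_subset_iff.2 hv)
  obtain ⟨g, hg, hgD⟩ : ∃ g : G, (∃ k, orderOf g = s ^ k) ∧
      g ∉ Subgroup.centralizer (V : Set G) :=
    exists_not_mem_of_dvd_index hs ((hxm ▸ hsm).trans (Subgroup.index_dvd_of_le (hCV V x hxV)))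
  have hgZ : g ∉ Subgroup.center G := fun hz => hgD (Subgroup.center_le_centralizer _ hz)
  have hfpf : ∀ v ∈ V, Commute v g → v ∈ Subgroup.center G := by
    intro v hv hc
    by_contra hvZ
    exact hgD (h.absorbN hs hsm hVf hvZ (hCV V v hv) hg hc.symm)
  obtain ⟨w, hwg, hw, hwZ⟩ := hpel g (hL s hs hsm g hg hgZ)
  have hgw : Commute g w := mem_C'.1 hwg
  obtain ⟨v, hv, hvZ, hvw⟩ := exists_commute_of_fpf hs hp hsp hVp (fun hle => hxZ (hle hxV)) hg hw
    (by rw [Subgroup.normalizer_eq_top]; trivial) (by rw [Subgroup.normalizer_eq_top]; trivial)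
    hgw hfpf
  have hwm : cs[w] = m := by
    refine (h.cases' hwZ).resolve_right fun hwl => hvZ (hfpf v hv ?_)
    exact mem_C.1 (h.large_le hwl hgw.symm (coprime_of_pow_of_pow hp hs hsp.symm hw hg)
      (mem_C.2 hvw))
  obtain ⟨W, hWn, hWp, hwW, hWf⟩ := h.dagger hII hsq hs hsm hp hw hwm
  have hgW : g ∈ Subgroup.centralizer (W : Set G) :=
    h.absorbN hs hsm hWf hwZ (hCV W w hwW) hg hgw
  have hvwZ : v * w ∉ Subgroup.center G := by
    intro hz
    apply hvZ (hfpf v hv _)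
    have e : v = v * w * w⁻¹ := by group
    rw [e]
    exact Commute.mul_left (Subgroup.mem_center_iff.1 hz g).symm hgw.symm.inv_left
  obtain ⟨a, ha1, ha, haZ⟩ := h.nc hs hsm hvwZ
  have e1 : ⁅v⁻¹, a⁆ = ⁅w, a⁆ := by
    have : a * (v * w) = v * w * a := mem_C.1 ha1
    rw [commutatorElement_def, commutatorElement_def, inv_inv]
    calc v⁻¹ * a * v * a⁻¹ = v⁻¹ * (a * (v * w)) * w⁻¹ * a⁻¹ := by group
      _ = _ := by rw [this]; group
  have hcV : ⁅v⁻¹, a⁆ ∈ V := by
    rw [commutatorElement_def, inv_inv, mul_assoc, mul_assoc, ← mul_assoc a]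
    exact V.mul_mem (V.inv_mem hv) (hVn.conj_mem v hv a)
  have hcW : ⁅w, a⁆ ∈ W := by
    rw [commutatorElement_def, mul_assoc, mul_assoc, ← mul_assoc a]
    exact W.mul_mem hwW (hWn.conj_mem _ (W.inv_mem hwW) a)
  have hcZ : ⁅v⁻¹, a⁆ ∈ Subgroup.center G :=
    hfpf _ hcV (Subgroup.mem_centralizer_iff.1 hgW _ (e1 ▸ hcW))
  have hva : Commute v a := by
    have := commute_of_coprime_of_commutator_mem_center hcZ (by
      rw [orderOf_inv]
      exact coprime_of_pow_of_pow hp hs hsp.symm (orderOf_eq_pow_of_mem hVp hv) ha)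
    simpa using this.inv_left
  have hwa : Commute w a := commute_of_coprime_of_commutator_mem_center (e1 ▸ hcZ)
    (coprime_of_pow_of_pow hp hs hsp.symm hw ha)
  have haV := h.absorbN hs hsm hVf hvZ (hCV V v hv) ha hva.symm
  have haW := h.absorbN hs hsm hWf hwZ (hCV W w hwW) ha hwa.symm
  have hal := hL s hs hsm a ha haZ
  have hle : ∀ X : Subgroup G, IsPGroup p X → a ∈ Subgroup.centralizer (X : Set G) →
      Ce[a] ≤ Subgroup.centralizer (X : Set G) := by
    intro X hX haX b hb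
    haveI := Fact.mk hp
    rw [Subgroup.mem_centralizer_iff]
    intro c hc
    exact mem_C'.1 (h.large_le hal (Subgroup.mem_centralizer_iff.1 haX c hc).symm
      (coprime_of_pow_of_pow hs hp hsp ha (orderOf_eq_pow_of_mem hX hc)) hb)
  have hfull : ¬ s ^ (m.factorization s + 1) ∣
      (Subgroup.centralizer (V : Set G) ⊓ Subgroup.centralizer (W : Set G)).index :=
    full_of_le (le_inf (hle V hVp haV) (hle W hWp haW)) (h.same hs hsm a haZ).2
  exact hgD (h.absorbN hs hsm hfull hwZ (inf_le_right.trans (hCV W w hwW)) hg hgw).1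

/-! ### Case I -/

theorem cen (h : Hyp G m n) {s t : ℕ} (hs : s.Prime) (ht : t.Prime) (hst : s ≠ t) (hsm : s ∣ m)
    (htm : t ∣ m) {u : G} (hu : ∃ k, orderOf u = s ^ k) (hum : cs[u] = m) {a : G}
    (ha : a ∈ Ce[u]) (hat : ∃ k, orderOf a = t ^ k) : Ce[u] ≤ Ce[a] := by
  haveI := Fact.mk ht
  have huZ := h.nc_of_small hum
  have h1 : ∀ y : Ce[u], ¬ t ∣ cs[y] := by
    rintro ⟨y, hy⟩
    rw [cs_subgroup]
    obtain ⟨b, c, hb, hc, rfl, hb', hc'⟩ := exists_p_parts hs y
    have hbH : b ∈ Ce[u] := (Subgroup.zpowers_le.2 hy) hb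
    have hcH : c ∈ Ce[u] := (Subgroup.zpowers_le.2 hy) hc
    have h2 : ¬ t ∣ (Ce[c]).relIndex (Ce[u]) :=
      (h.same ht htm).not_dvd_relIndex huZ hcH (coprime_of_pow_of_not_dvd hs hu hc')
    obtain ⟨R, hR1, hR2, hR3⟩ := exists_syl t (Ce[c] ⊓ Ce[u])
    have hR4 : R ≤ Ce[b * c] := fun r hr => inf_le_C_mul b c ⟨mem_C'.2
      ((h.same hs hsm).commute hs hu huZ hbH hb' (hR1 hr).2
        (not_dvd_of_eq_pow hs ht hst (orderOf_eq_pow_of_mem hR2 hr))), (hR1 hr).1⟩
    intro hd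
    have hd2 : t ∣ R.relIndex (Ce[u]) := hd.trans (Subgroup.relIndex_dvd_of_le_left _ hR4)
    rw [← Subgroup.relIndex_mul_relIndex R (Ce[c] ⊓ Ce[u]) (Ce[u]) hR1 inf_le_right,
      Subgroup.inf_relIndex_right] at hd2
    rcases (Nat.Prime.dvd_mul ht).1 hd2 with h3 | h3
    · exact hR3 h3
    · exact h2 h3
  obtain ⟨P, hP⟩ := exists_sylow_mem (p := t) (g := (⟨a, ha⟩ : Ce[u]))
    (by rwa [Subgroup.orderOf_mk])
  have h3 := sylow_le_center_of_not_dvd_cs P h1 hP
  intro b hb
  exact mem_C.2 (congrArg Subtype.val (Subgroup.mem_center_iff.1 h3 ⟨b, hb⟩))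

theorem caseIa (h : Hyp G m n) {s t : ℕ} (hs : s.Prime) (ht : t.Prime) (hst : s ≠ t) (hsm : s ∣ m)
    (htm : t ∣ m) {u : G} (hu : ∃ k, orderOf u = s ^ k) (hum : cs[u] = m) : False := by
  have huZ := h.nc_of_small hum
  have hsq : ∀ q, q.Prime → q ∣ m → m.factorization q = 1 := by
    intro q hq hqm
    refine (h.same hq hqm).le_one' hq (h.fact_ne hq hqm) huZ fun a _ haZ => ?_
    by_cases hqs : q = s
    · obtain ⟨y, hy1, hy2, hy3⟩ := h.nc ht htm haZ
      exact ⟨y, hy1, not_dvd_of_eq_pow hq ht (hqs ▸ hst) hy2, hy3⟩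
    · obtain ⟨y, hy1, hy2, hy3⟩ := h.nc hs hsm haZ
      exact ⟨y, hy1, not_dvd_of_eq_pow hq hs hqs hy2, hy3⟩
  obtain ⟨u', hu'1, hu', hu'Z⟩ := h.nc ht htm huZ
  have hu'e : Ce[u'] = Ce[u] := h.small_eq hum hu'Z (h.cen hs ht hst hsm htm hu hum hu'1 hu')
  have hu'm : cs[u'] = m := by rw [hu'e]; exact hum
  have hcen : ∀ q, q.Prime → q ∣ m → ∀ a ∈ Ce[u], (∃ k, orderOf a = q ^ k) → Ce[u] ≤ Ce[a] := by
    intro q hq hqm a ha haq
    by_cases hqs : q = s
    · subst hqs
      rw [← hu'e] at ha ⊢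
      exact h.cen ht hq hst.symm htm hqm hu' hu'm ha haq
    · exact h.cen hs hq (Ne.symm hqs) hsm hqm hu hum ha haq
  have hsyl : ∀ q, q.Prime → q ∣ m → ∀ R : Subgroup G, R ≤ Ce[u] → IsPGroup q R →
      ¬ q ∣ R.relIndex (Ce[u]) →
      ¬ R ≤ Subgroup.center G ∧ Subgroup.centralizer (R : Set G) = Ce[u] := by
    intro q hq hqm R hRH hRp hRs
    haveI := Fact.mk hq
    have hne : ¬ R ≤ Subgroup.center G := by
      intro hne
      obtain ⟨y, hy1, hy2, hy3⟩ := h.nc hq hqm huZ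
      apply hRs
      have := dvd_relIndex_of_not_mem hq (Subgroup.center G) _ hy2 hy1 hy3
      exact this.trans (Subgroup.relIndex_dvd_of_le_left _ hne)
    refine ⟨hne, le_antisymm ?_ ?_⟩
    · obtain ⟨y, hy1, hy2⟩ := SetLike.not_le_iff_exists.1 hne
      rw [← h.small_eq hum hy2 (hcen q hq hqm y (hRH hy1) (orderOf_eq_pow_of_mem hRp hy1))]
      exact Subgroup.centralizer_le (Set.singleton_subset_iff.2 hy1)
    · intro a ha
      rw [Subgroup.mem_centralizer_iff]
      intro b hb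
      exact mem_C'.1 (hcen q hq hqm b (hRH hb) (orderOf_eq_pow_of_mem hRp hb) ha)
  have hnormal : (Ce[u]).Normal := by
    set N := Subgroup.normalizer ((Ce[u] : Subgroup G) : Set G) with hN
    have hCN : Ce[u] ≤ N := Subgroup.le_normalizer
    have hmN : m ∣ (Ce[u]).relIndex N := by
      refine dvd_of_fact_one (by have := h.hm; omega) hsq fun q hq hqm => ?_
      haveI := Fact.mk hq
      obtain ⟨R, hRH, hRp, hRs⟩ := exists_syl q (Ce[u])
      obtain ⟨T', hTp', hTN', t', htT', htH'⟩ := exists_grow (hum ▸ hqm) hRH hRp hRs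
      have htN : t' ∈ N := centralizer_normalizer (hsyl q hq hqm R hRH hRp hRs).2 (hTN' htT')
      exact dvd_relIndex_of_normalizer hq hCN (orderOf_eq_pow_of_mem hTp' htT') htN htN htH'
    have e := Subgroup.relIndex_mul_index hCN
    rw [hum] at e
    obtain ⟨c, hc⟩ := hmN
    rw [hc, mul_assoc] at e
    have e2 : c * N.index = 1 := Nat.eq_of_mul_eq_mul_left (zero_lt_one.trans h.hm) (by
      rw [e, mul_one])
    rw [← Subgroup.normalizer_eq_top_iff, ← Subgroup.index_eq_one]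
    exact Nat.eq_one_of_mul_eq_one_left e2
  haveI := Fact.mk ht
  obtain ⟨V, hVH, hVp, hVs⟩ := exists_syl t (Ce[u])
  obtain ⟨hVZ, hVC⟩ := hsyl t ht htm V hVH hVp hVs
  have hVn : V.Normal := by
    constructor
    intro y hy g
    have h1 : g * y * g⁻¹ ∈ Ce[u] := hnormal.conj_mem y (hVH hy) g
    refine absorb ht hVH (full_of_relIndex ht hVH hVs (h.same ht htm u huZ).2)
      (h.same ht htm u huZ).1 (by rw [orderOf_conj]; exact orderOf_eq_pow_of_mem hVp hy) h1 ?_
    rw [← hVC] at h1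
    exact Subgroup.centralizer_le_normalizer _ h1
  obtain ⟨g, hg, hgH⟩ := exists_not_mem_of_dvd_index hs (K := Ce[u]) (hum ▸ hsm)
  have hgZ : g ∉ Subgroup.center G := fun hz => hgH (center_le_C u hz)
  have hVeq : ∀ v ∈ Ce[u], (∃ k, orderOf v = t ^ k) → v ∉ Subgroup.center G → Ce[v] = Ce[u] :=
    fun v hv hv' hvZ => h.small_eq hum hvZ (hcen t ht htm v hv hv')
  have hfpf : ∀ v ∈ V, Commute v g → v ∈ Subgroup.center G := by
    intro v hv hc
    by_contra hvZ
    exact hgH (hVeq v (hVH hv) (orderOf_eq_pow_of_mem hVp hv) hvZ ▸ mem_C'.2 hc)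
  obtain ⟨w, hwg, hw, hwZ⟩ := h.nc ht htm hgZ
  obtain ⟨v, hv, hvZ, hvw⟩ := exists_commute_of_fpf hs ht hst hVp hVZ hg hw
    (by rw [Subgroup.normalizer_eq_top]; trivial) (by rw [Subgroup.normalizer_eq_top]; trivial)
    (mem_C'.1 hwg) hfpf
  have hwH : w ∈ Ce[u] :=
    hVeq v (hVH hv) (orderOf_eq_pow_of_mem hVp hv) hvZ ▸ mem_C'.2 hvw
  exact hgH (hVeq w hwH hw hwZ ▸ mem_C_comm.1 hwg)

theorem caseIb (h : Hyp G m n) {s : ℕ} (hs : s.Prime) (hsm : s ∣ m) (hms : ∃ k, m = s ^ k)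
    {u : G} (hu : ∃ k, orderOf u = s ^ k) (hum : cs[u] = m) :
    m.Prime ∧ m ∣ n - 1 ∧ (∃ M : Subgroup G, M.Normal ∧
      (M : Set G) = {x : G | cs[x] = 1 ∨ cs[x] = m} ∧ M.index = m ∧ IsMulCommutative M) ∧
      (∃ N : Subgroup G, N.Normal ∧ (Nat.card N).Coprime m ∧ ∃ a : ℕ, N.index = m ^ a) ∧
      ∀ P : Sylow m G, Nat.card (commutator (P : Subgroup G)) = m := by
  haveI := Fact.mk hs
  have hS := h.same hs hsm
  have huZ := h.nc_of_small hum
  obtain ⟨L, hLn, hLH, hLs, hLi, -, hLc⟩ := exists_normal_complement_of_cs_pow hu (hum ▸ hms)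
    fun y hy hy' => hS.not_dvd_relIndex huZ hy (coprime_of_pow_of_not_dvd hs hu hy')
  have hLord : ∀ y ∈ L, ¬ s ∣ orderOf y := fun y hy hd =>
    hLs (hd.trans (Subgroup.orderOf_dvd_natCard L hy))
  have hmemL : ∀ q, q.Prime → q ≠ s → ∀ y : G, (∃ k, orderOf y = q ^ k) → y ∈ L := by
    intro q hq hqs y hy
    by_contra hyL
    exact not_dvd_of_eq_pow hq hs hqs hLi (dvd_index_of_not_mem hq L hy hyL)
  obtain ⟨p, hp, hpn⟩ := Nat.exists_prime_and_dvd h.hn.ne'
  have hps : p ≠ s := by rintro rfl; exact h.not_dvd_n hs hsm hpn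
  obtain ⟨y0, hy0⟩ := h.large
  obtain ⟨l0, hl0, hl0Z⟩ := exists_noncentral_of_dvd_cs hp (g := y0) (hy0 ▸ hpn.mul_left m)
  have hl0L := hmemL p hp hps l0 hl0
  have hCV : ∀ v ∈ L, Subgroup.centralizer (L : Set G) ≤ Ce[v] :=
    fun v hv => Subgroup.centralizer_le (Set.singleton_subset_iff.2 hv)
  have hDf : ¬ s ^ (m.factorization s + 1) ∣ (Subgroup.centralizer (L : Set G)).index := by
    obtain ⟨R, hRC, hRp, hRs⟩ := exists_syl s (Ce[u])
    exact full_of_le (D := R) (fun a ha => hLc a (hRC ha) (orderOf_eq_pow_of_mem hRp ha))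
      (full_of_relIndex hs hRC hRs (hS u huZ).2)
  obtain ⟨g, hg, hgD⟩ : ∃ g : G, (∃ k, orderOf g = s ^ k) ∧
      g ∉ Subgroup.centralizer (L : Set G) :=
    exists_not_mem_of_dvd_index hs ((hsm.trans (h.dvd_cs hl0Z)).trans
      (Subgroup.index_dvd_of_le (hCV l0 hl0L)))
  have hgZ : g ∉ Subgroup.center G := fun hz => hgD (Subgroup.center_le_centralizer _ hz)
  have hfpf : ∀ v ∈ L, Commute v g → v ∈ Subgroup.center G := by
    intro v hv hc
    by_contra hvZ
    exact hgD (h.absorbN hs hsm hDf hvZ (hCV v hv) hg hc.symm)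
  set e := (Subgroup.center G).relIndex (Ce[g]) with he
  have hes : ∀ q, q.Prime → q ∣ e → q = s := by
    intro q hq hqe
    by_contra hqs
    obtain ⟨y, hy1, hy2, hy3⟩ := exists_not_mem_of_dvd_relIndex hq hqe
    exact hy3 (hfpf y (hmemL q hq hqs y hy2) (mem_C.1 hy1))
  have hpH : p ∣ (Subgroup.center G).relIndex (Ce[u]) :=
    dvd_relIndex_of_not_mem hp _ _ hl0 (hLH hl0L) hl0Z
  have hgl : cs[g] = m * n := by
    refine (h.cases' hgZ).resolve_left fun hgm => hps (hes p hp ?_)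
    rw [he, relIndex_center_eq (hgm.trans hum.symm)]
    exact hpH
  have hZi : (Subgroup.center G).index = e * (m * n) := by
    rw [← relIndex_center_mul g, hgl]
  have hZH : (Subgroup.center G).relIndex (Ce[u]) = e * n := by
    have := relIndex_center_mul u
    rw [hZi, hum] at this
    exact Nat.eq_of_mul_eq_mul_right (zero_lt_one.trans h.hm) (by rw [this]; ring)
  have hHL : ∀ l ∈ L, Ce[u] ≤ Ce[l] := by
    intro l hl
    by_cases hlZ : l ∈ Subgroup.center G
    · rw [C_eq_top_iff.2 hlZ]; exact le_top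
    rcases h.rel_cases hum (mem_C'.1 (hLH hl))
      (coprime_of_pow_of_not_dvd hs hu (hLord l hl)) with h1 | h1
    · exact Subgroup.relIndex_eq_one.1 h1
    · exfalso
      obtain ⟨y, hy1, q, hq, hqo, hy2, hy3⟩ := exists_primePow_not_mem hlZ
      have hqs : q ≠ s := by rintro rfl; exact hLord l hl hqo
      have e1 := Subgroup.relIndex_mul_relIndex (Subgroup.center G) (Ce[l] ⊓ Ce[u]) (Ce[u])
        (le_inf (center_le_C l) (center_le_C u)) inf_le_right
      rw [Subgroup.inf_relIndex_right, h1, hZH] at e1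
      have e2 := Nat.eq_of_mul_eq_mul_right (zero_lt_one.trans h.hn) e1
      apply hqs (hes q hq _)
      rw [← e2]
      exact dvd_relIndex_of_not_mem hq _ _ hy2
        ⟨zpowers_le_C l hy1, hLH ((Subgroup.zpowers_le.2 hl) hy1)⟩ hy3
  have hDH : Subgroup.centralizer (L : Set G) = Ce[u] := by
    apply le_antisymm
    · rw [← h.small_eq hum hl0Z (hHL l0 hl0L)]; exact hCV l0 hl0L
    · intro a ha
      rw [Subgroup.mem_centralizer_iff]
      intro b hb
      exact mem_C'.1 (hHL b hb ha)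
  have hHn : (Ce[u]).Normal := hDH ▸ inferInstance
  have hm1 : m = s := by
    obtain ⟨S, huS⟩ := exists_sylow_mem hu
    obtain ⟨u0, hu0, hu0Z, hc, hpow⟩ := exists_z2 (U := (S : Subgroup G) ⊓ Ce[u]) (T := S)
      S.isPGroup'.to_inf_left S.isPGroup' (fun a ha => Subgroup.inf_normalizer_le_normalizer_inf
        (Subgroup.mem_inf.2 ⟨Subgroup.le_normalizer ha,
          by rw [Subgroup.normalizer_eq_top]; trivial⟩))
      (fun hle => huZ (hle ⟨huS, self_mem_C u⟩))
    have h1 := hS.le_one S hu0.1 hu0Z hc hpow (l := l0) (mem_C_comm.1 (hHL l0 hl0L hu0.2))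
      (hLord l0 hl0L) hl0Z
    have h2 := h.fact_ne hs hsm
    obtain ⟨k, hk⟩ := hms
    have h3 : m.factorization s = k := by rw [hk]; simp [hs.factorization_pow]
    rw [hk, show k = 1 by omega, pow_one]
  subst hm1
  have hab : ∀ a ∈ Ce[u], Ce[u] ≤ Ce[a] := by
    have h1 : ∀ a ∈ Ce[u], (∃ k, orderOf a = m ^ k) → Ce[u] ≤ Ce[a] := by
      intro a ha ha'
      by_cases haZ : a ∈ Subgroup.center G
      · rw [C_eq_top_iff.2 haZ]; exact le_top
      have hLa : L ≤ Ce[a] := fun l hl => mem_C_comm.1 (hHL l hl ha)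
      have ham : cs[a] = m := by
        refine (h.cases' haZ).resolve_right fun hal => ?_
        have h2 := Subgroup.index_dvd_of_le hLa
        rw [hal] at h2
        exact not_dvd_of_eq_pow hp hs hps hLi ((hpn.mul_left m).trans h2)
      have h3 : Ce[a] ≤ Ce[u] := by
        intro b hb
        refine mem_of_forall_primePow fun y hy q hq _ hyq => ?_
        by_cases hqs : q = m
        · subst hqs
          rw [← hDH, Subgroup.mem_centralizer_iff]
          intro l hl
          exact (hS.commute hq ha' haZ ((Subgroup.zpowers_le.2 hb) hy) hyq (hLa hl)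
            (hLord l hl)).symm
        · exact hLH (hmemL q hq hqs y hyq)
      exact (eq_of_le_of_index_eq h3 (ham.trans hum.symm)).ge
    intro a ha
    by_contra hne
    have : a ∉ Subgroup.centralizer ((Ce[u] : Subgroup G) : Set G) := fun h' => hne (le_C_iff.2 h')
    obtain ⟨y, hy1, q, hq, -, hy2, hy3⟩ := exists_primePow_not_mem this
    apply hy3
    rw [← le_C_iff]
    by_cases hqs : q = m
    · subst hqs; exact h1 y ((Subgroup.zpowers_le.2 ha) hy1) hy2
    · exact hHL y (hmemL q hq hqs y hy2)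
  have hout : ∀ y : G, y ∉ Ce[u] → (Subgroup.center G).relIndex (Ce[y]) ∣ m := by
    intro y hy
    have h1 : Ce[u] ⊓ Ce[y] = Subgroup.center G ⊓ Ce[y] := by
      apply le_antisymm
      · rintro a ⟨ha1, ha2⟩
        refine ⟨?_, ha2⟩
        by_contra haZ
        exact hy (h.small_eq hum haZ (hab a ha1) ▸ mem_C_comm.1 ha2)
      · exact inf_le_inf_right _ (center_le_C u)
    rw [← Subgroup.inf_relIndex_right, ← h1, Subgroup.inf_relIndex_right, ← hum]
    exact Subgroup.relIndex_dvd_index_of_normal _ _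
  have hem : e = m := by
    rcases (Nat.dvd_prime hs).1 (hout g (hDH ▸ hgD)) with h1 | h1
    · exact absurd (Subgroup.relIndex_eq_one.1 h1 (self_mem_C g)) hgZ
    · exact h1
  rw [hem] at hZi hZH
  have hmn : ¬ m ∣ n := h.not_dvd_n hs hsm
  refine ⟨hs, ?_, ⟨Ce[u], hHn, ?_, hum, ⟨⟨fun a b => Subtype.ext ?_⟩⟩⟩,
    ⟨L, hLn, ((Nat.Prime.coprime_iff_not_dvd hs).2 hLs).symm, hLi⟩, fun P => ?_⟩
  · set f := QuotientGroup.mk' (Subgroup.center G) with hf
    have hcard : Nat.card (L.map f) = n := by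
      have h1 : Nat.card (L.map f) * (L.map f).index = m * (m * n) := by
        rw [Subgroup.card_mul_index, ← hZi]; rfl
      obtain ⟨j, hj⟩ := eq_pow_of_dvd hs
        (Subgroup.index_map_dvd L (QuotientGroup.mk'_surjective (Subgroup.center G))) hLi
      have h2 : ¬ m ∣ Nat.card (L.map f) := fun hd => hLs (hd.trans (Subgroup.card_map_dvd L f))
      rw [hj] at h1
      apply Nat.dvd_antisymm
      · have : Nat.card (L.map f) ∣ m * m * n := ⟨m ^ j, by rw [h1]; ring⟩
        exact (Nat.Coprime.mul_right ((Nat.Prime.coprime_iff_not_dvd hs).2 h2).symm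
          ((Nat.Prime.coprime_iff_not_dvd hs).2 h2).symm).dvd_of_dvd_mul_left this
      · have : n ∣ Nat.card (L.map f) * m ^ j := ⟨m * m, by rw [h1]; ring⟩
        exact (Nat.Coprime.pow_right j h.cop.symm).dvd_of_dvd_mul_right this
    have hfg : ∃ k, orderOf (f g) = m ^ k := eq_pow_of_dvd hs (orderOf_map_dvd f g) hg
    have := dvd_ncard_of_conj_invariant (Subgroup.zpowers (f g)) m
      ((L.map f : Set _) \ {1}) (by
        rintro d - x ⟨hx1, hx2⟩
        refine ⟨(hLn.map f (QuotientGroup.mk'_surjective _)).conj_mem x hx1 d, ?_⟩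
        simpa using hx2) (by
        rintro _ ⟨⟨l, hl, rfl⟩, hx2⟩
        have hne : (Ce[f l]).relIndex (Subgroup.zpowers (f g)) ≠ 1 := by
          intro h1
          have h2 := mem_C.1 (Subgroup.relIndex_eq_one.1 h1 (Subgroup.mem_zpowers _))
          have h3 := commute_of_coprime_of_commutator_mem_center
            (commutator_mem_center_iff.2 h2) (coprime_of_pow_of_not_dvd hs hg (hLord l hl))
          exact hx2 ((QuotientGroup.eq_one_iff l).2 (hfpf l hl h3.symm))
        obtain ⟨j, hj⟩ := eq_pow_of_dvd hs (Subgroup.relIndex_dvd_card (Ce[f l])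
          (Subgroup.zpowers (f g))) (by rwa [Nat.card_zpowers])
        rw [hj] at hne ⊢
        exact dvd_pow_self m (by rintro rfl; simp at hne))
    rwa [Set.ncard_diff_singleton_of_mem (Subgroup.one_mem _), ← Nat.card_coe_set_eq,
      SetLike.coe_sort_coe, hcard] at this
  · ext y
    simp only [SetLike.mem_coe, Set.mem_setOf_eq]
    constructor
    · intro hy
      by_cases hyZ : y ∈ Subgroup.center G
      · exact Or.inl (cs_eq_one_iff.2 hyZ)
      · right; rw [h.small_eq hum hyZ (hab y hy)]; exact hum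
    · rintro (hy | hy)
      · exact center_le_C u (cs_eq_one_iff.1 hy)
      · by_contra hyH
        have h1 := hout y hyH
        rw [relIndex_center_eq (hy.trans hum.symm)] at h1
        exact hps ((Nat.prime_dvd_prime_iff_eq hp hs).1 (hpH.trans h1))
  · exact mem_C.1 (hab b b.2 a.2)
  · apply H24.card_commutator_of_index_center hs
    have h1 : Subgroup.center P = (Subgroup.center G).subgroupOf P := by
      ext a
      rw [Subgroup.mem_subgroupOf]
      constructor
      · intro ha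
        by_contra haZ
        refine not_dvd_index_of_sylow_le P (H := Ce[(a : G)]) (fun b hb => ?_) (h.dvd_cs haZ)
        exact mem_C.2 (congrArg Subtype.val (Subgroup.mem_center_iff.1 ha ⟨b, hb⟩))
      · intro ha
        exact Subgroup.mem_center_iff.2 fun b => Subtype.ext (Subgroup.mem_center_iff.1 ha b)
    rw [h1]
    change (Subgroup.center G).relIndex P = m ^ 2
    obtain ⟨j, hj⟩ := eq_pow_of_dvd hs (Subgroup.relIndex_dvd_card (Subgroup.center G)
      (P : Subgroup G)) P.isPGroup'.exists_card_eq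
    have h2 := Subgroup.relIndex_mul_index
      (le_sup_right : Subgroup.center G ≤ (P : Subgroup G) ⊔ Subgroup.center G)
    rw [Subgroup.relIndex_sup_right, hj, hZi] at h2
    have h3 : ¬ m ∣ ((P : Subgroup G) ⊔ Subgroup.center G).index :=
      not_dvd_index_of_sylow_le P le_sup_left
    rw [hj]
    apply Nat.dvd_antisymm
    · have : m ^ j ∣ m ^ 2 * n := ⟨_, by rw [h2]; ring⟩
      exact (Nat.Coprime.pow_left j h.cop).dvd_of_dvd_mul_right this
    · have : m ^ 2 ∣ m ^ j * ((P : Subgroup G) ⊔ Subgroup.center G).index := ⟨n, by rw [h2]; ring⟩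
      exact (Nat.Coprime.pow_left 2 ((Nat.Prime.coprime_iff_not_dvd hs).2 h3)).dvd_of_dvd_mul_right
        this

end Hyp

/-- Let G be a finite group with no nontrivial abelian direct factor whose conjugacy class sizes are exactly 1, m and m·n with m, n > 1 coprime. Then m is a prime p dividing n − 1; the elements whose class has size 1 or p form an abelian normal subgroup of index p; G has a normal p-complement; and the commutator subgroup of a Sylow p-subgroup of G has order p. -/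
theorem result {G : Type*} [Group G] [Finite G] (hnodf : ∀ A B : Subgroup G, A.Normal → B.Normal → A ⊓ B = ⊥ → A ⊔ B = ⊤ → IsMulCommutative A → A = ⊥) (m n : ℕ) (hm : 1 < m) (hn : 1 < n) (hcop : m.Coprime n) (h : Set.range (fun x : G => (Subgroup.centralizer ({x} : Set G)).index) = ({1, m, m * n} : Set ℕ)) : m.Prime ∧ m ∣ n - 1 ∧ (∃ M : Subgroup G, M.Normal ∧ (M : Set G) = {x : G | (Subgroup.centralizer ({x} : Set G)).index = 1 ∨ (Subgroup.centralizer ({x} : Set G)).index = m} ∧ M.index = m ∧ IsMulCommutative M) ∧ (∃ N : Subgroup G, N.Normal ∧ (Nat.card N).Coprime m ∧ ∃ a : ℕ, N.index = m ^ a) ∧ ∀ P : Sylow m G, Nat.card (commutator (P : Subgroup G)) = m := by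
  have H : Hyp G m n := by
    refine ⟨hm, hn, hcop, fun x => ?_, ?_, ?_⟩
    · have : (Subgroup.centralizer ({x} : Set G)).index ∈ ({1, m, m * n} : Set ℕ) := h ▸ ⟨x, rfl⟩
      simpa using this
    · have : m ∈ ({1, m, m * n} : Set ℕ) := by simp
      rw [← h] at this; exact this
    · have : m * n ∈ ({1, m, m * n} : Set ℕ) := by simp
      rw [← h] at this; exact this
  by_cases hII : ∀ s, s.Prime → s ∣ m → ∀ u : G, (∃ k, orderOf u = s ^ k) → cs[u] ≠ m
  · exact (H.caseII hII).elim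
  push Not at hII
  obtain ⟨s, hs, hsm, u, hu, hum⟩ := hII
  refine H.caseIb hs hsm ?_ hu hum
  rw [eq_pow_iff_forall hs (by omega)]
  intro t ht htm
  by_contra hts
  exact H.caseIa hs ht (Ne.symm hts) hsm htm hu hum

end Cfsg.Agent.S4284
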