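import Cfsg.Statements.S4292
import Cfsg.Agent.H91.FrobElem

set_option autoImplicit false
open Cfsg

namespace Cfsg.Agent.S4292

/-- Let A and B be nontrivial finite groups. Then the direct product A × B occurs as a Frobenius complement if and only if A and B both occur as Frobenius complements and the orders of A and B are coprime. -/
theorem result {A B : Type*} [Group A] [Finite A] [Nontrivial A] [Group B] [Finite B] [Nontrivial B] :
    (∃ (L : Type) (_ : Group L) (_ : Finite L) (H : Subgroup L), Cfsg.IsFrobeniusComplement H ∧ Nonempty ((A × B) ≃* H)) ↔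
    ((∃ (L : Type) (_ : Group L) (_ : Finite L) (H : Subgroup L), Cfsg.IsFrobeniusComplement H ∧ Nonempty (A ≃* H)) ∧
     (∃ (L : Type) (_ : Group L) (_ : Finite L) (H : Subgroup L), Cfsg.IsFrobeniusComplement H ∧ Nonempty (B ≃* H)) ∧
     (Nat.card A).Coprime (Nat.card B)) := by
  refine ⟨fun h => ?_, fun ⟨hA, hB, hc⟩ => ?_⟩
  · have hG := H91.IsFC.hasIntFPF h
    refine ⟨(hG.of_injective (MonoidHom.inl A B) (Prod.mk_left_injective 1)).isFC,
      (hG.of_injective (MonoidHom.inr A B) (Prod.mk_right_injective 1)).isFC, ?_⟩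
    by_contra h1
    obtain ⟨p, hp, h2, h3⟩ := Nat.Prime.not_coprime_iff_dvd.mp h1
    have := Fact.mk hp
    obtain ⟨a, ha⟩ := exists_prime_orderOf_dvd_card' p h2
    obtain ⟨b, hb⟩ := exists_prime_orderOf_dvd_card' p h3
    obtain ⟨k, hk⟩ := hG.mem_zpowers_of_commute hp (x := (a, 1)) (y := (1, b))
      (by rw [Prod.orderOf_mk, orderOf_one, ha, Nat.lcm_one_right])
      (by rw [Prod.orderOf_mk, orderOf_one, hb, Nat.lcm_one_left]) (Prod.ext (by simp) (by simp))
    have h4 : a = 1 := by simpa using (congrArg Prod.fst hk).symm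
    rw [h4, orderOf_one] at ha
    exact hp.one_lt.ne ha
  · obtain ⟨p, hp1, hp⟩ := Nat.exists_infinite_primes (Nat.card A + Nat.card B + 1)
    have := Fact.mk hp
    have h0 : ∀ n : ℕ, 0 < n → n < p → ∀ r : ZMod p, (n : ZMod p) * r = 0 → r = 0 :=
      fun n h1 h2 r hr => (mul_eq_zero.mp hr).resolve_left (by
        rw [ZMod.natCast_eq_zero_iff]
        exact Nat.not_dvd_of_pos_of_lt h1 h2)
    obtain ⟨n, ρ, hn, hρ⟩ := (H91.IsFC.hasIntFPF hA).exists_matrix (ZMod p)
      (h0 _ Nat.card_pos (by omega))
    obtain ⟨m, σ, hm, hσ⟩ := (H91.IsFC.hasIntFPF hB).exists_matrix (ZMod p)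
      (h0 _ Nat.card_pos (by omega))
    have : Nonempty (Fin n) := ⟨⟨0, hn⟩⟩
    have : Nonempty (Fin m) := ⟨⟨0, hm⟩⟩
    let τ : A × B →* Module.End (ZMod p) (Matrix (Fin n) (Fin m) (ZMod p)) :=
      { toFun := fun x =>
          { toFun := fun M => ρ x.1 * M * (σ x.2).transpose
            map_add' := fun M N => by rw [Matrix.mul_add, Matrix.add_mul]
            map_smul' := fun c M => by simp }
        map_one' := by ext; simp
        map_mul' := fun x y => LinearMap.ext fun M => by simp [Matrix.mul_assoc] }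
    refine H91.isFC_of_rep τ ?_
    rintro ⟨a, b⟩ hx M hM
    have hk : ∀ k : ℕ, ρ (a ^ k) * M * (σ (b ^ k)).transpose = M := fun k => by
      have h1 : (τ (a, b) ^ k) M = M := by
        induction k with
        | zero => rfl
        | succ k ih => rw [pow_succ, Module.End.mul_apply, hM, ih]
      rwa [← map_pow] at h1
    by_cases ha : a = 1
    · have hb : b ≠ 1 := fun hb => hx (Prod.ext ha hb)
      have h1 := congrArg Matrix.transpose (hk 1)
      rw [ha, pow_one, pow_one, map_one, Matrix.one_mul, Matrix.transpose_mul,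
        Matrix.transpose_transpose] at h1
      ext i j
      exact congrFun (hσ b hb (fun j => M i j) (funext fun j => congrFun (congrFun h1 j) i)) j
    · have h1 := hk (Nat.card B)
      rw [pow_card_eq_one' (x := b), map_one, Matrix.transpose_one, Matrix.mul_one] at h1
      have h2 : a ^ Nat.card B ≠ 1 := fun e => ha (orderOf_eq_one_iff.mp
        (Nat.eq_one_of_dvd_coprimes hc (orderOf_dvd_natCard a) (orderOf_dvd_of_pow_eq_one e)))
      ext i j
      exact congrFun (hρ _ h2 (fun i => M i j) (funext fun i => congrFun (congrFun h1 i) j)) i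

end Cfsg.Agent.S4292
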