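import Cfsg.Statements.S4296
import Cfsg.Agent.H91.FrobElem

set_option autoImplicit false
open Cfsg

namespace Cfsg.Agent.S4296

theorem even_finrank {F V : Type*} [Field F] [AddCommGroup V] [Module F V] [FiniteDimensional F V]
    (h2 : (2 : F) ≠ 0) (I J : V →ₗ[F] V) (hI : Function.Injective I) (hJ : Function.Injective J)
    (h : ∀ a, I (J a) = -J (I a)) : Even (Module.finrank F V) := by
  have h1 : I ∘ₗ J = (-1 : F) • (J ∘ₗ I) := LinearMap.ext fun a => by simp [h]
  have h3 := congrArg LinearMap.det h1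
  rw [LinearMap.det_smul, LinearMap.det_comp, LinearMap.det_comp, mul_comm (LinearMap.det J)] at h3
  have h4 : ∀ f : V →ₗ[F] V, Function.Injective f → LinearMap.det f ≠ 0 := fun f hf =>
    (LinearEquiv.isUnit_det' (LinearEquiv.ofInjectiveEndo f hf)).ne_zero
  by_contra h5
  rw [(Nat.not_even_iff_odd.mp h5).neg_one_pow] at h3
  exact mul_ne_zero h2 (mul_ne_zero (h4 I hI) (h4 J hJ)) (by linear_combination h3)

theorem isSquare_zmod {p : ℕ} [Fact p.Prime] {V : Type*} [AddCommGroup V] [Finite V]
    [Module (ZMod p) V] (h2 : (2 : ZMod p) ≠ 0) (I J : V →+ V) (hI : Function.Injective I)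
    (hJ : Function.Injective J) (h : ∀ a, I (J a) = -J (I a)) : IsSquare (Nat.card V) := by
  have : Module.Finite (ZMod p) V := Module.Finite.of_finite
  obtain ⟨d, hd⟩ := even_finrank h2 (I.toZModLinearMap p) (J.toZModLinearMap p) hI hJ h
  rw [Module.natCard_eq_pow_finrank (K := ZMod p), hd, pow_add]
  exact IsSquare.mul_self _

universe u

theorem isSquare_card (A : Type u) [AddCommGroup A] [Finite A] (hodd : Odd (Nat.card A))
    (I J : A →+ A) (hI : Function.Injective I) (hJ : Function.Injective J)
    (h : ∀ a, I (J a) = -J (I a)) : IsSquare (Nat.card A) := by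
  induction hn : Nat.card A using Nat.strong_induction_on generalizing A with
  | _ n ih =>
  subst hn
  by_cases h1 : Nat.card A = 1
  · rw [h1]; exact IsSquare.one
  obtain ⟨p, hp, hpA⟩ := Nat.exists_prime_and_dvd h1
  have := Fact.mk hp
  let f : A →+ A := nsmulAddMonoidHom p
  have hc : Nat.card A = Nat.card f.range * Nat.card f.ker := by
    rw [← AddSubgroup.index_ker, AddSubgroup.index_mul_card]
  have hker : 1 < Nat.card f.ker := by
    obtain ⟨a, ha⟩ := exists_prime_addOrderOf_dvd_card' p hpA
    refine lt_of_lt_of_le hp.one_lt (Nat.le_of_dvd Nat.card_pos ?_)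
    rw [← ha]
    exact AddSubgroup.addOrderOf_dvd_natCard _ (show p • a = 0 from ha ▸ addOrderOf_nsmul_eq_zero a)
  rw [hc]
  refine IsSquare.mul ?_ ?_
  · have key : ∀ K : A →+ A, ∀ x : f.range, (K.comp f.range.subtype) x ∈ f.range := by
      rintro K ⟨_, a, rfl⟩
      exact ⟨K a, (map_nsmul K p a).symm⟩
    refine ih _ ?_ _ (Odd.of_dvd_nat hodd f.range.card_addSubgroup_dvd_card)
      ((I.comp f.range.subtype).codRestrict _ (key I)) ((J.comp f.range.subtype).codRestrict _ (key J))
      (fun a b e => Subtype.ext (hI (congrArg Subtype.val e)))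
      (fun a b e => Subtype.ext (hJ (congrArg Subtype.val e))) (fun a => Subtype.ext (h a)) rfl
    have : 0 < Nat.card f.range := Nat.card_pos
    nlinarith
  · have key : ∀ K : A →+ A, ∀ x : f.ker, (K.comp f.ker.subtype) x ∈ f.ker := by
      rintro K ⟨a, ha⟩
      change p • K a = 0
      rw [← map_nsmul, show p • a = 0 from ha, map_zero]
    have h2 : (2 : ZMod p) ≠ 0 := fun e => by
      have h3 := (ZMod.natCast_eq_zero_iff 2 p).mp e
      rw [(Nat.prime_dvd_prime_iff_eq hp Nat.prime_two).mp h3] at hpA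
      exact (Nat.not_even_iff_odd.mpr hodd) (even_iff_two_dvd.mpr hpA)
    exact @isSquare_zmod p _ f.ker _ _ (AddCommGroup.zmodModule fun x => Subtype.ext x.2) h2
      ((I.comp f.ker.subtype).codRestrict _ (key I)) ((J.comp f.ker.subtype).codRestrict _ (key J))
      (fun a b e => Subtype.ext (hI (congrArg Subtype.val e)))
      (fun a b e => Subtype.ext (hJ (congrArg Subtype.val e))) (fun a => Subtype.ext (h a))

/-- Let H be a Frobenius complement in a finite group, and suppose some Sylow subgroup of H is not cyclic. Then the number of elements of the Frobenius kernel (the identity together with the elements lying in no conjugate of H) is an odd perfect square. -/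
theorem result {L : Type*} [Group L] [Finite L] (H : Subgroup L) (hF : Cfsg.IsFrobeniusComplement H)
    (hZ : ∃ (p : ℕ) (_ : Fact p.Prime) (P : Sylow p H), ¬ IsCyclic P) :
    Odd (Nat.card (Cfsg.frobeniusKernel H)) ∧ IsSquare (Nat.card (Cfsg.frobeniusKernel H)) := by
  obtain ⟨p, _, P, hP⟩ := hZ
  obtain ⟨-, n, ⟨e⟩⟩ := (((H91.hasIntFPF_of_frob hF).subgroup P).isCyclic_or_quaternion
    P.isPGroup').resolve_left hP
  rcases n with _ | n
  · have : IsCyclic (QuaternionGroup (2 ^ 0)) := QuaternionGroup.quaternionGroup_one_isCyclic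
    exact absurd (isCyclic_of_injective e.toMonoidHom e.injective) hP
  obtain ⟨N, hN, _, hc⟩ := S0035.result H hF
  obtain ⟨-, h1⟩ := H91.fpf_of_isComplement' hc hF
  rw [← hN, SetLike.coe_sort_coe]
  let φ : QuaternionGroup (2 ^ (n + 1)) →* MulAut N :=
    (((MulAut.conjNormal (H := N)).comp H.subtype).comp (P : Subgroup H).subtype).comp
      e.symm.toMonoidHom
  let z : QuaternionGroup (2 ^ (n + 1)) := QuaternionGroup.a (2 ^ (n + 1) : ℕ)
  have hz : z = QuaternionGroup.xa 0 ^ 2 := (QuaternionGroup.xa_sq 0).symm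
  have hf : MonoidHom.FixedPointFree (φ z) := fun v hv => h1 _ (fun h => by
    have h2 : z = 1 := e.symm.injective ((Subtype.ext h).trans (map_one _).symm)
    have h3 := orderOf_dvd_of_pow_eq_one (hz.symm.trans h2)
    rw [QuaternionGroup.orderOf_xa] at h3
    norm_num at h3) v hv
  have hi : Function.Involutive (φ z) := fun v => by
    rw [← MulAut.mul_apply, ← map_mul, hz, ← pow_add, QuaternionGroup.xa_pow_four, map_one,
      MulAut.one_apply]
  have hodd := hf.odd_card_of_involutive hi
  refine ⟨hodd, ?_⟩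
  let _ := hf.commGroupOfInvolutive hi
  refine isSquare_card (Additive N) hodd
    (MonoidHom.toAdditive (φ (QuaternionGroup.a (2 ^ n : ℕ))).toMonoidHom)
    (MonoidHom.toAdditive (φ (QuaternionGroup.xa 0)).toMonoidHom)
    (φ _).injective (φ _).injective fun a => ?_
  have h2 : QuaternionGroup.a (2 ^ n : ℕ) * QuaternionGroup.xa 0 =
      z * (QuaternionGroup.xa 0 * QuaternionGroup.a (2 ^ n : ℕ)) := by
    simp only [z, QuaternionGroup.a_mul_xa, QuaternionGroup.xa_mul_a]
    congr 1
    push_cast
    ring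
  change φ _ (φ _ a.toMul) = (φ _ (φ _ a.toMul))⁻¹
  rw [← MulAut.mul_apply, ← map_mul, h2, map_mul, MulAut.mul_apply, hf.coe_eq_inv_of_involutive hi,
    map_mul, MulAut.mul_apply]

end Cfsg.Agent.S4296
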