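import Cfsg.Statements.S4295
import Cfsg.Agent.S4296
import Cfsg.Agent.H91.FrobPack
import Cfsg.Agent.H9.Dihedral

set_option autoImplicit false
open Cfsg

namespace Cfsg.Agent.S4295

theorem exists_ring (k : ℕ) (hk : Odd k) : ∃ (R : Type) (_ : CommRing R) (_ : Finite R),
    Nat.card R = k ∧ (∃ a b : R, a ^ 2 + b ^ 2 = -1) ∧ ∀ x : R, x + x = 0 → x = 0 := by
  induction k using induction_on_primes with
  | zero => exact absurd hk (by decide)
  | one => exact ⟨PUnit, inferInstance, inferInstance, by simp, ⟨0, 0, rfl⟩, fun _ _ => rfl⟩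
  | prime_mul p k hp ih =>
    obtain ⟨R, _, _, h1, ⟨a, b, h2⟩, h3⟩ := ih (Odd.of_dvd_nat hk (Dvd.intro_left p rfl))
    have := Fact.mk hp
    obtain ⟨c, d, h4⟩ := ZMod.sq_add_sq p (-1)
    refine ⟨ZMod p × R, inferInstance, inferInstance, by rw [Nat.card_prod, Nat.card_zmod, h1],
      ⟨(c, a), (d, b), Prod.ext h4 h2⟩, fun x hx => Prod.ext ?_ (h3 _ (congrArg Prod.snd hx))⟩
    have h5 : (2 : ZMod p) * x.1 = 0 := by rw [two_mul]; exact congrArg Prod.fst hx
    refine (mul_eq_zero.mp h5).resolve_left fun e => ?_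
    have h6 := (ZMod.natCast_eq_zero_iff 2 p).mp e
    rw [(Nat.prime_dvd_prime_iff_eq hp Nat.prime_two).mp h6] at hk
    exact (Nat.not_even_iff_odd.mpr hk) (even_two_mul k)

/-- For a natural number m the following are equivalent: (a) some finite group has a Frobenius complement isomorphic to the quaternion group of order 8 whose Frobenius kernel (the identity together with the elements lying in no conjugate of the complement) has exactly m elements; (b) m is an odd perfect square greater than 1. -/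
theorem result (m : ℕ) :
    (∃ (L : Type) (_ : Group L) (_ : Finite L) (H : Subgroup L), Cfsg.IsFrobeniusComplement H ∧
        Nonempty (H ≃* QuaternionGroup 2) ∧ Nat.card (Cfsg.frobeniusKernel H) = m) ↔
    (Odd m ∧ IsSquare m ∧ 1 < m) := by
  constructor
  · rintro ⟨L, _, _, H, hF, ⟨e⟩, rfl⟩
    obtain ⟨h1, h2⟩ := S4296.result H hF ⟨2, inferInstance, default, fun h => by
      have h3 : IsPGroup 2 H := IsPGroup.of_card (n := 3)
        (by rw [Nat.card_congr e.toEquiv, H9.nat_card_quaternion]; rfl)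
      rw [(default : Sylow 2 H).is_maximal' (h3.to_subgroup ⊤) le_top |>.symm] at h
      have h4 : IsCyclic (QuaternionGroup 2) := isCyclic_of_surjective
        (e.toMonoidHom.comp (⊤ : Subgroup H).subtype) (e.surjective.comp fun x => ⟨⟨x, trivial⟩, rfl⟩)
      exact absurd (h4.isMulCommutative.is_comm.comm (QuaternionGroup.a 1) (QuaternionGroup.xa 0))
        (by decide)⟩
    obtain ⟨N, hN, -, -⟩ := S0035.result H hF
    refine ⟨h1, h2, ?_⟩
    rw [← hN, SetLike.coe_sort_coe]
    exact (Subgroup.one_lt_card_iff_ne_bot N).mpr (H91.frob_ne_bot hF hN.symm)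
  · rintro ⟨h1, ⟨k, rfl⟩, h2⟩
    obtain ⟨R, _, _, h3, ⟨a, b, h4⟩, h5⟩ := exists_ring k (Odd.of_dvd_nat h1 (Dvd.intro k rfl))
    have : Nontrivial R := Finite.one_lt_card_iff_nontrivial.mp (by
      rw [h3]; by_contra h; have : k ≤ 1 := by omega
      nlinarith)
    have hI : (!![a, b; b, -a] : Matrix (Fin 2) (Fin 2) R) * !![a, b; b, -a] = -1 := by
      ext i j
      fin_cases i <;> fin_cases j <;> simp [Matrix.mul_apply, Fin.sum_univ_two]
      · linear_combination h4
      · ring
      · ring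
      · linear_combination h4
    have hJ : (!![0, -1; 1, 0] : Matrix (Fin 2) (Fin 2) R) * !![0, -1; 1, 0] = -1 := by
      ext i j
      fin_cases i <;> fin_cases j <;> simp [Matrix.mul_apply, Fin.sum_univ_two]
    let I : (Matrix (Fin 2) (Fin 2) R)ˣ :=
      ⟨!![a, b; b, -a], -!![a, b; b, -a], by rw [mul_neg, hI, neg_neg], by rw [neg_mul, hI, neg_neg]⟩
    let J : (Matrix (Fin 2) (Fin 2) R)ˣ :=
      ⟨!![0, -1; 1, 0], -!![0, -1; 1, 0], by rw [mul_neg, hJ, neg_neg], by rw [neg_mul, hJ, neg_neg]⟩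
    have hI2 : I ^ 2 = -1 := Units.ext (by rw [sq]; exact hI)
    have ha : I ^ (2 * 2) = 1 := by rw [pow_mul, hI2, neg_one_sq]
    have hb : J * J = I ^ 2 := by rw [hI2]; exact Units.ext hJ
    have hc : J * I * J⁻¹ = I⁻¹ := Units.ext (by
      change !![0, -1; 1, 0] * !![a, b; b, -a] * -!![0, -1; 1, 0] = -!![a, b; b, -a]
      ext i j
      fin_cases i <;> fin_cases j <;> simp [Matrix.mul_apply, Fin.sum_univ_two])
    have : Nontrivial (QuaternionGroup 2) := ⟨⟨1, QuaternionGroup.xa 0, by decide⟩⟩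
    obtain ⟨L, _, _, H, h6, ⟨e⟩, h7⟩ := H91.exists_frob_of_matrix
      ((Units.coeHom _).comp (H9.quaternionHom I J ha hb hc)) fun g hg v hv => by
        have h8 : ∀ g : QuaternionGroup 2, g ≠ 1 →
            g = QuaternionGroup.a 2 ∨ g * g = QuaternionGroup.a 2 := by decide
        have h9 : ((Units.coeHom _).comp (H9.quaternionHom I J ha hb hc))
            (QuaternionGroup.a 2) = -1 := by
          have := H9.quaternionHom_a I J ha hb hc 2
          rw [zpow_two, ← sq I, hI2] at this
          exact congrArg Units.val this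
        have h10 : (-1 : Matrix (Fin 2) (Fin 2) R).mulVec v = v := by
          rcases h8 g hg with h | h
          · rw [← h9, ← h, hv]
          · rw [← h9, ← h, map_mul, ← Matrix.mulVec_mulVec, hv, hv]
        rw [Matrix.neg_mulVec, Matrix.one_mulVec] at h10
        exact funext fun i => h5 _ (neg_eq_iff_add_eq_zero.mp (congrFun h10 i))
    exact ⟨L, _, inferInstance, H, h6, ⟨e.symm⟩, by rw [h7, h3, Fintype.card_fin, sq]⟩

end Cfsg.Agent.S4295
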