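import Cfsg.Statements.S4297
import Cfsg.Agent.H91.FrobElem
import Cfsg.Agent.H9.Dihedral

set_option autoImplicit false
open Cfsg

namespace Cfsg.Agent.S4297

/-- For every n ≥ 2 the dicyclic group of order 4n (generated by an element a of order 2n and an element x with x² = aⁿ and x a x⁻¹ = a⁻¹) occurs as a Frobenius complement of some finite Frobenius group. -/
theorem result (n : ℕ) (hn : 2 ≤ n) :
    ∃ (L : Type) (_ : Group L) (_ : Finite L) (H : Subgroup L), Cfsg.IsFrobeniusComplement H ∧ Nonempty (H ≃* QuaternionGroup n) := by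
  have hn0 : 2 * n ≠ 0 := by omega
  have : NeZero n := ⟨by omega⟩
  have : Nontrivial (QuaternionGroup n) := ⟨⟨QuaternionGroup.a 0, QuaternionGroup.xa 0, fun e => by cases e⟩⟩
  have hζ := Complex.isPrimitiveRoot_exp (2 * n) hn0
  generalize Complex.exp _ = ζ at hζ
  have hinj : Function.Injective Quaternion.ofComplex := Quaternion.ofComplex.toRingHom.injective
  let u : ℂˣ →* (Quaternion ℝ)ˣ := Units.map Quaternion.ofComplex.toMonoidHom
  have hu : Function.Injective u := Units.map_injective hinj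
  let z : ℂˣ := Units.mk0 ζ (hζ.ne_zero hn0)
  obtain ⟨b, b0, b1, b2, b3⟩ : ∃ b : (Quaternion ℝ)ˣ, (b : Quaternion ℝ).re = 0 ∧
      (b : Quaternion ℝ).imI = 0 ∧ (b : Quaternion ℝ).imJ = 1 ∧ (b : Quaternion ℝ).imK = 0 :=
    ⟨Units.mk0 (⟨0, 0, 1, 0⟩ : Quaternion ℝ) (fun e => one_ne_zero (congrArg (·.imJ) e)),
      rfl, rfl, rfl, rfl⟩
  have ho : orderOf (u z) = 2 * n := by
    rw [orderOf_injective u hu, ← orderOf_units]
    exact hζ.eq_orderOf.symm
  have hb : b * b = u z ^ n := by
    have h1 : ζ ^ n = -1 := (hζ.pow (by omega) (mul_comm 2 n)).eq_neg_one_of_two_right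
    refine Units.ext ?_
    change _ = (Quaternion.ofComplex ζ) ^ n
    rw [← map_pow, h1]
    ext <;> simp [b0, b1, b2, b3]
  have h : b * u z * b⁻¹ = (u z)⁻¹ := by
    rw [mul_inv_eq_iff_eq_mul, ← map_inv]
    refine Units.ext ?_
    change _ * Quaternion.ofComplex ζ = Quaternion.ofComplex (↑z⁻¹) * _
    rw [Units.val_inv_eq_inv_val, Units.val_mk0, Complex.inv_eq_conj (hζ.norm'_eq_one hn0)]
    ext <;> simp [b0, b1, b2, b3]
  have hba : b ∉ Subgroup.zpowers (u z) := by
    rintro ⟨k, hk⟩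
    have h1 := congrArg (fun x : (Quaternion ℝ)ˣ => (x : Quaternion ℝ).imJ) hk
    simp only [← map_zpow, b2] at h1
    exact zero_ne_one h1
  exact (H91.isFC_of_domain ((Units.coeHom _).comp (H9.quaternionHom (u z) b
    (ho ▸ pow_orderOf_eq_one _) hb h)) (Units.val_injective.comp
      (H9.quaternionHom_injective _ _ _ hb h ho hba))).symm_form

end Cfsg.Agent.S4297
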