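import Cfsg.Statements.S4298
import Cfsg.Agent.H91.FrobComp

set_option autoImplicit false
open Cfsg

namespace Cfsg.Agent.S4298

def tab (g : Matrix.SpecialLinearGroup (Fin 2) (ZMod 3)) : Matrix (Fin 2) (Fin 2) (ZMod 5) :=
  match (g 0 0).val, (g 0 1).val, (g 1 0).val, (g 1 1).val with
    | 0, 1, 2, 0 => !![3, 0; 1, 2]
    | 0, 1, 2, 1 => !![2, 2; 1, 4]
    | 0, 1, 2, 2 => !![0, 3; 3, 4]
    | 0, 2, 1, 0 => !![2, 0; 4, 3]
    | 0, 2, 1, 1 => !![0, 2; 2, 1]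
    | 0, 2, 1, 2 => !![3, 3; 4, 1]
    | 1, 0, 1, 1 => !![2, 1; 3, 2]
    | 1, 0, 2, 1 => !![2, 4; 2, 2]
    | 1, 1, 0, 1 => !![0, 1; 4, 4]
    | 1, 1, 1, 2 => !![4, 1; 3, 1]
    | 1, 1, 2, 0 => !![1, 3; 3, 0]
    | 1, 2, 0, 1 => !![4, 4; 1, 0]
    | 1, 2, 1, 0 => !![4, 3; 4, 2]
    | 1, 2, 2, 2 => !![2, 3; 0, 3]
    | 2, 0, 0, 2 => !![4, 0; 0, 4]
    | 2, 0, 1, 2 => !![3, 1; 3, 3]
    | 2, 0, 2, 2 => !![3, 4; 2, 3]
    | 2, 1, 0, 2 => !![1, 1; 4, 0]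
    | 2, 1, 1, 1 => !![3, 2; 0, 2]
    | 2, 1, 2, 0 => !![1, 2; 1, 3]
    | 2, 2, 0, 2 => !![0, 4; 1, 1]
    | 2, 2, 1, 0 => !![4, 2; 2, 0]
    | 2, 2, 2, 1 => !![1, 4; 2, 4]
    | _, _, _, _ => !![1, 0; 0, 1]

def rep : Matrix.SpecialLinearGroup (Fin 2) (ZMod 3) →* Matrix (Fin 2) (Fin 2) (ZMod 5) where
  toFun := tab
  map_one' := by decide +kernel
  map_mul' := by decide +kernel

/-- The group SL(2,3) of order 24 (the binary tetrahedral group) occurs as a Frobenius complement of some finite Frobenius group. -/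
theorem result :
    ∃ (L : Type) (_ : Group L) (_ : Finite L) (H : Subgroup L), Cfsg.IsFrobeniusComplement H ∧ Nonempty (H ≃* Matrix.SpecialLinearGroup (Fin 2) (ZMod 3)) := by
  have : Nontrivial (Matrix.SpecialLinearGroup (Fin 2) (ZMod 3)) := ⟨⟨1, -1, by decide⟩⟩
  have : Fact (1 < 5) := ⟨by norm_num⟩
  exact (H91.isFC_of_matrix rep (by decide +kernel)).symm_form

end Cfsg.Agent.S4298
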