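import Cfsg.Statements.S4301

set_option autoImplicit false
open Cfsg

namespace Cfsg.Agent.S4301

/-- One-point extension of a multiply transitive group. Let X be a set and G a group of permutations of Option X (the set X with one extra point ∗ = none) all of whose elements fix ∗, such that G is k-transitive on the points of X for some k ≥ 2, X having at least k points. Suppose a permutation h of Option X and an element g of G satisfy: h interchanges ∗ with a point x of X and fixes a point y of X; g interchanges x and y; (g h)³ and h² lie in G; and for every f in G fixing x, the product h f h lies in G and fixes x. Then an element of the group generated by G and h fixes ∗ exactly when it lies in G, and that group acts (k+1)-transitively on Option X. -/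
theorem result {X : Type*} (G : Subgroup (Equiv.Perm (Option X))) (hfix : ∀ f ∈ G, f none = none)
    (k : ℕ) (hk : 2 ≤ k) (hkX : Nonempty (Fin k ↪ X))
    (htrans : ∀ a b : Fin k ↪ X, ∃ f ∈ G, ∀ i, f (some (a i)) = some (b i))
    (h g : Equiv.Perm (Option X)) (hg : g ∈ G) (x y : X)
    (h1 : h none = some x) (h2 : h (some x) = none) (h3 : h (some y) = some y)
    (h4 : g (some x) = some y) (h5 : g (some y) = some x)
    (h6 : (g * h) ^ 3 ∈ G) (h7 : h ^ 2 ∈ G)
    (h8 : ∀ f ∈ G, f (some x) = some x → h * f * h ∈ G ∧ (h * f * h) (some x) = some x) :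
    (∀ f ∈ Subgroup.closure ((G : Set (Equiv.Perm (Option X))) ∪ {h}), f none = none ↔ f ∈ G) ∧
      MulAction.IsMultiplyPretransitive (Subgroup.closure ((G : Set (Equiv.Perm (Option X))) ∪ {h})) (Option X) (k + 1) := by
  classical
  obtain ⟨e⟩ := hkX
  have hinv : ∀ (u : Equiv.Perm (Option X)) (w : Option X), u⁻¹ (u w) = w := by
    intro u w; simp
  have hxy : x ≠ y := by
    rintro rfl
    rw [h2] at h3; cases h3
  -- two-transitivity
  have htwo : ∀ a b c d : X, a ≠ b → c ≠ d → ∃ f ∈ G, f (some a) = some c ∧ f (some b) = some d := by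
    intro a b c d hab hcd
    let i0 : Fin k := ⟨0, by omega⟩
    let i1 : Fin k := ⟨1, by omega⟩
    have h01 : e i0 ≠ e i1 := fun h => by
      have := e.injective h
      simp [i0, i1] at this
    have h2t : ∀ {a b c d : X}, a ≠ b → c ≠ d → ∃ g : Equiv.Perm X, g • a = c ∧ g • b = d :=
      MulAction.is_two_pretransitive_iff.mp (Equiv.Perm.isMultiplyPretransitive X 2)
    obtain ⟨σ, hσ0, hσ1⟩ := h2t h01 hab
    obtain ⟨τ, hτ0, hτ1⟩ := h2t h01 hcd
    obtain ⟨f, hf, hf'⟩ := htrans (e.trans σ.toEmbedding) (e.trans τ.toEmbedding)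
    refine ⟨f, hf, ?_, ?_⟩
    · rw [← hσ0, ← hτ0]; exact hf' i0
    · rw [← hσ1, ← hτ1]; exact hf' i1
  have hone : ∀ a : X, ∃ f ∈ G, f (some x) = some a := by
    intro a
    by_cases ha : a = y
    · exact ⟨g, hg, ha ▸ h4⟩
    · obtain ⟨f, hf, h, -⟩ := htwo x y a y hxy ha
      exact ⟨f, hf, h⟩
  have hsome : ∀ f ∈ G, ∀ a : X, ∃ b : X, f (some a) = some b := by
    intro f hf a
    cases hb : f (some a) with
    | none => exact absurd (f.injective (hb.trans (hfix f hf).symm)) (by simp)
    | some b => exact ⟨b, rfl⟩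
  have hh2 : h * h ∈ G := by rw [← pow_two]; exact h7
  -- h G h ⊆ G ∪ G h G
  have hGh : ∀ f ∈ G, h * f * h ∈ G ∨ ∃ a ∈ G, ∃ b ∈ G, h * f * h = a * h * b := by
    intro f hf
    obtain ⟨z, hz⟩ := hsome f hf x
    by_cases hzx : z = x
    · exact Or.inl (h8 f hf (hzx ▸ hz)).1
    · right
      obtain ⟨a, ha, hax, hay⟩ := htwo x y x z hxy (Ne.symm hzx)
      have hb : g⁻¹ * a⁻¹ * f ∈ G := mul_mem (mul_mem (inv_mem hg) (inv_mem ha)) hf
      have hbx : (g⁻¹ * a⁻¹ * f) (some x) = some x := by
        simp only [Equiv.Perm.mul_apply, hz, ← hay, hinv]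
        rw [← h4, hinv]
      refine ⟨(h * a * h) * (h * h)⁻¹ * g⁻¹ * (g * h) ^ 3 * (h * h)⁻¹, ?_,
        g⁻¹ * (h * h)⁻¹ * (h * (g⁻¹ * a⁻¹ * f) * h), ?_, ?_⟩
      · exact mul_mem (mul_mem (mul_mem (mul_mem (h8 a ha hax).1 (inv_mem hh2)) (inv_mem hg)) h6)
          (inv_mem hh2)
      · exact mul_mem (mul_mem (inv_mem hg) (inv_mem hh2)) (h8 _ hb hbx).1
      · rw [pow_succ, pow_two]; group
  have hK : ∀ f ∈ Subgroup.closure ((G : Set (Equiv.Perm (Option X))) ∪ {h}),
      f ∈ G ∨ ∃ a ∈ G, ∃ b ∈ G, f = a * h * b := by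
    have hmulG : ∀ u ∈ G, ∀ f, (f ∈ G ∨ ∃ a ∈ G, ∃ b ∈ G, f = a * h * b) →
        (u * f ∈ G ∨ ∃ a ∈ G, ∃ b ∈ G, u * f = a * h * b) := by
      rintro u hu f (hf | ⟨a, ha, b, hb, rfl⟩)
      · exact Or.inl (mul_mem hu hf)
      · exact Or.inr ⟨u * a, mul_mem hu ha, b, hb, by group⟩
    have hmulh : ∀ f, (f ∈ G ∨ ∃ a ∈ G, ∃ b ∈ G, f = a * h * b) →
        (h * f ∈ G ∨ ∃ a ∈ G, ∃ b ∈ G, h * f = a * h * b) := by
      rintro f (hf | ⟨a, ha, b, hb, rfl⟩)
      · exact Or.inr ⟨1, one_mem _, f, hf, by group⟩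
      · rcases hGh a ha with h' | ⟨a', ha', b', hb', h'⟩
        · left
          have : h * (a * h * b) = (h * a * h) * b := by group
          rw [this]; exact mul_mem h' hb
        · right
          refine ⟨a', ha', b' * b, mul_mem hb' hb, ?_⟩
          calc h * (a * h * b) = (h * a * h) * b := by group
            _ = _ := by rw [h']; group
    intro f hf
    induction hf using Subgroup.closure_induction_left with
    | one => exact Or.inl (one_mem _)
    | mul_left u hu f _ ih =>
      rcases hu with hu | rfl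
      · exact hmulG u hu f ih
      · exact hmulh f ih
    | inv_mul_cancel u hu f _ ih =>
      rcases hu with hu | rfl
      · exact hmulG _ (inv_mem hu) f ih
      · have : u⁻¹ * f = (u * u)⁻¹ * (u * f) := by group
        rw [this]
        exact hmulG _ (inv_mem hh2) _ (hmulh f ih)
  have hGle : G ≤ Subgroup.closure ((G : Set (Equiv.Perm (Option X))) ∪ {h}) :=
    fun f hf => Subgroup.subset_closure (Or.inl hf)
  have hhmem : h ∈ Subgroup.closure ((G : Set (Equiv.Perm (Option X))) ∪ {h}) :=
    Subgroup.subset_closure (Or.inr rfl)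
  refine ⟨fun f hf => ⟨fun h0 => ?_, hfix f⟩, ?_⟩
  · rcases hK f hf with h' | ⟨a, ha, b, hb, rfl⟩
    · exact h'
    · exfalso
      simp only [Equiv.Perm.mul_apply, hfix b hb, h1] at h0
      obtain ⟨z, hz⟩ := hsome a ha x
      rw [hz] at h0; cases h0
  · have htr : ∀ w : Option X, ∃ u ∈ Subgroup.closure ((G : Set (Equiv.Perm (Option X))) ∪ {h}),
        u w = none := by
      intro w
      cases w with
      | none => exact ⟨1, one_mem _, rfl⟩
      | some a =>
        obtain ⟨f, hf, hfa⟩ := hone a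
        refine ⟨h * f⁻¹, mul_mem hhmem (inv_mem (hGle hf)), ?_⟩
        rw [Equiv.Perm.mul_apply, ← hfa, hinv, h2]
    have hred : ∀ a : Fin (k + 1) ↪ Option X,
        ∃ u ∈ Subgroup.closure ((G : Set (Equiv.Perm (Option X))) ∪ {h}), ∃ a' : Fin k ↪ X,
          u (a 0) = none ∧ ∀ i : Fin k, u (a i.succ) = some (a' i) := by
      intro a
      obtain ⟨u, hu, hu0⟩ := htr (a 0)
      have hex : ∀ i : Fin k, ∃ z : X, u (a i.succ) = some z := by
        intro i
        cases hb : u (a i.succ) with
        | none =>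
          exact absurd (a.injective (u.injective (hb.trans hu0.symm))) (Fin.succ_ne_zero i)
        | some b => exact ⟨b, rfl⟩
      choose z hz using hex
      refine ⟨u, hu, ⟨z, fun i j hij => ?_⟩, hu0, hz⟩
      have : u (a i.succ) = u (a j.succ) := by rw [hz, hz, hij]
      exact Fin.succ_injective _ (a.injective (u.injective this))
    rw [MulAction.isMultiplyPretransitive_iff]
    intro a b
    obtain ⟨u, hu, a', hu0, hua⟩ := hred a
    obtain ⟨v, hv, b', hv0, hvb⟩ := hred b
    obtain ⟨f, hf, hfab⟩ := htrans a' b'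
    refine ⟨⟨v⁻¹ * f * u, mul_mem (mul_mem (inv_mem hv) (hGle hf)) hu⟩, ?_⟩
    ext1 i
    change (v⁻¹ * f * u) (a i) = b i
    simp only [Equiv.Perm.mul_apply]
    rw [Equiv.Perm.inv_eq_iff_eq]
    induction i using Fin.cases with
    | zero => rw [hu0, hv0, hfix f hf]
    | succ i => rw [hua, hvb, hfab]

end Cfsg.Agent.S4301
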