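import Cfsg.Statements.S4302
import Cfsg.Agent.H18.FFA
import Cfsg.Agent.S0617
import Cfsg.Agent.S0250
import Cfsg.Agent.H6.JStable
import Cfsg.Agent.H3.Fitting

set_option autoImplicit false
open Cfsg
open Subgroup
open scoped Pointwise

namespace Cfsg.Agent.S4302

/-- Let `X` be a finite solvable group whose Fitting subgroup is a 2-group (equivalently `F(X) = O₂(X)`), `T` a Sylow 2-subgroup of `X`, `J(T)` the subgroup generated by the abelian subgroups of `T` of largest order, `C` the largest normal subgroup of `X` centralizing the centre `Z(T)`, and `Y` the normal closure of `J(T)` in `X`. Then `X = C · Y · N_X(J(T))`, and either `Y ≤ C`, or `CY/C` is isomorphic to a direct product of at least one copy of the symmetric group of degree 3. -/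
theorem result {X : Type*} [Group X] [Finite X]
    [Group.IsSolvable X] (hF : Cfsg.fittingSubgroup X = Cfsg.pCore 2 X) (T : Sylow 2 X) :
    ((Subgroup.centralizer (((T : Subgroup X) ⊓ Subgroup.centralizer ((T : Subgroup X) : Set X) : Subgroup X) : Set X)).normalCore
        ⊔ Subgroup.normalClosure (Cfsg.thompsonSubgroupAOf (T : Subgroup X) : Set X)
        ⊔ Subgroup.normalizer (Cfsg.thompsonSubgroupAOf (T : Subgroup X) : Set X) = ⊤) ∧
    (Subgroup.normalClosure (Cfsg.thompsonSubgroupAOf (T : Subgroup X) : Set X)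
        ≤ (Subgroup.centralizer (((T : Subgroup X) ⊓ Subgroup.centralizer ((T : Subgroup X) : Set X) : Subgroup X) : Set X)).normalCore
      ∨ ∃ n : ℕ, 1 ≤ n ∧
        Nonempty (↥(Subgroup.normalClosure (Cfsg.thompsonSubgroupAOf (T : Subgroup X) : Set X)) ⧸
            ((Subgroup.centralizer (((T : Subgroup X) ⊓ Subgroup.centralizer ((T : Subgroup X) : Set X) : Subgroup X) : Set X)).normalCore).subgroupOf
              (Subgroup.normalClosure (Cfsg.thompsonSubgroupAOf (T : Subgroup X) : Set X))
          ≃* (Fin n → Equiv.Perm (Fin 3)))) := by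
  rw [H51.thompsonSubgroupAOf_eq]
  have hJT := H51.thompsonSubgroupOf_le 0 (T : Subgroup X)
  generalize hY : normalClosure (thompsonSubgroupOf 0 (T : Subgroup X) : Set X) = Y
  have hYn : Y.Normal := hY ▸ normalClosure_normal
  have hJY : thompsonSubgroupOf 0 (T : Subgroup X) ≤ Y := hY ▸ le_normalClosure
  constructor
  · rw [eq_top_iff]
    intro g _
    obtain ⟨c, hc, n, hn, rfl⟩ := (H8.isSylowIn_inf_normal T Y).frattini
      (g := g) (le_normalizer_of_normal (mem_top g))
    refine mul_mem (mem_sup_left (mem_sup_right hc)) (mem_sup_right ?_)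
    rw [← H51.thompsonSubgroupOf_eq_of_le (le_inf hJT hJY) inf_le_left]
    exact H51.normalizer_le_normalizer_thompsonSubgroupOf 0 _ hn
  have hch : centralizer (pCore 2 X : Set X) ≤ pCore 2 X := hF ▸ H3.centralizer_fitting_le X
  have hOT : pCore 2 X ≤ T := H3.pCore_le_sylow T
  generalize hZ : (T : Subgroup X) ⊓ centralizer ((T : Subgroup X) : Set X) = Z
  generalize hV : normalClosure (Z : Set X) = V
  have hVn : V.Normal := hV ▸ normalClosure_normal
  have hZV : Z ≤ V := hV ▸ le_normalClosure
  have hOn : (pCore 2 X).Normal := inferInstance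
  have hVO : V ≤ pCore 2 X ⊓ centralizer (pCore 2 X : Set X) := by
    rw [← hV]
    refine normalClosure_le_normal ?_
    have : Z ≤ centralizer (pCore 2 X : Set X) :=
      hZ ▸ inf_le_right.trans (H53.centralizer_anti hOT)
    exact le_inf (this.trans hch) this
  have hVc : IsMulCommutative V := H51.isMulCommutative_iff_le_centralizer.2
    ((hVO.trans inf_le_right).trans (H53.centralizer_anti (hVO.trans inf_le_left)))
  have hVT : V ≤ T := hVO.trans (inf_le_left.trans hOT)
  have hVp : IsPGroup 2 V := T.2.to_le hVT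
  have hC : (centralizer (Z : Set X)).normalCore = centralizer (V : Set X) := by
    refine le_antisymm ?_ (normal_le_normalCore.2 (H53.centralizer_anti hZV))
    rw [le_centralizer_iff, ← hV]
    exact normalClosure_le_normal (le_centralizer_iff.1 (normalCore_le _))
  have hO1 : pCore 2 (X ⧸ centralizer (V : Set X)) = ⊥ := by
    refine H53.pCore_quotient_centralizer_eq_bot V ?_
    have hn : (⨆ S : Sylow 2 X, V ⊓ centralizer ((S : Subgroup X) : Set X)).Normal := by
      rw [← normalizer_eq_top_iff, eq_top_iff, le_normalizer_iff]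
      intro g _ x hx
      have : (⨆ S : Sylow 2 X, V ⊓ centralizer ((S : Subgroup X) : Set X)) ≤
          (⨆ S : Sylow 2 X, V ⊓ centralizer ((S : Subgroup X) : Set X)).comap
            (MulAut.conj g).toMonoidHom := by
        refine iSup_le fun S y hy => mem_iSup_of_mem (g • S) ⟨hVn.conj_mem y hy.1 g, ?_⟩
        intro z hz
        rw [SetLike.mem_coe, Sylow.coe_subgroup_smul, mem_pointwise_smul_iff_inv_smul_mem] at hz
        have := hy.2 _ hz
        simp only [MulAut.smul_def, MulAut.conj_inv_apply] at this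
        change z * (g * y * g⁻¹) = g * y * g⁻¹ * z
        calc _ = g * (g⁻¹ * z * g * y) * g⁻¹ := by group
          _ = _ := by rw [this]; group
      exact this hx
    conv_lhs => rw [← hV]
    have k : Z ≤ ⨆ S : Sylow 2 X, V ⊓ centralizer ((S : Subgroup X) : Set X) :=
      le_iSup_of_le T (le_inf hZV (hZ ▸ inf_le_right))
    exact normalClosure_le_normal k
  generalize hW : omegaOne 2 V = W
  have hWn : W.Normal := hW ▸ H51.omegaOne_normal 2 V
  have hWe : IsElementaryAbelian 2 W := hW ▸ H51.isEA_omegaOne hVc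
  have hWV : W ≤ V := hW ▸ H51.omegaOne_le 2 V
  have hCW : centralizer (W : Set X) = centralizer (V : Set X) := by
    refine le_antisymm ?_ (H53.centralizer_anti hWV)
    have hn : ((centralizer (W : Set X)).map
        (QuotientGroup.mk' (centralizer (V : Set X)))).Normal :=
      Normal.map inferInstance _ (QuotientGroup.mk'_surjective _)
    have : (centralizer (W : Set X)).map (QuotientGroup.mk' (centralizer (V : Set X))) ≤
        pCore 2 (X ⧸ centralizer (V : Set X)) := by
      refine H3.le_pCore ?_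
      rintro ⟨_, g, hg, rfl⟩
      obtain ⟨k, m, hm, e⟩ := Nat.exists_eq_two_pow_mul_odd (orderOf_pos g).ne'
      refine ⟨k, Subtype.ext ?_⟩
      change (QuotientGroup.mk' _ g) ^ 2 ^ k = 1
      rw [← map_pow, QuotientGroup.mk'_apply, QuotientGroup.eq_one_iff]
      refine H6.mem_centralizer_of_omegaOne hVp hVc ?_ (le_normalizer_of_normal (mem_top _))
        (hW ▸ pow_mem hg _)
      refine (Nat.coprime_two_right.2 hm).coprime_dvd_left (orderOf_dvd_of_pow_eq_one ?_)
      rw [← pow_mul, ← e, pow_orderOf_eq_one]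
    rwa [hO1, le_bot_iff, Subgroup.map_eq_bot_iff, QuotientGroup.ker_mk'] at this
  have hO2 : pCore 2 (X ⧸ centralizer (W : Set X)) = ⊥ := by
    rw [← H3.map_pCore_equiv (QuotientGroup.quotientMulEquivOfEq hCW.symm), hO1, Subgroup.map_bot]
  have hC' := hC.trans hCW.symm
  have Tr := H53.transp_holomorph W
  generalize (SemidirectProduct.inl : W →* W ⋊[MonoidHom.id (MulAut W)] MulAut W) = ι at Tr
  generalize (SemidirectProduct.inr.comp MulAut.conjNormal :
    X →* W ⋊[MonoidHom.id (MulAut W)] MulAut W) = f at Tr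
  have : Finite (W ⋊[MonoidHom.id (MulAut W)] MulAut W) :=
    Finite.of_equiv _ SemidirectProduct.equivProd.symm
  have hps := H6.isPSolvable_of_isSolvable (p := 2) X inferInstance
  have h := Tr.ffHyp hWe hps hO2 Y
  have hbest : ∀ A ∈ H51.maxEA 0 (T : Subgroup X), IsBestOffenderOn 2 ι.range (A.map f) := by
    intro A hA
    have hAc : IsMulCommutative A := hA.2.1.1
    have h1 := (H53.bestOffender_of_max (p := 0) (H51.isEA_zero_iff.2 hVc) hA.2.1
      fun B hB => hA.2.2 B (hB.trans (sup_le hVT hA.1))).1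
    have h2 := H18.FFA.meas_map_le Tr (A := A)
      fun B hB => H18.FFA.meas_le_of_le hVc hWV hB (h1 B hB)
    have h3 := H51.isMulCommutative_map hAc f
    refine ⟨h2, ?_, fun a ha => ?_⟩
    · rw [H51.isMulCommutative_iff_commutator.1 h3]; exact bot_le
    · rw [H18.FFA.sq_eq_one h (map_mono ((H51.le_thompsonSubgroupOf hA).trans hJY)) h3
        ((T.2.to_le hA.1).map f) h2 ha]
      exact one_mem _
  have hS3 : Y.map f = ⨆ A : {A : Subgroup _ // A ≤ Y.map f ∧ IsBestOffenderOn 2 ι.range A},
      (A : Subgroup _) := by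
    refine le_antisymm ?_ (iSup_le fun A => A.2.1)
    have hg : Y.map f ≤ sSup {B | B ≤ Y.map f ∧ H53.IsTransv 2 ι.range B} := by
      have hn : ((sSup {B | B ≤ Y.map f ∧ H53.IsTransv 2 ι.range B}).comap f).Normal := by
        refine ⟨fun x hx g => ?_⟩
        have : sSup {B | B ≤ Y.map f ∧ H53.IsTransv 2 ι.range B} ≤
            (sSup {B | B ≤ Y.map f ∧ H53.IsTransv 2 ι.range B}).comap
              (MulAut.conj (f g)).toMonoidHom := by
          refine sSup_le fun B hB y hy => ?_
          refine (le_sSup (a := MulAut.conj (f g) • B) (s := {B | B ≤ Y.map f ∧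
            H53.IsTransv 2 ι.range B}) ⟨?_, hB.2.conj
            (Tr.le_normalizer ⊤ (mem_map_of_mem f (mem_top g)))⟩ :)
            (smul_mem_pointwise_smul _ _ _ hy)
          rintro _ ⟨z, hz, rfl⟩
          obtain ⟨w, hw, rfl⟩ := hB.1 hz
          exact ⟨g * w * g⁻¹, hYn.conj_mem w hw g, by simp⟩
        have := this hx
        rw [mem_comap, map_mul, map_mul, map_inv]
        exact this
      rw [map_le_iff_le_comap]
      conv_lhs => rw [← hY]
      refine normalClosure_le_normal (H51.thompsonSubgroupOf_le_iff.2 fun A hA => ?_)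
      have hAY : A.map f ≤ Y.map f := map_mono ((H51.le_thompsonSubgroupOf hA).trans hJY)
      exact map_le_iff_le_comap.1 ((h.le_sSup_transv hAY (hbest A hA)).trans
        (sSup_le_sSup fun B hB => ⟨hB.1.trans hAY, hB.2⟩))
    refine hg.trans (sSup_le fun B hB => ?_)
    exact le_iSup_of_le ⟨B, hB.1, (hB.2.minOff h.hV.1 (hB.1.trans h.hHV)).1⟩ le_rfl
  by_cases hH1 : Y.map f = ⊥
  · left
    rw [hC', ← Tr.ker_eq]
    exact (Subgroup.map_eq_bot_iff _).1 hH1
  right
  have hS1 : centralizer (pPrimeCore 2 ↥(Y.map f) : Set ↥(Y.map f)) ≤ pPrimeCore 2 ↥(Y.map f) := by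
    intro x hx
    obtain ⟨y, hy, e⟩ := h.hC ⟨x.2, by
      rintro _ ⟨z, hz, rfl⟩
      exact congrArg Subtype.val (hx z hz)⟩
    exact (Subtype.ext e : y = x) ▸ hy
  obtain ⟨-, k1, k2, k3, -⟩ := S0617.result ι.range (Y.map f) h.hV h.hHV h.hf hS1 hS3 hH1
  obtain ⟨e0⟩ := S0250.result (F := ZMod 2) (ZMod.card 2)
  obtain ⟨e⟩ := H18.FFA.equiv_pi _ (fun E => (k1 E).1)
    (fun E => (k1 E).2.1.map fun e => e.trans e0) k2 k3
  obtain ⟨_, k⟩ := H53.exists_quot_equiv Y ((centralizer (Z : Set X)).normalCore)
    (e.toMonoidHom.comp (f.subgroupMap Y)) (e.surjective.comp (f.subgroupMap_surjective Y))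
    fun d => by
      rw [hC', ← Tr.ker_eq, MonoidHom.comp_apply, MulEquiv.coe_toMonoidHom,
        map_eq_one_iff e e.injective, ← Subtype.val_inj]
      rfl
  refine ⟨_, ?_, k⟩
  rw [Nat.one_le_iff_ne_zero]
  intro h0
  have := (Nat.card_eq_zero.1 h0).resolve_right (not_infinite_iff_finite.2 inferInstance)
  exact hH1 (k3.symm.trans (iSup_of_empty _))

end Cfsg.Agent.S4302
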