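import Cfsg.Statements.S4305
import Cfsg.Agent.H88.FpfPQ

set_option autoImplicit false
open Cfsg

namespace Cfsg.Agent.S4305

open Cfsg.Agent.H63 Cfsg.Agent.H67 Cfsg.Agent.H69 Cfsg.Agent.H88 Subgroup
open scoped IsMulCommutative commutatorElement

universe u

theorem core {s r : ℕ} {X : Type u} [Group X] [Finite X] {A P V : Subgroup X}
    (hA : Nat.card A = 2 * 3) (hna : ¬ IsMulCommutative A) (h : T2 s r A P P V)
    (hel : IsElementaryAbelian r V) (hmin : MinNormal V (P ⊔ P ⊔ A)) (hf : P ⊓ C[V] = ⊥) :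
    ⁅P, P⁆ = ⊥ := by
  classical
  have := Fact.mk h.hs
  have h2 := Nat.prime_two
  have h3 := Nat.prime_three
  by_cases hP : P = ⊥
  · simp [hP]
  have hPn : Group.IsNilpotent P := h.pP.isNilpotent
  have hPs := sol_p h.hs h.pP
  have hZ1 : Z[P] ≠ ⊥ := ne_bot_mono (inf_center_ne_bot_of_isNilpotent hPn ⟨le_rfl, le_normalizer⟩ hP)
    inf_le_right
  have hAZ : A ≤ N[Z[P]] := h.AP.trans (normalizer_le_normalizer_center P)
  obtain ⟨Z, hZ, hZP⟩ := exists_minNormal hZ1 hAZ
  have hZle : Z ≤ P := hZP.trans inf_le_left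
  have hcent : ∀ D, D ≤ P → D ≠ ⊥ → P ≤ N[D] → A ≤ N[D] → V ⊓ C[D] = ⊥ := fun D h1 h2 h3 h4 =>
    minNormal_cent_eq_bot hmin hf h1 h2 (sup_le (sup_le h3 h3) h4)
  obtain ⟨Y, T, W, N, hw⟩ := exists_weight h.hs hel.1 hmin.ne_bot
    (minnormal_pgroup_abelem h.hs hZ (h.pP.to_le hZle)) hZP h.AV h.PV h.AP hZ.norm h.cV h.cVP h.cP
    (hcent Z hZle hZ.ne_bot (le_normalizer_of_le_centralizer' (hZP.trans inf_le_right)) hZ.norm)
    h.fV (fpf_mono h.fP hZle)
  have hWV : W ≤ V := hw.hW ▸ inf_le_left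
  have hbot : ∀ D, D ≤ N → P ≤ N[D] → A ≤ N[D] → D = ⊥ := fun D h1 h2 h3 => by
    by_contra hne
    apply hw.W_ne
    rw [eq_bot_iff, ← hcent D (h1.trans hw.NP.le) hne h2 h3]
    exact le_inf hWV (cent_symm (h1.trans (hw.hN ▸ inf_le_right)))
  have hT1 : T ≠ ⊥ := fun hh => hw.W_ne (by
    have := hw.fpf
    rwa [hh, centralizer_bot, inf_top_eq] at this)
  have hT := prime_card_of_lt_pq h2 h3 hA hw.TA hT1 hw.ne
  have hTp : (Nat.card T).Prime := by rcases hT with h | h <;> rw [h.1] <;> assumption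
  have hsP : s ∣ Nat.card P := dvd_card_of_isPGroup h.hs h.pP hP
  have hcs : (Nat.card A).Coprime s := h.cP.coprime_dvd_right hsP
  have hTP := hw.TA.trans h.AP
  have hPT : ⁅P, T⁆ ≤ N := by
    by_contra hcon
    refine H4.inf_cent_ne_bot_of_prime h.hs hTp ?_ rfl h.pP hTP (isMulCommutative_of_le hel.1 hWV)
      hw.TW hw.PW (Nat.Coprime.mul_right ((cop_le h.cVP hWV le_rfl).coprime_dvd_right hsP)
      (cop_le h.cV.symm hWV hw.TA)) (fun hh => hcon ?_) ?_ hw.fpf
    · intro hh
      have := (hcs.coprime_dvd_left (card_dvd_of_le' hw.TA))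
      rw [← hh, Nat.coprime_self] at this
      exact h.hs.one_lt.ne' this
    · exact hw.hN ▸ le_inf (commutator_le_of_norm_left hTP) hh
    · rintro rfl
      rw [hA] at hcs
      exact absurd hcs (by norm_num)
  by_cases hTn : T ⊴ A
  · have h4 : T ≤ C[P] := cent_symm (le_cent_of_commutator_eq_bot (hbot _ hPT
      (le_norm_commutator_left _ _) (le_normalizer_commutator h.AP hTn.norm)))
    rcases hT with hT | hT
    · exfalso
      apply hna
      refine isMulCommutative_of_quo_cyclic (N := T) (cent_symm ?_) hTn.norm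
        (H69.isCyclic_of_prime_card' (by rw [card_quo hTn.norm, hT.2]; exact h3))
      refine le_cent_of_prime_card_of_coprime hTp hTn.norm ?_
      rw [hT.1]
      exact Nat.coprime_one_right _
    · obtain ⟨σ, hσ, hσT⟩ := SetLike.exists_of_lt (hw.TA.lt_of_ne hw.ne)
      rw [derived_eq_bot_iff]
      refine comm_of_fpf_involution (h.AP hσ) (h4 ?_) ?_
      · have := (T.subgroupOf A).sq_mem_of_index_two hT.2 ⟨σ, hσ⟩
        exact mem_subgroupOf.mp this
      · have h5 : T ⊔ zpowers σ = A := by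
          by_contra hh
          have := eq_of_sup_ne_pq h2 h3 hA _ _ hw.TA (zpowers_le.mpr hσ) hT1
            (fun h => hσT (by rw [zpowers_eq_bot.mp h]; exact one_mem _)) hh
          exact hσT (this ▸ mem_zpowers σ)
        rw [eq_bot_iff, ← h.fP, ← h5, centralizer_sup, centralizer_zpowers]
        exact le_inf inf_le_left (le_inf (inf_le_left.trans (cent_symm h4)) inf_le_right)
  have hTc : Nat.card T = 2 := by
    rcases hT with hT | hT
    · exact hT.1
    · exact absurd (normalIn_iff_subgroupOf.mpr ⟨hw.TA, normal_of_index_eq_two hT.2⟩) hTn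
  have hPA : ⁅P, A⁆ = P := coprime_commutator_eq_of_cent_eq_bot h.AP h.cP (Or.inr hPs) h.fP
  have hnorm : ∀ a ∈ A, cj a N ⊴ P := fun a ha => by
    have := hw.NP.cj a
    rwa [cj_eq_self (h.AP ha)] at this
  have hsup : ∀ a ∈ A, a ∉ T → N ⊔ cj a N = P := fun a ha haT => by
    refine le_antisymm (sup_le hw.NP.le (hnorm a ha).le) ?_
    have h1 := commutator_sup_le hTP ((cj_le_of_mem ha hw.TA).trans h.AP)
    rw [sup_cj_eq_of_pq h2 h3 hA hw.TA hT1 hTn ha haT, hPA] at h1
    refine h1.trans (sup_le_sup hPT ?_)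
    have := cj_mono (g := a) hPT
    rwa [cj_commutator, cj_eq_self (h.AP ha)] at this
  obtain ⟨F, hFA, hF⟩ := H63.exists_prime_card_le h3 (X := A) (by rw [hA]; norm_num)
  obtain ⟨f, hfF, hf1, hfz⟩ := exists_zpowers_eq_of_prime_card (hF ▸ h3 : (Nat.card F).Prime)
  have hfo : orderOf f = 3 := by rw [← Nat.card_zpowers, hfz, hF]
  have hf3 : f * f * f = 1 := by rw [← pow_three', ← hfo, pow_orderOf_eq_one]
  have hFT : F ⊓ T = ⊥ := inf_eq_bot_of_coprime' (by rw [hF, hTc]; norm_num)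
  have hmul : IsMul F T A := isMul_of_card_le_of_inf hFA hw.TA hFT (by rw [hA, hF, hTc])
  have hfA := hFA hfF
  have hfT : f ∉ T := fun hh => hf1 (mem_bot.mp (hFT ▸ ⟨hfF, hh⟩))
  have hfT2 : f * f ∉ T := fun hh => hf1 (by
    have : f * f = 1 := mem_bot.mp (hFT ▸ ⟨mul_mem hfF hfF, hh⟩)
    rwa [this, one_mul] at hf3)
  have hcases : ∀ a ∈ A, cj a N = N ∧ a ∈ T ∨ cj a N = cj f N ∨ cj a N = cj (f * f) N := by
    intro a ha
    obtain ⟨g, hg, t, ht, rfl⟩ := hmul.exists_mul ha
    rw [cj_mul, cj_eq_self (hw.TN ht)]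
    rw [← hfz, mem_zpowers_iff_mem_range_orderOf, hfo, Finset.mem_image] at hg
    obtain ⟨i, hi, rfl⟩ := hg
    rw [Finset.mem_range] at hi
    interval_cases i
    · left; simpa [cj_one] using ht
    · right; left; rw [pow_one]
    · right; right; rw [pow_two]
  have h12 : cj f N ⊓ cj (f * f) N = ⊥ := by
    by_contra hne
    have h1 := inf_center_ne_bot_of_isNilpotent hPn
      ((hnorm f hfA).inf (hnorm _ (mul_mem hfA hfA))) hne
    apply h1
    rw [eq_bot_iff, ← hbot (⨅ a : A, cj a N) (by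
      have := iInf_le (fun a : A => cj (a : X) N) 1
      rwa [OneMemClass.coe_one, cj_one] at this)
      (fun x hx => mem_normalizer_of_cj_le (le_iInf fun a => (cj_mono (iInf_le _ a)).trans
        (cj_eq_self ((hnorm a a.2).norm hx)).le))
      (fun x hx => mem_normalizer_of_cj_le (le_iInf fun y => by
        rw [cj_le_iff_le_cj_inv, cj_cj]
        exact iInf_le (fun x : A => cj (x : X) N) ⟨x⁻¹ * y, mul_mem (inv_mem hx) y.2⟩))]
    intro d hd
    have hdN : d ∈ N := by
      refine trace_lemma' (isMulCommutative_center P) hAZ hw.TA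
        (cop_le h.cP.symm inf_le_left le_rfl) (fpf_mono h.fP inf_le_left) hd.2
        (fun a ha => hPT ?_) (fun a ha haT => ?_)
      · rw [commutator_comm]
        exact commutator_mem_commutator ha hd.2.1
      · have : d ∈ cj a⁻¹ N := by
          rcases hcases a⁻¹ (inv_mem ha) with h | h | h
          · exact absurd (inv_mem_iff.mp h.2) haT
          · exact h ▸ hd.1.1
          · exact h ▸ hd.1.2
        simpa using mem_cj.mp this
    refine mem_iInf.mpr fun a => ?_
    rcases hcases a a.2 with h | h | h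
    · exact h.1.symm ▸ hdN
    · exact h ▸ hd.1.1
    · exact h ▸ hd.1.2
  have h20 := congrArg (cj f) h12
  rw [cj_inf, cj_cj, cj_cj, ← mul_assoc, hf3, cj_one, cj_bot] at h20
  have h01 := congrArg (cj f) h20
  rw [cj_inf, cj_cj, ← mul_assoc, hf3, cj_one, cj_bot] at h01
  have hs12 := congrArg (cj f) (hsup f hfA hfT)
  rw [cj_sup, cj_cj, cj_eq_self (h.AP hfA)] at hs12
  have hc0 : N ≤ C[P] := by
    rw [← hs12, centralizer_sup]
    exact le_inf (le_centralizer_of_inf_eq_bot ((hnorm f hfA).le.trans hw.NP.norm)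
      (hw.NP.le.trans (hnorm f hfA).norm) (by rw [inf_comm, h01]))
      (le_centralizer_of_inf_eq_bot ((hnorm _ (mul_mem hfA hfA)).le.trans hw.NP.norm)
      (hw.NP.le.trans (hnorm _ (mul_mem hfA hfA)).norm) h20)
  have hc1 := cj_mono (g := f) hc0
  rw [cj_centralizer, cj_eq_self (h.AP hfA)] at hc1
  refine commutator_eq_bot_of_cent ?_
  conv_lhs => rw [← hsup f hfA hfT]
  exact sup_le hc0 hc1

theorem s1 {s r : ℕ} {X : Type u} [Group X] [Finite X] {A P V : Subgroup X}
    (hA : Nat.card A = 2 * 3) (hna : ¬ IsMulCommutative A) (h : T2 s r A P P V) :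
    ⁅P, P⁆ ≤ C[V] := by
  refine t2_reduction (fun X _ A R P => Nat.card A = 2 * 3 ∧ ¬ IsMulCommutative A ∧ R = P) ?_ ?_
    X A P P V ⟨hA, hna, rfl⟩ h
  · rintro X _ _ A R P N ⟨h1, h2, rfl⟩ hAN - - hc
    have hi := inf_eq_bot_of_coprime' hc.symm
    refine ⟨by rw [card_quo_of_disjoint hAN hi, h1], fun hh => h2 ?_, rfl⟩
    let e := quoEquivOfDisjoint hAN hi
    exact ⟨⟨fun a b => e.injective (by rw [map_mul, map_mul, mul_comm])⟩⟩
  · rintro X _ _ A R P V ⟨h1, h2, rfl⟩ h hel hmin hf -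
    exact core h1 h2 h hel hmin hf

theorem md {r : ℕ} (hr : r.Prime) {X : Type u} [Group X] [Finite X] {A K V : Subgroup X}
    (hA : Nat.card A = 2 * 3) (hna : ¬ IsMulCommutative A) (hAK : A ≤ N[K])
    (hc : (Nat.card A).Coprime (Nat.card K)) (hs : Group.IsSolvable K) (hf : K ⊓ C[A] = ⊥)
    (hVK : V ≤ K) (hel : IsElementaryAbelian r V) (hmin : MinNormal V (K ⊔ A)) : ⁅K, K⁆ ≤ C[V] := by
  obtain ⟨F, hF, hF1, hF2⟩ := (ch_two_of_pq Nat.prime_two Nat.prime_three hA hna hAK hc hs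
    hf).exists_of_two
  have hKV : K ≤ N[V] := le_sup_left.trans hmin.norm
  have hAV : A ≤ N[V] := le_sup_right.trans hmin.norm
  have hC : K ⊓ C[V] ⊴ K := inf_centralizer_normalIn hKV
  have hAC : A ≤ N[K ⊓ C[V]] := le_normalizer_inf hAK (le_normalizer_centralizer hAV)
  have h1 : fittingOf K ≤ C[V] := cent_symm (hmin.le_cent_of_nil (hVK.trans le_sup_left)
    ⟨(fittingOf_le K).trans le_sup_left, sup_le (fittingOf_normalIn K).norm
      (le_normalizer_fittingOf hAK)⟩ (fittingOf_nil K))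
  have h2 : F ≤ (quoHom hC.norm).ker := by
    rw [quoHom_ker]
    intro x hx
    have : (x : X) ∈ fittingOf K := le_fittingOf (N := F.map K.subtype)
      ⟨map_subtype_le _, by
        have := le_normalizer_map (H := F) K.subtype
        rwa [normalizer_eq_top, ← MonoidHom.range_eq_map, range_subtype] at this⟩
      (Group.nilpotent_of_mulEquiv (F.equivMapOfInjective _ K.subtype_injective)) ⟨x, hx, rfl⟩
    exact ⟨x.2, h1 this⟩
  have hnil : Group.IsNilpotent (K /ᵍ (K ⊓ C[V])) :=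
    Group.nilpotent_of_surjective (QuotientGroup.lift F (quoHom hC.norm) h2)
      (QuotientGroup.lift_surjective_of_surjective _ _ (quoHom_surjective _) _)
  refine le_trans ?_ (inf_le_right : K ⊓ C[V] ≤ _)
  rw [← quo_isMulCommutative_iff hC.norm]
  refine H4.isMulCommutative_of_isNilpotent hnil fun q hq P hP hPq => ?_
  refine isMulCommutative_of_le ?_ (le_pCoreOf_of_le_fittingOf hq.out
    (hP.trans (le_fittingOf ⟨le_rfl, le_normalizer⟩ hnil)) hPq)
  by_cases hqr : q = r
  · rw [hqr, pCore_quo_cent_eq_bot hr hAK hc hs (isPGroup_of_elemAb hel) hmin]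
    infer_instance
  obtain ⟨S, -, hS, hSK, hAS, hSq, -⟩ := exists_lift_pgroup hC.norm hAC hAK hc hs hq.out
    (isPGroup_pCoreOf hq.out (K /ᵍ (K ⊓ C[V]))) (piCoreOf_le _ _)
    (le_normalizer_piCoreOf (quo_norms _ hAK))
  rw [← hSq, quo_isMulCommutative_iff (hSK.trans hC.norm)]
  refine le_inf (commutator_le_of_le hSK hSK) (s1 hA hna ⟨hq.out, hr, hqr, hS,
    isPGroup_of_elemAb hel, hSK.trans hKV, le_normalizer, hSK.trans hKV, hAS, hAV,
    cop_le hc le_rfl hSK, cop_le hc le_rfl hVK, fpf_mono hf hSK, fpf_mono hf hVK⟩)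

theorem rel {X : Type u} [Group X] [Finite X] {A K : Subgroup X}
    (hA : Nat.card A = 2 * 3) (hna : ¬ IsMulCommutative A) (hAK : A ≤ N[K])
    (hc : (Nat.card A).Coprime (Nat.card K)) (hs : Group.IsSolvable K) (hf : K ⊓ C[A] = ⊥) :
    ⁅K, K⁆ ≤ fittingOf K := by
  refine le_fitting_of_modules hAK hs (commutator_le_of_le le_rfl le_rfl) ?_
  intro N U r hr hN hAN hU hel hmin
  rw [quo_commutator hN.norm hN.norm]
  have hi := inf_eq_bot_of_coprime' (cop_le hc.symm hN.le le_rfl)
  refine md hr (by rw [card_quo_of_disjoint hAN hi, hA]) (fun hh => hna ?_) (quo_norms _ hAK)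
    (coprime_quo _ hc) (quo_isSolvable _ hs) (fpf_quo hAK hAN hc hs hf)
    (quo_mono _ (hU.trans (fittingOf_le K))) hel hmin
  let e := quoEquivOfDisjoint hAN hi
  exact ⟨⟨fun a b => e.injective (by rw [map_mul, map_mul, mul_comm])⟩⟩

/-- Let the symmetric group of degree 3 act by automorphisms on a finite solvable group `G` of order prime to 6, so that only the identity of `G` is fixed by all of it. Then the derived subgroup of `G` is nilpotent. -/
theorem result {G : Type*} [Group G] [Finite G] [Group.IsSolvable G]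
    [MulDistribMulAction (Equiv.Perm (Fin 3)) G] (hcop : (Nat.card G).Coprime 6)
    (hfpf : ∀ g : G, (∀ a : Equiv.Perm (Fin 3), a • g = g) → g = 1) :
    Group.IsNilpotent ↥(commutator G) := by
  let φ : Equiv.Perm (Fin 3) →* MulAut G := MulDistribMulAction.toMulAut _ G
  have := H4.Ext.finite_semidirect φ
  have hA : Nat.card (Equiv.Perm (Fin 3)) = 6 := by
    rw [Nat.card_eq_fintype_card, Fintype.card_perm, Fintype.card_fin]; rfl
  refine nil_commutator_of_L φ (rel (by rw [H4.Ext.card_R, card_top, hA]) (fun hh => ?_)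
    (norm_RL φ) (cop_RL φ (hA ▸ hcop.symm)) (sol_L φ inferInstance) (fpf_L φ hfpf))
  have : Equiv.swap (0 : Fin 3) 1 * Equiv.swap 1 2 = Equiv.swap 1 2 * Equiv.swap 0 1 :=
    (eqR φ).injective (by rw [map_mul, map_mul, hh.1.1])
  exact absurd this (by decide)

end Cfsg.Agent.S4305
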