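import Cfsg.Statements.S4306
import Cfsg.Agent.H88.FpfPQ

set_option autoImplicit false
open Cfsg

namespace Cfsg.Agent.S4306

open Cfsg.Agent.H63 Cfsg.Agent.H67 Cfsg.Agent.H69 Cfsg.Agent.H88 Subgroup

/-- Let `A` be a non-abelian group of order `pq` with `p, q` distinct primes, acting by automorphisms on a finite solvable group `G` of order prime to `pq`, so that only the identity of `G` is fixed by all of `A`. Then `G` has Fitting height at most 2: there is a normal nilpotent subgroup `F` of `G` with `G/F` nilpotent. -/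
theorem result {G A : Type*} [Group G] [Finite G]
    [Group.IsSolvable G] [Group A] [Finite A] [MulDistribMulAction A G] (p q : ℕ) (hp : p.Prime) (hq : q.Prime) (hpq : p ≠ q)
    (hA : Nat.card A = p * q) (hAna : ¬ IsMulCommutative A) (hcop : (Nat.card G).Coprime (p * q))
    (hfpf : ∀ g : G, (∀ a : A, a • g = g) → g = 1) :
    ∃ F : Subgroup G, ∃ hF : F.Normal, Group.IsNilpotent ↥F ∧ Group.IsNilpotent (G ⧸ F) := by
  let φ : A →* MulAut G := MulDistribMulAction.toMulAut A G
  have := H4.Ext.finite_semidirect φ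
  refine (ch_of_L φ (ch_two_of_pq hp hq (by rw [H4.Ext.card_R, card_top, hA]) (fun hh => hAna ?_)
    (norm_RL φ) (cop_RL φ (hA ▸ hcop.symm)) (sol_L φ inferInstance) (fpf_L φ hfpf))).exists_of_two
  exact ⟨⟨fun a b => (eqR φ).injective (by rw [map_mul, map_mul, hh.1.1])⟩⟩

end Cfsg.Agent.S4306
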