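import Cfsg.Statements.S4310
import Cfsg.Agent.H89.OddHall
import Cfsg.Agent.H3.Cores
import Cfsg.Agent.H8.SylowIn

set_option autoImplicit false
open Cfsg

namespace Cfsg.Agent.S4310

open Subgroup H2
open scoped Pointwise

theorem sep_aux {G : Type*} [Group G] [Finite G] {π : Set ℕ} {A K N : Subgroup G} [A.Normal]
    (hKA : K ≤ A) (hK : IsPiHall π (K.subgroupOf A)) (hKN : K ≤ N)
    (hN : N ≤ normalizer (K : Set G)) (hNA : IsPiNum π (A.relIndex N)) : PiSeparable π N := by
  rw [isPiHall_iff, card_subgroupOf_of_le hKA] at hK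
  have h1 : (K.subgroupOf N).Normal := normal_subgroupOf_of_le_normalizer hN
  refine piSeparable_of_chain (n := 3) ![⊥, K.subgroupOf N, A.subgroupOf N, ⊤] rfl rfl ?_ ?_
  · intro i
    fin_cases i <;> simp only [Fin.zero_eta, Fin.mk_one, Fin.reduceFinMk, Matrix.cons_val] <;>
      infer_instance
  · intro i
    fin_cases i
    · left
      change IsPiNum π ((⊥ : Subgroup N).relIndex (K.subgroupOf N))
      rw [relIndex_bot_left, card_subgroupOf_of_le hKN]
      exact hK.1
    · right
      change IsPiNum πᶜ ((K.subgroupOf N).relIndex (A.subgroupOf N))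
      rw [← inf_subgroupOf_right A N, relIndex_subgroupOf inf_le_right]
      refine hK.2.of_dvd ?_
      have h2 : K.relIndex (A ⊓ N) * (A ⊓ N).relIndex A = K.relIndex A :=
        relIndex_mul_relIndex _ _ _ (le_inf hKA hKN) inf_le_left
      exact Dvd.intro _ h2
    · left
      change IsPiNum π ((A.subgroupOf N).relIndex ⊤)
      rw [relIndex_top_right]
      exact hNA

theorem conj_in {G : Type*} [Group G] [Finite G] {π : Set ℕ} {A : Subgroup G}
    (hA : IsCPiGroup π A) {K L : Subgroup G} (hKA : K ≤ A) (hLA : L ≤ A)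
    (hK : IsPiHall π (K.subgroupOf A)) (hL : IsPiHall π (L.subgroupOf A)) :
    ∃ a ∈ A, MulAut.conj a • K = L := by
  obtain ⟨a, ha⟩ := hA.2 _ _ hK hL
  exact ⟨a, a.2, conj_smul_eq_of_subgroupOf hKA hLA a ha.symm⟩

/-- Let `π` be a set of primes and `A` a normal subgroup of the finite group `G`. Suppose `A` has a Hall `π`-subgroup and all Hall `π`-subgroups of `A` are conjugate in `A`, and likewise for `G/A`. Then `G` has a Hall `π`-subgroup and all Hall `π`-subgroups of `G` are conjugate. (The conjugacy of complements of coprime order that the usual proof uses rests, in general, on the odd order Theorem.) -/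
theorem result {G : Type*} [Group G] [Finite G] (π : Set ℕ) (A : Subgroup G) [A.Normal]
    (hA : Cfsg.IsCPiGroup π ↥A) (hQ : Cfsg.IsCPiGroup π (G ⧸ A)) : Cfsg.IsCPiGroup π G := by
  have hf := QuotientGroup.mk'_surjective A
  constructor
  · obtain ⟨K0, hK0⟩ := hA.1
    obtain ⟨Hb, hHb⟩ := hQ.1
    set K := K0.map A.subtype with hKdef
    have hKA : K ≤ A := map_subtype_le _
    have hKs : K.subgroupOf A = K0 := comap_map_eq_self_of_injective A.subtype_injective _
    have hK : IsPiHall π (K.subgroupOf A) := hKs ▸ hK0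
    set L := Hb.comap (QuotientGroup.mk' A) with hL
    have hAL : A ≤ L := fun x hx => by
      rw [hL, mem_comap, QuotientGroup.mk'_apply, (QuotientGroup.eq_one_iff x).mpr hx]
      exact Hb.one_mem
    set N := normalizer (K : Set G) ⊓ L with hN
    have hKN : K ≤ N := le_inf le_normalizer (hKA.trans hAL)
    have hNA : N ⊔ A = L := by
      refine le_antisymm (sup_le inf_le_right hAL) fun g hg => ?_
      have h1 : MulAut.conj g • K ≤ A := by
        intro x hx
        rw [H8.mem_conj_smul] at hx
        have := (inferInstance : A.Normal).conj_mem _ (hKA hx) g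
        simpa [mul_assoc] using this
      have h2 : IsPiHall π ((MulAut.conj g • K).subgroupOf A) := by
        rw [isPiHall_iff] at hK ⊢
        have h3 : Nat.card ((MulAut.conj g • K).subgroupOf A) = Nat.card (K.subgroupOf A) := by
          rw [card_subgroupOf_of_le h1, card_subgroupOf_of_le hKA, card_conj_smul]
        have h4 : ((MulAut.conj g • K).subgroupOf A).index = (K.subgroupOf A).index := by
          apply Nat.eq_of_mul_eq_mul_left (Nat.card_pos (α := K.subgroupOf A))
          rw [card_mul_index, ← h3, card_mul_index]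
        rw [h3, h4]
        exact hK
      obtain ⟨a, ha, h3⟩ := conj_in hA h1 hKA h2 hK
      rw [conj_smul_conj_smul, conj_smul_eq_iff_mem_normalizer] at h3
      have h4 : a * g ∈ N := ⟨h3, L.mul_mem (hAL ha) hg⟩
      have h5 : g = a⁻¹ * (a * g) := by simp
      rw [h5]
      exact mul_mem (mem_sup_right (A.inv_mem ha)) (mem_sup_left h4)
    have hrel : A.relIndex N = Nat.card Hb := by
      rw [← relIndex_sup_right, hNA, ← H3.card_map_mk', hL, map_comap_eq_self_of_surjective hf]
    rw [isPiHall_iff] at hHb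
    obtain ⟨H, hH⟩ := (sep_aux hKA hK hKN inf_le_left (hrel ▸ hHb.1)).exists_isPiHall
    rw [isPiHall_iff] at hH hK
    refine ⟨H.map N.subtype, isPiHall_iff.2 ⟨?_, ?_⟩⟩
    · rw [H3.card_map_subtype]
      exact hH.1
    · rw [index_map_subtype, ← relIndex_mul_index (inf_le_right : N ≤ L), hL,
        index_comap_of_surjective _ hf, ← hL]
      refine hH.2.mul (IsPiNum.mul (hK.2.of_dvd ?_) hHb.2)
      have h1 := H3.card_sup_mul_card_inf N A
      have h2 := H3.card_mul_relIndex (le_sup_left : N ≤ N ⊔ A)
      have h3 := H3.card_inf_mul_relIndex N A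
      have h4 : N.relIndex L = N.relIndex A := by
        rw [← hNA]
        rw [← h2, ← h3, mul_assoc, mul_comm (N.relIndex (N ⊔ A))] at h1
        exact Nat.eq_of_mul_eq_mul_left Nat.card_pos (Nat.eq_of_mul_eq_mul_left Nat.card_pos h1)
      rw [h4]
      exact relIndex_dvd_of_le_left A hKN
  · intro H1 H2 h1 h2
    obtain ⟨gb, hg⟩ := hQ.2 _ _ (isPiHall_map hf h1) (isPiHall_map hf h2)
    obtain ⟨g, rfl⟩ := hf gb
    have h3 : IsPiHall π (MulAut.conj g • H1) := isPiHall_conj_smul h1 g
    have h4 : (MulAut.conj g • H1).map (QuotientGroup.mk' A) = H2.map (QuotientGroup.mk' A) := by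
      rw [map_conj_smul, hg]
      rfl
    set H3 := MulAut.conj g • H1 with hH3
    obtain ⟨a, ha, h5⟩ := conj_in hA (K := H3 ⊓ A) (L := H2 ⊓ A) inf_le_right inf_le_right
      (by rw [inf_subgroupOf_right]; exact isPiHall_subgroupOf_normal h3 A)
      (by rw [inf_subgroupOf_right]; exact isPiHall_subgroupOf_normal h2 A)
    have h6 : IsPiHall π (MulAut.conj a • H3) := isPiHall_conj_smul h3 a
    have h7 : (MulAut.conj a • H3).map (QuotientGroup.mk' A) = H2.map (QuotientGroup.mk' A) := by
      rw [map_conj_smul, QuotientGroup.mk'_apply, (QuotientGroup.eq_one_iff a).2 ha, map_one,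
        one_smul, h4]
    have h8 : (MulAut.conj a • H3) ⊓ A = H2 ⊓ A := by
      rw [← h5, smul_inf, (conj_smul_eq_iff_mem_normalizer (H := A)).2
        (le_normalizer_of_normal (mem_top a))]
    set H4 := MulAut.conj a • H3 with hH4
    set K := H2 ⊓ A with hK
    have hn2 : H2 ≤ normalizer (K : Set G) :=
      (le_inf le_normalizer le_normalizer_of_normal).trans inf_normalizer_le_normalizer_inf
    have hn4 : H4 ≤ normalizer (K : Set G) := by
      rw [← h8]
      exact (le_inf le_normalizer le_normalizer_of_normal).trans inf_normalizer_le_normalizer_inf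
    have hrel : A.relIndex (H4 ⊔ H2) = Nat.card (H2.map (QuotientGroup.mk' A)) := by
      rw [← Cfsg.Agent.H3.card_map_mk', Subgroup.map_sup, h7, sup_idem]
    have hsep : PiSeparable π ↥(H4 ⊔ H2) := sep_aux (A := A) (K := K) inf_le_right
      (by rw [hK, inf_subgroupOf_right]; exact isPiHall_subgroupOf_normal h2 A)
      (inf_le_left.trans le_sup_right) (sup_le hn4 hn2)
      (hrel ▸ (isPiHall_iff.1 (isPiHall_map hf h2)).1)
    obtain ⟨x, hx⟩ := H89.conj_of_piSeparable hsep (isPiHall_subgroupOf_of_le h6 le_sup_left)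
      (isPiHall_subgroupOf_of_le h2 le_sup_right)
    have h9 := conj_smul_eq_of_subgroupOf le_sup_left le_sup_right x hx
    have h10 : MulAut.conj ((x : G) * a * g) • H1 = H2 := by
      rw [← conj_smul_conj_smul, ← conj_smul_conj_smul]
      exact h9
    exact ⟨_, h10.symm⟩

end Cfsg.Agent.S4310
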