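import Cfsg.Statements.S4316
import Cfsg.Agent.H94.Cocyc

set_option autoImplicit false
universe u
open Cfsg

namespace Cfsg.Agent.S4316

open Subgroup
open scoped Pointwise commutatorElement

section internal

variable {Γ : Type*} [Group Γ] [Finite Γ] {A K : Subgroup Γ} [IsMulCommutative A] {m : ℕ}

theorem fix_bound (hAK : A ≤ normalizer (K : Set Γ)) (hcop : (Nat.card A).Coprime (Nat.card K))
    (hmeet : ∀ B B', H94.Cocyc A B → H94.Cocyc A B' → ∃ a ∈ B ⊓ B', a ≠ 1)
    (hm : ∀ a ∈ A, a ≠ 1 →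
      Nat.card (⁅K ⊓ centralizer ({a} : Set Γ), K ⊓ centralizer ({a} : Set Γ)⁆ : Subgroup Γ) ≤ m)
    (hm1 : 1 ≤ m) {B : Subgroup Γ} (hB : H94.Cocyc A B) {x : Γ}
    (hx : x ∈ K ⊓ centralizer (B : Set Γ)) :
    (centralizer ({x} : Set Γ)).relIndex K ≤ ((m ^ Nat.card A) ^ 2 ^ Nat.card A).factorial := by
  classical
  have := Fintype.ofFinite A
  refine H94.le_factorial_of_ordProj_le index_ne_zero_of_finite fun p hp => ?_
  have : Fact p.Prime := ⟨hp⟩
  obtain ⟨P₀, hP₀⟩ := H4.exists_invariant_sylow hAK hcop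
    (Or.inl (H4.isSolvable_of_isMulCommutative A)) p
  set P := (P₀ : Subgroup K).map K.subtype with hPdef
  have hP : H8.IsSylowIn p P K := H8.isSylowIn_map_subtype P₀
  refine (H94.ordProj_relIndex_le hP).trans ?_
  obtain ⟨s, hs, hscard⟩ := H94.exists_finset_cocyc A
  set T : Subgroup Γ := ⨅ a ∈ (Finset.univ : Finset A), centralizer ({(a : Γ) * x * (a : Γ)⁻¹} : Set Γ)
    with hT
  have hmemT : ∀ y, y ∈ T ↔ ∀ a ∈ A, Commute y (a * x * a⁻¹) := by
    intro y
    simp only [hT, mem_iInf, Finset.mem_univ, forall_const, H92.mem_C, Subtype.forall]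
  have hAT : A ≤ normalizer (T : Set Γ) := by
    intro a ha
    apply H8.mem_normalizer_of_conj_smul_le
    intro y hy
    rw [H8.mem_conj_smul, hmemT] at hy
    rw [hmemT]
    intro c hc
    have h1 := (hy (a⁻¹ * c) (mul_mem (inv_mem ha) hc)).conj a
    convert h1 using 1 <;> group
  have h1 : (centralizer ({x} : Set Γ)).relIndex P ≤ (P ⊓ T).relIndex P := by
    refine relIndex_le_of_le_left (fun y hy => ?_) index_ne_zero_of_finite
    have := (hmemT y).1 hy.2 1 (one_mem _)
    rw [H92.mem_C]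
    simpa using this
  refine h1.trans ((H94.relIndex_le_prod_cocyc hP.isPGroup hP₀ (H4.coprime_of_le_right hcop hP.le) s
    (fun B hB => (hs B).2 hB) _ inf_le_left (H4.le_normalizer_inf hP₀ hAT)).trans ?_)
  refine (Finset.prod_le_pow_card _ _ (m ^ Nat.card A) fun B' hB' => ?_).trans
    (Nat.pow_le_pow_right (pow_pos hm1 _) hscard)
  have h2 : (P ⊓ T ⊓ centralizer (B' : Set Γ)) = T ⊓ (P ⊓ centralizer (B' : Set Γ)) := by
    rw [inf_comm P T, inf_assoc]
  rw [h2, inf_relIndex_right, Nat.card_eq_fintype_card, ← Finset.card_univ]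
  refine H94.relIndex_biInf_le _ _ _ fun a _ => ?_
  obtain ⟨c, hc, hc1⟩ := hmeet B B' hB ((hs B').1 hB')
  refine (H94.relIndex_centralizer_le_card fun y hy => ?_).trans (hm c (hB.1 hc.1) hc1)
  refine commutator_mem_commutator ⟨hP.le hy.1, H92.mem_C'.2 (hy.2 c hc.2)⟩
    ⟨H4.conj_mem_of_mem_normalizer (hAK a.2) hx.1, H92.mem_C'.2 ?_⟩
  have h3 : Commute c x := hx.2 c hc.1
  have h4 : Commute c (a : Γ) := by
    have := mul_comm' (⟨c, hB.1 hc.1⟩ : A) a
    exact congrArg Subtype.val this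
  exact (h4.mul_right h3).mul_right h4.inv_right

theorem primePow_bound (hAK : A ≤ normalizer (K : Set Γ))
    (hcop : (Nat.card A).Coprime (Nat.card K))
    (hmeet : ∀ B B', H94.Cocyc A B → H94.Cocyc A B' → ∃ a ∈ B ⊓ B', a ≠ 1)
    (hm : ∀ a ∈ A, a ≠ 1 →
      Nat.card (⁅K ⊓ centralizer ({a} : Set Γ), K ⊓ centralizer ({a} : Set Γ)⁆ : Subgroup Γ) ≤ m)
    (hm1 : 1 ≤ m) {x : Γ} (hx : x ∈ K) {p : ℕ} (hp : p.Prime) (hxp : ∃ k, orderOf x = p ^ k) :
    (centralizer ({x} : Set Γ)).relIndex K ≤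
      ((m ^ Nat.card A) ^ 2 ^ Nat.card A).factorial ^ 2 ^ Nat.card A := by
  have : Fact p.Prime := ⟨hp⟩
  obtain ⟨P₀, hP₀⟩ := H4.exists_invariant_sylow hAK hcop
    (Or.inl (H4.isSolvable_of_isMulCommutative A)) p
  set P := (P₀ : Subgroup K).map K.subtype with hPdef
  have hP : H8.IsSylowIn p P K := H8.isSylowIn_map_subtype P₀
  obtain ⟨k, hk⟩ := hxp
  obtain ⟨g, hg, hgx⟩ := hP.exists_conj_le (H94.isPGroup_zpowers_of_orderOf hk)
    (zpowers_le.2 hx)
  have hy : g * x * g⁻¹ ∈ P := hgx (H8.conj_mem_conj_smul.2 (mem_zpowers x))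
  obtain ⟨s, hs, hscard⟩ := H94.exists_finset_cocyc A
  have h1 := H94.mem_fixProd hP.isPGroup hP₀ (H4.coprime_of_le_right hcop hP.le) s.toList
    (fun B hB => Finset.mem_toList.2 ((hs B).2 hB)) hy
  have h2 := H94.relIndex_centralizer_le_of_mem_fixProd (K := K) s.toList
    (fun B hB y hy => fix_bound hAK hcop hmeet hm hm1 ((hs B).1 (Finset.mem_toList.1 hB))
      ⟨hP.le hy.1, hy.2⟩) h1
  rw [Finset.length_toList] at h2
  have h3 := H92.cs_conj (⟨g, hg⟩ : K) ⟨x, hx⟩
  rw [H92.cs_subgroup, H92.cs_subgroup] at h3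
  exact (h3.symm.le.trans h2).trans (Nat.pow_le_pow_right (Nat.factorial_pos _) hscard)

theorem meet_of_card {q : ℕ} (hq : q.Prime) (hA : Nat.card A = q ^ 3) (he : ∀ a ∈ A, a ^ q = 1)
    (B B' : Subgroup Γ) (hB : H94.Cocyc A B) (hB' : H94.Cocyc A B') : ∃ a ∈ B ⊓ B', a ≠ 1 := by
  have key : ∀ B, H94.Cocyc A B → B.relIndex A ≤ q := by
    rintro B ⟨hBA, a, ha, hB⟩
    have hn : zpowers a ≤ normalizer (B : Set Γ) :=
      ((zpowers_le.2 ha).trans (H4.le_normalizer_of_le_of_isMulCommutative hBA)).trans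
        (centralizer_le_normalizer _)
    have h1 := H1.card_sup_dvd_of_le_normalizer hn
    rw [sup_comm, hB, ← H1.card_mul_relIndex hBA, mul_comm (Nat.card (zpowers a))] at h1
    have h2 := Nat.le_of_dvd Nat.card_pos (Nat.dvd_of_mul_dvd_mul_left Nat.card_pos h1)
    rw [Nat.card_zpowers] at h2
    exact h2.trans (Nat.le_of_dvd hq.pos (orderOf_dvd_of_pow_eq_one (he a ha)))
  by_contra hne
  push Not at hne
  have hbot : B ⊓ B' = ⊥ := (eq_bot_iff_forall _).2 hne
  have h1 : (B ⊓ B').relIndex A ≤ q * q :=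
    relIndex_inf_le.trans (Nat.mul_le_mul (key B hB) (key B' hB'))
  rw [hbot, relIndex_bot_left, hA] at h1
  have := hq.one_lt
  nlinarith [Nat.mul_pos hq.pos hq.pos]

end internal

/-- There is a function `f` of two natural-number arguments with the following property. Let `q` be a prime and `A` an elementary abelian group of order `q³` acting by automorphisms on a finite group `G` of order prime to `q`, and suppose that for every non-identity `a ∈ A` the derived subgroup of the fixed-point subgroup `C_G(a)` has order at most `m`. Then the derived subgroup of `G` has order at most `f(q, m)`. -/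
theorem result :
    ∃ f : ℕ → ℕ → ℕ, ∀ (q m : ℕ) (A G : Type u) [Group A] [Finite A] [Group G] [Finite G] [MulDistribMulAction A G],
      q.Prime → Nat.card A = q ^ 3 → (∀ a b : A, a * b = b * a) → (∀ a : A, a ^ q = 1) → ¬ q ∣ Nat.card G →
      (∀ a : A, a ≠ 1 → Nat.card ↥(commutator ↥(FixedPoints.subgroup (Subgroup.zpowers a) G)) ≤ m) →
      Nat.card ↥(commutator G) ≤ f q m := by
  refine ⟨fun q m => H94.bfcBound
    ((((m ^ q ^ 3) ^ 2 ^ q ^ 3).factorial ^ 2 ^ q ^ 3) ^
      ((((m ^ q ^ 3) ^ 2 ^ q ^ 3).factorial ^ 2 ^ q ^ 3) + 1)), ?_⟩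
  intro q m A G _ _ _ _ _ hq hA hc he hcop hm
  set φ := MulDistribMulAction.toMulAut A G with hφ
  have := H4.Ext.finite_semidirect φ
  have hcA : Nat.card (H4.Ext.R φ ⊤) = q ^ 3 := by rw [H4.Ext.card_R, card_top, hA]
  have hcomm : IsMulCommutative (H4.Ext.R φ ⊤) := by
    refine ⟨⟨?_⟩⟩
    rintro ⟨_, a, -, rfl⟩ ⟨_, b, -, rfl⟩
    apply Subtype.ext
    show SemidirectProduct.inr a * SemidirectProduct.inr b =
      SemidirectProduct.inr b * SemidirectProduct.inr a
    rw [← map_mul, ← map_mul, hc]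
  have hnt : Nontrivial A := by
    rw [← Finite.one_lt_card_iff_nontrivial, hA]
    exact Nat.one_lt_pow (by norm_num) hq.one_lt
  obtain ⟨a₀, ha₀⟩ := exists_ne (1 : A)
  have hm1 : 1 ≤ m := le_trans Nat.card_pos (hm a₀ ha₀)
  have hcop' : (Nat.card (H4.Ext.R φ ⊤)).Coprime (Nat.card (H4.Ext.L φ ⊤)) := by
    rw [hcA, H4.Ext.card_L, card_top]
    exact ((Nat.Prime.coprime_iff_not_dvd hq).2 hcop).pow_left 3
  refine H94.card_commutator_le_bfcBound (H94.index_centralizer_le_of_primePow fun x p hp hx => ?_)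
  have key := primePow_bound (m := m) ((H4.Ext.inv_iff φ).1 (H4.Ext.inv_top φ)) hcop'
    (meet_of_card hq hcA (by
      rintro _ ⟨a, -, rfl⟩
      rw [← map_pow, he, map_one])) ?_ hm1 (x := SemidirectProduct.inl x)
    ((H4.Ext.inl_mem_L φ).2 (mem_top x)) hp
    (by rwa [orderOf_injective _ SemidirectProduct.inl_injective])
  · rw [hcA] at key
    refine le_trans (le_of_eq ?_) key
    have h1 : centralizer ({x} : Set G) =
        (centralizer ({SemidirectProduct.inl x} : Set (G ⋊[φ] A))).comap SemidirectProduct.inl := by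
      ext y
      rw [mem_comap, H92.mem_C, H92.mem_C, commute_iff_eq, commute_iff_eq, ← map_mul, ← map_mul,
        SemidirectProduct.inl_injective.eq_iff]
    rw [h1, index_comap, MonoidHom.range_eq_map]
  · rintro _ ⟨a, -, rfl⟩ ha
    have ha1 : a ≠ 1 := fun h => ha (by rw [h, map_one])
    have h1 : H4.Ext.L φ ⊤ ⊓ centralizer ({SemidirectProduct.inr a} : Set (G ⋊[φ] A)) =
        H4.Ext.L φ (FixedPoints.subgroup (zpowers a) G) := by
      ext y
      constructor
      · rintro ⟨⟨y, -, rfl⟩, hy⟩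
        rw [H4.Ext.inl_mem_L]
        have h2 : φ a y = y := by
          apply SemidirectProduct.inl_injective (φ := φ)
          rw [← H4.Ext.inr_conj_inl, (H92.mem_C'.1 hy).eq, mul_inv_cancel_right]
        rintro ⟨_, k, rfl⟩
        exact MulAction.mem_fixedBy.1 (MulAction.mem_fixedBy_zpow (MulAction.mem_fixedBy.2 h2) k)
      · rintro ⟨y, hy, rfl⟩
        refine ⟨(H4.Ext.inl_mem_L φ).2 (mem_top _), H92.mem_C'.2 ?_⟩
        have h2 : φ a y = y := hy ⟨a, mem_zpowers a⟩
        have h3 := H4.Ext.inr_conj_inl φ a y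
        rw [h2, mul_inv_eq_iff_eq_mul] at h3
        exact h3
    rw [h1, ← map_commutator, card_map_of_injective SemidirectProduct.inl_injective,
      ← map_subtype_commutator, card_map_of_injective (subtype_injective _)]
    exact hm a ha1

end Cfsg.Agent.S4316
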