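import Cfsg.Statements.S4320
import Cfsg.Agent.H90.Cocycle

set_option autoImplicit false
open Cfsg

namespace Cfsg.Agent.S4320

open Subgroup

theorem det_smul_eq_zero {R M J : Type*} [CommRing R] [AddCommGroup M] [Module R M] [Fintype J]
    [DecidableEq J] (B : Matrix J J R) (m : J → M) (h : ∀ i, ∑ j, B i j • m j = 0) (k : J) :
    B.det • m k = 0 := by
  have : ∑ i, B.adjugate k i • ∑ j, B i j • m j = 0 := by simp [h]
  simp only [Finset.smul_sum, smul_smul] at this
  rw [Finset.sum_comm] at this
  simp only [← Finset.sum_smul, ← Matrix.mul_apply, Matrix.adjugate_mul] at this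
  simpa [Matrix.one_apply] using this

theorem exists_ann {G R M : Type*} [Group G] [Finite G] [CommRing R] [AddCommGroup M] [Module R M]
    (ι : G → R) (ε : R →+* ℤ) (hε : ∀ g, ε (ι g) = 1) (d : G → M)
    (hd : ∀ g h, d (g * h) = ι h • d g + d h) :
    ∃ r : R, ε r = Nat.card (Abelianization G) ∧ ∀ g, r • d g = 0 := by
  classical
  obtain ⟨κ, _, n, hn, ⟨e⟩⟩ := CommGroup.equiv_prod_multiplicative_zmod_of_finite (Abelianization G)
  choose x hx using fun i : κ =>
    QuotientGroup.mk_surjective (e.symm (Pi.mulSingle i (Multiplicative.ofAdd 1)))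
  have := Fintype.ofFinite (_root_.commutator G)
  let m : κ ⊕ _root_.commutator G → M := Sum.elim (fun i => d (x i)) fun k => d k
  have hW : ∀ g, d g ∈ Submodule.span R (Set.range m) := by
    let H : Submonoid G :=
      { carrier := {g | ∀ k : _root_.commutator G, d (g * k) ∈ Submodule.span R (Set.range m)}
        one_mem' := fun k => by rw [one_mul]; exact Submodule.subset_span ⟨Sum.inr k, rfl⟩
        mul_mem' := fun {a b} ha hb k => by
          rw [mul_assoc, hd]
          exact add_mem (Submodule.smul_mem _ _ (by simpa using ha 1)) (hb k) }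
    have hxH : ∀ i, x i ∈ H := fun i k => by
      rw [hd]
      exact add_mem (Submodule.smul_mem _ _ (Submodule.subset_span ⟨Sum.inl i, rfl⟩))
        (Submodule.subset_span ⟨Sum.inr k, rfl⟩)
    intro g
    have h1 : e (Abelianization.of g) ∈ H.map (e.toMonoidHom.comp Abelianization.of) := by
      rw [← Finset.univ_prod_mulSingle (e (Abelianization.of g))]
      refine prod_mem fun i _ => ?_
      have := NeZero.of_gt (hn i)
      rw [← ofAdd_toAdd (e _ i), ← ZMod.natCast_zmod_val (Multiplicative.toAdd _), ← nsmul_one,
        ofAdd_nsmul, Pi.mulSingle_pow]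
      exact pow_mem (Submonoid.mem_map.2 ⟨x i, hxH i, e.eq_symm_apply.1 (hx i)⟩) _
    obtain ⟨h, hh, he⟩ := h1
    simpa using hh ⟨h⁻¹ * g, QuotientGroup.eq.1 (e.injective he)⟩
  set I := RingHom.ker ε
  set W := Submodule.span R (Set.range m)
  let f : G →* Multiplicative (M ⧸ I • W) := MonoidHom.mk'
    (fun g => Multiplicative.ofAdd (Submodule.Quotient.mk (d g))) fun g h => by
      rw [← ofAdd_add, ← Submodule.Quotient.mk_add, hd]
      refine congrArg _ ((Submodule.Quotient.eq _).2 ?_)
      rw [add_sub_add_right_eq_sub, ← one_smul R (d g), smul_smul, ← sub_smul]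
      exact Submodule.smul_mem_smul (by simp [I, hε]) (hW g)
  have hf : ∀ k ∈ _root_.commutator G, f k = 1 := fun k hk => Abelianization.commutator_subset_ker f hk
  let N : κ ⊕ _root_.commutator G → ℕ := Sum.elim n 1
  have hN : ∀ j, N j • m j ∈ I • W := by
    rintro (i | k)
    · have h1 : x i ^ n i ∈ _root_.commutator G := by
        rw [← QuotientGroup.eq_one_iff, QuotientGroup.mk_pow, hx]
        change (e.symm _ : Abelianization G) ^ n i = 1
        rw [← map_pow, ← Pi.mulSingle_pow, ← ofAdd_nsmul]
        simp
      have h2 := hf _ h1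
      rw [map_pow] at h2
      exact (Submodule.Quotient.mk_eq_zero _).1 (congrArg Multiplicative.toAdd h2)
    · exact (one_nsmul (d k)).symm ▸
        (Submodule.Quotient.mk_eq_zero _).1 (congrArg Multiplicative.toAdd (hf k k.2))
  choose c hc hc' using fun j => (Submodule.mem_ideal_smul_span_iff_exists_sum I m _).1 (hN j)
  let B : Matrix _ _ R := Matrix.diagonal (fun j => (N j : R)) - Matrix.of fun j k => c j k
  refine ⟨B.det, ?_, fun g => ?_⟩
  · have : ε.mapMatrix B = Matrix.diagonal fun j => (N j : ℤ) := by
      ext j k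
      simp [B, (RingHom.mem_ker.1 (hc j k)), Matrix.diagonal_apply, apply_ite ε]
    rw [RingHom.map_det, this, Matrix.det_diagonal, Nat.card_congr e.toEquiv]
    simp [N, Nat.card_pi, Nat.card_congr Multiplicative.toAdd]
  · refine Submodule.span_induction ?_ (smul_zero _) (fun u v _ _ h1 h2 => ?_)
      (fun a u _ h => ?_) (hW g)
    · rintro _ ⟨j, rfl⟩
      refine det_smul_eq_zero B m (fun j => ?_) j
      have := hc' j
      rw [Finsupp.sum_fintype _ _ (by simp)] at this
      simp [B, sub_smul, Matrix.diagonal_apply, this, Nat.cast_smul_eq_nsmul]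
    · rw [smul_add, h1, h2, add_zero]
    · rw [smul_comm, h, smul_zero]


/-- The Principal Ideal Theorem of class field theory in its group-theoretic form: for every finite group `G`, the transfer homomorphism from `G` into the abelianization `G'/G''` of its derived subgroup `G'` is the trivial homomorphism. -/
theorem result {G : Type*} [Group G] [Finite G] :
    MonoidHom.transfer (Abelianization.of : ↥(commutator G) →* Abelianization ↥(commutator G)) =
      (1 : G →* Abelianization ↥(commutator G)) := by
  classical
  let Q := Abelianization G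
  let A := Abelianization (_root_.commutator G)
  have := Fintype.ofFinite Q
  let ρ : Representation ℤ Q (Q → Additive A) :=
    { toFun := fun q => LinearMap.funLeft ℤ _ (q * ·)
      map_one' := by ext; simp
      map_mul' := fun a b => by ext; simp [mul_left_comm, mul_assoc] }
  let φ : _root_.commutator G →* A := Abelianization.of
  obtain ⟨r, hr, h⟩ := exists_ann (M := ρ.asModule × MonoidAlgebra ℤ Q)
    (fun g : G => MonoidAlgebra.single (Abelianization.of g) (1 : ℤ))
    (MonoidAlgebra.lift ℤ ℤ Q 1).toRingHom (by simp)
    (fun g => (ρ.asModuleEquiv.symm fun q => Additive.ofMul (H90.trCoc φ g q),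
      MonoidAlgebra.single (Abelianization.of g) 1 - 1)) fun g h => Prod.ext
        (ρ.asModuleEquiv.injective (by
          funext q
          rw [Prod.fst_add, map_add, Prod.smul_fst, Representation.asModuleEquiv_map_smul,
            Representation.asAlgebraHom_single_one]
          exact congrArg Additive.ofMul (H90.isCoc_trCoc φ g h q)))
        (by simp [mul_sub, MonoidAlgebra.single_mul_single, mul_comm (Abelianization.of g)])
  have h1 : ∀ q, r.coeff q = r.coeff 1 := fun q => by
    obtain ⟨g, rfl⟩ := QuotientGroup.mk_surjective q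
    have := congrArg (fun s => s.2.coeff (Abelianization.of g)) (h g)
    exact (by simpa [mul_sub, sub_eq_zero] using this :
      r.coeff 1 = r.coeff (Abelianization.of g)).symm
  have h2 : r.coeff 1 = 1 := by
    change MonoidAlgebra.lift ℤ ℤ Q 1 r = _ at hr
    rw [MonoidAlgebra.lift_apply, Finsupp.sum_fintype _ _ (by simp)] at hr
    simpa [h1, Q] using hr
  ext g
  have h3 := congrFun (congrArg (fun s => ρ.asModuleEquiv s.1) (h g)) 1
  simp only [Prod.smul_fst, Representation.asModuleEquiv_map_smul, Representation.asAlgebraHom_def,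
    MonoidAlgebra.lift_apply] at h3
  rw [Finsupp.sum_fintype _ _ (by simp)] at h3
  rw [@H90.transfer_eq_prod_trCoc _ _ _ _ _ _ this]
  exact Additive.ofMul.injective ((ofMul_prod _ _).trans (by simpa [h1, h2, ρ] using h3 :
    ∑ q : Q, Additive.ofMul (H90.trCoc φ g q) = 0))

end Cfsg.Agent.S4320
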