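import Cfsg.Statements.S4416
import Mathlib
import Cfsg.Agent.H89.XS2

set_option autoImplicit false
open Cfsg

namespace Cfsg.Agent.S4416

/-- Classification of extraspecial 2-groups in intrinsic form. An extraspecial 2-group has order 2^(2m+1) for some m ≥ 1, and the number of its elements squaring to the identity is either 2^(2m) + 2^m or 2^(2m) − 2^m; two extraspecial 2-groups of the same order with the same number of such elements are isomorphic. (The two cases are the central products of m dihedral groups of order 8, and of m − 1 dihedral groups with one quaternion group.) -/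
theorem result (E : Type*) [Group E] [Finite E] (hE : Cfsg.IsExtraspecial 2 E) :
    (∃ m : ℕ, 1 ≤ m ∧ Nat.card E = 2 ^ (2 * m + 1) ∧
      (Nat.card {x : E // x ^ 2 = 1} = 2 ^ (2 * m) + 2 ^ m ∨ Nat.card {x : E // x ^ 2 = 1} = 2 ^ (2 * m) - 2 ^ m)) ∧
    ∀ (E' : Type*) [Group E'] [Finite E'], Cfsg.IsExtraspecial 2 E' → Nat.card E' = Nat.card E →
      Nat.card {x : E' // x ^ 2 = 1} = Nat.card {x : E // x ^ 2 = 1} → Nonempty (E ≃* E') := by
  obtain ⟨z, hz⟩ := H89.XS.of_isExtraspecial hE
  obtain ⟨m, hm, hc⟩ := H89.exists_card_of_isExtraspecial hE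
  refine ⟨⟨m, hm, hc, ?_⟩, fun E' _ _ hE' hc' hj => ?_⟩
  · have h1 := H89.ssum_eq (G := E)
    rw [hc] at h1
    push_cast at h1
    have hle : 2 ^ m ≤ 2 ^ (2 * m) := Nat.pow_le_pow_right (by norm_num) (by omega)
    rcases hz.ssum_eq_or hc with h | h
    · left
      zify
      rw [h] at h1
      have h2 : (2 : ℤ) * Nat.card {x : E // x ^ 2 = 1} = 2 * (2 ^ (2 * m) + 2 ^ m) := by
        linear_combination -h1
      exact mul_left_cancel₀ two_ne_zero h2
    · right
      zify [hle]
      rw [h] at h1
      have h2 : (2 : ℤ) * Nat.card {x : E // x ^ 2 = 1} = 2 * (2 ^ (2 * m) - 2 ^ m) := by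
        linear_combination -h1
      exact mul_left_cancel₀ two_ne_zero h2
  · obtain ⟨z', hz'⟩ := H89.XS.of_isExtraspecial hE'
    obtain ⟨f, -⟩ := H89.XS.exists_mulEquiv_two m hz hz' hc (hc'.trans hc)
      (H89.ssum_congr hc'.symm hj.symm)
    exact ⟨f⟩

end Cfsg.Agent.S4416
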