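import Cfsg.Statements.S4422
-- import your own Cfsg.Agent.* helpers here

set_option autoImplicit false
open Cfsg

namespace Cfsg.Agent.S4422

theorem aux (e : ℕ) : ∀ m : ℕ, m ≠ 0 → (∀ p : ℕ, p.Prime → p ∣ m → p ≡ 1 [MOD e]) →
    m ≡ 1 [MOD e] := by
  intro m
  induction m using Nat.recOnMul with
  | zero => intro h; exact absurd rfl h
  | one => intro _ _; rfl
  | prime p hp => intro _ h; exact h p hp dvd_rfl
  | mul a b iha ihb =>
    intro h0 h
    have := (iha (left_ne_zero_of_mul h0) (fun p hp hd => h p hp (hd.mul_right _))).mul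
      (ihb (right_ne_zero_of_mul h0) (fun p hp hd => h p hp (hd.mul_left _)))
    simpa using this


/-- Primitive divisors of `q^e - 1` are congruent to 1 modulo `e`. Let `q ≥ 2` and `e ≥ 1` be natural numbers and let `m` be a divisor of `q^e - 1` that is coprime to `q^i - 1` for every `1 ≤ i < e` (so `m` divides the primitive part of `q^e - 1`, the largest such divisor). Then `m ≡ 1 (mod e)`. -/
theorem result (q e m : ℕ) (hq : 2 ≤ q) (he : 1 ≤ e)
    (hm : m ∣ q ^ e - 1) (hcop : ∀ i : ℕ, 1 ≤ i → i < e → Nat.Coprime m (q ^ i - 1)) :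
    m % e = 1 % e := by
  have hpos : 1 < q ^ e := Nat.one_lt_pow (by omega) (by omega)
  have hm0 : m ≠ 0 := by
    rintro rfl
    have := Nat.eq_zero_of_zero_dvd hm
    omega
  apply aux e m hm0
  intro p hp hpm
  haveI : Fact p.Prime := ⟨hp⟩
  have key : ∀ i : ℕ, p ∣ q ^ i - 1 ↔ (q : ZMod p) ^ i = 1 := by
    intro i
    have h1 : 1 ≤ q ^ i := Nat.one_le_pow _ _ (by omega)
    rw [← ZMod.natCast_eq_zero_iff, Nat.cast_sub h1]
    push_cast
    exact sub_eq_zero
  have h1 : (q : ZMod p) ^ e = 1 := (key e).1 (hpm.trans hm)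
  have hq0 : (q : ZMod p) ≠ 0 := by
    intro h
    rw [h, zero_pow (by omega)] at h1
    exact zero_ne_one h1
  have hord : orderOf (q : ZMod p) = e := by
    have hd : orderOf (q : ZMod p) ∣ e := orderOf_dvd_of_pow_eq_one h1
    have hd0 : 0 < orderOf (q : ZMod p) := Nat.pos_of_dvd_of_pos hd (by omega)
    by_contra hne
    have hlt : orderOf (q : ZMod p) < e := lt_of_le_of_ne (Nat.le_of_dvd (by omega) hd) hne
    have hc := hcop _ hd0 hlt
    have h2 : p ∣ q ^ orderOf (q : ZMod p) - 1 := (key _).2 (pow_orderOf_eq_one _)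
    have := Nat.dvd_gcd hpm h2
    rw [hc] at this
    exact hp.one_lt.ne' (Nat.dvd_one.1 this)
  have h3 : e ∣ p - 1 := hord ▸ ZMod.orderOf_dvd_card_sub_one hq0
  exact ((Nat.modEq_iff_dvd' hp.one_le).2 h3).symm

end Cfsg.Agent.S4422
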