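import Cfsg.Statements.S4425
import Cfsg.Agent.H21.TildeInt

set_option autoImplicit false
open Cfsg

namespace Cfsg.Agent.S4425

open Cfsg Cfsg.Agent.H19 Cfsg.Agent.H21

/-- Let χ be an irreducible character of the finite group G, p a prime, p^a the p-part of the order of G and p^b the p-part of the degree χ(1). Let χ̃ be the class function equal to p^a · χ on p-regular elements and zero on p-singular elements. Then p^(−b) · χ̃ is a generalized character of G, while p^(−(b+1)) · χ̃ is not. -/
theorem result {G : Type*} [Group G] [Finite G] (p : ℕ) [Fact p.Prime] (χ : Cfsg.IrrCharacter G) : Cfsg.IsGeneralizedCharacter G (fun x : G => if p ∣ orderOf x then (0 : ℂ) else ((p ^ ((Nat.card G).factorization p - (Cfsg.charDegree (χ : G → ℂ)).factorization p) : ℕ) : ℂ) * (χ : G → ℂ) x) ∧ ¬ Cfsg.IsGeneralizedCharacter G (fun x : G => if p ∣ orderOf x then (0 : ℂ) else ((p ^ (Nat.card G).factorization p : ℕ) : ℂ) / ((p ^ ((Cfsg.charDegree (χ : G → ℂ)).factorization p + 1) : ℕ) : ℂ) * (χ : G → ℂ) x) :=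 by
  classical
  have := Fintype.ofFinite G
  have hp : p.Prime := Fact.out
  obtain ⟨M, hM⟩ := exists_isPModular hp
  have hp0 : (p : ℂ) ≠ 0 := Nat.cast_ne_zero.2 hp.ne_zero
  have hcf := preg_isClassFunction (p := p) (H11.isClassFunction_of_irr χ.2)
  have hle := nu_le hM χ
  constructor
  · rw [tilde_eq]
    refine H11.isGen_of_classInner_int (H11.isClassFunction_smul hcf _) fun ψ hψ => ?_
    have h : val M (ti p χ.1 ψ) ≤ val M (p : ℂ) ^ nu p χ := by
      rw [← val_deg hM]
      exact val_ti_irr_le_left hM χ ⟨ψ, hψ⟩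
    obtain ⟨m, hm⟩ := exists_int_div_pow hM (exists_int_ti_irr χ ⟨ψ, hψ⟩) h
    refine ⟨m, ?_⟩
    rw [H11.classInner_smul_left]
    obtain ⟨k, hk⟩ := Nat.exists_eq_add_of_le hle
    rw [ti_def, hk, pow_add, mul_assoc] at hm
    have hm' := mul_left_cancel₀ (pow_ne_zero _ hp0) hm
    rw [hk, Nat.add_sub_cancel_left]
    push_cast
    exact hm'
  · intro h
    rw [tilde_eq] at h
    obtain ⟨k, hk⟩ := exists_int_apply_one (p := p) h (fun x hx => by
      rw [Pi.smul_apply, preg_of_sing _ hx, smul_zero])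
    rw [Pi.smul_apply, preg_one hp, smul_eq_mul] at hk
    have h2 : χ.1 1 = (p : ℂ) ^ (nu p χ + 1) * k := by
      push_cast at hk
      field_simp at hk
      rw [hk]
    have h3 : val M (χ.1 1) ≤ val M (p : ℂ) ^ (nu p χ + 1) := by
      rw [h2, map_mul, map_pow]
      exact mul_le_of_le_one_right' (val_le_one (intCast_mem_Vr k))
    rw [val_deg hM, val_p_pow_le_iff hM] at h3
    omega

end Cfsg.Agent.S4425
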