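import Cfsg.Statements.S4427
import Cfsg.Agent.H16.BrauerBlock
import Cfsg.Agent.H14.Induce
import Cfsg.Agent.H11.Kernel
import Cfsg.Agent.H19.GaloisNum

set_option autoImplicit false
open Cfsg

namespace Cfsg.Agent.S4427

open Cfsg.Agent.H16 Cfsg.Agent.H11
open scoped ComplexConjugate

theorem exists_triv {G : Type*} [Group G] [Finite G] {p : ℕ} {M : Ideal AlgInt}
    (hM : IsPModular p M) : ∃ i : IBr M G, ibr p i = pRegularPart p (fun _ => 1) := by
  have h1 := degree_eq_sum_dnum (G := G) hM isCharacter_one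
  have h2 : ∑ i : IBr M G, dnum (fun _ : G => (1 : ℂ)) i * bdim i = 1 := by
    exact_mod_cast h1.symm
  obtain ⟨i, -, hi⟩ := Finset.exists_ne_zero_of_sum_ne_zero (h2.trans_ne one_ne_zero)
  rw [← Finset.add_sum_erase _ _ (Finset.mem_univ i)] at h2
  have h3 : dnum (fun _ : G => (1 : ℂ)) i * bdim i = 1 := by omega
  have h4 : ∑ j ∈ Finset.univ.erase i, dnum (fun _ : G => (1 : ℂ)) j * bdim j = 0 := by omega
  rw [Finset.sum_eq_zero_iff] at h4
  refine ⟨i, ?_⟩
  rw [pRegularPart_eq_sum_dnum hM isCharacter_one, Finset.sum_eq_single i,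
    Nat.eq_one_of_mul_eq_one_right h3]
  · simp
  · intro j _ hj
    have h5 := h4 j (Finset.mem_erase.2 ⟨hj, Finset.mem_univ _⟩)
    rw [(Nat.mul_eq_zero.1 h5).resolve_right (bdim_pos j).ne']
    simp
  · simp

theorem exists_ind_eq {G : Type*} [Group G] [Fintype G] {p : ℕ} {M : Ideal AlgInt}
    (hM : IsPModular p M) {i : IBr M G} (hi : ibr p i = pRegularPart p (fun _ => 1))
    {Q : Subgroup G} (hQ : ¬ p ∣ Nat.card Q) :
    ∃ n : IBr M G → ℕ, n i = 1 ∧ indFun Q (fun _ => 1) = ∑ j, (n j : ℂ) • pim j := by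
  have := Fintype.ofFinite Q
  choose n hn using fun j : IBr M G =>
    exists_nat_classInner isCharacter_one (isCharacter_ibr_restrict hM hQ j)
  refine ⟨n, ?_, ?_⟩
  · have h1 := hn i
    have h2 : (fun h : Q => ibr p i h) = fun _ => 1 := by
      funext h
      rw [hi, pRegularPart_of_not_dvd]
      exact fun h1 => hQ (h1.trans (Subgroup.orderOf_dvd_natCard _ h.2))
    rw [h2, classInner_irr_self isIrrCharacter_one] at h1
    exact_mod_cast h1.symm
  · rw [eq_sum_pim hM (H14.indFun_isClassFunction Q fun _ => 1) fun g hg =>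
      H14.indFun_eq_zero_of_not_conj Q _ g fun x hx => hQ ?_]
    · refine Finset.sum_congr rfl fun j _ => ?_
      rw [H14.classInner_indFun_left Q _ (isClassFunction_ibr j), hn]
    · rw [← orderOf_conj_eq g x] at hg
      exact hg.trans (Subgroup.orderOf_dvd_natCard _ hx)

/-- Let G be a finite group of order p^a · q^b · r^c with p, q, r distinct primes, and suppose that G has exactly q^b · r^c elements of order not divisible by p. Then G has a normal p-complement: a normal subgroup of order q^b · r^c. -/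
theorem result {G : Type*} [Group G] [Finite G] (p q r a b c : ℕ) (hp : p.Prime) (hq : q.Prime) (hr : r.Prime) (hpq : p ≠ q) (hpr : p ≠ r) (hqr : q ≠ r) (hG : Nat.card G = p ^ a * q ^ b * r ^ c) (hcount : Nat.card {g : G // ¬ p ∣ orderOf g} = q ^ b * r ^ c) : ∃ N : Subgroup G, N.Normal ∧ Nat.card N = q ^ b * r ^ c := by
  classical
  have := Fintype.ofFinite G
  have := Fact.mk hq
  have := Fact.mk hr
  obtain ⟨M, hM⟩ := H19.exists_isPModular hp
  obtain ⟨i, hi⟩ := exists_triv (G := G) hM
  obtain ⟨Q, hQ⟩ := Sylow.exists_subgroup_card_pow_prime (G := G) q (n := b)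
    (hG ▸ (dvd_mul_left _ _).mul_right _)
  obtain ⟨R, hR⟩ := Sylow.exists_subgroup_card_pow_prime (G := G) r (n := c)
    (hG ▸ dvd_mul_left _ _)
  obtain ⟨n, hn, hQe⟩ := exists_ind_eq hM hi (Q := Q) (by
    rw [hQ]; exact fun h => hpq ((Nat.prime_dvd_prime_iff_eq hp hq).1 (hp.dvd_of_dvd_pow h)))
  obtain ⟨m, hm, hRe⟩ := exists_ind_eq hM hi (Q := R) (by
    rw [hR]; exact fun h => hpr ((Nat.prime_dvd_prime_iff_eq hp hr).1 (hp.dvd_of_dvd_pow h)))
  have hq0 : (q : ℂ) ≠ 0 := by exact_mod_cast hq.ne_zero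
  have hr0 : (r : ℂ) ≠ 0 := by exact_mod_cast hr.ne_zero
  have hp0 : (p : ℂ) ≠ 0 := by exact_mod_cast hp.ne_zero
  have h1 : classInner (indFun Q fun _ => 1) (indFun R fun _ => 1) = (p ^ a : ℕ) := by
    rw [classInner, Finset.sum_eq_single 1, H14.indFun_one, H14.indFun_one]
    · have h2 : Q.index = p ^ a * r ^ c := by
        apply Nat.eq_of_mul_eq_mul_left (pow_pos hq.pos b)
        rw [← hQ, Subgroup.card_mul_index, hG, hQ]
        ring
      have h3 : R.index = p ^ a * q ^ b := by
        apply Nat.eq_of_mul_eq_mul_left (pow_pos hr.pos c)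
        rw [← hR, Subgroup.card_mul_index, hG, hR]
        ring
      rw [h2, h3, hG, mul_one, mul_one, map_natCast]
      push_cast
      field_simp
    · intro g _ hg
      by_cases h2 : ∀ x : G, x * g * x⁻¹ ∉ Q
      · rw [H14.indFun_eq_zero_of_not_conj Q _ g h2, zero_mul]
      · push Not at h2
        obtain ⟨x, hx⟩ := h2
        rw [H14.indFun_eq_zero_of_not_conj R _ g fun y hy => hg ?_, map_zero, mul_zero]
        have h3 := Subgroup.orderOf_dvd_natCard _ hx
        have h4 := Subgroup.orderOf_dvd_natCard _ hy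
        rw [orderOf_conj_eq] at h3 h4
        rw [hQ] at h3
        rw [hR] at h4
        rw [← orderOf_eq_one_iff]
        exact Nat.eq_one_of_dvd_coprimes (Nat.coprime_pow_primes b c hq hr hqr) h3 h4
    · simp
  have h2 : cartan i i ≤ p ^ a := by
    rw [hQe, hRe] at h1
    simp only [classInner_sum_left, classInner_sum_right, classInner_smul_left,
      classInner_smul_right, map_natCast, ← cast_cartan] at h1
    have h3 : ∑ j, ∑ k, m j * (n k * cartan k j) = p ^ a := by
      simp only [← Finset.mul_sum]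
      exact_mod_cast h1
    rw [← h3]
    refine le_trans ?_ (Finset.single_le_sum (f := fun j => ∑ k, m j * (n k * cartan k j))
      (fun _ _ => Nat.zero_le _) (Finset.mem_univ i))
    refine le_trans ?_ (Finset.single_le_sum (f := fun k => m i * (n k * cartan k i))
      (fun _ _ => Nat.zero_le _) (Finset.mem_univ i))
    simp [hn, hm]
  have h3 : (p ^ a : ℕ) * classInner (ibr p i) (ibr p i) = 1 := by
    have h4 : ∑ g : G, ibr p i g * conj (ibr p i g) = (q ^ b * r ^ c : ℕ) := by
      rw [← hcount, Nat.card_eq_fintype_card, Fintype.card_subtype, Finset.card_filter]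
      push_cast
      refine Finset.sum_congr rfl fun g _ => ?_
      by_cases h : p ∣ orderOf g
      · simp [hi, pRegularPart_of_dvd _ h, h]
      · simp [hi, pRegularPart_of_not_dvd _ h, h]
    rw [classInner, h4, hG]
    push_cast
    field_simp
  have h4 : pim i - ((p ^ a : ℕ) : ℂ) • ibr p i = 0 := by
    have h5 : classInner (pim i - ((p ^ a : ℕ) : ℂ) • ibr p i)
        (pim i - ((p ^ a : ℕ) : ℂ) • ibr p i) = ((cartan i i : ℝ) - (p ^ a : ℕ) : ℝ) := by
      rw [classInner_sub_left, classInner_sub_right, classInner_sub_right, classInner_smul_left,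
        classInner_smul_left, classInner_smul_right, classInner_smul_right, map_natCast, h3,
        classInner_pim_ibr hM, classInner_ibr_pim hM, ← cast_cartan]
      simp
    have h6 := classInner_self_re_nonneg (pim i - ((p ^ a : ℕ) : ℂ) • ibr p i)
    rw [h5, Complex.ofReal_re] at h6
    have h7 : (cartan i i : ℝ) ≤ (p ^ a : ℕ) := by exact_mod_cast h2
    rw [← classInner_self_eq_zero, h5, show (cartan i i : ℝ) - (p ^ a : ℕ) = 0 by linarith]
    simp
  rw [sub_eq_zero, hi] at h4
  refine ⟨charKer (pim i), charKer_normal (isClassFunction_pim i), ?_⟩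
  rw [← hcount]
  refine Nat.card_congr (Equiv.subtypeEquivRight fun g => ?_)
  rw [mem_charKer_iff (isCharacter_pim i), h4]
  by_cases h : p ∣ orderOf g
  · simp [pRegularPart_of_dvd _ h, pRegularPart_of_not_dvd _ (not_dvd_orderOf_one hM), h, hp0,
      eq_comm]
  · simp [pRegularPart_of_not_dvd _ h, pRegularPart_of_not_dvd _ (not_dvd_orderOf_one hM), h]

end Cfsg.Agent.S4427
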