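import Cfsg.Statements.S4443
import Cfsg.Agent.H17.Robinson

set_option autoImplicit false
open Cfsg

namespace Cfsg.Agent.S4443

/-- Let D be a normal p-subgroup of the finite group G, of order p^d, let p^a be the p-part of the order of G, and fix a Sylow p-subgroup S and a maximal ideal M of the algebraic integers containing p. Index by a finite type ι (via an injective map K) exactly the conjugacy classes of p-regular elements x of G for which D is a Sylow p-subgroup of C_G(x). For classes K_i, K_j let ω(i, j) be the number of pairs (y, z) ∈ K_i × K_j with z y⁻¹ ∈ S; this number is divisible by p^(a−d). Then the number of p-blocks of G having D as a defect group equals the rank over ℤ/pℤ of the matrix with (i, j) entry ω(i, j)/p^(a−d) reduced modulo p. -/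
theorem result {G : Type*} [Group G] [Finite G] (p : ℕ) [Fact p.Prime] (M : Ideal Cfsg.AlgInt) (hM : Cfsg.IsPModular p M) (D : Subgroup G) [D.Normal] (hD : IsPGroup p D) (S : Sylow p G) {ι : Type*} [Fintype ι] [DecidableEq ι] (K : ι → ConjClasses G) (hKinj : Function.Injective K) (hK : ∀ C : ConjClasses G, (∃ i, K i = C) ↔ ∃ x ∈ C.carrier, ¬ p ∣ orderOf x ∧ ∃ Q : Sylow p (Subgroup.centralizer ({x} : Set G)), (Q : Subgroup (Subgroup.centralizer ({x} : Set G))).map (Subgroup.centralizer ({x} : Set G)).subtype = D) : Nat.card {B : Set (Cfsg.IrrCharacter G) // Cfsg.IsPBlock M B ∧ Cfsg.IsDefectGroup p M B D} = (Matrix.of fun i j : ι => ((Nat.card {yz : G × G // yz.1 ∈ (K i).carrier ∧ yz.2 ∈ (K j).carrier ∧ yz.2 * yz.1⁻¹ ∈ (S : Subgroup G)} / p ^ ((Nat.card G).factorization p - (Nat.card D).factorization p) : ℕ) : ZMod p)).rank := by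
  have := H19.charP_kk hM
  choose x hx1 hx2 hx3 using fun i => (hK (K i)).1 ⟨i, rfl⟩
  have hx1' : ∀ i, ConjClasses.mk (x i) = K i := fun i => ConjClasses.mem_carrier_iff_mk_eq.1 (hx1 i)
  have hx3' : ∀ i, H8.IsSylowIn p D (H17.Cg (x i)) := fun i =>
    H8.isSylowIn_iff_exists_sylow.2 (hx3 i)
  have hmem : ∀ i y, y ∈ (K i).carrier ↔ IsConj (x i) y := fun i y => by
    rw [ConjClasses.mem_carrier_iff_mk_eq, ← hx1', eq_comm, ConjClasses.mk_eq_mk_iff_isConj]
  have hd : (Nat.card D).factorization p ≤ (Nat.card G).factorization p := by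
    have := H21.factorization_card_eq (p := p) D
    omega
  obtain ⟨k, hk⟩ := IsPGroup.iff_card.1 hD
  have hdg : ∀ B, IsPBlock M B →
      (IsDefectGroup p M B D ↔ blockDefect p B = (Nat.card D).factorization p) := fun B hB =>
    ⟨fun h => (H17.dg_factorization hM hB h).symm, fun h =>
      H17.dg_of_br_of_card hM hB hD (H17.br_eB_ne_zero_of_normal hM hD hB) (by
        rw [h, hk, Nat.factorization_pow_self hM.1])⟩
  have hcov : ∀ g, ¬ p ∣ orderOf g → H8.IsSylowIn p D (H17.Cg g) → ∃ i, IsConj (x i) g := by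
    intro g h1 h2
    obtain ⟨i, hi⟩ := (hK (ConjClasses.mk g)).2
      ⟨g, ConjClasses.mem_carrier_mk, h1, H8.isSylowIn_iff_exists_sylow.1 h2⟩
    exact ⟨i, ConjClasses.mk_eq_mk_iff_isConj.1 ((hx1' i).trans hi)⟩
  have h := H17.robinson_rank hM S hd x
    (fun i j e => hKinj ((hx1' i).symm.trans ((ConjClasses.mk_eq_mk_iff_isConj.2 e).trans (hx1' j))))
    (fun i => by rw [(hx3' i).card_eq, Nat.factorization_pow_self hM.1]) (by
      intro B g h1 h2 _
      have hcl := H17.lamClosed_of_isPBlock hM.2.1 B.2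
      have h3 := H17.not_dvd_of_coeff_eB_ne_zero hM hcl h2
      have h4 := H17.dg_isSylowIn_of_coeff hM B.2 ((hdg _ B.2).2 h1) h2 (by
        by_contra hc
        exact h2 (H17.coeff_eB_eq_zero_of_normal hM hD hcl hc))
      refine ⟨hcov g h3 h4, ?_⟩
      obtain ⟨i, hi⟩ := hcov g⁻¹ (by rwa [orderOf_inv]) (by rwa [H17.Cg_inv])
      exact ⟨i, by simpa only [inv_inv] using H17.isConj_inv' hi⟩)
  rw [← H17.matrix_rank_map (ZMod.castHom (dvd_refl p) (H19.kk M))]
  refine Eq.trans ?_ (h.symm.trans ?_)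
  · exact Nat.card_congr
      { toFun := fun B => ⟨⟨B.1, B.2.1⟩, (hdg _ B.2.1).1 B.2.2⟩
        invFun := fun B => ⟨B.1.1, B.1.2, (hdg _ B.1.2).2 B.2⟩
        left_inv := fun _ => rfl
        right_inv := fun _ => rfl }
  · congr 1
    ext i j
    simp only [Matrix.map_apply, Matrix.of_apply, map_natCast, hmem, H17.Om]

end Cfsg.Agent.S4443
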