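import Cfsg.Statements.S4444
import Cfsg.Agent.H23.Glauberman

set_option autoImplicit false
open Cfsg

namespace Cfsg.Agent.S4444

/-- The Glauberman correspondence for a p-group of operators. Inside a finite group Γ let S normalise G with the orders of G and S coprime, S a p-group, and let C = G ⊓ C(S) be the fixed points. Call an irreducible character χ of G S-invariant when χ(s g s⁻¹) = χ(g) for s ∈ S, g ∈ G. Then: (i) for every S-invariant χ there is exactly one irreducible character β of C whose multiplicity [χ_C, β] in the restriction of χ is not divisible by p; (ii) that multiplicity is ≡ 1 or ≡ −1 (mod p); (iii) distinct S-invariant χ give distinct β; (iv) every irreducible character of C arises in this way. So χ ↦ β is a bijection from the S-invariant irreducible characters of G onto the irreducible characters of C. -/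
theorem result {Γ : Type*} [Group Γ] [Fintype Γ] (G S : Subgroup Γ) [Fintype G] (hnorm : ∀ s ∈ S, ∀ g ∈ G, s * g * s⁻¹ ∈ G) (hcop : (Nat.card G).Coprime (Nat.card S)) (p : ℕ) (hp : p.Prime) (hS : IsPGroup p S) (C : Subgroup Γ) [Fintype C] (hC : C = G ⊓ Subgroup.centralizer (S : Set Γ)) (hCG : C ≤ G) : (∀ χ : Cfsg.IrrCharacter G, (∀ s ∈ S, ∀ g g' : G, (g' : Γ) = s * g * s⁻¹ → (χ : G → ℂ) g' = (χ : G → ℂ) g) → ∃! β : Cfsg.IrrCharacter C, ∃ m : ℕ, Cfsg.classInner (fun c : C => (χ : G → ℂ) ⟨c, hCG c.2⟩) (β : C → ℂ) = (m : ℂ) ∧ ¬ p ∣ m) ∧ (∀ χ : Cfsg.IrrCharacter G, (∀ s ∈ S, ∀ g g' : G, (g' : Γ) = s * g * s⁻¹ → (χ : G → ℂ) g' = (χ : G → ℂ) g) → ∀ β : Cfsg.IrrCharacter C, ∀ m : ℕ, Cfsg.classInner (fun c : C => (χ : G → ℂ) ⟨c, hCG c.2⟩) (β : C → ℂ) = (m : ℂ) → ¬ p ∣ m → ((m : ℤ) ≡ 1 [ZMOD p] ∨ (m : ℤ) ≡ -1 [ZMOD p])) ∧ (∀ χ χ' : Cfsg.IrrCharacter G, (∀ s ∈ S, ∀ g g' : G, (g' : Γ) = s * g * s⁻¹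 → (χ : G → ℂ) g' = (χ : G → ℂ) g) → (∀ s ∈ S, ∀ g g' : G, (g' : Γ) = s * g * s⁻¹ → (χ' : G → ℂ) g' = (χ' : G → ℂ) g) → ∀ β : Cfsg.IrrCharacter C, ∀ m m' : ℕ, Cfsg.classInner (fun c : C => (χ : G → ℂ) ⟨c, hCG c.2⟩) (β : C → ℂ) = (m : ℂ) → ¬ p ∣ m → Cfsg.classInner (fun c : C => (χ' : G → ℂ) ⟨c, hCG c.2⟩) (β : C → ℂ) = (m' : ℂ) → ¬ p ∣ m' → χ = χ') ∧ (∀ β : Cfsg.IrrCharacter C, ∃ χ : Cfsg.IrrCharacter G, (∀ s ∈ S, ∀ g g' : G, (g' : Γ) = s * g * s⁻¹ → (χ : G → ℂ) g' = (χ : G → ℂ) g) ∧ ∃ m : ℕ, Cfsg.classInner (fun c : C => (χ : G → ℂ) ⟨c, hCG c.2⟩) (β : C → ℂ) = (m : ℂ) ∧ ¬ p ∣ m) := by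
  have hSG : S ≤ Subgroup.normalizer (G : Set Γ) := H23.le_normalizer_of_conj_mem hnorm
  have hmem : ∀ g, g ∈ C ↔ g ∈ G ∧ ∀ x ∈ S, x * g * x⁻¹ * g⁻¹ ∈ (⊥ : Subgroup Γ) := by
    intro g
    rw [hC, Subgroup.mem_inf, Subgroup.mem_centralizer_iff]
    refine and_congr_right fun _ => forall₂_congr fun x _ => ?_
    rw [Subgroup.mem_bot, mul_inv_eq_one, mul_inv_eq_iff_eq_mul]
  have hinvC : ∀ β : C → ℂ, H23.InvBy C S β := fun β s hs =>
    H23.invEl_of_centralizes β fun g hg => by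
      have := ((hmem g).1 hg).2 s hs
      rwa [Subgroup.mem_bot, mul_inv_eq_one] at this
  have H : H23.IsCorr p S hCG := by
    by_cases hbot : S = ⊥
    · obtain rfl : C = G := le_antisymm hCG fun g hg => (hmem g).2 ⟨hg, fun x hx => by
        rw [hbot, Subgroup.mem_bot] at hx
        simp [hx]⟩
      exact H23.isCorr_refl hp S hCG
    refine H23.isCorr_of_isPGroup hp (N := ⊥) hS Subgroup.le_normalizer_of_normal hSG bot_le
      Subgroup.le_normalizer_of_normal ?_ hmem hCG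
    rw [Subgroup.relIndex_bot_left]
    intro hd
    have : Fact p.Prime := ⟨hp⟩
    obtain ⟨k, hk⟩ := IsPGroup.iff_card.1 hS
    have hk0 : k ≠ 0 := by
      rintro rfl
      exact hbot (Subgroup.eq_bot_of_card_eq S (by simpa using hk))
    have := Nat.Coprime.eq_one_of_dvd (hcop.coprime_dvd_left hd) (hk ▸ dvd_pow_self p hk0)
    exact hp.one_lt.ne' this
  refine ⟨fun χ hχ => ?_, fun χ hχ β m hm hd => ?_, fun χ χ' hχ hχ' β m m' hm hd hm' hd' => ?_,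
    fun β => ?_⟩
  · obtain ⟨β, -, hβ⟩ := H.exR χ hχ
    refine ⟨β, ⟨_, H23.mult_spec hCG χ β, hβ⟩, ?_⟩
    rintro β' ⟨m, hm, hd⟩
    exact H.uniqR χ β' β hχ (hinvC _) (hinvC _) (by rwa [H23.mult_eq_of_inner hCG hm]) hβ
  · have := H.modEq χ β hχ (hinvC _) (by rwa [H23.mult_eq_of_inner hCG hm])
    rw [H23.mult_eq_of_inner hCG hm] at this
    rcases this with h | h
    · left
      exact (ZMod.intCast_eq_intCast_iff _ _ p).1 (by simpa using h)
    · right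
      exact (ZMod.intCast_eq_intCast_iff _ _ p).1 (by simpa using h)
  · exact H.uniqL χ χ' β hχ hχ' (hinvC _) (by rwa [H23.mult_eq_of_inner hCG hm])
      (by rwa [H23.mult_eq_of_inner hCG hm'])
  · obtain ⟨χ, hχ, hd⟩ := H.exL β (hinvC _)
    exact ⟨χ, hχ, _, H23.mult_spec hCG χ β, hd⟩

end Cfsg.Agent.S4444
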