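import Cfsg.Statements.S4445
import Cfsg.Agent.H23.Over

set_option autoImplicit false
open Cfsg

namespace Cfsg.Agent.S4445

/-- Conjugation action of a group on itself. -/
@[reducible] def conjAct (Γ : Type*) [Group Γ] : MulAction Γ Γ where
  smul a x := a * x * a⁻¹
  one_smul x := by
    change 1 * x * 1⁻¹ = x
    simp
  mul_smul a b x := by
    change a * b * x * (a * b)⁻¹ = a * (b * x * b⁻¹) * a⁻¹
    group

/-- Inside a finite group Γ let the solvable subgroup S normalise G with the orders of G and S coprime. Then the number of S-invariant irreducible characters of G (χ(s g s⁻¹) = χ(g) for all s ∈ S, g ∈ G) equals the number of conjugacy classes of G mapped to themselves by conjugation by every element of S. -/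
theorem result {Γ : Type*} [Group Γ] [Fintype Γ] (G S : Subgroup Γ) [Fintype G] (hnorm : ∀ s ∈ S, ∀ g ∈ G, s * g * s⁻¹ ∈ G) (hcop : (Nat.card G).Coprime (Nat.card S)) (hsolv : Group.IsSolvable S) : Nat.card {χ : Cfsg.IrrCharacter G // (∀ s ∈ S, ∀ g g' : G, (g' : Γ) = s * g * s⁻¹ → (χ : G → ℂ) g' = (χ : G → ℂ) g)} = Nat.card {K : ConjClasses G // ∀ s ∈ S, ∀ g g' : G, (g' : Γ) = s * g * s⁻¹ → ConjClasses.mk g = K → ConjClasses.mk g' = K} := by
  have hSG : S ≤ Subgroup.normalizer (G : Set Γ) := H23.le_normalizer_of_conj_mem hnorm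
  set C := G ⊓ Subgroup.centralizer (S : Set Γ) with hC
  have hCG : C ≤ G := inf_le_left
  have hmem : ∀ g, g ∈ C ↔ g ∈ G ∧ ∀ x ∈ S, x * g * x⁻¹ * g⁻¹ ∈ (⊥ : Subgroup Γ) := by
    intro g
    rw [hC, Subgroup.mem_inf, Subgroup.mem_centralizer_iff]
    refine and_congr_right fun _ => forall₂_congr fun x _ => ?_
    rw [Subgroup.mem_bot, mul_inv_eq_one, mul_inv_eq_iff_eq_mul]
  have hfix : ∀ s ∈ S, ∀ g ∈ C, s * g * s⁻¹ = g := fun s hs g hg => by
    have := ((hmem g).1 hg).2 s hs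
    rwa [Subgroup.mem_bot, mul_inv_eq_one] at this
  have hinvC : ∀ β : C → ℂ, H23.InvBy C S β := fun β s hs =>
    H23.invEl_of_centralizes β (hfix s hs)
  obtain ⟨f, -⟩ := H23.exists_equiv_of_solvMod (N := ⊥) (S := S) Subgroup.le_normalizer_of_normal
    (m := Nat.card S) (fun s hs => by rw [H4.pow_card_eq_one_of_mem hs]; exact one_mem _)
    (H23.solvMod_of_isSolvable _ hsolv) bot_le Subgroup.le_normalizer_of_normal hSG
    (by rw [Subgroup.relIndex_bot_left]; exact hcop.symm) hmem hCG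
  refine (Nat.card_congr f).trans ?_
  rw [Nat.card_congr (Equiv.subtypeUnivEquiv fun ξ : IrrCharacter C => hinvC ξ.1),
    H11.card_irr_eq_card_conjClasses]
  refine Nat.card_eq_of_bijective
    (fun K => ⟨ConjClasses.map (Subgroup.inclusion hCG) K, ?_⟩) ⟨?_, ?_⟩
  · obtain ⟨c, rfl⟩ := ConjClasses.mk_surjective K
    intro s hs g g' e hg
    change _ = ConjClasses.mk (Subgroup.inclusion hCG c) at hg ⊢
    rw [ConjClasses.mk_eq_mk_iff_isConj, isConj_iff] at hg ⊢
    obtain ⟨x, hx⟩ := hg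
    refine ⟨⟨_, hnorm s hs x x.2⟩, Subtype.ext ?_⟩
    have hx' : (x : Γ) * g * (x : Γ)⁻¹ = c := congrArg Subtype.val hx
    change s * x * s⁻¹ * g' * (s * x * s⁻¹)⁻¹ = c
    rw [e, ← hfix s hs c c.2, ← hx']; group
  · intro K K' e
    obtain ⟨c, rfl⟩ := ConjClasses.mk_surjective K
    obtain ⟨c', rfl⟩ := ConjClasses.mk_surjective K'
    have e' : ConjClasses.mk (Subgroup.inclusion hCG c) =
      ConjClasses.mk (Subgroup.inclusion hCG c') := congrArg Subtype.val e
    rw [ConjClasses.mk_eq_mk_iff_isConj, isConj_iff] at e' ⊢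
    obtain ⟨x, hx⟩ := e'
    have hx' : (x : Γ) * c * (x : Γ)⁻¹ = c' := congrArg Subtype.val hx
    obtain ⟨d, hd, hd'⟩ := @H4.exists_centralizer_smul_eq Γ _ _ Γ (conjAct Γ) S G hSG hcop.symm
      (Or.inl hsolv) c x x.2 (fun a ha => hfix a ha c c.2) (fun a ha => by
        change a * ((x : Γ) * c * (x : Γ)⁻¹) * a⁻¹ = (x : Γ) * c * (x : Γ)⁻¹
        rw [hx']; exact hfix a ha c' c'.2)
    exact ⟨⟨d, hd⟩, Subtype.ext (hd'.trans hx')⟩
  · rintro ⟨K, hK⟩
    obtain ⟨g, rfl⟩ := ConjClasses.mk_surjective K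
    obtain ⟨k, hk, hk'⟩ := @H4.exists_fixed_in_orbit Γ _ _ Γ (conjAct Γ) S G hSG hcop.symm
      (Or.inl hsolv) g (fun a ha => by
        have := hK a ha g ⟨_, hnorm a ha g g.2⟩ rfl rfl
        rw [eq_comm, ConjClasses.mk_eq_mk_iff_isConj, isConj_iff] at this
        obtain ⟨x, hx⟩ := this
        exact ⟨x, x.2, (congrArg Subtype.val hx).symm⟩)
    have hc : k * g * k⁻¹ ∈ C := (hmem _).2 ⟨mul_mem (mul_mem hk g.2) (inv_mem hk), fun a ha => by
      rw [Subgroup.mem_bot, mul_inv_eq_one]; exact hk' a ha⟩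
    refine ⟨ConjClasses.mk ⟨_, hc⟩, Subtype.ext ?_⟩
    change ConjClasses.mk (Subgroup.inclusion hCG ⟨_, hc⟩) = ConjClasses.mk g
    rw [eq_comm, ConjClasses.mk_eq_mk_iff_isConj, isConj_iff]
    exact ⟨⟨k, hk⟩, rfl⟩

end Cfsg.Agent.S4445
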