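import Cfsg.Statements.S4446
import Cfsg.Agent.H23.CyclicTop

set_option autoImplicit false
open Cfsg

namespace Cfsg.Agent.S4446

open Subgroup

theorem exists_pow_coprime {Γ : Type*} [Group Γ] [Finite Γ] {s s' : Γ}
    (h : zpowers s' = zpowers s) : ∃ k : ℕ, k.Coprime (orderOf s) ∧ s' = s ^ k := by
  have h1 : s' ∈ Submonoid.powers s := mem_powers_iff_mem_zpowers.2 (h ▸ mem_zpowers s')
  obtain ⟨k, rfl⟩ := h1
  refine ⟨k, ?_, rfl⟩
  have h2 : orderOf (s ^ k) = orderOf s := by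
    rw [← Nat.card_zpowers, ← Nat.card_zpowers]
    exact congrArg (fun H : Subgroup Γ => Nat.card H) h
  rw [orderOf_pow, Nat.div_eq_self] at h2
  exact Nat.Coprime.symm (h2.resolve_left (orderOf_pos s).ne')

theorem irr_fst {C S : Type*} [Group C] [Group S] (β : IrrCharacter C) :
    IsIrrCharacter (C × S) fun d => β.1 d.1 :=
  H11.isIrrCharacter_comp_of_surjective β.2 (MonoidHom.fst C S) Prod.fst_surjective

theorem exists_corr {Γ : Type*} [Group Γ] [Fintype Γ] {G S C : Subgroup Γ} [Fintype G] [G.Normal]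
    [Fintype C] (hcop : (Nat.card G).Coprime (Nat.card S)) (htop : G ⊔ S = ⊤)
    (hC : C = G ⊓ centralizer (S : Set Γ)) (hCG : C ≤ G) {s : Γ} (hs : zpowers s = S)
    (χ : IrrCharacter G) (χh : IrrCharacter Γ) (hext : ∀ g : G, χh.1 g = χ.1 g)
    (hdet : (detOrder χh.1).Coprime (Nat.card S)) :
    ∃ (β : IrrCharacter C) (ε : ℤ), (ε = 1 ∨ ε = -1) ∧
      ∀ c : C, ∀ s : Γ, zpowers s = S → χh.1 ((c : Γ) * s) = (ε : ℂ) * β.1 c := by
  let _ := Fintype.ofFinite S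
  have hCS : C ≤ centralizer (S : Set Γ) := hC ▸ inf_le_right
  have hsS : s ∈ S := hs ▸ mem_zpowers s
  have hidx := H23.index_eq_card_of_sup hcop htop
  have St := H23.isSetup_prod hcop htop hC hCG hCS hs hsS
  have hirr : IsIrrCharacter G fun g => χh.1 (G.subtype g) := by
    have : (fun g => χh.1 (G.subtype g)) = χ.1 := funext hext
    rw [this]; exact χ.2
  have hc := H11.irr_isCharacter χh
  obtain ⟨ω, h1, h2, h3⟩ := St.exists_right hc hirr
  let β : IrrCharacter C := ⟨_, h2⟩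
  obtain ⟨lam, h4, h5⟩ := H23.exists_linear_mul_eq (H23.inl_injective C S)
    (H23.range_inl_normal C S) (H23.commutator_mem_of_generator St.normC St.genC) (irr_fst β) h1
    (by
      have := H11.classInner_irr_self h2
      intro h0
      exact one_ne_zero (this.symm.trans h0))
  have h6 := (St.eta_eq_zero_or hc hirr (H11.isCharacter_of_irr h1) h2).resolve_left h3
  have h7 := St.apply_eq hc hirr (H11.isCharacter_of_irr h1) h2 h3
  obtain ⟨a, ha, h8⟩ : ∃ a : ℂ, ‖a‖ = 1 ∧ ∀ c : C, χh.1 (c * s) = a * β.1 c := by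
    refine ⟨_ * (lam (1, ⟨s, hsS⟩) : ℂ), by rw [norm_mul, h6, H11.norm_monoidHom_apply, one_mul],
      fun c => ?_⟩
    have e := h7 c
    have e2 := congrFun h5 (MonoidHom.inl C S c * (1, ⟨s, hsS⟩))
    rw [Pi.mul_apply, map_mul, h4 c, one_mul] at e2
    rw [e2] at e
    simp only [H23.jHom_apply, Prod.fst_mul, Prod.snd_mul, MonoidHom.inl_apply, mul_one,
      one_mul] at e
    rw [e, mul_assoc, mul_comm (β.1 c)]
    rfl
  have hsn : s ^ G.index = 1 := by rw [hidx]; exact H4.pow_card_eq_one_of_mem hsS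
  obtain ⟨z, hz⟩ := H23.canonical_apply_int (hidx ▸ hcop) χ χh.2 hext (hidx ▸ hdet) hsn
  obtain ⟨d, hd0, hd⟩ := H11.exists_pos_degree β.2
  have h9 : (z : ℂ) = a * d := by
    have := h8 1
    rwa [OneMemClass.coe_one, one_mul, hz, hd] at this
  have h10 : |z| = d := by
    have := congrArg norm h9
    rw [norm_mul, ha, one_mul, Complex.norm_intCast, Complex.norm_natCast] at this
    exact_mod_cast this
  have hd' : (d : ℂ) ≠ 0 := by exact_mod_cast hd0.ne'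
  obtain ⟨ε, hε, hεa⟩ : ∃ ε : ℤ, (ε = 1 ∨ ε = -1) ∧ a = ε := by
    rcases eq_or_eq_neg_of_abs_eq h10 with e | e
    · refine ⟨1, Or.inl rfl, mul_right_cancel₀ hd' ?_⟩
      rw [← h9, e]; simp
    · refine ⟨-1, Or.inr rfl, mul_right_cancel₀ hd' ?_⟩
      rw [← h9, e]; simp
  refine ⟨β, ε, hε, fun c s' hs' => ?_⟩
  obtain ⟨k, hk, rfl⟩ := exists_pow_coprime (hs'.trans hs.symm)
  rw [H23.canonical_apply_mul_pow (hidx ▸ hcop) χ χh.2 hext (hidx ▸ hdet) (hCG c.2) hsn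
    (hCS c.2 s hsS).symm (by rwa [hidx, ← hs, Nat.card_zpowers]), h8, hεa]

theorem inner_eq {C : Type*} [Group C] [Fintype C] {f : C → ℂ} {β β' : IrrCharacter C} {a : ℂ}
    (h : ∀ c, f c = a * β.1 c) : classInner f β'.1 = a * classInner β.1 β'.1 := by
  rw [← H11.classInner_smul_left]
  congr 1
  exact funext h

theorem sign_ne_zero {ε : ℤ} (h : ε = 1 ∨ ε = -1) : (ε : ℂ) ≠ 0 := by
  rcases h with rfl | rfl <;> simp

/-- Let the finite group Γ be generated by a normal subgroup G and a cyclic subgroup S of coprime orders, C = G ⊓ C(S), and let χ be an S-invariant irreducible character of G with canonical extension χ̂ to Γ (the extension whose determinantal order is coprime to the order of S). Then there are exactly one irreducible character β of C and one sign ε such that χ̂(c s) = ε β(c) for every c ∈ C and every generator s of S; this β is a constituent of the restriction of χ to C; distinct S-invariant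 χ give distinct β; and every irreducible character of C arises in this way. -/
theorem result {Γ : Type*} [Group Γ] [Fintype Γ] (G S : Subgroup Γ) [Fintype G] (hnorm : ∀ s ∈ S, ∀ g ∈ G, s * g * s⁻¹ ∈ G) (hcop : (Nat.card G).Coprime (Nat.card S)) (htop : G ⊔ S = ⊤) (hcyc : IsCyclic S) (C : Subgroup Γ) [Fintype C] (hC : C = G ⊓ Subgroup.centralizer (S : Set Γ)) (hCG : C ≤ G) : (∀ (χ : Cfsg.IrrCharacter G) (χh : Cfsg.IrrCharacter Γ), (∀ s ∈ S, ∀ g g' : G, (g' : Γ) = s * g * s⁻¹ → (χ : G → ℂ) g' = (χ : G → ℂ) g) → (∀ g : G, (χh : Γ → ℂ) g = (χ : G → ℂ) g) → (Cfsg.detOrder (χh : Γ → ℂ)).Coprime (Nat.card S) → (∃! βε : Cfsg.IrrCharacter C × ℤ, (βε.2 = 1 ∨ βε.2 = -1) ∧ ∀ c : C, ∀ s : Γ, Subgroup.zpowers s = S → (χh : Γ → ℂ) ((c : Γ) * s) = (βε.2 : ℂ) * (βε.1 : C → ℂ) c) ∧ ∀ β : Cfsg.IrrCharacter C, ∀ ε : ℤ, (ε = 1 ∨ ε = -1) → (∀ c : C, ∀ s : Γ, Subgroup.zpowers s = S → (χh : Γ → ℂ) ((c : Γ) * s) = (ε : ℂ) * (β :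 C → ℂ) c) → Cfsg.classInner (fun c : C => (χ : G → ℂ) ⟨c, hCG c.2⟩) (β : C → ℂ) ≠ 0) ∧ (∀ (χ χ' : Cfsg.IrrCharacter G) (χh χh' : Cfsg.IrrCharacter Γ), (∀ s ∈ S, ∀ g g' : G, (g' : Γ) = s * g * s⁻¹ → (χ : G → ℂ) g' = (χ : G → ℂ) g) → (∀ s ∈ S, ∀ g g' : G, (g' : Γ) = s * g * s⁻¹ → (χ' : G → ℂ) g' = (χ' : G → ℂ) g) → (∀ g : G, (χh : Γ → ℂ) g = (χ : G → ℂ) g) → (∀ g : G, (χh' : Γ → ℂ) g = (χ' : G → ℂ) g) → (Cfsg.detOrder (χh : Γ → ℂ)).Coprime (Nat.card S) → (Cfsg.detOrder (χh' : Γ → ℂ)).Coprime (Nat.card S) → ∀ β : Cfsg.IrrCharacter C, ∀ ε ε' : ℤ, (ε = 1 ∨ ε = -1) → (ε' = 1 ∨ ε' = -1) → (∀ c : C, ∀ s : Γ, Subgroup.zpowers s = S → (χh : Γ → ℂ) ((c : Γ) * s) = (ε : ℂ) * (β : C → ℂ) c) → (∀ c : C, ∀ s : Γ, Subgroup.zpowers s = S → (χh' : Γ → ℂ) ((c : Γ) * s) = (ε' : ℂ) * (β : C → ℂ) c) → χ = χ') ∧ (∀ β : Cfsg.IrrCharacter C, ∃ (χ : Cfsg.IrrCharacter G) (χh : Cfsg.IrrCharacter Γ) (ε : ℤ), (∀ s ∈ S, ∀ g g' : G, (g'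 : Γ) = s * g * s⁻¹ → (χ : G → ℂ) g' = (χ : G → ℂ) g) ∧ (∀ g : G, (χh : Γ → ℂ) g = (χ : G → ℂ) g) ∧ (Cfsg.detOrder (χh : Γ → ℂ)).Coprime (Nat.card S) ∧ (ε = 1 ∨ ε = -1) ∧ ∀ c : C, ∀ s : Γ, Subgroup.zpowers s = S → (χh : Γ → ℂ) ((c : Γ) * s) = (ε : ℂ) * (β : C → ℂ) c) := by
  have hGn : G.Normal := H23.normal_of_sup_eq_top hnorm htop
  obtain ⟨s, hs⟩ := (Subgroup.isCyclic_iff_exists_zpowers_eq_top S).1 hcyc
  let _ := Fintype.ofFinite S
  have hCS : C ≤ centralizer (S : Set Γ) := hC ▸ inf_le_right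
  have hsS : s ∈ S := hs ▸ mem_zpowers s
  have hidx := H23.index_eq_card_of_sup hcop htop
  have St := H23.isSetup_prod hcop htop hC hCG hCS hs hsS
  have hirr : ∀ (χ : IrrCharacter G) (χh : IrrCharacter Γ), (∀ g : G, χh.1 g = χ.1 g) →
      IsIrrCharacter G fun g => χh.1 (G.subtype g) := fun χ χh hext => by
    have : (fun g => χh.1 (G.subtype g)) = χ.1 := funext hext
    rw [this]; exact χ.2
  have heta : ∀ (χh : Γ → ℂ) (β : IrrCharacter C) (ε : ℤ), (ε = 1 ∨ ε = -1) →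
      (∀ c : C, χh ((c : Γ) * s) = (ε : ℂ) * β.1 c) →
      H23.eta (MonoidHom.inl C S) (fun d => χh (H23.jHom C S hCS d)) (fun d => β.1 d.1)
        (1, ⟨s, hsS⟩) ≠ 0 := by
    intro χh β ε hε h
    rw [H23.eta_prod, inner_eq h, H11.classInner_irr_self β.2, mul_one]
    exact sign_ne_zero hε
  refine ⟨fun χ χh _ hext hdet => ⟨?_, fun β ε hε h h0 => ?_⟩,
    fun χ χ' χh χh' _ _ hext hext' _ _ β ε ε' hε hε' h h' => ?_, fun β => ?_⟩
  · obtain ⟨β, ε, hε, h⟩ := exists_corr hcop htop hC hCG hs χ χh hext hdet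
    refine ⟨(β, ε), ⟨hε, h⟩, ?_⟩
    rintro ⟨β', ε'⟩ ⟨hε', h'⟩
    have e1 := inner_eq (β' := β) (fun c => h c s hs)
    have e2 := inner_eq (β' := β) (fun c => h' c s hs)
    rw [e1, H11.classInner_irr_self β.2, mul_one] at e2
    have e3 : β' = β := Subtype.ext (H11.irr_eq_of_classInner_ne_zero β'.2 β.2 fun h0 => by
      rw [h0, mul_zero] at e2
      exact sign_ne_zero hε e2)
    subst e3
    rw [H11.classInner_irr_self β'.2, mul_one] at e2
    have : ε = ε' := by exact_mod_cast e2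
    rw [this]
  · refine heta χh.1 β ε hε (fun c => h c s hs) ?_
    rw [H23.eta_eq_zero (H23.inl_injective C S) (H23.range_inl_normal C S)
      (H11.isCharacter_comp (H11.irr_isCharacter χh) _) (H11.isCharacter_of_irr (irr_fst β))]
    · rfl
    · rw [← h0]
      congr 1
      funext c
      rw [← hext]
      simp [H23.jHom_apply]
  · have := St.unique_left (H11.irr_isCharacter χh) (hirr χ χh hext) (H11.irr_isCharacter χh')
      (hirr χ' χh' hext') (H11.isCharacter_of_irr (irr_fst β)) β.2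
      (heta χh.1 β ε hε fun c => h c s hs) (heta χh'.1 β ε' hε' fun c => h' c s hs)
    refine Subtype.ext (funext fun g => ?_)
    rw [← hext, ← hext']
    exact congrFun this g
  · obtain ⟨ψ, h1, h2, h3⟩ := St.exists_left (H11.isCharacter_of_irr (irr_fst β)) β.2
    let χ : IrrCharacter G := ⟨_, h2⟩
    have hinv : H23.InvBy G ⊤ χ.1 := H23.invBy_top_iff.2 fun g n =>
      H11.isClassFunction_of_irr h1 n g
    obtain ⟨χh, hext, hdet⟩ := H23.exists_canonical (hidx ▸ hcop) χ hinv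
    rw [hidx] at hdet
    obtain ⟨β', ε, hε, h⟩ := exists_corr hcop htop hC hCG hs χ χh hext hdet
    obtain ⟨lam, h4, h5⟩ := H14.exists_linear_of_ext_of_ext G χh.2 (hirr χ χh hext) h1
      (fun n => (hext n).symm)
    have h6 : ∀ c : C, ψ (c * s) = (lam s * ε : ℂ) * β'.1 c := by
      intro c
      rw [h5, Pi.mul_apply, h c s hs, map_mul, h4 (hCG c.2), one_mul, mul_assoc]
    rw [H23.eta_prod, inner_eq h6] at h3
    obtain rfl : β' = β :=
      Subtype.ext (H11.irr_eq_of_classInner_ne_zero β'.2 β.2 (right_ne_zero_of_mul h3))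
    exact ⟨χ, χh, ε, hinv.mono le_top, hext, hdet, hε, h⟩

end Cfsg.Agent.S4446
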