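import Cfsg.Statements.S4450
import Cfsg.Agent.H23.Over

set_option autoImplicit false
open Cfsg

namespace Cfsg.Agent.S4450

/-- Let N ≤ G be normal subgroups of the finite group Γ with the index of G in Γ coprime to the index of N in G, and Γ/G or G/N solvable. Then for every irreducible character ϑ of N invariant under conjugation by Γ, the induced character ϑ^G has an irreducible constituent invariant under conjugation by Γ. -/
theorem result {Γ : Type*} [Group Γ] [Fintype Γ] (G N : Subgroup Γ) [hG : G.Normal] [hN : N.Normal] [Fintype G] [Fintype N] (hNG : N ≤ G) (hcop : (G.index).Coprime (N.relIndex G)) (hsolv : Group.IsSolvable (Γ ⧸ G) ∨ Group.IsSolvable (G ⧸ N.subgroupOf G)) (θ : Cfsg.IrrCharacter N) (hinv : ∀ (x : Γ) (n : N), (θ : N → ℂ) ⟨x * n * x⁻¹, hN.conj_mem n n.2 x⟩ = (θ : N → ℂ) n) : ∃ χ : Cfsg.IrrCharacter G, Cfsg.classInner (fun n : N => (χ : G → ℂ) ⟨n, hNG n.2⟩) (θ : N → ℂ) ≠ 0 ∧ ∀ (x : Γ) (g : G), (χ : G → ℂ) ⟨x * g * x⁻¹, hG.conj_mem g g.2 x⟩ = (χ : G → ℂ) g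 := by
  let π := QuotientGroup.mk' N
  have hπ : Function.Surjective π := QuotientGroup.mk'_surjective N
  have hGn : (G.map π).Normal := hG.map π hπ
  have hcomap : (G.map π).comap π = G := by
    rw [Subgroup.comap_map_eq, QuotientGroup.ker_mk', sup_eq_left.2 hNG]
  have hidx : (G.map π).index = G.index := by
    rw [← Subgroup.index_comap_of_surjective (G.map π) hπ, hcomap]
  obtain ⟨K, hK⟩ := Subgroup.exists_right_complement'_of_coprime (N := G.map π)
    (by rw [hidx, H3.card_map_mk']; exact hcop.symm)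
  have hKcard : Nat.card K = G.index := by rw [← hidx, hK.symm.index_eq_card]
  let S := K.comap π
  have hm : ∀ s ∈ S, s ^ G.index ∈ N := by
    intro s hs
    rw [← QuotientGroup.eq_one_iff, ← QuotientGroup.mk'_apply, map_pow, ← hKcard]
    exact H4.pow_card_eq_one_of_mem hs
  have hS : ∀ s ∈ S, s ∈ G → s ∈ N := by
    intro s hs hs'
    rw [← QuotientGroup.eq_one_iff]
    exact Subgroup.disjoint_def.1 hK.disjoint ⟨s, hs', rfl⟩ hs
  have htop : G ⊔ S = ⊤ := by
    rw [← hcomap, Subgroup.comap_sup_eq π _ _ hπ, hK.sup_eq_top, Subgroup.comap_top]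
  obtain ⟨χ, h1, h2⟩ := H23.exists_inv_over (S := S) hNG Subgroup.le_normalizer_of_normal
    Subgroup.le_normalizer_of_normal Subgroup.le_normalizer_of_normal hm hcop
    (hsolv.imp (fun h => H23.solvMod_of_hom h ((QuotientGroup.mk' G).comp S.subtype)
      fun x hx => hS x x.2 ((QuotientGroup.eq_one_iff _).1 hx)) H23.solvMod_of_quotient) θ
    (fun s _ g g' e => by rw [← hinv s g]; exact congrArg θ.1 (Subtype.ext e))
  refine ⟨χ, (H23.mult_ne_zero_iff hNG).1 h1, fun x g => ?_⟩
  have h3 := (H23.invBy_self (H11.isClassFunction_of_irr χ.2)).sup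
    Subgroup.le_normalizer_of_normal Subgroup.le_normalizer_of_normal h2
  rw [htop] at h3
  exact h3 x (Subgroup.mem_top x) g _ rfl

end Cfsg.Agent.S4450
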