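import Cfsg.Statements.S4451
import Cfsg.Agent.H23.CyclicTop

set_option autoImplicit false
open Cfsg

namespace Cfsg.Agent.S4451

open Subgroup

theorem irr_fst {C S : Type*} [Group C] [Group S] (β : IrrCharacter C) :
    IsIrrCharacter (C × S) fun d => β.1 d.1 :=
  H11.isIrrCharacter_comp_of_surjective β.2 (MonoidHom.fst C S) Prod.fst_surjective

theorem inner_eq {C : Type*} [Group C] [Fintype C] {f : C → ℂ} {β β' : IrrCharacter C} {a : ℂ}
    (h : ∀ c, f c = a * β.1 c) : classInner f β'.1 = a * classInner β.1 β'.1 := by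
  rw [← H11.classInner_smul_left]
  congr 1
  exact funext h

theorem exists_nat_of_vanish {S : Type*} [Group S] [Finite S] {ψ : S → ℂ} (hψ : IsCharacter S ψ)
    (h : ∀ x, x ≠ 1 → ψ x = 0) : ∃ k : ℕ, ψ 1 = Nat.card S * k := by
  let _ := Fintype.ofFinite S
  obtain ⟨k, hk⟩ := H11.exists_nat_classInner hψ H11.isCharacter_one
  rw [H11.classInner_one_right, Finset.sum_eq_single 1 (fun x _ hx => h x hx) (by simp)] at hk
  exact ⟨k, by rw [← hk, ← mul_assoc, mul_inv_cancel₀ (H11.card_ne_zero S), one_mul]⟩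

/-- Let the finite group Γ be generated by a normal subgroup G and a cyclic subgroup S of coprime orders such that every non-identity element of S has the same centraliser C = G ⊓ C(S) in G. Let χ be an S-invariant irreducible character of G, χ̂ its canonical extension to Γ (determinantal order coprime to the order of S), and β the irreducible character of C with χ̂(c s) = ε₀ β(c) for c ∈ C and generators s of S (ε₀ = ±1). Then there are a sign ε = ±1, which may differ from ε₀, and a linear character μ of S with μ² = 1, such that: (a) χ̂(c x) = ε β(c) μ(x) for all c ∈ C and all x ∈ S other than 1; (b) the restriction of χ to C equals |S|·ϑ + ε β for some character ϑ of C or ϑ = 0; (c) |S| divides χ(1) − ε β(1). -/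
theorem result {Γ : Type*} [Group Γ] [Fintype Γ] (G S : Subgroup Γ) [Fintype G] (hnorm : ∀ s ∈ S, ∀ g ∈ G, s * g * s⁻¹ ∈ G) (hcop : (Nat.card G).Coprime (Nat.card S)) (htop : G ⊔ S = ⊤) (hcyc : IsCyclic S) (C : Subgroup Γ) [Fintype C] (hC : C = G ⊓ Subgroup.centralizer (S : Set Γ)) (hCG : C ≤ G) (hfpf : ∀ x ∈ S, x ≠ 1 → G ⊓ Subgroup.centralizer ({x} : Set Γ) = C) (χ : Cfsg.IrrCharacter G) (hinv : (∀ s ∈ S, ∀ g g' : G, (g' : Γ) = s * g * s⁻¹ → (χ : G → ℂ) g' = (χ : G → ℂ) g)) (χh : Cfsg.IrrCharacter Γ) (hext : (∀ g : G, (χh : Γ → ℂ) g = (χ : G → ℂ) g)) (hdet : (Cfsg.detOrder (χh : Γ → ℂ)).Coprime (Nat.card S)) (β : Cfsg.IrrCharacter C) (ε₀ : ℤ) (hε₀ : ε₀ = 1 ∨ ε₀ = -1) (hβ : ∀ c : C, ∀ s : Γ, Subgroup.zpowers s = S → (χh : Γ → ℂ) ((c : Γ) * s) = (ε₀ : ℂ) * (β : C → ℂ) c) : ∃ ε : ℤ, (ε = 1 ∨ ε = -1) ∧ (∃ μ : S → ℂ, Cfsg.IsCharacter S μ ∧ μ 1 = 1 ∧ (∀ x : S, μ x * μ x = 1) ∧ ∀ c : C, ∀ x : S, x ≠ 1 → (χh : Γ → ℂ) ((c : Γ) * x) = (ε : ℂ)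 * (β : C → ℂ) c * μ x) ∧ (∃ ϑ : C → ℂ, Cfsg.IsCharacter C ϑ ∧ (fun c : C => (χ : G → ℂ) ⟨c, hCG c.2⟩) = fun c => (Nat.card S : ℂ) * ϑ c + (ε : ℂ) * (β : C → ℂ) c) ∧ (Nat.card S : ℤ) ∣ (Cfsg.charDegree (χ : G → ℂ) : ℤ) - ε * (Cfsg.charDegree (β : C → ℂ) : ℤ) := by
  classical
  have hGn : G.Normal := H23.normal_of_sup_eq_top hnorm htop
  obtain ⟨s, hs⟩ := (Subgroup.isCyclic_iff_exists_zpowers_eq_top S).1 hcyc
  let _ := Fintype.ofFinite S
  let _ := Fintype.ofFinite (IrrCharacter C)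
  have hCS : C ≤ centralizer (S : Set Γ) := hC ▸ inf_le_right
  have hsS : s ∈ S := hs ▸ mem_zpowers s
  have hc := H11.irr_isCharacter χh
  have hirr : IsIrrCharacter G fun g : G => χh.1 g := by
    have : (fun g : G => χh.1 g) = χ.1 := funext hext
    rw [this]; exact χ.2
  -- part (c) follows from part (b)
  have hdeg : ∀ (ε : ℤ) (ϑ : C → ℂ), IsCharacter C ϑ →
      ((fun c : C => χ.1 ⟨c, hCG c.2⟩) = fun c => (Nat.card S : ℂ) * ϑ c + (ε : ℂ) * β.1 c) →
      (Nat.card S : ℤ) ∣ (charDegree χ.1 : ℤ) - ε * (charDegree β.1 : ℤ) := by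
    intro ε ϑ hϑ h
    obtain ⟨k, hk⟩ := H11.exists_nat_degree hϑ
    have h1 : χ.1 1 = (Nat.card S : ℂ) * ϑ 1 + (ε : ℂ) * β.1 1 := congrFun h 1
    rw [hk, ← H19.charDegree_cast_irr, ← H19.charDegree_cast_irr] at h1
    refine ⟨k, ?_⟩
    have : ((charDegree χ.1 : ℤ) - ε * (charDegree β.1 : ℤ) : ℤ) = ((Nat.card S * k : ℤ) : ℂ) := by
      push_cast; rw [h1]; ring
    exact_mod_cast this
  by_cases hs1 : s = 1
  · have hS : S = ⊥ := by rw [← hs, hs1, zpowers_one_eq_bot]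
    have h0 : (fun c : C => χ.1 ⟨c, hCG c.2⟩) =
        fun c => (Nat.card S : ℂ) * (0 : C → ℂ) c + (ε₀ : ℂ) * β.1 c := by
      funext c
      rw [← hβ c s hs, ← hext, hs1]; simp
    refine ⟨ε₀, hε₀, ⟨fun _ => 1, H11.isCharacter_one, rfl, fun _ => one_mul _, fun c x hx => ?_⟩,
      ⟨0, H11.isCharacter_zero, h0⟩, hdeg ε₀ 0 H11.isCharacter_zero h0⟩
    exact absurd (Subtype.ext (mem_bot.1 (hS ▸ x.2))) hx
  have hs1' : (⟨s, hsS⟩ : S) ≠ 1 := fun e => hs1 (congrArg Subtype.val e)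
  -- the characters of `S` attached to the irreducible characters of `C`
  let ψ : IrrCharacter C → S → ℂ := fun γ x => classInner (fun c : C => χh.1 (c * x)) γ.1
  have hψ : ∀ γ, IsCharacter S (ψ γ) := fun γ => by
    have := H11.isCharacter_comp (H23.isCharacter_eta (H23.inl_injective C S)
      (H23.range_inl_normal C S) (H11.isCharacter_comp hc (H23.jHom C S hCS))
      (H11.isCharacter_of_irr (irr_fst γ))) (MonoidHom.inr C S)
    convert this using 1
    funext x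
    exact (H23.eta_prod hCS χh.1 γ.1 x).symm
  have hnorm1 : ∀ x : S, x ≠ 1 →
      classInner (fun c : C => χh.1 (c * x)) (fun c : C => χh.1 (c * x)) = 1 := by
    intro x hx
    refine H23.norm_coset_eq_one hCG (fun y hy c hc c' hc' e => ?_) hc hirr
    have := H23.fusion_bot hcop x.2 (t := 1) (Nat.coprime_one_left _) hy (hCG hc) (hCG hc')
      (hCS hc x x.2) (hCS hc' x x.2) (by simpa using e)
    rw [← hfpf x x.2 (fun e => hx (Subtype.ext e))]
    exact ⟨hy, mem_centralizer_singleton_iff.2 this.symm⟩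
  have hcomm : ∀ a b : S, a * b = b * a := fun a b => hcyc.isMulCommutative.is_comm.comm a b
  have hψs : ψ β ⟨s, hsS⟩ = ε₀ := by
    simp only [ψ]
    rw [inner_eq (fun c => hβ c s hs), H11.classInner_irr_self β.2, mul_one]
  obtain ⟨a, ha⟩ := H23.eq_regChar_of_norm_le_one hcomm (H11.isGen_of_isCharacter (hψ β))
    (fun x hx => H23.norm_classInner_le_one (hnorm1 x hx) (H11.classInner_irr_self β.2))
  rcases ha with ha | ⟨ε, μ, hε, ha⟩
  · exfalso
    rw [ha, Pi.smul_apply, H11.regChar_of_ne_one hs1', smul_zero] at hψs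
    rcases hε₀ with rfl | rfl <;> simp at hψs
  have hμ1 : μ.1 1 = 1 := H11.irr_apply_one_of_comm hcomm μ.2
  obtain ⟨lam, hlam⟩ := H11.exists_monoidHom_of_apply_one_eq_one (H11.irr_isCharacter μ) hμ1
  have hval : ∀ x : S, x ≠ 1 → ψ β x = ε * μ.1 x := fun x hx => by
    rw [ha]; simp [H11.regChar_of_ne_one hx]
  have hεn : ‖(ε : ℂ)‖ = 1 := by rcases hε with rfl | rfl <;> simp
  have hA : ∀ (c : C) (x : S), x ≠ 1 → χh.1 (c * x) = ε * μ.1 x * β.1 c := by
    intro c x hx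
    have := H23.eq_smul_of_norm_classInner_eq_one (hnorm1 x hx) (H11.classInner_irr_self β.2)
      (by
        change ‖ψ β x‖ = 1
        rw [hval x hx, norm_mul, hεn, hlam, H11.norm_monoidHom_apply, one_mul])
    rw [← hval x hx]
    exact congrFun this c
  have hsq : ∀ x : S, μ.1 x * μ.1 x = 1 := by
    have h1 : lam ⟨s, hsS⟩ ^ 2 = 1 := by
      apply Units.ext
      have h2 := (hval _ hs1').symm.trans hψs
      rw [hlam] at h2
      have h3 : ((ε : ℂ) * lam ⟨s, hsS⟩) ^ 2 = (ε₀ : ℂ) ^ 2 := by rw [← h2]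
      have h4 : (ε : ℂ) ^ 2 = 1 := by rcases hε with rfl | rfl <;> simp
      have h5 : (ε₀ : ℂ) ^ 2 = 1 := by rcases hε₀ with rfl | rfl <;> simp
      rw [mul_pow, h4, h5, one_mul] at h3
      simpa using h3
    intro x
    have : (x : Γ) ∈ zpowers s := hs ▸ x.2
    obtain ⟨n, hn⟩ := mem_zpowers_iff.1 this
    have e : x = ⟨s, hsS⟩ ^ n := Subtype.ext hn.symm
    rw [hlam]
    simp only
    rw [← Units.val_mul, ← sq, e, map_zpow, ← zpow_natCast, ← zpow_mul, mul_comm, zpow_mul,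
      zpow_natCast, h1]
    simp
  -- multiplicities
  have hmult : ∀ γ : IrrCharacter C, ∃ k : ℕ,
      ψ γ 1 = Nat.card S * k + if γ = β then (ε : ℂ) else 0 := by
    intro γ
    by_cases hγ : γ = β
    · subst hγ
      have hcard : 1 < Nat.card (IrrCharacter S) := by
        rw [H11.card_irr_of_comm hcomm]
        exact Finite.one_lt_card_iff_nontrivial.2 ⟨⟨_, _, hs1'⟩⟩
      have : Nontrivial (IrrCharacter S) := Finite.one_lt_card_iff_nontrivial.1 hcard
      obtain ⟨ν, hν⟩ := exists_ne μ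
      obtain ⟨k, hk⟩ := H11.exists_nat_classInner (hψ γ) (H11.irr_isCharacter ν)
      rw [ha, H11.classInner_add_left, H11.classInner_smul_left, H11.classInner_smul_left,
        H11.classInner_regChar_char (H11.irr_isCharacter ν), H11.irr_apply_one_of_comm hcomm ν.2,
        H11.classInner_irr_of_ne μ.2 ν.2 (fun e => hν (Subtype.ext e).symm)] at hk
      refine ⟨k, ?_⟩
      rw [ha, ← hk]
      simp [H11.regChar_one, hμ1, mul_comm]
    · obtain ⟨k, hk⟩ := exists_nat_of_vanish (hψ γ) (fun x hx => by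
        simp only [ψ]
        rw [inner_eq (fun c => hA c x hx),
          H11.classInner_irr_of_ne β.2 γ.2 (fun e => hγ (Subtype.ext e).symm), mul_zero])
      exact ⟨k, by rw [hk, if_neg hγ, add_zero]⟩
  choose k hk using hmult
  have hB : (fun c : C => χ.1 ⟨c, hCG c.2⟩) = fun c => (Nat.card S : ℂ) *
      (∑ γ : IrrCharacter C, (k γ : ℂ) • γ.1) c + (ε : ℂ) * β.1 c := by
    funext c
    rw [H11.classFun_apply_eq_sum (H11.isClassFunction_of_isCharacter
      (H11.isCharacter_restrict_of_le (H11.irr_isCharacter χ) hCG)) c]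
    have : ∀ γ : IrrCharacter C, classInner (fun c : C => χ.1 ⟨c, hCG c.2⟩) γ.1 = ψ γ 1 := by
      intro γ
      simp only [ψ]
      congr 1
      funext c
      rw [← hext]; simp
    simp only [this, hk, add_mul, Finset.sum_add_distrib, ite_mul, zero_mul, Finset.sum_ite_eq',
      Finset.mem_univ, if_true, Finset.sum_apply, Pi.smul_apply, smul_eq_mul, Finset.mul_sum,
      mul_assoc]
  exact ⟨ε, hε, ⟨μ.1, H11.irr_isCharacter μ, hμ1, hsq, fun c x hx => by rw [hA c x hx]; ring⟩,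
    ⟨_, H11.isCharacter_sum_nat k, hB⟩, hdeg ε _ (H11.isCharacter_sum_nat k) hB⟩

end Cfsg.Agent.S4451
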