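import Cfsg.Statements.S4452
import Cfsg.Agent.H23.Count

set_option autoImplicit false
open Cfsg

namespace Cfsg.Agent.S4452

theorem aux {G : Type*} [Group G] [Finite G] (K H : Subgroup G) [K.Normal] (hKH : K ⊔ H = ⊤)
    (hcop : (Nat.card K).Coprime (Nat.card H)) :
    Nat.card {χ : IrrCharacter G // (charDegree χ.1).Coprime (Nat.card H)} =
      Nat.card {θ : IrrCharacter K // H23.InvBy K H θ.1} * Nat.card (H →* ℂˣ) := by
  have hc : H.IsComplement' K :=
    (Subgroup.isComplement'_of_disjoint_and_mul_eq_univ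
      (Subgroup.disjoint_of_coprime_natCard hcop) (by
        rw [← Subgroup.normal_mul, hKH, Subgroup.coe_top])).symm
  have hidx : K.index = Nat.card H := hc.index_eq_card
  have h1 := H23.card_coprime_degree K (hidx ▸ hcop)
  rw [hidx] at h1
  rw [h1, Nat.card_congr (hc.QuotientMulEquiv.monoidHomCongrLeftEquiv (N := ℂˣ)),
    Nat.card_congr (Equiv.subtypeEquivRight fun θ : IrrCharacter K =>
      H23.invBy_top_iff_of_sup hKH (H11.isClassFunction_of_irr θ.2))]

/-- Let the finite group G be the product of a normal subgroup K and a solvable subgroup H of coprime orders, and let N = N_G(H). Then the number of irreducible characters of G of degree coprime to the order of H equals the number of irreducible characters of N of degree coprime to the order of H. (The two sets are in fact in a canonical bijection; only the equality of their sizes is stated here.) -/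
theorem result {G : Type*} [Group G] [Finite G] (K H : Subgroup G) [K.Normal] (hKH : K ⊔ H = ⊤) (hcop : (Nat.card K).Coprime (Nat.card H)) (hsolv : Group.IsSolvable H) : Nat.card {χ : Cfsg.IrrCharacter G // (Cfsg.charDegree (χ : G → ℂ)).Coprime (Nat.card H)} = Nat.card {η : Cfsg.IrrCharacter (Subgroup.normalizer (H : Set G)) // (Cfsg.charDegree (η : Subgroup.normalizer (H : Set G) → ℂ)).Coprime (Nat.card H)} := by
  set N := Subgroup.normalizer (H : Set G) with hN
  have hHN : H ≤ N := Subgroup.le_normalizer
  have hdisj : Disjoint K H := Subgroup.disjoint_of_coprime_natCard hcop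
  have hC : K ⊓ N = K ⊓ Subgroup.centralizer (H : Set G) := by
    refine le_antisymm (fun x hx => ⟨hx.1, fun h hh => ?_⟩)
      (inf_le_inf_left K (Subgroup.centralizer_le_normalizer _))
    have h1 : h * x * h⁻¹ * x⁻¹ ∈ K :=
      K.mul_mem (Subgroup.Normal.conj_mem inferInstance x hx.1 h) (K.inv_mem hx.1)
    have h2 : h * x * h⁻¹ * x⁻¹ ∈ H := by
      have := H.mul_mem hh (H4.conj_mem_of_mem_normalizer hx.2 (H.inv_mem hh))
      simpa only [mul_assoc] using this
    have := Subgroup.disjoint_def.1 hdisj h1 h2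
    rwa [mul_inv_eq_one, mul_inv_eq_iff_eq_mul] at this
  have hsup : K.subgroupOf N ⊔ H.subgroupOf N = ⊤ := by
    rw [eq_top_iff]
    rintro ⟨x, hx⟩ -
    have : x ∈ K ⊔ H := hKH ▸ Subgroup.mem_top x
    obtain ⟨k, hk, a, ha, rfl⟩ :=
      (H4.mem_sup_iff_of_le_normalizer Subgroup.le_normalizer_of_normal).1 this
    have hkN : k ∈ N := by
      have := N.mul_mem hx (N.inv_mem (hHN ha))
      simpa using this
    exact Subgroup.mul_mem_sup (x := (⟨k, hkN⟩ : N)) (y := (⟨a, hHN ha⟩ : N)) hk ha
  have hcardH : Nat.card (H.subgroupOf N) = Nat.card H := H4.card_subgroupOf_of_le hHN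
  have hcop' : (Nat.card (K.subgroupOf N)).Coprime (Nat.card (H.subgroupOf N)) := by
    rw [hcardH, H3.card_subgroupOf]
    exact hcop.coprime_dvd_left (Subgroup.card_dvd_of_le inf_le_left)
  have h2 := aux (K.subgroupOf N) (H.subgroupOf N) hsup hcop'
  rw [hcardH] at h2
  rw [h2, aux K H hKH hcop, H23.card_inv_eq_card_irr Subgroup.le_normalizer_of_normal hcop hsolv,
    Nat.card_congr ((Subgroup.subgroupOfEquivOfLe hHN).monoidHomCongrLeftEquiv (N := ℂˣ))]
  congr 1
  have hinv : ∀ θ : IrrCharacter (K.subgroupOf N),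
      H23.InvBy (K.subgroupOf N) (H.subgroupOf N) θ.1 := fun θ =>
    H23.invBy_of_le_centralizer (fun x hx h hh => by
      have h3 : (x : G) ∈ K ⊓ N := ⟨hx, x.2⟩
      rw [hC] at h3
      exact Subtype.ext (h3.2 h hh)) θ.1
  rw [Nat.card_congr (Equiv.subtypeUnivEquiv hinv), ← hC, ← Subgroup.inf_subgroupOf_right]
  exact Nat.card_congr (H11.irrEquivOfMulEquiv (Subgroup.subgroupOfEquivOfLe inf_le_right))

end Cfsg.Agent.S4452
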