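import Cfsg.Statements.S4453
import Cfsg.Agent.H23.IsaacsCorr

set_option autoImplicit false
open Cfsg

namespace Cfsg.Agent.S4453

open Subgroup H23

/-- Inside a finite group Γ let S normalise the solvable subgroup G of odd order with the orders of G and S coprime, let C = G ⊓ C(S), and let L ≤ K be S-invariant normal subgroups of G with K/L abelian, G = KC and H = LC (so C ≤ H ≤ G). Then for each S-invariant irreducible character χ of G there is exactly one S-invariant irreducible character ψ of H whose multiplicity in the restriction of χ to H is odd, and χ ↦ ψ is a bijection from the S-invariant irreducible characters of G onto those of H (distinct χ give distinct ψ, and every S-invariant ψ arises). -/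
theorem result {Γ : Type*} [Group Γ] [Fintype Γ] (G S : Subgroup Γ) [Fintype G] (hnorm : ∀ s ∈ S, ∀ g ∈ G, s * g * s⁻¹ ∈ G) (hcop : (Nat.card G).Coprime (Nat.card S)) (hGsolv : Group.IsSolvable G) (hodd : Odd (Nat.card G)) (C : Subgroup Γ) [Fintype C] (hC : C = G ⊓ Subgroup.centralizer (S : Set Γ)) (hCG : C ≤ G) (K L H : Subgroup Γ) [Fintype H] (hLK : L ≤ K) (hKG : K ≤ G) (hKn : ∀ g ∈ G, ∀ k ∈ K, g * k * g⁻¹ ∈ K) (hLn : ∀ g ∈ G, ∀ l ∈ L, g * l * g⁻¹ ∈ L) (hKS : ∀ s ∈ S, ∀ k ∈ K, s * k * s⁻¹ ∈ K) (hLS : ∀ s ∈ S, ∀ l ∈ L, s * l * s⁻¹ ∈ L) (hab : ∀ a ∈ K, ∀ b ∈ K, a * b * a⁻¹ * b⁻¹ ∈ L) (hGKC : K ⊔ C = G) (hH : H = L ⊔ C) (hHG : H ≤ G) : (∀ χ : Cfsg.IrrCharacter G, (∀ s ∈ S, ∀ g g' : G, (g' : Γ) = s * g * s⁻¹ → (χ : G → ℂ) g' = (χ : G → ℂ) g) → ∃! ψ : Cfsg.IrrCharacter H, (∀ s ∈ S, ∀ g g' : H, (g' : Γ) = s * g *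 s⁻¹ → (ψ : H → ℂ) g' = (ψ : H → ℂ) g) ∧ ∃ m : ℕ, Cfsg.classInner (fun h : H => (χ : G → ℂ) ⟨h, hHG h.2⟩) (ψ : H → ℂ) = (m : ℂ) ∧ Odd m) ∧ (∀ χ χ' : Cfsg.IrrCharacter G, (∀ s ∈ S, ∀ g g' : G, (g' : Γ) = s * g * s⁻¹ → (χ : G → ℂ) g' = (χ : G → ℂ) g) → (∀ s ∈ S, ∀ g g' : G, (g' : Γ) = s * g * s⁻¹ → (χ' : G → ℂ) g' = (χ' : G → ℂ) g) → ∀ ψ : Cfsg.IrrCharacter H, (∀ s ∈ S, ∀ g g' : H, (g' : Γ) = s * g * s⁻¹ → (ψ : H → ℂ) g' = (ψ : H → ℂ) g) → ∀ m m' : ℕ, Cfsg.classInner (fun h : H => (χ : G → ℂ) ⟨h, hHG h.2⟩) (ψ : H → ℂ) = (m : ℂ) → Odd m → Cfsg.classInner (fun h : H => (χ' : G → ℂ) ⟨h, hHG h.2⟩) (ψ : H → ℂ) = (m' : ℂ) → Odd m' → χ = χ') ∧ (∀ ψ : Cfsg.IrrCharacter H, (∀ s ∈ S, ∀ g g' : H, (g' : Γ) = s * g * s⁻¹ → (ψ : H → ℂ) g' = (ψ : H → ℂ) g) → ∃ χ : Cfsg.IrrCharacter G, (∀ s ∈ S, ∀ g g' : G, (g' : Γ) = s * g * s⁻¹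 → (χ : G → ℂ) g' = (χ : G → ℂ) g) ∧ ∃ m : ℕ, Cfsg.classInner (fun h : H => (χ : G → ℂ) ⟨h, hHG h.2⟩) (ψ : H → ℂ) = (m : ℂ) ∧ Odd m) := by
  subst hC
  have HH := corrOn_isaacs hLK hKG hHG (le_normalizer_of_conj_mem hLn)
    (le_normalizer_of_conj_mem hKn) (le_normalizer_of_conj_mem hLS) (le_normalizer_of_conj_mem hKS)
    (le_normalizer_of_conj_mem hnorm) hab hGKC hH hcop.symm hGsolv hodd
  have key : ∀ (χ : IrrCharacter G) (ψ : IrrCharacter H) (m : ℕ),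
      classInner (fun h : H => χ.1 ⟨h, hHG h.2⟩) ψ.1 = m → Odd m → ¬ 2 ∣ mult hHG χ ψ :=
    fun χ ψ m hm ho => by rw [mult_eq_of_inner hHG hm]; exact ho.not_two_dvd_nat
  have key' : ∀ (χ : IrrCharacter G) (ψ : IrrCharacter H), ¬ 2 ∣ mult hHG χ ψ →
      ∃ m : ℕ, classInner (fun h : H => χ.1 ⟨h, hHG h.2⟩) ψ.1 = m ∧ Odd m :=
    fun χ ψ h => ⟨_, mult_spec hHG χ ψ, Nat.not_even_iff_odd.1 fun e => h e.two_dvd⟩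
  refine ⟨fun χ hχ => ?_, fun χ χ' hχ hχ' ψ hψ m m' a b c d =>
    HH.uniqL χ χ' ψ hχ hχ' hψ (key _ _ _ a b) (key _ _ _ c d),
    fun ψ hψ => (HH.exL ψ hψ).imp fun χ h => ⟨h.1, key' _ _ h.2⟩⟩
  obtain ⟨ψ, a, b⟩ := HH.exR χ hχ
  refine ⟨ψ, ⟨a, key' _ _ b⟩, ?_⟩
  rintro ψ' ⟨c, m, hm, ho⟩
  exact HH.uniqR χ ψ' ψ hχ c a (key _ _ _ hm ho) b

end Cfsg.Agent.S4453
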