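import Cfsg.Statements.S4454
import Cfsg.Agent.H23.CyclicTop
import Cfsg.Agent.H14.GoingDown

set_option autoImplicit false
open Cfsg

namespace Cfsg.Agent.S4454

open Subgroup

/-- Let N ≤ G be normal subgroups of the finite group Γ with Γ/G cyclic and Γ/N a Frobenius group with kernel G/N: G ≠ Γ, N ≠ G, and no element of Γ outside G fixes a non-identity coset of N in G under conjugation. Let ϑ be an irreducible character of N invariant under conjugation by Γ and suppose ϑ is fully ramified in G: the character of G induced from ϑ equals e·χ for an irreducible character χ of G and a natural number e. Then the index of G in Γ divides e − 1 or e + 1. -/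
theorem result {Γ : Type*} [Group Γ] [Fintype Γ] (G N : Subgroup Γ) [hG : G.Normal] [hN : N.Normal] [Fintype G] [Fintype N] (hNG : N ≤ G) (hGlt : G ≠ ⊤) (hNlt : N ≠ G) (hcyc : IsCyclic (Γ ⧸ G)) (hfrob : ∀ x : Γ, x ∉ G → ∀ g : Γ, g ∈ G → x * g * x⁻¹ * g⁻¹ ∈ N → g ∈ N) (θ : Cfsg.IrrCharacter N) (hinv : ∀ (x : Γ) (n : N), (θ : N → ℂ) ⟨x * n * x⁻¹, hN.conj_mem n n.2 x⟩ = (θ : N → ℂ) n) (χ : Cfsg.IrrCharacter G) (e : ℕ) (hram : Cfsg.indFun (N.subgroupOf G) (fun n : N.subgroupOf G => (θ : N → ℂ) ⟨(n : G), n.2⟩) = fun g => (e : ℂ) * (χ : G → ℂ) g) : (G.index : ℤ) ∣ (e : ℤ) - 1 ∨ (G.index : ℤ) ∣ (e : ℤ) + 1 := by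
  classical
  obtain ⟨γ, hγ⟩ := H23.exists_generator_of_isCyclic_quotient G hcyc
  have hγG : γ ∉ G := fun h => hGlt (by
    rw [eq_top_iff]
    intro x _
    obtain ⟨i, hi⟩ := hγ x
    have := G.mul_mem hi (G.zpow_mem h i)
    simpa using this)
  -- `χ` is the only irreducible character over `θ`
  have hover : ∀ ψ : IrrCharacter G, H23.mult hNG ψ θ = e * if ψ = χ then 1 else 0 := by
    intro ψ
    apply H23.mult_eq_of_inner
    rw [H11.classInner_comm_of_isCharacter
      (H11.isCharacter_restrict_of_le (H11.irr_isCharacter ψ) hNG) (H11.irr_isCharacter θ),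
      ← H14.classInner_indFun_subgroupOf N G hNG θ.1 (H11.isClassFunction_of_irr ψ.2)]
    have : (fun g => (e : ℂ) * χ.1 g) = (e : ℂ) • χ.1 := rfl
    erw [hram]
    rw [this, H11.classInner_smul_left, H11.classInner_irr_irr]
    by_cases h : ψ = χ
    · simp [h]
    · simp [h, Ne.symm h]
  have he : H23.mult hNG χ θ = e := by rw [hover]; simp
  have he0 : e ≠ 0 := by
    obtain ⟨ψ, hψ⟩ := H23.exists_over hNG θ
    rw [hover] at hψ
    exact left_ne_zero_of_mul hψ
  have hθ : H23.InvBy N ⊤ θ.1 := H23.invBy_top_iff.2 hinv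
  have hχ : H23.InvEl G γ χ.1 := by
    refine (H23.cj_eq_self_iff ⟨γ, le_normalizer_of_normal (mem_top γ)⟩ χ).1 ?_
    have := H23.mult_cj_left hNG (le_normalizer_of_normal (mem_top γ))
      (le_normalizer_of_normal (mem_top γ)) χ (hθ γ (mem_top γ))
    rw [he, hover] at this
    by_contra h
    rw [if_neg h, mul_zero] at this
    exact he0 this.symm
  obtain ⟨χh, hχh, hext⟩ := H23.exists_irr_extension G γ hγ χ.2 (fun n => hχ n _ rfl)
  have hc := H11.isCharacter_of_irr hχh
  have hirr : IsIrrCharacter G fun g : G => χh g := by rw [funext hext]; exact χ.2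
  have hγN : γ ∈ normalizer (N : Set Γ) := le_normalizer_of_normal (mem_top γ)
  set D := N ⊔ zpowers γ with hD
  have hND : N ≤ D := le_sup_left
  let _ := Fintype.ofFinite D
  let _ := Fintype.ofFinite (IrrCharacter D)
  obtain ⟨ω, hω⟩ := H23.exists_ext_sup_zpowers hγN θ (hθ γ (mem_top γ))
  have hn : (inclusion hND).range.Normal := H23.range_inclusion_normal hND le_normalizer_of_normal
  have hab := H23.commutator_mem_of_generator hn (H23.gen_sup_zpowers hγN)
  have hDG : ∀ d ∈ D, d ∈ G → d ∈ N := by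
    intro d hd hdG
    obtain ⟨k, hk, a, ha, rfl⟩ := (H4.mem_sup_iff_of_le_normalizer le_normalizer_of_normal).1 hd
    obtain ⟨n, rfl⟩ := mem_zpowers_iff.1 ha
    have h1 : γ ^ n ∈ G := by
      have := G.mul_mem (G.inv_mem (hNG hk)) hdG
      simpa using this
    exact N.mul_mem hk (hfrob γ hγG _ h1 (by group; exact one_mem N))
  have hωirr : IsIrrCharacter N fun n => ω.1 (inclusion hND n) := by rw [hω]; exact θ.2
  have hres : (fun n : N => χh (inclusion hND n)) = (e : ℂ) • θ.1 := by
    funext n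
    rw [Pi.smul_apply, smul_eq_mul, ← he,
      ← H23.res_eq_mult_smul hNG le_normalizer_of_normal (he ▸ he0) (hθ.mono le_top) n, ← hext]
    rfl
  let ψ : D → ℂ := H23.eta (inclusion hND) (fun d : D => χh d) ω.1
  have hψ : IsCharacter D ψ := H23.isCharacter_eta (inclusion_injective hND) hn
    (H11.isCharacter_restrict hc D) (H11.irr_isCharacter ω)
  have hψ1 : ψ 1 = e := by
    simp only [ψ]
    rw [H23.eta_one, hres, hω, H11.classInner_smul_left, H11.classInner_irr_self θ.2, mul_one]
  have hω1 : ∀ d : D, classInner (fun n : N => ω.1 (inclusion hND n * d))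
      (fun n : N => ω.1 (inclusion hND n * d)) = 1 := fun d =>
    congrFun (H23.eta_self (inclusion_injective hND) hn (H11.irr_isCharacter ω) hωirr) d
  have hχ1 : ∀ d : D, (d : Γ) ∉ N →
      classInner (fun n : N => χh (n * d)) (fun n : N => χh (n * d)) = 1 := by
    intro d hd
    refine H23.norm_coset_eq_one hNG (fun x hx c hc c' hc' e => ?_) hc hirr
    have h1 : c * d ∉ G := fun h => hd (hDG d d.2 (by
      have := G.mul_mem (G.inv_mem (hNG hc)) h
      simpa using this))
    have h2 := hfrob _ h1 x⁻¹ (G.inv_mem hx) (by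
      have h3 := hN.conj_mem _ (N.mul_mem hc' (N.inv_mem hc)) x⁻¹
      have h5 : c' = x * (c * d) * x⁻¹ * (d : Γ)⁻¹ := by rw [e]; simp
      rw [h5] at h3
      convert h3 using 1; group)
    simpa using h2
  have hne : ∀ d : D, (d : Γ) ∉ N → ψ d ≠ 0 := by
    intro d hd h0
    have hprop : ∀ ξ : IrrCharacter D, ∃ a : ℂ, ∀ n : N,
        classInner (fun d : D => χh d) ξ.1 * ξ.1 (inclusion hND n * d) =
          a * ω.1 (inclusion hND n * d) := by
      intro ξ
      by_cases h1 : classInner (fun d : D => χh d) ξ.1 = 0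
      · exact ⟨0, fun n => by rw [h1, zero_mul, zero_mul]⟩
      have h2 := H14.inner_comp_ne_zero (H11.isCharacter_restrict hc D) (H11.irr_isCharacter ξ) h1
        (inclusion hND)
      rw [hres, H11.classInner_smul_left, ← hω] at h2
      obtain ⟨lam, h3, h4⟩ := H23.exists_linear_mul_eq (inclusion_injective hND) hn hab ω.2 ξ.2
        ((H11.classInner_ne_zero_comm _ _).1 (right_ne_zero_of_mul h2))
      refine ⟨classInner (fun d : D => χh d) ξ.1 * lam d, fun n => ?_⟩
      rw [congrFun h4 (inclusion hND n * d), Pi.mul_apply, map_mul, h3]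
      simp only [one_mul]; ring
    choose a ha using hprop
    have h5 : (fun n : N => χh (n * d)) =
        (∑ ξ, a ξ) • fun n : N => ω.1 (inclusion hND n * d) := by
      funext n
      rw [Pi.smul_apply, smul_eq_mul, Finset.sum_mul, ← Finset.sum_congr rfl fun ξ _ => ha ξ n]
      exact H11.classFun_apply_eq_sum (H11.isClassFunction_restrict
        (H11.isClassFunction_of_irr hχh) D) (inclusion hND n * d)
    have h6 : ψ d = ∑ ξ, a ξ := by
      change classInner (fun n : N => χh (n * d)) _ = _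
      rw [h5, H11.classInner_smul_left, hω1, mul_one]
    have h7 := hχ1 d hd
    rw [h5, ← h6, h0, zero_smul, H11.classInner_zero_left] at h7
    exact zero_ne_one h7
  -- pass to the quotient
  obtain ⟨φ, hφ, hφ'⟩ := H11.exists_character_lift hψ (N.subgroupOf D) (fun n hn x =>
    H23.eta_mul_left (inclusion hND) _ _ ⟨n, hn⟩ x)
  have hcomm : ∀ a b : D ⧸ N.subgroupOf D, a * b = b * a := by
    intro a b
    obtain ⟨a, rfl⟩ := QuotientGroup.mk_surjective a
    obtain ⟨b, rfl⟩ := QuotientGroup.mk_surjective b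
    rw [← commutatorElement_eq_one_iff_mul_comm, commutatorElement_def, ← QuotientGroup.mk_inv,
      ← QuotientGroup.mk_inv, ← QuotientGroup.mk_mul, ← QuotientGroup.mk_mul,
      ← QuotientGroup.mk_mul, QuotientGroup.eq_one_iff, ← inclusion_range hND]
    exact hab a b
  have hcard : Nat.card (D ⧸ N.subgroupOf D) = G.index := by
    have h1 : G ⊓ D = N := le_antisymm (fun x hx => hDG x hx.2 hx.1) (le_inf hNG hND)
    have h2 : D ⊔ G = ⊤ := by
      rw [eq_top_iff]
      intro x _
      obtain ⟨i, hi⟩ := hγ x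
      have := (D ⊔ G).mul_mem (mem_sup_right hi)
        (mem_sup_left (D.zpow_mem (H23.mem_sup_zpowers N γ) i))
      simpa using this
    change N.relIndex D = _
    rw [← relIndex_top_right, ← h2, relIndex_sup_right, ← inf_relIndex_right G D, h1]
  obtain ⟨a, ha⟩ := H23.eq_regChar_of_norm_le_one hcomm (H11.isGen_of_isCharacter hφ)
    (fun x hx => by
      obtain ⟨d, rfl⟩ := QuotientGroup.mk_surjective x
      rw [hφ']
      exact H23.norm_classInner_le_one
        (hχ1 d fun h => hx ((QuotientGroup.eq_one_iff d).2 h)) (hω1 d))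
  have hγD : γ ∈ D := H23.mem_sup_zpowers N γ
  rcases ha with ha | ⟨ε, μ, hε, ha⟩
  · exfalso
    refine hne ⟨γ, hγD⟩ (fun h => hγG (hNG h)) ?_
    rw [← hφ', ha, Pi.smul_apply, H11.regChar_of_ne_one, smul_zero]
    exact fun h => hγG (hNG ((QuotientGroup.eq_one_iff (⟨γ, hγD⟩ : D)).1 h))
  · have h1 := congrFun ha 1
    rw [← QuotientGroup.mk_one, hφ', hψ1, QuotientGroup.mk_one, Pi.add_apply, Pi.smul_apply,
      Pi.smul_apply, H11.regChar_one, hcard, H11.irr_apply_one_of_comm hcomm μ.2] at h1
    have h2 : (e : ℤ) = a * G.index + ε := by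
      simp only [smul_eq_mul, mul_one] at h1
      exact_mod_cast h1
    rcases hε with rfl | rfl
    · exact Or.inl ⟨a, by rw [h2]; ring⟩
    · exact Or.inr ⟨a, by rw [h2]; ring⟩

end Cfsg.Agent.S4454
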