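import Cfsg.Statements.S4455
import Cfsg.Agent.H24.Thompson

set_option autoImplicit false
open Cfsg

namespace Cfsg.Agent.S4455

/-- Fix a prime p and a finite group G. Let s be the sum of χ(1)² over the irreducible characters χ of G whose degree is not divisible by p and whose determinantal order o(χ) is not divisible by p. Then the order of O^p(G), the subgroup generated by the elements of order prime to p, is congruent to s modulo p. -/
theorem result {G : Type*} [Group G] [Finite G] (p : ℕ) (hp : p.Prime) : (Nat.card (Cfsg.pResidual p G) : ℤ) ≡ (∑ᶠ χ ∈ {χ : Cfsg.IrrCharacter G | ¬ p ∣ Cfsg.charDegree (χ : G → ℂ) ∧ ¬ p ∣ Cfsg.detOrder (χ : G → ℂ)}, (Cfsg.charDegree (χ : G → ℂ) : ℤ) ^ 2) [ZMOD p] := by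
  classical
  have := Fintype.ofFinite (IrrCharacter G)
  have h := H24.card_pResidual_modEq (G := G) hp
  have e : (∑ᶠ χ ∈ {χ : Cfsg.IrrCharacter G | ¬ p ∣ Cfsg.charDegree (χ : G → ℂ) ∧
      ¬ p ∣ Cfsg.detOrder (χ : G → ℂ)}, (Cfsg.charDegree (χ : G → ℂ) : ℤ) ^ 2) =
      ((∑ χ : IrrCharacter G with ¬ p ∣ charDegree χ.1 ∧ ¬ p ∣ detOrder χ.1,
        charDegree χ.1 ^ 2 : ℕ) : ℤ) := by
    push_cast
    rw [← finsum_mem_coe_finset]
    congr 1
    ext χ
    simp
  rw [e]
  exact Int.natCast_modEq_iff.2 h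

end Cfsg.Agent.S4455
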