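import Cfsg.Statements.S4459
import Cfsg.Agent.H24.TwoDeg
import Cfsg.Agent.H24.SmallCenterIndex
import Cfsg.Agent.H24.CyclicOverNormal

set_option autoImplicit false
open Cfsg

namespace Cfsg.Agent.S4459

open Cfsg.Agent.H11 Cfsg.Agent.H24
open scoped commutatorElement ComplexConjugate IsMulCommutative

variable {G : Type*} [Group G]

theorem card_linOver {H : Type*} [Group H] [Finite H] (L : Subgroup H) [L.Normal]
    (h : commutator H ≤ L) : Nat.card (linOver L) = L.index := by
  have h1 : commutator (H ⧸ L) = ⊥ := by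
    rw [← map_mk'_commutator, Subgroup.map_eq_bot_iff, QuotientGroup.ker_mk']; exact h
  have h2 := card_Lin (H ⧸ L)
  rw [h1, Subgroup.index_bot] at h2
  rw [Subgroup.index, ← h2]
  symm
  refine Nat.card_congr (Equiv.ofBijective (fun μ => ⟨Lin.mk (μ.hom.comp (QuotientGroup.mk' L)),
    fun x hx => ?_⟩) ⟨fun a b hab => ?_, fun μ => ?_⟩)
  · change μ.hom (x : H ⧸ L) = 1
    rw [(QuotientGroup.eq_one_iff x).2 hx, map_one]
  · refine Lin.ext fun x => ?_
    obtain ⟨x, rfl⟩ := QuotientGroup.mk_surjective x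
    exact congrArg (fun t : linOver L => t.1.hom x) hab
  · exact ⟨Lin.mk (QuotientGroup.lift L μ.1.hom μ.2), Subtype.ext (Lin.ext fun x => rfl)⟩

/-- linear characters of `A` fixed by `g` -/
def fx (A : Subgroup G) [A.Normal] (g : G) : Subgroup (Lin A) :=
  (conjHom A g).eqLocus (MonoidHom.id _)

theorem mem_fx {A : Subgroup G} [A.Normal] {g : G} {μ : Lin A} :
    μ ∈ fx A g ↔ g ∈ H14.inertia A (lin μ) := (mem_inertia_lin A).symm

/-- the map `a ↦ [g, a]` -/
def dh (A : Subgroup G) [A.Normal] [IsMulCommutative A] (g : G) : A →* A :=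
  (MulAut.conjNormal g).toMonoidHom / MonoidHom.id A

theorem dh_apply (A : Subgroup G) [A.Normal] [IsMulCommutative A] (g : G) (a : A) :
    (dh A g a : G) = g * a * g⁻¹ * (a : G)⁻¹ := by
  simp [dh, div_eq_mul_inv]

theorem fx_eq (A : Subgroup G) [A.Normal] [IsMulCommutative A] (g : G) :
    fx A g = linOver (dh A g).range := by
  ext μ
  have h1 : ∀ a : A, μ.hom (dh A g a) = (conjHom A g μ).hom a * (μ.hom a)⁻¹ := by
    intro a
    rw [conjHom_apply, ← map_inv, ← map_mul]
    congr 1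
    exact Subtype.ext (dh_apply A g a)
  constructor
  · rintro h _ ⟨a, rfl⟩
    have h2 : conjHom A g μ = μ := h
    rw [MonoidHom.mem_ker, h1, h2, mul_inv_cancel]
  · intro h
    refine Lin.ext fun a => ?_
    have h2 : μ.hom (dh A g a) = 1 := h ⟨a, rfl⟩
    rw [h1] at h2
    exact mul_inv_eq_one.1 h2

theorem index_fx [Finite G] (A : Subgroup G) [A.Normal] [IsMulCommutative A] (g : G) :
    (fx A g).index = Nat.card (dh A g).range := by
  have h0 : commutator A = ⊥ := commutator_eq_bot_iff_comm.2 inferInstance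
  have h1 := (fx A g).card_mul_index
  rw [card_Lin, h0, Subgroup.index_bot, ← (dh A g).range.index_mul_card] at h1
  conv_lhs at h1 => rw [fx_eq, card_linOver _ (h0 ▸ bot_le), ← fx_eq]
  exact Nat.eq_of_mul_eq_mul_left (Nat.pos_of_ne_zero Subgroup.index_ne_zero_of_finite) h1

theorem index_center_eq [Finite G] {p : ℕ} (hp : p.Prime) (A : Subgroup G) [A.Normal]
    [IsMulCommutative A] (hi : A.index = p ^ 2) (hc : commutator G ≤ A) (hpow : ∀ g, g ^ p ∈ A)
    (hp' : IsPGroup p (commutator G)) (hin : ∀ μ : Lin A, ¬ H14.inertia A (lin μ) ≤ A)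
    (hna : ∀ x, x ∉ A → ∃ a ∈ A, x * a ≠ a * x) : (Subgroup.center G).index = p ^ 3 := by
  classical
  have := Fact.mk hp
  have := Fintype.ofFinite (Lin A)
  have hAT : ∀ μ : Lin A, A ≤ H14.inertia A (lin μ) := fun μ =>
    H14.le_inertia A (isClassFunction_of_irr (isIrr_lin μ))
  have hH : ∀ x, x ∉ A → (A ⊔ Subgroup.zpowers x).index = p := by
    intro x hx
    have h1 := Subgroup.relIndex_mul_index (le_sup_left (a := A) (b := Subgroup.zpowers x))
    rw [H3.relIndex_sup_zpowers_eq hp hx (hpow x), hi, sq] at h1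
    exact Nat.eq_of_mul_eq_mul_left hp.pos h1
  have hex : ∀ x, x ∉ A → ∃ y, y ∉ A ⊔ Subgroup.zpowers x := by
    intro x hx
    by_contra h
    push Not at h
    have h1 := hH x hx
    rw [(Subgroup.eq_top_iff' _).2 h, Subgroup.index_top] at h1
    exact hp.one_lt.ne h1
  set F : Subgroup (Lin A) := ⨅ g, fx A g with hF
  have hFle : ∀ g, F ≤ fx A g := fun g => iInf_le _ g
  have hgen : ∀ x y, x ∉ A → y ∉ A ⊔ Subgroup.zpowers x → fx A x ⊓ fx A y ≤ F := by
    intro x y hx hy μ hμ
    rw [Subgroup.mem_iInf]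
    intro g
    have h1 := sup_zpowers_eq_top_of_index_prime hp _ (hH x hx) y hy
    have h2 : (⊤ : Subgroup G) ≤ H14.inertia A (lin μ) := by
      rw [← h1]
      exact sup_le (sup_le (hAT μ) (Subgroup.zpowers_le.2 (mem_fx.1 hμ.1)))
        (Subgroup.zpowers_le.2 (mem_fx.1 hμ.2))
    exact mem_fx.2 (h2 trivial)
  have hyx : ∀ x y : G, y ∉ A ⊔ Subgroup.zpowers x → ∀ i : ℕ,
      y * x ^ i ∉ A ⊔ Subgroup.zpowers x := by
    intro x y hy i h
    exact hy ((Subgroup.mul_mem_cancel_right _ (Subgroup.mem_sup_right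
      (Subgroup.npow_mem_zpowers x i))).1 h)
  have hcov : ∀ x y, x ∉ A → y ∉ A ⊔ Subgroup.zpowers x → ∀ μ, μ ∉ fx A x →
      ∃ i ∈ Finset.range p, μ ∈ fx A (y * x ^ i) := by
    intro x y hx hy μ hμ
    obtain ⟨g, hg, hgA⟩ := Set.not_subset.1 (hin μ)
    have hn : (A ⊔ Subgroup.zpowers x).Normal :=
      Subgroup.Normal.of_commutator_le G (hc.trans le_sup_left)
    have h1 : g ∉ A ⊔ Subgroup.zpowers x := by
      intro h
      have h2 : A ⊔ Subgroup.zpowers g ≤ A ⊔ Subgroup.zpowers x :=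
        sup_le le_sup_left (Subgroup.zpowers_le.2 h)
      have h3 := Subgroup.relIndex_mul_index h2
      rw [hH x hx, hH g hgA, mul_eq_right₀ hp.ne_zero, Subgroup.relIndex_eq_one] at h3
      exact hμ (mem_fx.2 ((sup_le (hAT μ) (Subgroup.zpowers_le.2 hg) :
        A ⊔ Subgroup.zpowers g ≤ _) (h3 (Subgroup.mem_sup_right (Subgroup.mem_zpowers x)))))
    have h2 := sup_zpowers_eq_top_of_index_prime hp _ (hH x hx) g h1
    have h3 : y ∈ Subgroup.zpowers g ⊔ (A ⊔ Subgroup.zpowers x) := by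
      rw [sup_comm, h2]; trivial
    obtain ⟨t, ht, h, hh, rfl⟩ := Subgroup.mem_sup_of_normal_right.1 h3
    have h4 : h⁻¹ ∈ Subgroup.zpowers x ⊔ A := by rw [sup_comm]; exact Subgroup.inv_mem _ hh
    obtain ⟨_, ⟨j, rfl⟩, a, ha, h5⟩ := Subgroup.mem_sup_of_normal_right.1 h4
    have hp0 : (0 : ℤ) < p := by exact_mod_cast hp.pos
    refine ⟨(j % p).toNat, Finset.mem_range.2 ?_, mem_fx.2 ?_⟩
    · have := Int.emod_lt_of_pos j hp0
      have := Int.emod_nonneg j hp0.ne'
      omega
    · have h6 : t * h * x ^ (j % p).toNat = t * (((x ^ p) ^ (j / p) * a)⁻¹) := by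
        rw [← zpow_natCast, Int.toNat_of_nonneg (Int.emod_nonneg j hp0.ne'), mul_assoc]
        congr 1
        rw [eq_inv_iff_mul_eq_one, mul_assoc, ← mul_assoc (x ^ (j % p)), ← zpow_natCast,
          ← zpow_mul, ← zpow_add, Int.emod_add_mul_ediv]
        exact mul_eq_one_iff_inv_eq.2 h5.symm
      rw [h6]
      exact Subgroup.mul_mem _ (Subgroup.zpowers_le.2 hg ht) (hAT μ (A.inv_mem
        (A.mul_mem (A.zpow_mem (hpow x) _) ha)))
  have hprop : ∀ x, x ∉ A → fx A x ≠ ⊤ := by
    intro x hx h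
    obtain ⟨a, ha, h1⟩ := hna x hx
    exact h1 (comm_of_forall_conjHom A (fun a ha b hb => setLike_mul_comm ha hb)
      (fun μ => (h ▸ Subgroup.mem_top μ : μ ∈ fx A x)) ha)
  have hcard : ∀ S : Subgroup (Lin A), Nat.card S = (Finset.univ.filter (· ∈ S)).card := by
    intro S
    rw [Nat.card_eq_fintype_card, Fintype.card_subtype]
  have hb : ∀ x, x ∉ A → Nat.card (fx A x) ≤ Nat.card F * p := by
    intro x hx
    obtain ⟨y, hy⟩ := hex x hx
    obtain ⟨ν, hν⟩ : ∃ ν, ν ∉ fx A x := by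
      by_contra h
      push Not at h
      exact hprop x hx (eq_top_iff.2 fun μ _ => h μ)
    have h1 : ∀ μ ∈ Finset.univ.filter (· ∈ fx A x), ∃ i ∈ Finset.range p,
        ν * μ ∈ fx A (y * x ^ i) := fun μ hμ => hcov x y hx hy _ fun h =>
      hν ((Subgroup.mul_mem_cancel_right _ (Finset.mem_filter.1 hμ).2).1 h)
    choose! f hf1 hf2 using h1
    rw [hcard, ← Finset.card_range p]
    refine Finset.card_le_mul_card_image_of_maps_to hf1 _ fun i _ => ?_
    rcases ((Finset.univ.filter (· ∈ fx A x)).filter (fun μ => f μ = i)).eq_empty_or_nonempty with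
      h | ⟨μ₀, h⟩
    · rw [h]; simp
    rw [hcard]
    refine Finset.card_le_card_of_injOn (fun μ => μ₀⁻¹ * μ) (fun μ hμ => ?_)
      (fun _ _ _ _ h => mul_left_cancel h)
    obtain ⟨h2, h3⟩ := Finset.mem_filter.1 h
    obtain ⟨h4, h5⟩ := Finset.mem_filter.1 hμ
    have h6 := Subgroup.mul_mem _ (Subgroup.inv_mem _ (h3 ▸ hf2 μ₀ h2)) (h5 ▸ hf2 μ h4)
    rw [mul_inv_rev, mul_assoc, inv_mul_cancel_left] at h6
    exact Finset.mem_coe.2 (Finset.mem_filter.2 ⟨Finset.mem_univ _, hgen x _ hx (hyx x y hy i)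
      ⟨Subgroup.mul_mem _ (Subgroup.inv_mem _ (Finset.mem_filter.1 h2).2)
        (Finset.mem_filter.1 h4).2, h6⟩⟩)
  have htot : ∀ x, x ∉ A →
      Nat.card (Lin A) ≤ Nat.card (fx A x) + (Nat.card F * p - Nat.card F) * p := by
    intro x hx
    obtain ⟨y, hy⟩ := hex x hx
    have h1 : ∀ μ ∈ Finset.univ.filter (fun μ => ¬ μ ∈ fx A x), ∃ i ∈ Finset.range p,
        μ ∈ fx A (y * x ^ i) := fun μ hμ => hcov x y hx hy _ (Finset.mem_filter.1 hμ).2
    choose! f hf1 hf2 using h1
    rw [hcard (fx A x), Nat.card_eq_fintype_card, ← Finset.card_univ,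
      ← Finset.card_filter_add_card_filter_not (· ∈ fx A x)]
    apply Nat.add_le_add_left
    conv_rhs => rw [← Finset.card_range p]
    rw [Finset.card_range p]
    nth_rewrite 2 [← Finset.card_range p]
    refine Finset.card_le_mul_card_image_of_maps_to hf1 _ fun i _ => ?_
    have h2 := hb _ (fun h => hyx x y hy i (Subgroup.mem_sup_left h))
    refine le_trans ?_ (Nat.sub_le_sub_right h2 _)
    rw [hcard, hcard, ← Finset.card_sdiff_of_subset (fun μ hμ => Finset.mem_filter.2
      ⟨Finset.mem_univ _, hFle _ (Finset.mem_filter.1 hμ).2⟩)]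
    refine Finset.card_le_card fun μ hμ => ?_
    obtain ⟨h3, h4⟩ := Finset.mem_filter.1 hμ
    exact Finset.mem_sdiff.2 ⟨Finset.mem_filter.2 ⟨Finset.mem_univ _, h4 ▸ hf2 μ h3⟩,
      fun h => (Finset.mem_filter.1 h3).2 (hFle _ (Finset.mem_filter.1 h).2)⟩
  obtain ⟨c, hc'⟩ : ∃ c, F.index = p ^ c := by
    refine IsPGroup.exists_card_eq (G := Lin A ⧸ F) fun μ => ?_
    obtain ⟨μ, rfl⟩ := QuotientGroup.mk_surjective μ
    obtain ⟨k, hk⟩ := hp'.exists_card_eq
    refine ⟨k, ?_⟩
    rw [← QuotientGroup.mk_pow, QuotientGroup.eq_one_iff, Subgroup.mem_iInf]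
    intro g
    rw [fx_eq]
    rintro _ ⟨a, rfl⟩
    rw [MonoidHom.mem_ker, Lin.pow_apply, ← map_pow]
    have h1 : (dh A g a : G) ∈ commutator G := by
      rw [dh_apply]; exact commutatorElement_mem_commutator' g a
    have h2 : dh A g a ^ p ^ k = 1 := by
      apply Subtype.ext
      rw [← hk]
      have h3 := congrArg Subtype.val (pow_card_eq_one' (x := (⟨_, h1⟩ : commutator G)))
      exact h3
    rw [h2, map_one]
  have hFpos : 0 < Nat.card F := Nat.card_pos
  have hpw : ∀ x, ∃ i j, F.relIndex (fx A x) = p ^ i ∧ (fx A x).index = p ^ j ∧ i + j = c := by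
    intro x
    have h1 := Subgroup.relIndex_mul_index (hFle x)
    rw [hc'] at h1
    obtain ⟨i, -, hi⟩ := (Nat.dvd_prime_pow hp).1 (Dvd.intro _ h1)
    obtain ⟨j, -, hj⟩ := (Nat.dvd_prime_pow hp).1 (Dvd.intro_left _ h1)
    rw [hi, hj, ← pow_add] at h1
    exact ⟨i, j, hi, hj, Nat.pow_right_injective hp.two_le h1⟩
  have hmain : ∀ x, x ∉ A → (fx A x).index = p ∧ ¬ fx A x ≤ F := by
    intro x hx
    obtain ⟨i, j, hi, hj, hij⟩ := hpw x
    have h1 := htot x hx
    rw [← F.card_mul_index, hc', ← H3.card_mul_relIndex (hFle x), hi, ← Nat.mul_sub_one,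
      mul_assoc, ← mul_add] at h1
    have h2 := Nat.le_of_mul_le_mul_left h1 hFpos
    have hj0 : j ≠ 0 := by
      rintro rfl
      exact hprop x hx (Subgroup.index_eq_one.1 (by simpa using hj))
    have hp2 := hp.two_le
    have hi0 : i ≠ 0 := by
      rintro rfl
      have h3 : c < 2 := by
        rw [← Nat.pow_lt_pow_iff_right hp.one_lt]
        refine h2.trans_lt ?_
        obtain ⟨q, rfl⟩ := Nat.exists_eq_add_of_le' hp2
        simp only [pow_zero, Nat.add_succ_sub_one]
        nlinarith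
      obtain ⟨y, hy⟩ := hex x hx
      obtain ⟨ν, hν⟩ : ∃ ν, ν ∉ fx A x := by
        by_contra h
        push Not at h
        exact hprop x hx (eq_top_iff.2 fun μ _ => h μ)
      obtain ⟨l, -, hl⟩ := hcov x y hx hy ν hν
      obtain ⟨i', j', hi', hj', hij'⟩ := hpw (y * x ^ l)
      have hj0' : j' ≠ 0 := by
        rintro rfl
        exact hprop _ (fun h => hyx x y hy l (Subgroup.mem_sup_left h))
          (Subgroup.index_eq_one.1 (by simpa using hj'))
      have h4 : i' = 0 := by omega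
      rw [h4, pow_zero, Subgroup.relIndex_eq_one] at hi'
      exact hν (hFle x (hi' hl))
    refine ⟨?_, fun h => hi0 ?_⟩
    · have h3 : p ≤ p ^ i := Nat.le_self_pow hi0 p
      have h4 : p ^ c ≤ p ^ (i + 1) := by
        refine h2.trans ?_
        obtain ⟨q, rfl⟩ := Nat.exists_eq_add_of_le' hp.one_le
        rw [Nat.add_sub_cancel, pow_succ (q + 1) i]
        nlinarith
      rw [Nat.pow_le_pow_iff_right hp.one_lt] at h4
      rw [hj, show j = 1 by omega, pow_one]
    · rw [Subgroup.relIndex_eq_one.2 h] at hi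
      exact (Nat.pow_eq_one.1 hi.symm).resolve_left hp.one_lt.ne'
  obtain ⟨x, hx⟩ : ∃ x, x ∉ A := by
    by_contra h
    push Not at h
    rw [(Subgroup.eq_top_iff' _).2 h, Subgroup.index_top] at hi
    exact hp.one_lt.ne' ((Nat.pow_eq_one.1 hi.symm).resolve_right two_ne_zero)
  obtain ⟨y, hy⟩ := hex x hx
  have hyA : y ∉ A := fun h => hy (Subgroup.mem_sup_left h)
  have hxy : x * y ∉ A := fun h => hy ((Subgroup.mul_mem_cancel_left _ (Subgroup.mem_sup_right
    (Subgroup.mem_zpowers x))).1 (Subgroup.mem_sup_left h))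
  have hD : (dh A x).range ⊓ (dh A y).range = ⊥ := by
    have h1 := (index_fx A x).symm.trans (hmain x hx).1
    have h2 := (index_fx A y).symm.trans (hmain y hyA).1
    by_contra h
    have h3 : ∀ D E : Subgroup A, Nat.card D = p → D ⊓ E ≠ ⊥ → D ≤ E := by
      intro D E hD hE
      have h4 := Subgroup.card_dvd_of_le (inf_le_left (a := D) (b := E))
      rw [hD] at h4
      have h5 := ((Nat.dvd_prime hp).1 h4).resolve_left fun h => hE (Subgroup.card_eq_one.1 h)
      rw [← inf_eq_left]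
      exact Subgroup.eq_of_le_of_card_ge inf_le_left (by rw [h5, hD])
    have h4 := h3 _ _ h2 (by rwa [inf_comm])
    refine (hmain x hx).2 (le_trans (le_inf le_rfl ?_) (hgen x y hx hy))
    rw [fx_eq, fx_eq]
    exact fun μ hμ => h4.trans hμ
  have hZA : Subgroup.center G ≤ A := by
    intro z hz
    by_contra h
    obtain ⟨a, -, h1⟩ := hna z h
    exact h1 (Subgroup.mem_center_iff.1 hz a).symm
  have hker : (dh A (x * y)).ker = (Subgroup.center G).subgroupOf A := by
    ext a
    rw [MonoidHom.mem_ker, Subgroup.mem_subgroupOf, Subtype.ext_iff, dh_apply, OneMemClass.coe_one,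
      mul_inv_eq_one]
    constructor
    · intro h
      have h1 : dh A y a ∈ (dh A x).range ⊓ (dh A y).range := by
        refine ⟨⟨(MulAut.conjNormal y a)⁻¹, Subtype.ext ?_⟩, a, rfl⟩
        rw [dh_apply, dh_apply]
        have h2 : (a : G)⁻¹ * (y * a * y⁻¹) = y * a * y⁻¹ * (a : G)⁻¹ :=
          setLike_mul_comm (s := A) (A.inv_mem a.2)
            (Subgroup.Normal.conj_mem inferInstance _ a.2 y)
        rw [← h2]
        conv_rhs => rw [← h]
        simp only [InvMemClass.coe_inv, MulAut.conjNormal_apply]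
        rw [h]
        conv_rhs => enter [1]; rw [← h]
        group
      rw [hD, Subgroup.mem_bot, Subtype.ext_iff, dh_apply, OneMemClass.coe_one,
        mul_inv_eq_one, mul_inv_eq_iff_eq_mul] at h1
      have h2 : x * a = a * x := by
        rw [mul_assoc x, h1, mul_inv_rev, mul_assoc x, ← mul_assoc, ← mul_assoc, ← mul_assoc,
          mul_inv_cancel_right, mul_inv_eq_iff_eq_mul] at h
        exact h
      have h3 : (⊤ : Subgroup G) ≤ Subgroup.centralizer {(a : G)} := by
        rw [← sup_zpowers_eq_top_of_index_prime hp _ (hH x hx) y hy]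
        exact sup_le (sup_le (fun b hb => Subgroup.mem_centralizer_singleton_iff.2
          (setLike_mul_comm hb a.2)) (Subgroup.zpowers_le.2
            (Subgroup.mem_centralizer_singleton_iff.2 h2)))
          (Subgroup.zpowers_le.2 (Subgroup.mem_centralizer_singleton_iff.2 h1))
      exact Subgroup.mem_center_iff.2 fun g =>
        Subgroup.mem_centralizer_singleton_iff.1 (h3 (Subgroup.mem_top g))
    · intro h
      rw [Subgroup.mem_center_iff.1 h, mul_inv_cancel_right]
  rw [← Subgroup.relIndex_mul_index hZA, hi, Subgroup.relIndex, ← hker, Subgroup.index_ker,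
    ← index_fx, (hmain _ hxy).1]
  ring

theorem forward [Finite G] {p : ℕ} (hp : p.Prime) (hcd : ∀ d ∈ charDegrees G, d = 1 ∨ d = p)
    (hna : commutator G ≠ ⊥) :
    (∃ A : Subgroup G, A.Normal ∧ (∀ a ∈ A, ∀ b ∈ A, a * b = b * a) ∧ A.index = p) ∨
      (Subgroup.center G).index = p ^ 3 := by
  classical
  have := Fintype.ofFinite G
  have := Fact.mk hp
  by_cases hA : ∃ A : Subgroup G, A.Normal ∧ (∀ a ∈ A, ∀ b ∈ A, a * b = b * a) ∧ A.index = p
  · exact Or.inl hA
  right
  obtain ⟨q, e, hq, he, P, B, hP, hB, h1, h2, -, h3⟩ := (two_degrees hcd hna).resolve_left hA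
  obtain rfl : q = p := by
    rcases e with _ | e
    · exact absurd (by simpa using he) hp.one_lt.ne'
    · exact (Nat.prime_dvd_prime_iff_eq hq hp).1 (he ▸ dvd_pow_self q (Nat.succ_ne_zero e))
  have hnil : Group.IsNilpotent G := by
    rw [← H3.fitting_eq_top_iff, eq_top_iff, ← h3]
    exact sup_le (H3.le_fitting h1.isNilpotent) (h2.trans (H3.center_le_fitting G))
  have hG' : commutator G ≤ P := by
    rw [commutator_def, ← h3]
    exact commutator_sup_le_of_central (Subgroup.commutator_le_left P P) fun z hz g => by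
      rw [commutatorElement_eq_one_iff_mul_comm.2 (Subgroup.mem_center_iff.1 (h2 hz) g).symm]
      exact P.one_mem
  obtain ⟨K, hK, -, hK1, hmax⟩ := exists_maximal_not_commutator_le (⊥ : Subgroup G)
    (fun h => hna (le_bot_iff.1 h))
  obtain ⟨r, f, hr, hf, ⟨χ, hχ, hKχ, hχf⟩, -, h⟩ := dichotomy K hK1 hmax
  obtain rfl : f = q := (hcd f (hχf ▸ deg_mem_cd hχ)).resolve_left hf.ne'
  rcases h with ⟨Z, h⟩ | ⟨N, h⟩
  swap
  · exfalso
    have := h.normal
    obtain ⟨n, hn, hnK, h4⟩ := H3.exists_central_mod (N := K) (C := N)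
      (fun h4 => hK1 (h.commutator_le'.trans h4))
    obtain ⟨g, hg⟩ : ∃ g, g ∉ N := by
      by_contra h5
      push Not at h5
      have h6 := h.index_eq
      rw [(Subgroup.eq_top_iff' _).2 h5, Subgroup.index_top] at h6
      exact hf.ne h6
    exact hnK (h.fpf g hg n hn (h4 g))
  have := h.normal
  obtain rfl : f = r := by
    obtain ⟨a, ha⟩ := h.index_pow
    have h4 := Subgroup.index_dvd_of_le h.le
    rw [h.index_eq, ha] at h4
    exact (Nat.prime_dvd_prime_iff_eq hp hr).1
      (hp.dvd_of_dvd_pow ((dvd_pow_self f two_ne_zero).trans h4))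
  have hZc : Z ≤ charCenter χ := fun z hz =>
    (mem_charCenter_irr_iff hχ).2 fun g => hKχ ((h.mem_iff z).1 hz g)
  have hnorm : ∀ z ∈ Z, χ z * conj (χ z) = (f : ℂ) ^ 2 := by
    intro z hz
    have h4 := (mem_charCenter_iff (isCharacter_of_irr hχ)).1 (hZc hz)
    rw [Complex.mul_conj, Complex.normSq_eq_norm_sq, h4, irr_deg hχ, hχf]
    simp
  have hvan : ∀ g, g ∉ Z → χ g = 0 := by
    rw [← H14.inner_res_self_iff_vanish Z hχ, classInner_def, h.index_eq,
      Finset.sum_congr rfl (fun (z : Z) _ => hnorm z z.2), Finset.sum_const, Finset.card_univ,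
      ← Nat.card_eq_fintype_card, nsmul_eq_mul, ← mul_assoc, inv_mul_cancel₀ (card_ne_zero Z)]
    simp
  have hne : f ^ 2 ∉ charDegrees G := by
    intro h4
    rcases hcd _ h4 with h5 | h5 <;> nlinarith
  have hab : IsMulCommutative Z := by
    refine ⟨⟨comm_of_cd fun d hd => ?_⟩⟩
    obtain ⟨θ, hθ, rfl⟩ := mem_cd.1 hd
    obtain ⟨ψ, hψ, h4⟩ := H14.exists_irr_over Z hθ
    by_contra h5
    have h6 := deg_dvd_of_over Z hψ hθ h4
    have h7 : charDegree ψ = f := (hcd _ (deg_mem_cd hψ)).resolve_left fun h7 =>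
      h5 (Nat.eq_one_of_dvd_one (h7 ▸ h6))
    have h8 : charDegree θ = f := ((Nat.dvd_prime hp).1 (h7 ▸ h6)).resolve_left h5
    have h9 := res_eq_of_over_of_deg_le Z (isCharacter_of_irr hψ) hθ h4 (by rw [h7, h8])
    have h10 := H14.inner_res_of_vanish Z (φ := χ * ψ) (χ * ψ)
      (fun g hg => by rw [Pi.mul_apply, hvan g hg, zero_mul])
    have h11 : classInner (fun x : Z => (χ * ψ) x) (fun x : Z => (χ * ψ) x) =
        (f : ℂ) ^ 2 * classInner θ θ := by
      rw [classInner_def, classInner_def, mul_left_comm, Finset.mul_sum _ _ ((f : ℂ) ^ 2), ← h9]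
      congr 1
      refine Finset.sum_congr rfl fun z _ => ?_
      rw [← hnorm z z.2, Pi.mul_apply, map_mul]
      ring
    rw [h11, classInner_irr_self hθ, h.index_eq, Nat.cast_pow] at h10
    have h12 := isIrrCharacter_of_classInner_self
      (isCharacter_mul (isCharacter_of_irr hχ) (isCharacter_of_irr hψ))
      (mul_left_cancel₀ (pow_ne_zero 2 (Nat.cast_ne_zero.2 hp.ne_zero)) h10).symm
    have h13 := deg_mem_cd h12
    rw [deg_mul (isCharacter_of_irr hχ) (isCharacter_of_irr hψ), hχf, h7, ← sq] at h13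
    exact hne h13
  refine index_center_eq hp Z h.index_eq h.commutator_le h.pow_mem (h1.to_le hG') (fun μ h4 => ?_)
    (fun x hx => ?_)
  · have h5 := deg_mem_cd ((H14.isIrr_indFun_iff_inertia_le Z (isIrr_lin μ)).2 h4)
    rw [deg_indFun Z (isCharacter_of_irr (isIrr_lin μ)), deg_lin, mul_one, h.index_eq] at h5
    exact hne h5
  · by_contra h4
    push Not at h4
    have h5 := H3.isMulCommutative_sup_zpowers (N := Z) (x := x)
      (Subgroup.mem_centralizer_iff.2 fun a ha => (h4 a ha).symm)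
    refine hA ⟨Z ⊔ Subgroup.zpowers x, Subgroup.Normal.of_commutator_le G
      (h.commutator_le.trans le_sup_left), fun a ha b hb => setLike_mul_comm ha hb, ?_⟩
    have h6 := Subgroup.relIndex_mul_index (le_sup_left (a := Z) (b := Subgroup.zpowers x))
    rw [H3.relIndex_sup_zpowers_eq hp hx (h.pow_mem x), h.index_eq, sq] at h6
    exact Nat.eq_of_mul_eq_mul_left hp.pos h6

/-- Let G be a non-abelian finite group and p a prime. Then the irreducible character degrees of G are exactly 1 and p if and only if either G has an abelian normal subgroup of index p or the centre of G has index p³. -/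
theorem result {G : Type*} [Group G] [Finite G] (hG : ∃ a b : G, a * b ≠ b * a) (p : ℕ) (hp : p.Prime) : ((∀ χ : Cfsg.IrrCharacter G, Cfsg.charDegree (χ : G → ℂ) = 1 ∨ Cfsg.charDegree (χ : G → ℂ) = p) ∧ ∃ χ : Cfsg.IrrCharacter G, Cfsg.charDegree (χ : G → ℂ) = p) ↔ ((∃ A : Subgroup G, A.Normal ∧ (∀ a ∈ A, ∀ b ∈ A, a * b = b * a) ∧ A.index = p) ∨ (Subgroup.center G).index = p ^ 3) := by
  have hna : ¬ ∀ a b : G, a * b = b * a := by
    obtain ⟨a, b, h⟩ := hG
    exact fun h' => h (h' a b)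
  constructor
  · rintro ⟨h, -⟩
    refine forward hp (by rintro d ⟨χ, rfl⟩; exact h χ) (fun h1 => hna fun a b => ?_)
    exact (commutator_eq_bot_iff_comm.1 h1).is_comm.comm a b
  · intro h
    have key : ∀ χ, IsIrrCharacter G χ → charDegree χ = 1 ∨ charDegree χ = p := by
      intro χ hχ
      rcases h with ⟨A, hA, h1, h2⟩ | h
      · exact (Nat.dvd_prime hp).1 (h2 ▸ deg_dvd_index_of_comm hχ A h1)
      · have h1 := H12.irr_degree_dvd_index_center hχ (irr_deg hχ)
        have h2 := deg_sq_le_index_center hχ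
        rw [h] at h1 h2
        obtain ⟨k, -, hk⟩ := (Nat.dvd_prime_pow hp).1 h1
        rw [hk, ← pow_mul, Nat.pow_le_pow_iff_right hp.one_lt] at h2
        rw [hk]
        obtain rfl | rfl : k = 0 ∨ k = 1 := by omega
        · left; simp
        · right; simp
    obtain ⟨χ, hχ, h1⟩ := exists_irr_deg_ne_one hna
    exact ⟨fun ψ => key ψ.1 ψ.2, ⟨χ, hχ⟩, (key χ hχ).resolve_left h1⟩

end Cfsg.Agent.S4459
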