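import Cfsg.Statements.S4462
import Cfsg.Agent.H24.Broline

set_option autoImplicit false
open Cfsg

namespace Cfsg.Agent.S4462

theorem nilpotent_comap {G H : Type*} [Group G] [Group H] (f : G →* H) (A B : Subgroup H)
    [(B.subgroupOf A).Normal] (hn : Group.IsNilpotent (A ⧸ B.subgroupOf A))
    [((B.comap f).subgroupOf (A.comap f)).Normal] :
    Group.IsNilpotent (A.comap f ⧸ (B.comap f).subgroupOf (A.comap f)) := by
  let φ : A.comap f →* A := (f.comp (A.comap f).subtype).codRestrict A fun x => x.2
  let ψ : A.comap f ⧸ (B.comap f).subgroupOf (A.comap f) →* A ⧸ B.subgroupOf A :=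
    QuotientGroup.map _ _ φ fun x hx => hx
  have hψ : Function.Injective ψ := by
    rw [← MonoidHom.ker_eq_bot_iff, eq_bot_iff]
    intro x hx
    obtain ⟨y, rfl⟩ := QuotientGroup.mk_surjective x
    have hx' : ((φ y : A) : A ⧸ B.subgroupOf A) = 1 := hx
    rw [QuotientGroup.eq_one_iff] at hx'
    rw [Subgroup.mem_bot, QuotientGroup.eq_one_iff]
    exact hx'
  exact Group.nilpotent_of_mulEquiv (MonoidHom.ofInjective hψ).symm

theorem aux.{u} (n : ℕ) : ∀ (G : Type u) [Group G] [Finite G], Group.IsSolvable G →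
    (Subsingleton G ∨ (charDegrees G).ncard ≤ n) →
    ∃ N : Fin (n + 1) → Subgroup G, N 0 = ⊥ ∧ N (Fin.last n) = ⊤ ∧ Monotone N ∧
      (∀ i, (N i).Normal) ∧ ∀ i : Fin n, ∀ _ : (N i.castSucc).subgroupOf (N i.succ) |>.Normal,
        Group.IsNilpotent (↥(N i.succ) ⧸ (N i.castSucc).subgroupOf (N i.succ)) := by
  induction n with
  | zero =>
    intro G _ _ _ h
    rcases h with h | h
    · exact ⟨fun _ => ⊥, rfl, Subsingleton.elim _ _, monotone_const, fun _ => inferInstance,
        fun i => i.elim0⟩
    · have := (Set.ncard_pos (H24.cd_finite (G := G))).2 ⟨1, H24.one_mem_cd⟩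
      omega
  | succ n ih =>
    intro G _ _ hs h
    have := H3.fitting_normal G
    have hfs := QuotientGroup.mk'_surjective (fittingSubgroup G)
    obtain ⟨N, h0, hn, hmono, hnorm, hnil⟩ := ih (G ⧸ fittingSubgroup G) inferInstance (by
      by_cases hF : fittingSubgroup G = ⊤
      · left
        exact QuotientGroup.subsingleton_iff.2 hF
      · right
        rcases h with h | h
        · exact absurd (Subsingleton.elim _ _) hF
        · have := Set.ncard_lt_ncard (H24.cd_quotient_fitting_ssubset hF) H24.cd_finite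
          omega)
    refine ⟨Fin.cons ⊥ (fun i => (N i).comap (QuotientGroup.mk' _)), rfl, ?_, ?_, ?_, ?_⟩
    · rw [← Fin.succ_last, Fin.cons_succ, hn, Subgroup.comap_top]
    · rw [Fin.monotone_iff_le_succ]
      intro i
      refine Fin.cases ?_ (fun j => ?_) i
      · exact bot_le
      · rw [← Fin.succ_castSucc, Fin.cons_succ, Fin.cons_succ]
        exact Subgroup.comap_mono (hmono (Fin.castSucc_le_succ j))
    · intro i
      refine Fin.cases ?_ (fun j => ?_) i
      · exact Subgroup.normal_bot
      · rw [Fin.cons_succ]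
        exact (hnorm j).comap _
    · intro i
      refine Fin.cases ?_ (fun j => ?_) i
      · intro h1
        have h2 : Group.IsNilpotent ((N 0).comap (QuotientGroup.mk' (fittingSubgroup G))) := by
          rw [h0, MonoidHom.comap_bot, QuotientGroup.ker_mk']
          exact H3.fitting_isNilpotent G
        exact @Group.nilpotent_of_surjective _ _ _ _ h2 (@QuotientGroup.mk' _ _ _ h1)
          (@QuotientGroup.mk'_surjective _ _ _ h1)
      · intro h1
        have := hnorm j.castSucc
        exact @nilpotent_comap _ _ _ _ (QuotientGroup.mk' _) (N j.succ) (N j.castSucc) _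
          (hnil j _) h1

/-- Let G be a finite solvable group with exactly n distinct irreducible character degrees. Then G has normal subgroups 1 = N₀ ≤ N₁ ≤ ⋯ ≤ Nₙ = G with every quotient N_{i+1}/N_i nilpotent (the nilpotent length of G is at most n). -/
theorem result {G : Type*} [Group G] [Finite G] (hsolv : Group.IsSolvable G) (n : ℕ) (hcd : Nat.card {d : ℕ // ∃ χ : Cfsg.IrrCharacter G, Cfsg.charDegree (χ : G → ℂ) = d} = n) : ∃ N : Fin (n + 1) → Subgroup G, N 0 = ⊥ ∧ N (Fin.last n) = ⊤ ∧ Monotone N ∧ (∀ i, (N i).Normal) ∧ ∀ i : Fin n, ∀ h : (N i.castSucc).subgroupOf (N i.succ) |>.Normal, Group.IsNilpotent (↥(N i.succ) ⧸ (N i.castSucc).subgroupOf (N i.succ)) := by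
  refine aux n G hsolv (Or.inr ?_)
  rw [← hcd]
  exact le_of_eq rfl

end Cfsg.Agent.S4462
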