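import Cfsg.Statements.S4463
import Cfsg.Agent.H24.PrimeDeg
import Cfsg.Agent.H24.Broline

set_option autoImplicit false
open Cfsg

namespace Cfsg.Agent.S4463

open Cfsg Cfsg.Agent.H11 Cfsg.Agent.H24
open scoped commutatorElement

theorem num1 {b : ℕ} (hb : 5 ≤ b) : b ^ 2 * (b / 2).factorial ≤ b.factorial := by
  obtain ⟨c, rfl⟩ : ∃ c, b = c + 3 := ⟨b - 3, by omega⟩
  have h1 : ((c + 3) / 2).factorial ≤ c.factorial := Nat.factorial_le (by omega)
  rw [Nat.factorial_succ, Nat.factorial_succ, Nat.factorial_succ]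
  have h2 : c + 3 ≤ (c + 1 + 1) * (c + 1) := by nlinarith
  calc (c + 3) ^ 2 * ((c + 3) / 2).factorial ≤ (c + 3) * ((c + 1 + 1) * (c + 1)) * c.factorial := by
        rw [sq]; gcongr
    _ = _ := by ring

theorem num2 {b n : ℕ} (hb : 5 ≤ b) (hn : n ≤ b ^ 4) :
    (b / 2).factorial ^ 2 * n ≤ b.factorial ^ 2 := by
  calc (b / 2).factorial ^ 2 * n ≤ (b / 2).factorial ^ 2 * b ^ 4 := by gcongr
    _ = (b ^ 2 * (b / 2).factorial) ^ 2 := by ring
    _ ≤ _ := by gcongr; exact num1 hb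

theorem num3 {b n : ℕ} (hb : 3 ≤ b) (hn : n ≤ b ^ 3) :
    (b / 2).factorial ^ 2 * n ≤ b.factorial ^ 2 := by
  by_cases h : 5 ≤ b
  · exact num2 h (hn.trans (Nat.pow_le_pow_right (by omega) (by omega)))
  · have h1 : b = 3 ∨ b = 4 := by omega
    rcases h1 with rfl | rfl <;> norm_num [Nat.factorial] at hn ⊢ <;> omega

theorem num4 {b n : ℕ} (hb : 1 ≤ b) (hn : n ≤ b ^ 2) :
    (b - 1).factorial ^ 2 * n ≤ b.factorial ^ 2 := by
  obtain ⟨c, rfl⟩ : ∃ c, b = c + 1 := ⟨b - 1, by omega⟩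
  rw [Nat.factorial_succ, mul_pow, mul_comm, Nat.add_sub_cancel]
  gcongr

variable {G : Type*} [Group G] [Finite G]

theorem le_of_sub {b : ℕ} (h : ∀ d ∈ charDegrees G, d ≤ b) (H : Subgroup G) :
    ∀ d ∈ charDegrees H, d ≤ b := fun _ hd =>
  let ⟨e, he, h1⟩ := exists_cd_le_of_subgroup H hd
  h1.trans (h e he)

theorem exists_ext {b : ℕ} (h : ∀ d ∈ charDegrees G, d ≤ b) (H : Subgroup G) {θ : H → ℂ}
    (hθ : IsIrrCharacter H θ) (hb : charDegree θ = b) :
    ∃ χ, IsIrrCharacter G χ ∧ (fun x : H => χ x) = θ := by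
  have := Fintype.ofFinite H
  have := Fintype.ofFinite G
  obtain ⟨χ, hχ, h1⟩ := H14.exists_irr_over H hθ
  exact ⟨χ, hχ, res_eq_of_over_of_deg_le H (isCharacter_of_irr hχ) hθ h1
    (hb ▸ h _ (deg_mem_cd hχ))⟩

theorem half {b : ℕ} (h : ∀ d ∈ charDegrees G, d ≤ b) (K : Subgroup G) [K.Normal]
    (hK : ¬ commutator G ≤ K) : ∀ d ∈ charDegrees K, d ≤ b / 2 := by
  intro d hd
  have := Fintype.ofFinite K
  have := Fintype.ofFinite G
  obtain ⟨θ, hθ, rfl⟩ := mem_cd.1 hd
  obtain ⟨χ, hχ, h1⟩ := H14.exists_irr_over K hθ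
  obtain ⟨c, hc⟩ := deg_dvd_of_over K hχ hθ h1
  have h2 := h _ (deg_mem_cd hχ)
  have h3 := deg_pos hχ
  rw [Nat.le_div_iff_mul_le two_pos]
  by_cases h4 : 2 ≤ c
  · exact (Nat.mul_le_mul_left _ h4).trans (hc ▸ h2)
  · have h5 : charDegree χ ≤ charDegree θ := by
      rw [hc]
      exact mul_le_of_le_one_right' (by omega)
    have h6 := res_eq_of_over_of_deg_le K (isCharacter_of_irr hχ) hθ h1 h5
    obtain ⟨β, hβ, hβK, hβ1⟩ := exists_irr_le_charKer_deg_ne_one K hK
    have h7 := h _ (mul_mem_cd_of_res_irr K (isCharacter_of_irr hχ) (h6 ▸ hθ)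
      (deg_mem_cd_quotient hβ K hβK))
    have h8 := deg_pos hβ
    exact (Nat.mul_le_mul (deg_le_of_over K (isCharacter_of_irr hχ) hθ h1) (by omega)).trans h7

theorem pcase {b : ℕ} (h : ∀ d ∈ charDegrees G, d ≤ b) (Z : Subgroup G) {ψ : G → ℂ}
    (hψ : IsIrrCharacter G ψ) (h1 : 1 < charDegree ψ) (hZ : Z ≤ charCenter ψ)
    (hi : Z.index = charDegree ψ ^ 2) : b ∉ charDegrees Z := by
  intro hb
  have := Fintype.ofFinite Z
  have := Fintype.ofFinite G
  obtain ⟨θ, hθ, hd⟩ := mem_cd.1 hb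
  obtain ⟨lam, hlam⟩ := exists_monoidHom_charCenter (irr_apply_one_ne_zero hψ)
  set μ : Lin Z := Lin.mk (lam.comp (Subgroup.inclusion hZ)) with hμ
  have h2 : (fun z : Z => ψ z) = ψ 1 • lin μ := by
    funext z
    have := hlam ⟨z, hZ z.2⟩ 1
    rw [mul_one] at this
    rw [this, mul_comm]
    rfl
  have h3 : ∀ g, g ∉ Z → ψ g = 0 := (H14.inner_res_self_iff_vanish Z hψ).1 (by
    rw [h2, classInner_smul_left, classInner_smul_right, classInner_irr_self (isIrr_lin μ), hi,
      irr_deg hψ]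
    simp [sq])
  obtain ⟨χ, hχ, h4⟩ := exists_ext h Z hθ hd
  obtain ⟨ξ, hξ, h5⟩ := exists_ext h Z (isIrr_lin_mul μ hθ) (by rw [deg_lin_mul, hd])
  have h6 := H14.inner_res_of_vanish Z (φ := ψ * χ) ξ fun g hg => by
    rw [Pi.mul_apply, h3 g hg, zero_mul]
  obtain ⟨n, hn⟩ := exists_nat_classInner
    (isCharacter_mul (isCharacter_of_irr hψ) (isCharacter_of_irr hχ)) (isCharacter_of_irr hξ)
  have h7 : (fun x : Z => (ψ * χ) x) = ψ 1 • (lin μ * θ) := by
    rw [← smul_mul_assoc, ← h2, ← h4]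
    rfl
  rw [h7, h5, classInner_smul_left, classInner_irr_self (isIrr_lin_mul μ hθ), hn, hi,
    irr_deg hψ, mul_one] at h6
  have h8 : charDegree ψ = charDegree ψ ^ 2 * n := by exact_mod_cast h6
  have h9 : charDegree ψ * n = 1 := by
    apply Nat.eq_of_mul_eq_mul_left (deg_pos hψ)
    rw [← mul_assoc, ← sq, ← h8, mul_one]
  exact h1.ne' (Nat.eq_one_of_mul_eq_one_right h9)

theorem exists_small_class [Nontrivial G] {b : ℕ} (h : ∀ d ∈ charDegrees G, d ≤ b) :
    ∃ x : G, x ≠ 1 ∧ (Subgroup.centralizer ({x} : Set G)).index ≤ b ^ 2 := by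
  classical
  by_contra h1
  push Not at h1
  have := Fintype.ofFinite (IrrCharacter G)
  have := Fintype.ofFinite (ConjClasses G)
  have h2 := sum_deg_sq (G := G)
  have h3 := Group.sum_card_conj_classes_eq_card (G := G)
  rw [finsum_eq_sum_of_fintype, ← Finset.add_sum_erase _ _ (Finset.mem_univ (ConjClasses.mk 1)),
    H92.ncard_carrier, H92.cs_one] at h3
  rw [← Finset.add_sum_erase _ _ (Finset.mem_univ ⟨_, isIrrCharacter_one'⟩)] at h2
  have h4 := Finset.sum_le_card_nsmul (Finset.univ.erase ⟨_, isIrrCharacter_one'⟩)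
    (fun χ : IrrCharacter G => charDegree χ.1 ^ 2) (b ^ 2) fun χ _ =>
      Nat.pow_le_pow_left (h _ (deg_mem_cd χ.2)) 2
  have h5 := Finset.card_nsmul_le_sum (Finset.univ.erase (ConjClasses.mk (1 : G)))
    (fun C : ConjClasses G => C.carrier.ncard) (b ^ 2 + 1) fun C hC => by
      obtain ⟨x, rfl⟩ := ConjClasses.mk_surjective C
      rw [H92.ncard_carrier]
      exact h1 x fun h => Finset.ne_of_mem_erase hC (h ▸ rfl)
  rw [Finset.card_erase_of_mem (Finset.mem_univ _), Finset.card_univ, ← Nat.card_eq_fintype_card,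
    smul_eq_mul] at h4 h5
  rw [card_irr_eq_card_conjClasses] at h4
  have h6 : charDegree (1 : G → ℂ) = 1 := deg_one
  simp only [h6] at h2
  have h7 : 1 < Nat.card G := Finite.one_lt_card
  rcases Nat.eq_zero_or_pos (Nat.card (ConjClasses G) - 1) with h8 | h8
  · rw [h8] at h4
    omega
  · nlinarith

theorem nonsolv (hmin : ∀ M : Subgroup G, M.Normal → M ≠ ⊥ → commutator G ≤ M)
    (hs : ¬ Group.IsSolvable G) :
    (∀ x : G, x ≠ 1 → (Subgroup.centralizer ({x} : Set G)).normalCore = ⊥) ∧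
      ∀ b, (∀ d ∈ charDegrees G, d ≤ b) → 5 ≤ b := by
  have h1 : ∀ M : Subgroup G, M.Normal → (∀ a ∈ M, ∀ b ∈ M, a * b = b * a) → M = ⊥ := by
    intro M hM h
    by_contra h1
    have := isSolvable_quotient_of_commutator_le M (hmin M hM h1)
    have : Group.IsSolvable M := Group.isSolvable_of_comm fun a b => Subtype.ext (h a a.2 b b.2)
    exact hs (H1.isSolvable_of_normal_of_quotient M)
  refine ⟨fun x hx => ?_, fun b hb => ?_⟩
  · by_contra h2
    have h3 := (hmin _ inferInstance h2).trans (Subgroup.normalCore_le _)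
    have h4 := hmin (Subgroup.centralizer (commutator G : Set G)) inferInstance fun h =>
      hx (Subgroup.mem_bot.1 (h ▸ H92.le_C_iff.1 h3))
    have h5 := h1 _ inferInstance fun a ha b hb => h4 hb a ha
    exact hs (Group.isSolvable_of_comm (H12.comm_of_commutator_eq_bot h5))
  · by_contra h2
    have h3 : 2 ∈ charDegrees G := by
      by_contra h3
      refine hs ⟨3, derivedSeries_three_of_cd G 3 4 fun d hd => ?_⟩
      have h4 := hb d hd
      have h5 := pos_of_mem_cd hd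
      have h6 : d ≠ 2 := fun h => h3 (h ▸ hd)
      omega
    obtain ⟨χ, hχ, hd⟩ := mem_cd.1 h3
    have hχc := isCharacter_of_irr hχ
    have hk : charKer χ = ⊥ := by
      by_contra h4
      have := (deg_eq_one_iff_commutator_le hχ).2
        (hmin _ (charKer_normal (isClassFunction_of_irr hχ)) h4)
      omega
    obtain ⟨P⟩ : Nonempty (Sylow 2 G) := inferInstance
    have h4 := card_sylow_dvd_of_deg_prime (h1 _ inferInstance fun a _ b hb =>
      Subgroup.mem_center_iff.1 hb a) hχ hk hd P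
    have h5 := dvd_card_of_mem_cd h3
    have h6 : IsCyclic P := isCyclic_of_card_dvd_prime h4
    have h7 := IsCyclic.isComplement' ((Nat.minFac_eq_two_iff _).2 h5) h6
    set L := (MonoidHom.transferSylow P
      (h6.normalizer_le_centralizer ((Nat.minFac_eq_two_iff _).2 h5))).ker
    have h8 : L = ⊥ := h1 _ inferInstance fun a ha b hb => congrArg Subtype.val
      (H12.comm_of_faithful_degree_lt (isCharacter_restrict hχc L) (n := 2) (by
        refine (charKer_comp hχc L.subtype).trans ?_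
        rw [hk]
        exact L.ker_subtype) (by exact (irr_deg hχ).trans (by rw [hd])) (fun p hp hp' => by
          have h9 := P.not_dvd_index
          rw [h7.index_eq_card] at h9
          exact lt_of_le_of_ne hp.two_le fun h => h9 (h ▸ hp')) ⟨a, ha⟩ ⟨b, hb⟩)
    rw [h8, Subgroup.isComplement'_bot_left] at h7
    have h9 := P.isPGroup'
    rw [h7] at h9
    have := (h9.of_equiv Subgroup.topEquiv).isNilpotent
    exact hs inferInstance

theorem step {b : ℕ} (h : ∀ d ∈ charDegrees G, d ≤ b) (hG : commutator G ≠ ⊥) :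
    ∃ (H : Subgroup G) (c : ℕ), c < b ∧ (∀ d ∈ charDegrees H, d ≤ c) ∧
      c.factorial ^ 2 * H.index ≤ b.factorial ^ 2 := by
  have hb : 1 ≤ b := h 1 one_mem_cd
  have key : ∀ H : Subgroup G, H.index ≤ b ^ 2 → b ∉ charDegrees H →
      ∃ (H : Subgroup G) (c : ℕ), c < b ∧ (∀ d ∈ charDegrees H, d ≤ c) ∧
        c.factorial ^ 2 * H.index ≤ b.factorial ^ 2 := fun H h1 h2 =>
    ⟨H, b - 1, by omega, fun d hd => Nat.le_sub_one_of_lt
      (lt_of_le_of_ne (le_of_sub h H d hd) fun h3 => h2 (h3 ▸ hd)), num4 hb h1⟩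
  obtain ⟨K, hKn, -, hK, hmax⟩ := exists_maximal_not_commutator_le (⊥ : Subgroup G)
    (fun h1 => hG (le_bot_iff.1 h1))
  by_cases hs : Group.IsSolvable (G ⧸ K)
  · obtain ⟨p, f, hp, hf, ⟨φ, hφ, hφK, hφf⟩, -, ⟨Z, hZ⟩ | ⟨N, hN⟩⟩ := dichotomy K hK hmax
    · refine key Z (hZ.index_eq ▸ Nat.pow_le_pow_left (hφf ▸ h _ (deg_mem_cd hφ)) 2)
        (pcase h Z hφ (hφf ▸ hf) (fun z hz => (mem_charCenter_irr_iff hφ).2 fun g =>
          hφK ((hZ.mem_iff z).1 hz g)) (hφf ▸ hZ.index_eq))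
    · have hfb : f ≤ b := hφf ▸ h _ (deg_mem_cd hφ)
      by_cases h1 : b ∈ charDegrees N
      · rcases hN.mul_mem_cd_or_dvd hp h1 with h2 | ⟨h2, h3⟩
        · have := h _ h2
          nlinarith
        · have h4 : 3 ≤ b := by
            by_contra h4
            have h5 : f = b := by omega
            exact hN.not_dvd (h5 ▸ h2)
          refine ⟨K, b / 2, by omega, half h K hK, num3 h4 ?_⟩
          rw [← Subgroup.relIndex_mul_index hN.le, hN.index_eq, pow_succ]
          exact Nat.mul_le_mul (Nat.le_of_dvd (by positivity) h3) hfb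
      · exact key N (by rw [hN.index_eq]; nlinarith) h1
  · have hf := QuotientGroup.mk'_surjective K
    have hq : ∀ d ∈ charDegrees (G ⧸ K), d ≤ b := fun d hd => h d (cd_quotient_subset K hd)
    obtain ⟨h1, h2⟩ := nonsolv (G := G ⧸ K) (fun M hM hM1 => by
      rw [← map_mk'_commutator, Subgroup.map_le_iff_le_comap]
      refine hmax _ inferInstance (lt_of_le_of_ne (QuotientGroup.le_comap_mk' K M) fun h1 => hM1 ?_)
      rw [← Subgroup.map_comap_eq_self_of_surjective hf M, ← h1, QuotientGroup.map_mk'_self]) hs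
    have : Nontrivial (G ⧸ K) := by
      by_contra h3
      rw [not_nontrivial_iff_subsingleton] at h3
      exact hs inferInstance
    obtain ⟨x, hx, h3⟩ := exists_small_class hq
    set H := (Subgroup.centralizer ({x} : Set (G ⧸ K))).comap (QuotientGroup.mk' K) with hH
    have h4 : H.index ≤ b ^ 2 := by rwa [hH, Subgroup.index_comap_of_surjective _ hf]
    by_cases h5 : b ∈ charDegrees H
    · have := Fintype.ofFinite H
      obtain ⟨θ, hθ, hd⟩ := mem_cd.1 h5
      obtain ⟨χ, hχ, rfl⟩ := exists_ext h H hθ hd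
      have h6 : H.normalCore ≤ K := by
        have : (H.normalCore.map (QuotientGroup.mk' K)).Normal := Subgroup.Normal.map inferInstance _ hf
        have h6 : H.normalCore.map (QuotientGroup.mk' K) ≤
            (Subgroup.centralizer ({x} : Set (G ⧸ K))).normalCore :=
          Subgroup.normal_le_normalCore.2
            (Subgroup.map_le_iff_le_comap.2 (Subgroup.normalCore_le H))
        rwa [h1 x hx, le_bot_iff, Subgroup.map_eq_bot_iff, QuotientGroup.ker_mk'] at h6
      have h7 := index_dvd_deg_sq_of_vanish (K.subgroupOf H) hθ fun g hg => by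
        by_contra h7
        exact hg (h6 (mem_normalCore_of_forall_deg_le H (isCharacter_of_irr hχ) hθ
          (fun ψ hψ _ => (h _ (deg_mem_cd hψ)).trans hd.ge) g.2 h7))
      refine ⟨K, b / 2, by omega, half h K hK, num2 (h2 b hq) ?_⟩
      rw [← Subgroup.relIndex_mul_index (QuotientGroup.le_comap_mk' K _ : K ≤ H),
        show b ^ 4 = b ^ 2 * b ^ 2 by ring]
      exact Nat.mul_le_mul (Nat.le_of_dvd (by positivity) (hd ▸ h7)) h4
    · exact key H h4 h5

theorem main.{u} (b : ℕ) : ∀ (G : Type u) [Group G] [Finite G], (∀ d ∈ charDegrees G, d ≤ b) →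
    ∃ A : Subgroup G, (∀ x ∈ A, ∀ y ∈ A, x * y = y * x) ∧ A.index ≤ b.factorial ^ 2 := by
  induction b using Nat.strong_induction_on with
  | _ b ih =>
  intro G _ _ h
  by_cases hG : commutator G = ⊥
  · exact ⟨⊤, fun x _ y _ => H12.comm_of_commutator_eq_bot hG x y, by
      rw [Subgroup.index_top]; exact Nat.one_le_pow _ _ b.factorial_pos⟩
  obtain ⟨H, c, h1, h2, h3⟩ := step h hG
  obtain ⟨A, hA, h4⟩ := ih c h1 H h2
  refine ⟨A.map H.subtype, ?_, ?_⟩
  · rintro _ ⟨x, hx, rfl⟩ _ ⟨y, hy, rfl⟩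
    exact congrArg Subtype.val (hA x hx y hy)
  · rw [Subgroup.index_map_subtype]
    exact (Nat.mul_le_mul_right _ h4).trans h3

/-- Let b be the largest irreducible character degree of the finite group G. Then G has an abelian subgroup of index at most (b!)². -/
theorem result {G : Type*} [Group G] [Finite G] (b : ℕ) (hb : IsGreatest {d : ℕ | ∃ χ : Cfsg.IrrCharacter G, Cfsg.charDegree (χ : G → ℂ) = d} b) : ∃ A : Subgroup G, (∀ x ∈ A, ∀ y ∈ A, x * y = y * x) ∧ A.index ≤ (Nat.factorial b) ^ 2 := by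
  refine main b G fun d hd => ?_
  obtain ⟨χ, hχ, rfl⟩ := mem_cd.1 hd
  exact hb.2 ⟨⟨χ, hχ⟩, rfl⟩

end Cfsg.Agent.S4463
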