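import Cfsg.Statements.S4464
import Cfsg.Agent.H24.Deg

set_option autoImplicit false
open Cfsg

namespace Cfsg.Agent.S4464

open Cfsg.Agent.H11

theorem sum_fixedBy_eq (P X : Type*) [Group P] [Fintype P] [Fintype X] [MulAction P X] :
    ∑ g : P, Nat.card (MulAction.fixedBy X g) = ∑ x : X, Nat.card (MulAction.stabilizer P x) := by
  classical
  have h1 : ∀ g : P, Nat.card (MulAction.fixedBy X g) = ∑ x : X, if g • x = x then 1 else 0 := by
    intro g
    rw [Finset.sum_boole, Nat.cast_id, Nat.card_eq_fintype_card, Fintype.card_subtype]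
    rfl
  have h2 : ∀ x : X, Nat.card (MulAction.stabilizer P x) =
      ∑ g : P, if g • x = x then 1 else 0 := by
    intro x
    rw [Finset.sum_boole, Nat.cast_id, Nat.card_eq_fintype_card, Fintype.card_subtype]
    rfl
  simp only [h1, h2]
  exact Finset.sum_comm

theorem deg_le_mul {G : Type*} [Group G] [Fintype G] {ψ : G → ℂ} (hψ : IsCharacter G ψ)
    (H : Subgroup G) [Fintype H] {m r : ℕ}
    (hr : classInner (fun x : H => ψ x) (fun _ => 1) = r)
    (h : ∀ χ, IsIrrCharacter G χ → classInner ψ χ ≠ 0 →
      charDegree χ ≤ m ∧ classInner (fun x : H => χ x) (fun _ => 1) ≠ 0) :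
    charDegree ψ ≤ m * r := by
  have := Fintype.ofFinite (IrrCharacter G)
  obtain ⟨a, ha, hs⟩ := exists_eq_sum_nat hψ
  choose c hc using fun χ : IrrCharacter G => exists_nat_classInner
    (isCharacter_restrict (isCharacter_of_irr χ.2) H) (isCharacter_one (G := H))
  have h1 : r = ∑ χ, a χ * c χ := by
    apply Nat.cast_injective (R := ℂ)
    rw [← hr]
    have : (fun x : H => ψ x) = ∑ χ : IrrCharacter G, (a χ : ℂ) • fun x : H => χ.1 x := by
      ext x
      rw [hs]
      simp [Finset.sum_apply]
    rw [this, classInner_sum_left]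
    push_cast
    exact Finset.sum_congr rfl fun χ _ => by rw [classInner_smul_left, hc]
  rw [H24.deg_eq_sum hψ ha, h1, Finset.mul_sum]
  refine Finset.sum_le_sum fun χ _ => ?_
  by_cases h0 : a χ = 0
  · simp [h0]
  obtain ⟨h2, h3⟩ := h χ χ.2 (by rw [ha]; exact_mod_cast h0)
  rw [hc] at h3
  have h4 : 1 ≤ c χ := Nat.one_le_iff_ne_zero.2 (by exact_mod_cast h3)
  calc a χ * charDegree χ.1 ≤ a χ * (m * c χ) :=
        Nat.mul_le_mul_left _ (h2.trans (Nat.le_mul_of_pos_right _ h4))
    _ = m * (a χ * c χ) := by ring

/-- Let p be a prime and G a finite group all of whose irreducible character degrees are less than p. Then G has a normal abelian Sylow p-subgroup. -/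
theorem result {G : Type*} [Group G] [Finite G] (p : ℕ) (hp : p.Prime) (hb : ∀ χ : Cfsg.IrrCharacter G, Cfsg.charDegree (χ : G → ℂ) < p) : ∃ P : Subgroup G, P.Normal ∧ (∀ x ∈ P, ∀ y ∈ P, x * y = y * x) ∧ IsPGroup p P ∧ ¬ p ∣ P.index := by
  classical
  have := Fact.mk hp
  have := Fintype.ofFinite G
  obtain ⟨P⟩ : Nonempty (Sylow p G) := inferInstance
  have hb' : ∀ d ∈ charDegrees G, d < p := by rintro d ⟨χ, rfl⟩; exact hb χ
  have hn : Nat.card (Sylow p G) = 1 := by
    have := Fintype.ofFinite (Sylow p G)
    set π : G → ℂ := fun g => (Nat.card (MulAction.fixedBy (Sylow p G) g) : ℂ) with hπdef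
    have hπ : IsCharacter G π := isCharacter_fixedBy _
    have hind : π = indFun (MulAction.stabilizer G P) (fun _ => 1) :=
      funext fun g => H14.card_fixedBy_eq_indFun_one (Sylow p G) P g
    have h1 : classInner π (fun _ => 1) ≠ 0 := by
      rw [hind, H14.classInner_indFun_left _ _ (isClassFunction_const 1), classInner_one_one]
      exact one_ne_zero
    have hπ' : IsCharacter G (π - fun _ => 1) := isCharacter_sub_irr hπ isIrrCharacter_one h1
    obtain ⟨r, hr⟩ := exists_nat_classInner (isCharacter_restrict hπ' (P : Subgroup G))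
      (isCharacter_one (G := (P : Subgroup G)))
    have hle : (P : Subgroup G) ≤ MulAction.stabilizer G P := by
      rw [Sylow.stabilizer_eq_normalizer]; exact Subgroup.le_normalizer
    have h2 : charDegree (π - fun _ => 1) ≤ (p - 1) * r := by
      apply deg_le_mul hπ' (P : Subgroup G) hr
      intro χ hχ h
      refine ⟨Nat.le_sub_one_of_lt (hb' _ (H24.deg_mem_cd hχ)), ?_⟩
      have h3 : classInner π χ ≠ 0 := by
        have := classInner_add_ne_zero hπ' isCharacter_one (isCharacter_of_irr hχ) h
        rwa [sub_add_cancel] at this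
      rw [hind, H14.classInner_indFun_left _ _ (isClassFunction_of_irr hχ),
        classInner_ne_zero_comm] at h3
      exact H14.inner_comp_ne_zero
        (isCharacter_restrict (isCharacter_of_irr hχ) (MulAction.stabilizer G P))
        isCharacter_one h3 (Subgroup.inclusion hle)
    have h3 : charDegree (π - fun _ => 1) + 1 = Nat.card (Sylow p G) := by
      apply Nat.cast_injective (R := ℂ)
      push_cast
      rw [H24.deg_cast hπ']
      simp [π]
    have h4 : Nat.card P * (r + 1) =
        ∑ Q : Sylow p G, Nat.card (MulAction.stabilizer (P : Subgroup G) Q) := by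
      rw [← sum_fixedBy_eq]
      apply Nat.cast_injective (R := ℂ)
      push_cast
      have h5 := card_mul_classInner (fun x : (P : Subgroup G) => (π - fun _ => 1 : G → ℂ) x)
        (fun _ => 1)
      rw [hr] at h5
      rw [mul_add, h5]
      simp only [Pi.sub_apply, map_one, mul_one, Finset.sum_sub_distrib, Finset.sum_const,
        Finset.card_univ, nsmul_eq_mul, Nat.card_eq_fintype_card (α := P), sub_add_cancel]
      rfl
    have h5 : p * ∑ Q : Sylow p G, Nat.card (MulAction.stabilizer (P : Subgroup G) Q) ≤
        p * Nat.card P + charDegree (π - fun _ => 1) * Nat.card P := by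
      rw [← Finset.add_sum_erase _ _ (Finset.mem_univ P), mul_add]
      apply add_le_add
      · exact Nat.mul_le_mul_left _ (Subgroup.card_le_card_group _)
      · rw [Finset.mul_sum]
        refine (Finset.sum_le_card_nsmul _ _ (Nat.card P) fun Q hQ => ?_).trans ?_
        · have hQ' : Q ≠ P := Finset.ne_of_mem_erase hQ
          have h6 := (MulAction.stabilizer (P : Subgroup G) Q).card_mul_index
          obtain ⟨k, hk⟩ := P.isPGroup'.index (MulAction.stabilizer (P : Subgroup G) Q)
          rcases k with _ | k
          · exfalso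
            apply hQ'
            have h7 : Q ∈ MulAction.fixedPoints (P : Subgroup G) (Sylow p G) := by
              intro x
              have h8 : MulAction.stabilizer (P : Subgroup G) Q = ⊤ :=
                Subgroup.index_eq_one.1 (by simpa using hk)
              exact MulAction.mem_stabilizer_iff.1 (h8 ▸ Subgroup.mem_top x)
            rw [P.isPGroup'.sylow_mem_fixedPoints_iff] at h7
            exact Sylow.ext (P.is_maximal' Q.isPGroup' h7)
          · rw [← h6, hk, mul_comm]
            exact Nat.mul_le_mul_left _ (Nat.le_self_pow (Nat.succ_ne_zero k) p)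
        · rw [Finset.card_erase_of_mem (Finset.mem_univ P), Finset.card_univ,
            ← Nat.card_eq_fintype_card, ← h3, smul_eq_mul, Nat.add_sub_cancel]
    rw [← h4] at h5
    have h6 : 0 < Nat.card P := Nat.card_pos
    have h7 : p * r ≤ charDegree (π - fun _ => 1) := by
      apply Nat.le_of_mul_le_mul_right _ h6
      nlinarith
    have h8 : r = 0 := by
      obtain ⟨q, rfl⟩ := Nat.exists_eq_succ_of_ne_zero hp.ne_zero
      have := h7.trans h2
      simp only [Nat.succ_sub_one, Nat.succ_mul] at this
      omega
    rw [h8] at h2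
    omega
  have hs : Subsingleton (Sylow p G) := (Nat.card_eq_one_iff_unique.1 hn).1
  refine ⟨P, P.normal_of_subsingleton, fun x hx y hy => ?_, P.isPGroup', P.not_dvd_index⟩
  have h := H24.comm_of_cd (G := P) (fun d hd => ?_) ⟨x, hx⟩ ⟨y, hy⟩
  · exact congrArg Subtype.val h
  · obtain ⟨e, he, hde⟩ := H24.exists_cd_le_of_subgroup _ hd
    obtain ⟨θ, hθ, rfl⟩ := H24.mem_cd.1 hd
    obtain ⟨k, hk⟩ := H24.exists_deg_eq_pow_of_isPGroup P.isPGroup' hθ
    rcases k with _ | k
    · simpa using hk
    · have := (hde.trans_lt (hb' e he))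
      rw [hk] at this
      exact absurd this (not_lt.2 (Nat.le_self_pow (Nat.succ_ne_zero k) p))

end Cfsg.Agent.S4464
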