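import Cfsg.Statements.S4471
import Cfsg.Agent.H12.Arc
import Cfsg.Agent.H12.Jordan
import Cfsg.Agent.H12.LinHall
import Cfsg.Agent.H24.Deg
import Cfsg.Agent.H11.GroupUtil
import Cfsg.Agent.H3.Cores

set_option autoImplicit false
open Cfsg

namespace Cfsg.Agent.S4471

open Cfsg.Agent.H11
open scoped commutatorElement

theorem main {G : Type*} [Group G] [Finite G] {χ : G → ℂ} (hχ : IsIrrCharacter G χ)
    (hker : charKer χ = ⊥) {n p : ℕ} (hn : χ 1 = n) (hp : p.Prime) (h7 : 7 ≤ p) (hn2 : n < 2 * p)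
    (hnp : n ≠ p) {P : Subgroup G} (hP : IsPGroup p P) (hc : commutator P ≠ ⊥) :
    ¬ p ^ 2 ∣ (pCore p G).index := by
  classical
  have := Fact.mk hp
  have := Fintype.ofFinite G
  have hχc := isCharacter_of_irr hχ
  have hχP := isCharacter_restrict hχc P
  have hfaith : ∀ g, χ g = χ 1 → g = 1 := fun g hg => hker.le ((mem_charKer_iff hχc).2 hg)
  obtain ⟨θ, hθ, h1, h2⟩ : ∃ θ, IsIrrCharacter P θ ∧ classInner (fun x : P => χ x) θ ≠ 0 ∧
      charDegree θ ≠ 1 := by
    by_contra! h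
    exact hc (eq_bot_iff.2 fun g hg => Subtype.ext (hfaith g (apply_eq_of_mem_charKer (χ := fun x : P => χ x)
      ((mem_charKer_iff_forall_constituent hχP).2 fun θ hθ h1 =>
        (H24.deg_eq_one_iff_commutator_le hθ).1 (h θ hθ h1) hg))))
  have hθn : charDegree θ ≤ n := (H24.deg_le_of_inner_ne_zero hχP hθ h1).trans (H24.deg_eq hn).le
  have hθp : charDegree θ = p := by
    obtain ⟨k, hk⟩ := H24.exists_deg_eq_pow_of_isPGroup hP hθ
    rcases k with - | - | k
    · exact absurd hk h2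
    · simpa using hk
    · have : p ^ 2 ≤ p ^ (k + 2) := Nat.pow_le_pow_right hp.pos (by omega)
      nlinarith
  have hθ1 : θ 1 = p := by rw [H24.irr_deg hθ, hθp]
  obtain ⟨r, rfl⟩ : ∃ r, n = p + r := Nat.exists_eq_add_of_le (hθp ▸ hθn)
  have hψ := isCharacter_sub_irr hχP hθ h1
  have hψ1 : ((fun x : P => χ x) - θ) 1 = r := by simp [hn, hθ1]
  have h3 := H12.commutator_le_charKer_of_degree_lt hψ hψ1 fun q hq hqP => by
    obtain ⟨k, hk⟩ := hP.exists_card_eq
    rw [(Nat.prime_dvd_prime_iff_eq hq hp).1 (hq.dvd_of_dvd_pow (hk ▸ hqP))]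
    omega
  obtain ⟨z, hz, hzc, hzp⟩ := exists_mem_center_orderOf_eq_prime hP _ hc
  obtain ⟨lam, -, h4⟩ := exists_monoidHom_of_le_center hθ _ le_rfl
  set ω : ℂ := ((lam ⟨z, hzc⟩ : ℂˣ) : ℂ) with hω
  have h5 : ∀ k : ℕ, χ (z ^ k) = p * ω ^ k + r := fun k => by
    have e1 := apply_eq_of_mem_charKer (h3 (pow_mem hz k))
    have e2 := h4 (⟨z, hzc⟩ ^ k)
    rw [hψ1, Pi.sub_apply, sub_eq_iff_eq_add] at e1
    rw [map_pow, Units.val_pow_eq_pow_val, hθ1] at e2
    exact e1.trans (by rw [show θ (z ^ k) = _ from e2]; ring)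
  have hzp' : orderOf (z : G) = p := by rw [Subgroup.orderOf_coe, hzp]
  have hprim : IsPrimitiveRoot ω p := by
    refine IsPrimitiveRoot.iff_orderOf.2 (orderOf_eq_prime ?_ fun h => ?_)
    · rw [hω, ← Units.val_pow_eq_pow_val, ← map_pow, show (⟨z, hzc⟩ : Subgroup.center P) ^ p = 1 from
        Subtype.ext (hzp ▸ pow_orderOf_eq_one z), map_one, Units.val_one]
    · have h6 := hfaith z (by simpa [h, hn] using h5 1)
      simp [h6, hp.one_lt.ne] at hzp'
  have hζ := Complex.isPrimitiveRoot_exp p hp.ne_zero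
  set ζ := Complex.exp (2 * Real.pi * Complex.I / p) with hζd
  have hζ1 : ζ ≠ 1 := hζ.ne_one hp.one_lt
  have hζn : ‖ζ - 1‖ < 1 := by
    have h6 := Real.norm_exp_I_mul_ofReal_sub_one_le (x := 2 * Real.pi / p)
    rw [show Complex.I * ((2 * Real.pi / p : ℝ) : ℂ) = 2 * Real.pi * Complex.I / p by
      push_cast; ring] at h6
    have h8 : (7 : ℝ) ≤ p := by exact_mod_cast h7
    refine h6.trans_lt ?_
    rw [Real.norm_of_nonneg (by positivity), div_lt_one (by positivity)]
    linarith [Real.pi_lt_d2]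
  have := NeZero.mk hp.ne_zero
  obtain ⟨k, -, hk⟩ := hprim.eq_pow_of_pow_eq_one hζ.pow_eq_one
  set w : G := z ^ k with hw
  have h6 : ∀ j : ℕ, χ (w ^ j) = ∑ b, (![(p : ℂ), r] b) * (![ζ, 1] b) ^ j := fun j => by
    rw [hw, ← pow_mul, h5, pow_mul, hk]
    simp
  obtain ⟨m, μ, -, h8, h9, -⟩ := H12.exists_eigenvalues_arc hχc w
  have h10 : ∀ i, μ i = ζ ∨ μ i = 1 := fun i => by
    by_contra! h
    have := H12.sum_filter_eq_of_pow_sums μ (fun _ => 1) _ _
      (fun j => by rw [← h6, h8]; simp) (μ i)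
    simp only [Finset.sum_boole, Fin.sum_univ_two, Matrix.cons_val_zero, Matrix.cons_val_one,
      h.1.symm, h.2.symm, if_false, add_zero, Nat.cast_eq_zero, Finset.card_eq_zero] at this
    exact Finset.notMem_empty i (this ▸ by simp)
  have h11 : ∀ g, w * (g⁻¹ * w * g) = g⁻¹ * w * g * w := fun g => by
    have := h9 1 (fun i j => by
      rcases h10 i with h | h <;> rcases h10 j with h' | h' <;>
        simp [h, h', hζn, norm_sub_rev 1 ζ]) g
    rwa [hker, Subgroup.mem_bot, pow_one, commutatorElement_eq_one_iff_mul_comm] at this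
  set N := Subgroup.normalClosure ({w} : Set G) with hN
  have hNc : IsMulCommutative N := Subgroup.isMulCommutative_closure fun a ha b hb => by
    obtain ⟨_, rfl, ha⟩ := Group.mem_conjugatesOfSet_iff.1 ha
    obtain ⟨_, rfl, hb⟩ := Group.mem_conjugatesOfSet_iff.1 hb
    obtain ⟨c, rfl⟩ := isConj_iff.1 ha
    obtain ⟨d, rfl⟩ := isConj_iff.1 hb
    calc c * w * c⁻¹ * (d * w * d⁻¹) = c * (w * ((d⁻¹ * c)⁻¹ * w * (d⁻¹ * c))) * c⁻¹ := by group
      _ = _ := by rw [h11]; group
  have hwN : w ∈ N := Subgroup.subset_normalClosure rfl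
  obtain ⟨l, hl, h12⟩ := exists_irr_constituent (isCharacter_restrict hχc N)
    fun h => irr_apply_one_ne_zero hχ (congrFun h 1)
  obtain ⟨l, rfl⟩ := exists_monoidHom_of_apply_one_eq_one (isCharacter_of_irr hl)
    (irr_apply_one_of_comm (fun a b => hNc.is_comm.comm a b) hl)
  obtain ⟨e, -, he, hdeg⟩ := H24.exists_deg_eq_of_over N hχ hl h12
  rw [H24.deg_eq hn, H24.deg_monoidHom, mul_one] at hdeg
  have he1 : e = 1 := by
    have h13 := H14.clifford N hχ hl h12
    have h14 := H12.sum_filter_eq_of_pow_sums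
      (fun ψ : Finset.univ.image (H14.conjChar N fun g => (l g : ℂ)) => ψ.1 ⟨w, hwN⟩)
      (fun _ => e) ![ζ, 1] ![(p : ℂ), r] (fun j => by
        have h15 := congrFun h13 (⟨w, hwN⟩ ^ j)
        rw [he, Pi.smul_apply, Finset.sum_apply, smul_eq_mul, Finset.mul_sum,
          ← Finset.sum_coe_sort] at h15
        refine Eq.trans ?_ (h15.symm.trans (h6 j))
        refine Finset.sum_congr rfl fun ψ _ => ?_
        obtain ⟨ψ, hψ⟩ := ψ
        obtain ⟨g, -, rfl⟩ := Finset.mem_image.1 hψ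
        simp only [H14.conjChar_eq_comp, map_pow, Units.val_pow_eq_pow_val]) ζ
    rw [← Finset.sum_filter, Finset.sum_const, nsmul_eq_mul] at h14
    simp only [Fin.sum_univ_two, Matrix.cons_val_zero, Matrix.cons_val_one, if_true,
      hζ1.symm, if_false, add_zero] at h14
    refine ((Nat.dvd_prime hp).1 (Dvd.intro_left _ (by exact_mod_cast h14))).resolve_right fun h => ?_
    have h15 : p ∣ r := (Nat.dvd_add_right dvd_rfl).1 ⟨_, h ▸ hdeg⟩
    have := Nat.le_of_dvd (by omega) h15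
    omega
  set T := H14.inertia N fun g => (l g : ℂ) with hT
  obtain ⟨ψ, hψ', h13, -⟩ := H14.clifford_corr_exists N T
    (H14.le_inertia N (isClassFunction_of_irr hl)) hl le_rfl hχ h12
  rw [he1, one_mul] at hdeg
  obtain ⟨ψ, rfl⟩ := exists_monoidHom_of_apply_one_eq_one (isCharacter_of_irr hψ') (by
    have h14 := H14.indFun_one T ψ
    rw [h13, hn, ← hdeg] at h14
    exact (mul_eq_left₀ (by exact_mod_cast (by omega : p + r ≠ 0))).1 h14.symm)
  have hA : ⁅T.normalCore, T.normalCore⁆ ≤ ⊥ := by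
    rw [← hker, ← h13]
    have hle : ⁅T.normalCore, T.normalCore⁆ ≤ T :=
      (Subgroup.commutator_le_left _ _).trans T.normalCore_le
    refine H14.le_charKer_indFun T (isCharacter_monoidHom ψ) _ hle fun m => ?_
    have : (⟨m, hle m.2⟩ : T) ∈ commutator T := by
      have h1 : ⁅T.normalCore, T.normalCore⁆ ≤ (commutator T).map T.subtype := by
        rw [commutator, Subgroup.map_commutator, ← MonoidHom.range_eq_map, Subgroup.range_subtype]
        exact Subgroup.commutator_mono T.normalCore_le T.normalCore_le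
      obtain ⟨y, hy, hy'⟩ := h1 m.2
      rwa [show (⟨m, hle m.2⟩ : T) = y from Subtype.ext hy'.symm]
    rw [MonoidHom.mem_ker.1 (Abelianization.commutator_subset_ker ψ this), map_one]
  obtain ⟨S⟩ : Nonempty (Sylow p T.normalCore) := inferInstance
  have hS : (S : Subgroup T.normalCore).Normal := ⟨fun x hx g => by
    rwa [show g * x = x * g from Subtype.ext (commutatorElement_eq_one_iff_mul_comm.1
      (hA (Subgroup.commutator_mem_commutator g.2 x.2))), mul_inv_cancel_right]⟩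
  have := S.characteristic_of_normal hS
  have h14 := Subgroup.index_dvd_of_le
    ((H3.le_pCore_iff (N := (S : Subgroup T.normalCore).map T.normalCore.subtype)).2 (S.2.map _))
  rw [Subgroup.index_map_subtype] at h14
  intro h
  have h15 := ((Nat.Coprime.pow_left 2 ((Nat.Prime.coprime_iff_not_dvd hp).2
    S.not_dvd_index)).dvd_of_dvd_mul_left (h.trans h14)).trans (H12.index_normalCore_dvd_factorial T)
  rw [← hdeg, hp.pow_dvd_factorial_iff (b := 2) (Nat.log_lt_of_lt_pow (by omega) (by nlinarith))] at h15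
  simp only [Nat.Ico_succ_singleton, Finset.sum_singleton, pow_one] at h15
  have := (Nat.le_div_iff_mul_le hp.pos).1 h15
  omega

/-- Let p ≥ 7 be a prime and let the finite group G have a faithful irreducible character of degree n with n < 2p and n ≠ p. If the Sylow p-subgroups of G are non-abelian then p² does not divide the index of O_p(G) in G; consequently, in every case G/O_p(G) has abelian Sylow p-subgroups. -/
theorem result {G : Type*} [Group G] [Finite G] (χ : Cfsg.IrrCharacter G) (hfaith : ∀ g : G, (χ : G → ℂ) g = (χ : G → ℂ) 1 → g = 1) (n : ℕ) (hn : Cfsg.charDegree (χ : G → ℂ) = n) (p : ℕ) (hp : p.Prime) (h7 : 7 ≤ p) (hn2 : n < 2 * p) (hnp : n ≠ p) : ((∃ P : Sylow p G, ∃ x ∈ (P : Subgroup G), ∃ y ∈ (P : Subgroup G), x * y ≠ y * x) → ¬ p ^ 2 ∣ (Cfsg.pCore p G).index) ∧ ∀ Q : Sylow p (G ⧸ Cfsg.pCore p G), ∀ x ∈ (Q : Subgroup (G ⧸ Cfsg.pCore p G)), ∀ y ∈ (Q : Subgroup (G ⧸ Cfsg.pCore p G)), x * y = y * x := by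
  have := Fact.mk hp
  have h1 : (∃ P : Sylow p G, ∃ x ∈ (P : Subgroup G), ∃ y ∈ (P : Subgroup G), x * y ≠ y * x) →
      ¬ p ^ 2 ∣ (Cfsg.pCore p G).index := fun ⟨P, x, hx, y, hy, h⟩ =>
    main χ.2 (H12.charKer_eq_bot_of_faithful hfaith)
      ((H24.deg_eq_iff (isCharacter_of_irr χ.2)).1 hn) hp h7 hn2 hnp P.2 fun hc =>
        h (congrArg Subtype.val (H12.comm_of_commutator_eq_bot hc ⟨x, hx⟩ ⟨y, hy⟩))
  refine ⟨h1, fun Q x hx y hy => ?_⟩
  by_contra h
  obtain ⟨P, rfl⟩ := Sylow.mapSurjective_surjective (QuotientGroup.mk'_surjective (pCore p G)) p Q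
  have h2 := h1 ⟨P, by
    obtain ⟨x, hx, rfl⟩ := hx
    obtain ⟨y, hy, rfl⟩ := hy
    exact ⟨x, hx, y, hy, fun h' => h (by rw [← map_mul, ← map_mul, h'])⟩⟩
  set Q := P.mapSurjective (QuotientGroup.mk'_surjective (pCore p G))
  obtain ⟨k, hk⟩ := Q.2.exists_card_eq
  have h3 : IsCyclic Q := isCyclic_of_card_dvd_prime (p := p) (by
    rcases k with - | - | k
    · simp [hk]
    · simp [hk]
    · exact absurd ((pow_dvd_pow p (by omega)).trans
        (hk ▸ (Q : Subgroup (G ⧸ pCore p G)).card_subgroup_dvd_card)) h2)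
  exact h (congrArg Subtype.val (h3.commutative.is_comm.comm (⟨x, hx⟩ : Q) ⟨y, hy⟩))

end Cfsg.Agent.S4471
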