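import Cfsg.Statements.S4473
import Cfsg.Agent.H29.DicksonCore
import Cfsg.Agent.H19.FS
import Cfsg.Agent.H24.Deg
import Cfsg.Agent.H12.Values

set_option autoImplicit false
open Cfsg

namespace Cfsg.Agent.S4473

open scoped MatrixGroups

/-- Let the finite group G have a faithful irreducible character χ of degree 2 that is primitive: χ is not induced from a character of any proper subgroup. Then the centre of G has index 12, 24 or 60. -/
theorem result {G : Type*} [Group G] [Fintype G] (χ : Cfsg.IrrCharacter G) (hfaith : ∀ g : G, (χ : G → ℂ) g = (χ : G → ℂ) 1 → g = 1) (h2 : Cfsg.charDegree (χ : G → ℂ) = 2) (hprim : ∀ H : Subgroup G, H ≠ ⊤ → ∀ θ : H → ℂ, Cfsg.IsCharacter H θ → (χ : G → ℂ) ≠ Cfsg.indFun H θ) : (Subgroup.center G).index = 12 ∨ (Subgroup.center G).index = 24 ∨ (Subgroup.center G).index = 60 := by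
  classical
  have hχ2 : (χ : G → ℂ) 1 = (2 : ℕ) := (H24.deg_eq_iff (H11.isCharacter_of_irr χ.2)).1 h2
  obtain ⟨n, ρ, hρ, hχ⟩ := χ.2
  obtain rfl : n = 2 := by
    rw [← hχ, ρ.char_one, Module.finrank_fin_fun] at hχ2
    exact_mod_cast hχ2
  let f : G →* GL (Fin 2) ℂ := (H19.repMat ρ).toHomUnits
  let F : G →* PGL(2, ℂ) := H29.pmk.comp f
  have hf : Function.Injective (H19.repMat ρ) := (injective_iff_map_eq_one _).2 fun g hg => by
    refine hfaith g ?_
    rw [← hχ, ρ.char_one, H12.character_eq_finrank_iff]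
    exact LinearMap.toMatrix'.injective (hg.trans LinearMap.toMatrix'_id.symm)
  have hker : F.ker = Subgroup.center G := by
    ext g
    rw [MonoidHom.mem_ker, Subgroup.mem_center_iff]
    refine (H29.pmk_eq_one_iff (f g)).trans ⟨fun h x => hf ?_, fun h => ?_⟩
    · have h1 : H19.repMat ρ g = (f g 0 0) • 1 := by
        ext i j
        fin_cases i <;> fin_cases j
        · simp [f]
        · simpa [f] using h.1
        · simpa [f] using h.2.1
        · simpa [f] using h.2.2.symm
      rw [map_mul, map_mul, h1, mul_smul_comm, smul_mul_assoc, mul_one, one_mul]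
    · obtain ⟨c, hc⟩ := H19.exists_smul_one_of_commute ρ hρ (H19.repMat ρ g) fun x => by
        rw [← map_mul, ← map_mul, h]
      simp [f, hc]
  have : Finite F.range := Finite.of_surjective _ F.rangeRestrict_surjective
  have hcard : (Subgroup.center G).index = Nat.card F.range := by rw [← hker, Subgroup.index_ker]
  have hfix : ∀ x : H29.P1 ℂ, ¬ ∀ g, F g • x = x := fun x hx => by
    induction x using Projectivization.ind with
    | h v hv =>
    rcases ((H13.isIrreducible_iff ρ).1 hρ).2 (ℂ ∙ v) (fun g w hw => by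
      obtain ⟨c, rfl⟩ := Submodule.mem_span_singleton.1 hw
      obtain ⟨a, ha⟩ := (Projectivization.mk_eq_mk_iff' ℂ _ _ _ _).1
        ((Projectivization.PGL.mk_smul_mk (f g) hv).symm.trans (hx g))
      rw [map_smul]
      refine Submodule.smul_mem _ _ (Submodule.mem_span_singleton.2 ⟨a, ha.trans ?_⟩)
      exact LinearMap.toMatrix'_mulVec (ρ g) v) with h | h
    · exact hv (Submodule.span_singleton_eq_bot.1 h)
    · have h1 := finrank_span_singleton (K := ℂ) hv
      rw [h] at h1
      simp at h1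
  rw [hcard]
  rcases H29.dickson_core (G := F.range) (fun g _ => H29.exists_fixed_of_isAlgClosed g) with
    ⟨x, h⟩ | ⟨x, y, hxy, -, h⟩ | ⟨-, ⟨⟨e⟩⟩ | ⟨⟨e⟩⟩ | ⟨⟨e⟩⟩⟩ | ⟨h, -⟩ | ⟨x, q, hq, h, -⟩
  · exact absurd (fun g => h _ ⟨g, rfl⟩) (hfix x)
  · exfalso
    set H := (MulAction.stabilizer PGL(2, ℂ) x).comap F with hH
    have hmem : ∀ g, g ∈ H ↔ F g • x = x := fun g => Iff.rfl
    have hy : ∀ g ∈ H, F g • y = y := fun g hg =>
      ((h _ ⟨g, rfl⟩).resolve_right fun h => hxy (((hmem g).1 hg).symm.trans h.1)).2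
    have hn : ∀ g, g ∉ H → F g • x = y ∧ F g • y = x := fun g hg =>
      (h _ ⟨g, rfl⟩).resolve_left fun h => hg h.1
    have hidx : H.index = 2 := by
      obtain ⟨a, ha⟩ := not_forall.1 (hfix x)
      refine Subgroup.index_eq_two_iff.2 ⟨a, fun b => ?_⟩
      have h1 : b * a ∈ H ↔ F b • y = x := by rw [hmem, map_mul, mul_smul, (hn a ha).1]
      by_cases hb : b ∈ H
      · exact Or.inr ⟨hb, fun h => hxy ((h1.1 h).symm.trans (hy b hb))⟩
      · exact Or.inl ⟨h1.2 (hn b hb).2, hb⟩
    have : Finite (F.comp H.subtype).range :=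
      Finite.of_surjective _ (F.comp H.subtype).rangeRestrict_surjective
    have := H29.isCyclic_of_fix_two hxy (F.comp H.subtype).range
      (by rintro _ ⟨g, rfl⟩; exact g.2) (by rintro _ ⟨g, rfl⟩; exact hy g g.2)
    have hc : ∀ a b : H, a * b = b * a :=
      commutative_of_cyclic_center_quotient (F.comp H.subtype).rangeRestrict fun g hg => by
        rw [MonoidHom.ker_rangeRestrict, ← MonoidHom.comap_ker, hker] at hg
        exact Subgroup.mem_center_iff.2 fun b => Subtype.ext (Subgroup.mem_center_iff.1 hg b)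
    obtain ⟨θ, hθ, h1⟩ := H11.exists_irr_constituent
      (H11.isCharacter_restrict (H11.isCharacter_of_irr χ.2) H)
      fun h => H11.irr_apply_one_ne_zero χ.2 (congrFun h 1)
    refine hprim H (fun h => by simp [h] at hidx) θ (H11.isCharacter_of_irr hθ)
      (H24.eq_of_inner_ne_zero_of_deg_le (H14.IsCharacter.indFun H (H11.isCharacter_of_irr hθ)) χ.2
        ?_ ?_).symm
    · rwa [H14.classInner_indFun_left H θ (H11.isClassFunction_of_irr χ.2), ← H11.conj_classInner,
        map_ne_zero]
    · rw [H24.deg_indFun H (H11.isCharacter_of_irr hθ), hidx, h2,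
        (H24.deg_eq_one_iff (H11.isCharacter_of_irr hθ)).2 (H11.irr_apply_one_of_comm hc hθ)]
  · left
    rw [Nat.card_congr e.toEquiv, nat_card_alternatingGroup]
    simp [Nat.factorial]
  · right; left
    rw [Nat.card_congr e.toEquiv, Nat.card_perm]
    simp [Nat.factorial]
  · right; right
    rw [Nat.card_congr e.toEquiv, nat_card_alternatingGroup]
    simp [Nat.factorial]
  · norm_num at h
  · rw [Subgroup.card_eq_one.2 (eq_bot_iff.2 fun g hg => ?_)] at h
    · omega
    have h1 := (H29.uni_pow_eq_one_iff (Subgroup.mem_subgroupOf.1 hg) (orderOf g)).1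
      (by rw [← Subgroup.coe_pow, pow_orderOf_eq_one, Subgroup.coe_one])
    exact Subtype.ext (h1.resolve_right (by exact_mod_cast (orderOf_pos g).ne'))

end Cfsg.Agent.S4473
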