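import Cfsg.Statements.S4475
import Cfsg.Agent.H19.FS

set_option autoImplicit false
open Cfsg

namespace Cfsg.Agent.S4475


/-- Let ρ be an irreducible representation of the finite group G on the coordinate space Fin n → ℂ whose character χ is real-valued, and let ν be the Frobenius–Schur indicator of χ (the average of χ(s²)). Writing X(g) for the matrix of ρ(g), there is a nonzero matrix M with X(g)ᵀ M X(g) = M for all g ∈ G; and every such M (zero or not) satisfies Mᵀ = ν·M. -/
theorem result {G : Type*} [Group G] [Fintype G] (n : ℕ) (ρ : Representation ℂ G (Fin n → ℂ)) (hirr : ρ.IsIrreducible) (hreal : ∀ g : G, (ρ.character g).im = 0) : (∃ M : Matrix (Fin n) (Fin n) ℂ, M ≠ 0 ∧ ∀ g : G, (LinearMap.toMatrix' (ρ g)).transpose * M * LinearMap.toMatrix' (ρ g) = M) ∧ ∀ M : Matrix (Fin n) (Fin n) ℂ, (∀ g : G, (LinearMap.toMatrix' (ρ g)).transpose * M * LinearMap.toMatrix' (ρ g) = M) → M.transpose = ((Nat.card G : ℂ)⁻¹ * ∑ s : G, ρ.character (s * s)) • M := by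
  let ρ' : Representation ℂ G (Fin n → ℂ) :=
    { toFun := fun g => Matrix.toLin' (H19.repMat ρ g⁻¹).transpose
      map_one' := by rw [inv_one, map_one, Matrix.transpose_one, Matrix.toLin'_one]; rfl
      map_mul' := fun g h => by
        rw [mul_inv_rev, map_mul, Matrix.transpose_mul, Matrix.toLin'_mul]; rfl }
  have hm : ∀ g, LinearMap.toMatrix' (ρ' g) = (LinearMap.toMatrix' (ρ g⁻¹)).transpose :=
    fun g => LinearMap.toMatrix'_toLin' _
  have hχ : Cfsg.IsIrrCharacter G ρ.character := ⟨n, ρ, hirr, rfl⟩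
  have hc : ρ'.character = ρ.character := by
    funext g
    rw [H15.character_eq_trace_toMatrix', hm, Matrix.trace_transpose,
      ← H15.character_eq_trace_toMatrix']
    exact (H19.real_iff_inv (H11.isCharacter_of_irr hχ)).1 hreal g
  have hirr' : ρ'.IsIrreducible := (H11.isIrreducible_iff_isIrrCharacter ρ').mpr (hc ▸ hχ)
  have key : ∀ M : Matrix (Fin n) (Fin n) ℂ, (∀ g, H15.formRep ρ' g M = M) ↔
      ∀ g : G, (LinearMap.toMatrix' (ρ g)).transpose * M * LinearMap.toMatrix' (ρ g) = M := by
    intro M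
    simp only [H15.formRep_apply, hm, Matrix.transpose_transpose]
    exact ⟨fun h g => by simpa using h g⁻¹, fun h g => h g⁻¹⟩
  refine ⟨?_, fun M hM => ?_⟩
  · obtain ⟨B, hB0, hB⟩ := H19.exists_invariant_form ρ' hirr' (hc ▸ hreal)
    exact ⟨B, hB0, (key B).mp hB⟩
  · have := H19.transpose_eq_fs_smul ρ' hirr' M ((key M).mpr hM)
    rwa [hc] at this

end Cfsg.Agent.S4475
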