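import Cfsg.Statements.S4476
import Cfsg.Agent.H19.FS
import Cfsg.Agent.H11.Kernel

set_option autoImplicit false
open Cfsg

namespace Cfsg.Agent.S4476


/-- Let G be a finite group of even order g with exactly t involutions, and put α = (g − 1)/t (a rational number). Then (a) some non-identity element x of G has at most α² conjugates; and (b) some non-principal real-valued irreducible character of G has degree at most α. -/
theorem result {G : Type*} [Group G] [Fintype G] (heven : Even (Nat.card G)) (t : ℕ) (ht : Nat.card {x : G // orderOf x = 2} = t) : (∃ x : G, x ≠ 1 ∧ ((Subgroup.centralizer ({x} : Set G)).index : ℚ) ≤ (((Nat.card G : ℚ) - 1) / t) ^ 2) ∧ ∃ χ : Cfsg.IrrCharacter G, (χ : G → ℂ) ≠ (fun _ => 1) ∧ (∀ g : G, ((χ : G → ℂ) g).im = 0) ∧ (Cfsg.charDegree (χ : G → ℂ) : ℚ) ≤ ((Nat.card G : ℚ) - 1) / t := by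
  classical
  letI := Fintype.ofFinite (Cfsg.IrrCharacter G)
  haveI : Fact (Nat.Prime 2) := ⟨Nat.prime_two⟩
  have htpos : 0 < t := by
    obtain ⟨u, hu⟩ := exists_prime_orderOf_dvd_card' 2 (even_iff_two_dvd.mp heven)
    rw [← ht]
    haveI : Nonempty {x : G // orderOf x = 2} := ⟨⟨u, hu⟩⟩
    exact Nat.card_pos
  have hsq : H19.sqCount (1 : G) = t + 1 := by
    have : Nat.card {x : G // x * x = 1} = t + 1 := by
      rw [← ht, Nat.card_eq_fintype_card, Nat.card_eq_fintype_card, Fintype.card_subtype,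
        Fintype.card_subtype, ← Finset.card_insert_of_notMem (a := (1 : G)) (by simp)]
      congr 1
      ext x
      simp only [Finset.mem_filter, Finset.mem_univ, true_and, Finset.mem_insert]
      rw [orderOf_eq_prime_iff, pow_two]
      constructor
      · intro h
        by_cases hx : x = 1
        · exact Or.inl hx
        · exact Or.inr ⟨h, hx⟩
      · rintro (rfl | h)
        · simp
        · exact h.1
    rw [H19.sqCount, this]; push_cast; rfl
  set d : Cfsg.IrrCharacter G → ℝ := fun χ => Cfsg.charDegree χ.1 with hd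
  have hd1 : ∀ χ : Cfsg.IrrCharacter G, χ.1 1 = (d χ : ℂ) := fun χ => by
    rw [← H19.charDegree_cast_irr]; simp [hd]
  have hdpos : ∀ χ, 0 < d χ := fun χ => by
    simp only [hd]; exact_mod_cast H19.charDegree_pos χ
  set T := Finset.univ.erase (H19.oneIrr G) with hT
  set S := T.filter (fun χ => ∀ g, (χ.1 g).im = 0) with hS
  have h1 : (t : ℝ) ≤ ∑ χ ∈ S, d χ := by
    rw [H19.sqCount_eq_sum, ← Finset.add_sum_erase _ _ (Finset.mem_univ (H19.oneIrr G)),
      H19.oneIrr_coe, H19.fs_one, one_mul, add_comm, add_left_inj] at hsq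
    have h2 := congrArg Complex.re hsq
    rw [Complex.natCast_re, Complex.re_sum] at h2
    rw [← h2, hS, Finset.sum_filter]
    refine Finset.sum_le_sum fun χ _ => ?_
    rw [hd1]
    split_ifs with hr
    · rcases H19.fs_of_real χ.2 hr with h | h <;> simp [h, (hdpos χ).le]
    · push Not at hr
      obtain ⟨g, hg⟩ := hr
      simp [H19.fs_eq_zero_of_not_real χ.2 hg]
  have h2 : ∑ χ ∈ T, d χ ^ 2 = (Nat.card G : ℝ) - 1 := by
    have h3 := H11.sum_degree_sq (G := G)
    rw [← Finset.add_sum_erase _ _ (Finset.mem_univ (H19.oneIrr G)), H19.oneIrr_coe] at h3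
    simp only [hd1] at h3
    have h4 : (1 : ℝ) ^ 2 + ∑ χ ∈ T, d χ ^ 2 = Nat.card G := by exact_mod_cast h3
    linarith
  have h2' : ∑ χ ∈ S, d χ ^ 2 ≤ (Nat.card G : ℝ) - 1 := by
    rw [← h2]
    exact Finset.sum_le_sum_of_subset_of_nonneg (Finset.filter_subset _ _) fun _ _ _ => sq_nonneg _
  have htr : (0 : ℝ) < t := by exact_mod_cast htpos
  have hg1 : (0 : ℝ) < (Nat.card G : ℝ) - 1 := by
    have : 2 ≤ Nat.card G := Nat.le_of_dvd Nat.card_pos (even_iff_two_dvd.mp heven)
    have : (2 : ℝ) ≤ Nat.card G := by exact_mod_cast this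
    linarith
  refine ⟨?_, ?_⟩
  · by_contra hcon
    push Not at hcon
    have hc : ∀ x : G, x ≠ 1 → (Nat.card (Subgroup.centralizer ({x} : Set G)) : ℝ) *
        ((Nat.card G : ℝ) - 1) ^ 2 < Nat.card G * t ^ 2 := by
      intro x hx
      have h3 : (((Nat.card G : ℝ) - 1) / t) ^ 2 < (Subgroup.centralizer ({x} : Set G)).index := by
        have := hcon x hx
        exact_mod_cast this
      rw [div_pow, div_lt_iff₀ (by positivity)] at h3
      have h4 : (Nat.card (Subgroup.centralizer ({x} : Set G)) : ℝ) *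
          (Subgroup.centralizer ({x} : Set G)).index = Nat.card G := by
        exact_mod_cast Subgroup.card_mul_index _
      have h5 : (0 : ℝ) < Nat.card (Subgroup.centralizer ({x} : Set G)) := by
        exact_mod_cast Nat.card_pos
      rw [← h4, mul_assoc, h4]
      exact mul_lt_mul_of_pos_left h3 h5
    have hsum : ∑ x ∈ Finset.univ.erase (1 : G),
        (Nat.card (Subgroup.centralizer ({x} : Set G)) : ℝ) = T.card * Nat.card G := by
      have h3 : ∑ x : G, (Nat.card (Subgroup.centralizer ({x} : Set G)) : ℝ) =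
          Fintype.card (Cfsg.IrrCharacter G) * Nat.card G := by
        simp only [← H11.sum_norm_sq_apply]
        rw [Finset.sum_comm, Finset.sum_congr rfl fun χ _ => H11.sum_norm_sq_eq_card χ.2]
        simp
      rw [← Finset.add_sum_erase _ _ (Finset.mem_univ (1 : G))] at h3
      have h4 : Subgroup.centralizer ({1} : Set G) = ⊤ := by
        ext x; simp [Subgroup.mem_centralizer_singleton_iff]
      rw [h4, Subgroup.card_top] at h3
      have h5 : (Fintype.card (Cfsg.IrrCharacter G) : ℝ) = T.card + 1 := by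
        rw [hT, Finset.card_erase_of_mem (Finset.mem_univ _), Finset.card_univ,
          Nat.cast_sub Fintype.card_pos]
        simp
      rw [h5] at h3
      linarith
    have hne : (Finset.univ.erase (1 : G)).Nonempty := by
      obtain ⟨u, hu⟩ := exists_prime_orderOf_dvd_card' 2 (even_iff_two_dvd.mp heven)
      exact ⟨u, Finset.mem_erase.mpr ⟨by rintro rfl; simp at hu, Finset.mem_univ _⟩⟩
    have h6 := Finset.sum_lt_sum_of_nonempty hne fun x hx => hc x (Finset.mem_erase.mp hx).1
    rw [← Finset.sum_mul, hsum, Finset.sum_const,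
      Finset.card_erase_of_mem (Finset.mem_univ (1 : G)), Finset.card_univ, nsmul_eq_mul, Nat.cast_sub Fintype.card_pos, ← Nat.card_eq_fintype_card,
      Nat.cast_one] at h6
    have h7 := sq_sum_le_card_mul_sum_sq (s := S) (f := d)
    have h8 : (S.card : ℝ) ≤ T.card := by exact_mod_cast Finset.card_filter_le _ _
    have h9 : (t : ℝ) ^ 2 ≤ T.card * ((Nat.card G : ℝ) - 1) := by
      calc (t : ℝ) ^ 2 ≤ (∑ χ ∈ S, d χ) ^ 2 := by gcongr
        _ ≤ S.card * ∑ χ ∈ S, d χ ^ 2 := h7
        _ ≤ T.card * ((Nat.card G : ℝ) - 1) := by gcongr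
    have h10 : (0 : ℝ) < Nat.card G := by linarith
    have h11 := mul_le_mul_of_nonneg_left h9 (mul_pos h10 hg1).le
    nlinarith
  · by_contra hcon
    push Not at hcon
    have hne : S.Nonempty := by
      rw [Finset.nonempty_iff_ne_empty]
      intro h
      rw [h, Finset.sum_empty] at h1
      linarith
    have h3 := Finset.sum_lt_sum_of_nonempty hne (f := fun χ => ((Nat.card G : ℝ) - 1) / t * d χ)
      (g := fun χ => d χ ^ 2) fun χ hχ => by
        obtain ⟨h4, h5⟩ := Finset.mem_filter.mp hχ
        have h6 := hcon χ (fun e => (Finset.mem_erase.mp h4).1 (Subtype.ext e)) h5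
        have h7 : ((Nat.card G : ℝ) - 1) / t < d χ := by
          simp only [hd]; exact_mod_cast h6
        rw [pow_two]
        exact mul_lt_mul_of_pos_right h7 (hdpos χ)
    rw [← Finset.mul_sum] at h3
    have h4 : ((Nat.card G : ℝ) - 1) / t * t ≤ ((Nat.card G : ℝ) - 1) / t * ∑ χ ∈ S, d χ := by
      gcongr
    rw [div_mul_cancel₀ _ htr.ne'] at h4
    linarith

end Cfsg.Agent.S4476
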