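import Cfsg.Statements.S4478
import Cfsg.Agent.S0165
import Cfsg.Agent.H19.FS
import Cfsg.Agent.H24.Deg
import Cfsg.Agent.H13.Complete

set_option autoImplicit false
open Cfsg

namespace Cfsg.Agent.S4478

/-- Let G be a finite group of even order and χ an irreducible character of G whose degree x is divisible by the full power of 2 dividing the order of G and, for every odd prime p such that G has an element of order 2p, by the full power of p dividing the order of G. Then all involutions of G are conjugate, the centralizer of every involution has order exactly x with x coprime to its index, and the Frobenius–Schur indicator of χ equals 1. -/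
theorem result {G : Type*} [Group G] [Fintype G] (heven : Even (Nat.card G)) (χ : Cfsg.IrrCharacter G) (h2 : 2 ^ (Nat.card G).factorization 2 ∣ Cfsg.charDegree (χ : G → ℂ)) (hp : ∀ p : ℕ, p.Prime → p ≠ 2 → (∃ g : G, orderOf g = 2 * p) → p ^ (Nat.card G).factorization p ∣ Cfsg.charDegree (χ : G → ℂ)) : (∀ s t : G, orderOf s = 2 → orderOf t = 2 → IsConj s t) ∧ (∀ s : G, orderOf s = 2 → Nat.card (Subgroup.centralizer ({s} : Set G)) = Cfsg.charDegree (χ : G → ℂ) ∧ (Nat.card (Subgroup.centralizer ({s} : Set G))).Coprime (Subgroup.centralizer ({s} : Set G)).index) ∧ (Nat.card G : ℂ)⁻¹ * ∑ g : G, (χ : G → ℂ) (g * g) = 1 := by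
  classical
  set d := Cfsg.charDegree (χ : G → ℂ) with hd
  have hd1 : (χ : G → ℂ) 1 = d := H24.irr_deg χ.2
  have hd0 : 0 < d := H24.deg_pos χ.2
  have hG0 : Nat.card G ≠ 0 := Nat.card_pos.ne'
  have hvan : ∀ p : ℕ, p.Prime → p ^ (Nat.card G).factorization p ∣ d → ∀ g : G, p ∣ orderOf g →
      (χ : G → ℂ) g = 0 := fun p hp hdvd g hg => by
    obtain ⟨n, ρ, hρ, h⟩ := χ.2
    rw [← h] at hd1 ⊢
    refine S0165.result ρ p _ hp (Nat.ordProj_dvd _ p)
      (Nat.pow_succ_factorization_not_dvd hG0 hp) ?_ g hg
    rw [ρ.char_one] at hd1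
    have : Module.finrank ℂ (Fin n → ℂ) = d := by exact_mod_cast hd1
    rwa [this]
  -- primes dividing the order of an element commuting with an involution
  have hpr : ∀ s : G, orderOf s = 2 → ∀ y : G, Commute s y → ∀ p : ℕ, p.Prime → p ∣ orderOf y →
      p ^ (Nat.card G).factorization p ∣ d := fun s hs y hc p hpp hy => by
    by_cases h : p = 2
    · exact h ▸ h2
    refine hp p hpp h ⟨s * y ^ (orderOf y / p), ?_⟩
    have h1 := orderOf_pow_orderOf_div (orderOf_pos y).ne' hy
    rw [(hc.pow_right _).orderOf_mul_eq_mul_orderOf_of_coprime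
      (by rw [hs, h1]; exact (Nat.coprime_primes Nat.prime_two hpp).2 (Ne.symm h)), hs, h1]
  have hsum : ∑ g : G, (χ : G → ℂ) (g * g) =
      ((Finset.univ.filter fun g : G => orderOf g = 2).card : ℂ) * d := by
    have e1 : ∑ g : G, (χ : G → ℂ) g = 0 := by
      have h1 : (χ : G → ℂ) ≠ fun _ => 1 := fun h => by
        have h3 : d = 1 := by exact_mod_cast hd1.symm.trans (congrFun h 1)
        have h4 := (dvd_pow_self 2 (Nat.prime_two.factorization_pos_of_dvd hG0
          heven.two_dvd).ne').trans h2
        omega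
      have h3 := H11.classInner_irr_of_ne χ.2 H11.isIrrCharacter_one h1
      rw [H11.classInner_one_right] at h3
      simpa [hG0] using h3
    have e2 : ∑ g ∈ Finset.univ.filter fun g : G => ¬ 2 ∣ orderOf g, (χ : G → ℂ) (g * g) = 0 := by
      rw [← e1, ← Finset.sum_filter_add_sum_filter_not Finset.univ fun g : G => ¬ 2 ∣ orderOf g,
        Finset.sum_eq_zero (s := Finset.univ.filter fun g : G => ¬¬ 2 ∣ orderOf g) fun g hg =>
          hvan 2 Nat.prime_two h2 g (not_not.1 (Finset.mem_filter.1 hg).2), add_zero]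
      have hco : ∀ g : G, ¬ 2 ∣ orderOf g → (orderOf g).Coprime 2 := fun g hg =>
        ((Nat.Prime.coprime_iff_not_dvd Nat.prime_two).2 hg).symm
      have hinj : Set.InjOn (fun g : G => g * g)
          (Finset.univ.filter fun g : G => ¬ 2 ∣ orderOf g) := fun a ha b hb hab => by
        have ha' := hco a (by simpa using ha)
        have hb' := hco b (by simpa using hb)
        obtain ⟨k, hk⟩ : Odd (orderOf a * orderOf b) :=
          Nat.coprime_two_right.1 (Nat.Coprime.mul_left ha' hb')
        have h3 : a ^ (2 * k + 1) = 1 := by rw [← hk, pow_mul, pow_orderOf_eq_one, one_pow]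
        have h4 : b ^ (2 * k + 1) = 1 := by rw [← hk, mul_comm, pow_mul, pow_orderOf_eq_one, one_pow]
        have h5 : a ^ 2 = b ^ 2 := by simpa [sq] using hab
        calc a = a ^ (2 * k + 1) * a := by rw [h3, one_mul]
          _ = (a ^ 2) ^ (k + 1) := by rw [← pow_succ, ← pow_mul]; rfl
          _ = b ^ (2 * k + 1) * b := by rw [h5, ← pow_succ, ← pow_mul]; rfl
          _ = b := by rw [h4, one_mul]
      have hmap : Set.MapsTo (fun g : G => g * g) (Finset.univ.filter fun g : G => ¬ 2 ∣ orderOf g)
          (Finset.univ.filter fun g : G => ¬ 2 ∣ orderOf g) := fun a ha => by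
        have h3 : ¬ 2 ∣ orderOf a := by simpa using ha
        have h4 : ¬ 2 ∣ orderOf (a * a) := fun h => h3 (h.trans (sq a ▸ orderOf_pow_dvd 2))
        simpa using h4
      exact Finset.sum_nbij (fun g => g * g) (fun a ha => hmap ha) hinj
        (Finset.surjOn_of_injOn_of_card_le _ hmap hinj le_rfl) fun _ _ => rfl
    rw [← Finset.sum_filter_add_sum_filter_not Finset.univ fun g : G => ¬ 2 ∣ orderOf g, e2, zero_add,
      ← nsmul_eq_mul, ← Finset.sum_const, Finset.sum_filter, Finset.sum_filter]
    refine Finset.sum_congr rfl fun g _ => ?_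
    by_cases h : orderOf g = 2
    · rw [if_pos h, if_pos (by simp [h]), ← sq, ← h, pow_orderOf_eq_one, hd1]
    · rw [if_neg h]
      split_ifs with h1
      · rfl
      have h3 : orderOf (g * g) ≠ 1 := fun h3 => by
        rw [orderOf_eq_one_iff, ← sq] at h3
        exact h (Nat.dvd_antisymm (orderOf_dvd_of_pow_eq_one h3) (not_not.1 h1))
      obtain ⟨p, hpp, hpd⟩ := Nat.exists_prime_and_dvd h3
      exact hvan p hpp (hpr (g ^ (orderOf g / 2))
        (orderOf_pow_orderOf_div (orderOf_pos g).ne' (not_not.1 h1)) (g * g)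
        (((Commute.refl g).mul_right (Commute.refl g)).pow_left _) p hpp hpd) _ hpd
  set I := Finset.univ.filter fun g : G => orderOf g = 2 with hI
  have hI0 : 0 < I.card := by
    have := Fact.mk Nat.prime_two
    obtain ⟨s, hs⟩ := exists_prime_orderOf_dvd_card' 2 heven.two_dvd
    exact Finset.card_pos.2 ⟨s, by simp [hI, hs]⟩
  have hfs : H19.fs (χ : G → ℂ) = 1 := by
    have h1 : (Nat.card G : ℂ) * H19.fs (χ : G → ℂ) = I.card * d := by
      rw [H19.fs_def, hsum, mul_inv_cancel_left₀ (by exact_mod_cast hG0)]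
    have h3 : 0 < I.card * d := Nat.mul_pos hI0 hd0
    rcases H19.fs_cases χ.2 with h | h | h
    · rw [h, mul_zero] at h1
      have : 0 = I.card * d := by exact_mod_cast h1
      omega
    · exact h
    · rw [h, mul_neg, mul_one] at h1
      have : -(Nat.card G : ℤ) = I.card * d := by exact_mod_cast h1
      have h4 : (0 : ℤ) < I.card * d := by exact_mod_cast h3
      omega
  have hcard : Nat.card G = I.card * d := by
    have h1 : (Nat.card G : ℂ) * H19.fs (χ : G → ℂ) = I.card * d := by
      rw [H19.fs_def, hsum, mul_inv_cancel_left₀ (by exact_mod_cast hG0)]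
    rw [hfs, mul_one] at h1
    exact_mod_cast h1
  have hfull : ∀ s : G, orderOf s = 2 → ∀ p : ℕ, p.Prime →
      p ∣ Nat.card (Subgroup.centralizer ({s} : Set G)) → p ^ (Nat.card G).factorization p ∣ d :=
    fun s hs p hpp h => by
      have := Fact.mk hpp
      obtain ⟨y, hy⟩ := exists_prime_orderOf_dvd_card' p h
      exact hpr s hs y (Subgroup.mem_centralizer_singleton_iff.1 y.2).symm p hpp
        (by rw [Subgroup.orderOf_coe, hy])
  have hdvd : ∀ s : G, orderOf s = 2 → Nat.card (Subgroup.centralizer ({s} : Set G)) ∣ d :=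
    fun s hs => (Nat.dvd_iff_prime_pow_dvd_dvd _ _).2 fun p k hpp h => by
      rcases k with - | k
      · simp
      exact (pow_dvd_pow p ((hpp.pow_dvd_iff_le_factorization hG0).1
        (h.trans (Subgroup.card_subgroup_dvd_card _)))).trans
        (hfull s hs p hpp ((dvd_pow_self p k.succ_ne_zero).trans h))
  have hcl : ∀ s : G, orderOf s = 2 → (Finset.univ.filter fun g => IsConj s g) = I ∧
      Nat.card (Subgroup.centralizer ({s} : Set G)) = d := fun s hs => by
    have h1 : (Finset.univ.filter fun g => IsConj s g) ⊆ I := fun g hg => by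
      obtain ⟨c, rfl⟩ := isConj_iff.1 (Finset.mem_filter.1 hg).2
      simp only [hI, Finset.mem_filter, Finset.mem_univ, true_and]
      rw [← MulAut.conj_apply, MulEquiv.orderOf_eq, hs]
    have h3 : (Finset.univ.filter fun g => IsConj s g).card *
        Nat.card (Subgroup.centralizer ({s} : Set G)) = I.card * d := by
      rw [← hcard, ← H13.card_isConj_mul_card_centralizer s, Nat.card_eq_fintype_card (α := {x // IsConj s x}),
        Fintype.card_subtype]
    have h4 := Finset.card_le_card h1
    have h5 := Nat.le_of_dvd hd0 (hdvd s hs)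
    have h6 : Nat.card (Subgroup.centralizer ({s} : Set G)) = d := by nlinarith
    refine ⟨Finset.eq_of_subset_of_card_le h1 ?_, h6⟩
    rw [h6] at h3
    exact (Nat.eq_of_mul_eq_mul_right hd0 h3).ge
  refine ⟨fun s t hs ht => ?_, fun s hs => ⟨(hcl s hs).2, ?_⟩, hfs⟩
  · have : t ∈ I := by simp [hI, ht]
    rw [← (hcl s hs).1] at this
    exact (Finset.mem_filter.1 this).2
  · refine Nat.coprime_of_dvd fun p hpp h1 h3 => ?_
    have h4 := hfull s hs p hpp h1
    rw [← (hcl s hs).2] at h4
    have h5 := Nat.mul_dvd_mul h4 h3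
    rw [Subgroup.card_mul_index, ← pow_succ] at h5
    exact Nat.pow_succ_factorization_not_dvd hG0 hpp h5

end Cfsg.Agent.S4478
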