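import Cfsg.Statements.S4480
import Cfsg.Agent.H20.Klein

set_option autoImplicit false
open Cfsg

namespace Cfsg.Agent.S4480

/-- Same setting as the Klein-four order formula: G of order 4·g₀ (g₀ odd) with no normal 2-complement, P a Sylow 2-subgroup, J an involution of P, M over 2, principal 2-block {1, χ₁, χ₂, χ₃} with χ_i(J) = ε_i = ±1. Suppose ε₁ε₂ε₃ = −1 and ε₃ = −1, and put q = x₃ = χ₃(1). Then there is a natural number m with 4·c(J) = m·c(P)·(q + 1), and the order of G equals (m³·c(P)/4)·(q³ − q)/2, that is 8·#G = m³·c(P)·(q³ − q). -/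
theorem result {G : Type*} [Group G] [Finite G] (M : Ideal Cfsg.AlgInt) (hM : Cfsg.IsPModular 2 M) (g₀ : ℕ) (hg₀ : Odd g₀) (hG : Nat.card G = 4 * g₀) (hnc : ¬ ∃ N : Subgroup G, N.Normal ∧ Nat.card N = g₀) (P : Sylow 2 G) (J : G) (hJ : J ∈ (P : Subgroup G)) (hJ2 : orderOf J = 2) (χ₁ χ₂ χ₃ : Cfsg.IrrCharacter G) (ε₁ ε₂ ε₃ : ℤ) (hB : Cfsg.principalBlock M G = {χ : Cfsg.IrrCharacter G | (χ : G → ℂ) = (fun _ => 1) ∨ χ = χ₁ ∨ χ = χ₂ ∨ χ = χ₃}) (hdist : (χ₁ : G → ℂ) ≠ (fun _ => 1) ∧ (χ₂ : G → ℂ) ≠ (fun _ => 1) ∧ (χ₃ : G → ℂ) ≠ (fun _ => 1) ∧ χ₁ ≠ χ₂ ∧ χ₁ ≠ χ₃ ∧ χ₂ ≠ χ₃) (hε : (ε₁ = 1 ∨ ε₁ = -1) ∧ (ε₂ = 1 ∨ ε₂ = -1) ∧ (ε₃ = 1 ∨ ε₃ = -1)) (hval : (χ₁ : G → ℂ) J = ε₁ ∧ (χ₂ : G → ℂ) J = ε₂ ∧ (χ₃ : G → ℂ) J = ε₃) (hprod : ε₁ * ε₂ * ε₃ = -1) (hε₃ : ε₃ = -1) : ∃ m : ℕ, 4 * Nat.card (Subgroup.centralizer ({J} : Set G)) = m * Nat.card (Subgroup.centralizer ((P : Subgroup G) : Set G))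 * (Cfsg.charDegree (χ₃ : G → ℂ) + 1) ∧ 8 * Nat.card G = m ^ 3 * Nat.card (Subgroup.centralizer ((P : Subgroup G) : Set G)) * (Cfsg.charDegree (χ₃ : G → ℂ) ^ 3 - Cfsg.charDegree (χ₃ : G → ℂ)) := by
  have := Fintype.ofFinite G
  obtain ⟨hP, hone⟩ := H20.klein_setup hg₀ hG hnc P
  obtain ⟨h0, h⟩ := H20.klein_rel hM P hP hone hJ hJ2 hB hdist hε hval
  subst hε₃
  have d1 := H21.deg_pos χ₁
  have d2 := H21.deg_pos χ₂
  have d3 := H21.deg_pos χ₃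
  obtain ⟨rfl, rfl⟩ : ε₁ = 1 ∧ ε₂ = 1 := by
    rcases hε.1 with rfl | rfl <;> rcases hε.2.1 with rfl | rfl <;> omega
  have hd := H20.klein_deg_eq hM P hP hJ2 hB hdist (by simpa using hval)
  rw [← hd] at h h0
  set x := charDegree χ₁.1 with hx
  set q := charDegree χ₃.1 with hq
  set c := Nat.card (Subgroup.centralizer ({J} : Set G)) with hc
  set k := Nat.card (Subgroup.centralizer ((P : Subgroup G) : Set G)) with hk
  have hqx : q = 2 * x + 1 := by omega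
  have c1 : 0 < c := Nat.card_pos
  have c2 : 0 < k := Nat.card_pos
  set i := (Subgroup.centralizer ({J} : Set G)).index with hi
  have hg : Nat.card G = i * c := (Subgroup.index_mul_card _).symm
  have key : ∀ χ : IrrCharacter G, (χ.1 J = 1 ∨ χ.1 J = -1) → charDegree χ.1 ∣ i := by
    intro χ hχ
    have h1 := H17.isIntegral_centralChar χ J
    have h2 : IsIntegral ℤ (((i : ℚ) / charDegree χ.1 : ℚ) : ℂ) := by
      rw [centralChar] at h1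
      rcases hχ with e | e <;> rw [e, ← H21.cast_deg] at h1
      · convert h1 using 1; push_cast; ring
      · convert h1.neg using 1; push_cast; ring
    obtain ⟨n, hn⟩ := IsIntegrallyClosed.isIntegral_iff.1
      ((isIntegral_algebraMap_iff (algebraMap ℚ ℂ).injective).1 h2)
    have d : (charDegree χ.1 : ℚ) ≠ 0 := Nat.cast_ne_zero.2 (H21.deg_ne_zero _)
    rw [eq_div_iff d, eq_intCast] at hn
    exact Int.natCast_dvd_natCast.1 ⟨n, by exact_mod_cast (mul_comm _ _).trans hn |>.symm⟩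
  have k1 : x ∣ i := key χ₁ (Or.inl (by simpa using hval.1))
  have k3 : q ∣ i := key χ₃ (Or.inr (by simpa using hval.2.2))
  obtain ⟨j, hj⟩ := Nat.Coprime.mul_dvd_of_dvd_of_dvd (show Nat.Coprime x q by
    rw [hqx]; simp) k1 k3
  rw [hg, hj, hqx] at h
  push_cast at h
  have e : j * ((x + 1) * k) ^ 2 = (2 * c) ^ 2 := by
    have : (2 * x ^ 2 * (2 * x + 1) * c : ℤ) ≠ 0 := by positivity
    have e' : (j * ((x + 1) * k) ^ 2 : ℤ) = (2 * c) ^ 2 :=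
      mul_left_cancel₀ this (by linear_combination h)
    exact_mod_cast e'
  obtain ⟨m, hm⟩ : (x + 1) * k ∣ 2 * c :=
    (Nat.pow_dvd_pow_iff two_ne_zero).1 ⟨j, by rw [← e, mul_comm]⟩
  have hjm : j = m ^ 2 := by
    have : 0 < ((x + 1) * k) ^ 2 := by positivity
    exact Nat.eq_of_mul_eq_mul_right this (by rw [e, hm]; ring)
  refine ⟨m, by rw [hqx]; linarith, ?_⟩
  rw [hg, hj, hjm, hqx, show (2 * x + 1) ^ 3 - (2 * x + 1) = 4 * x * (x + 1) * (2 * x + 1) from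
    Nat.sub_eq_of_eq_add (by ring)]
  calc 8 * (x * (2 * x + 1) * m ^ 2 * c) = 4 * x * (2 * x + 1) * m ^ 2 * (2 * c) := by ring
    _ = _ := by rw [hm]; ring

end Cfsg.Agent.S4480
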