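import Cfsg.Statements.S4481
import Cfsg.Agent.H20.Dihedral
import Cfsg.Agent.H9.Taussky

set_option autoImplicit false
open Cfsg

namespace Cfsg.Agent.S4481

/-- The principal 2-block of a group with dihedral Sylow 2-subgroups. Let G be a finite group whose Sylow 2-subgroup P is dihedral of order 2^n ≥ 8, let σ be an element of P of order 2^(n−1), ζ a primitive 2^(n−1)-th root of unity, and M a maximal ideal of the algebraic integers containing 2. Then the principal 2-block consists of exactly 3 + 2^(n−2) irreducible characters, which can be labelled 1, χ₁, χ₂, χ₃ and χ^(j) for 1 ≤ j ≤ 2^(n−2) − 1 (all distinct), with signs δ₁, δ₂, δ₃ such that for 0 < λ < 2^(n−1): χ₁(σ^λ) = δ₁, χ₂(σ^λ) = δ₂(−1)^(λ+1), χ₃(σ^λ) = δ₃(−1)^(λ+1) and χ^(j)(σ^λ) = δ₁(ζ^(jλ) + ζ^(−jλ)); and for every element ρ of odd order and every j: 1 + δ₁χ₁(ρ) = −δ₂χ₂(ρ) − δ₃χ₃(ρ) = δ₁χ^(j)(ρ).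 -/
theorem result {G : Type*} [Group G] [Finite G] (M : Ideal Cfsg.AlgInt) (hM : Cfsg.IsPModular 2 M) (n : ℕ) (hn : 3 ≤ n) (P : Sylow 2 G) (hP : Nonempty ((P : Subgroup G) ≃* DihedralGroup (2 ^ (n - 1)))) (σ : G) (hσ : σ ∈ (P : Subgroup G)) (hσo : orderOf σ = 2 ^ (n - 1)) (ζ : ℂ) (hζ : IsPrimitiveRoot ζ (2 ^ (n - 1))) : Nat.card (Cfsg.principalBlock M G) = 3 + 2 ^ (n - 2) ∧ ∃ (χ₁ χ₂ χ₃ : Cfsg.IrrCharacter G) (χ' : Fin (2 ^ (n - 2) - 1) → Cfsg.IrrCharacter G) (δ₁ δ₂ δ₃ : ℤ), (δ₁ = 1 ∨ δ₁ = -1) ∧ (δ₂ = 1 ∨ δ₂ = -1) ∧ (δ₃ = 1 ∨ δ₃ = -1) ∧ Function.Injective χ' ∧ (χ₁ : G → ℂ) ≠ (fun _ => 1) ∧ (χ₂ : G → ℂ) ≠ (fun _ => 1) ∧ (χ₃ : G → ℂ) ≠ (fun _ => 1) ∧ χ₁ ≠ χ₂ ∧ χ₁ ≠ χ₃ ∧ χ₂ ≠ χ₃ ∧ (∀ j, χ' j ≠ χ₁ ∧ χ' j ≠ χ₂ ∧ χ' j ≠ χ₃ ∧ (χ' j : G → ℂ) ≠ (fun _ => 1)) ∧ Cfsg.principalBlock M G = {χ : Cfsg.IrrCharacter G | (χ : G → ℂ) = (fun _ => 1) ∨ χ = χ₁ ∨ χ = χ₂ ∨ χ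 = χ₃ ∨ ∃ j, χ = χ' j} ∧ (∀ l : ℕ, 0 < l → l < 2 ^ (n - 1) → (χ₁ : G → ℂ) (σ ^ l) = δ₁ ∧ (χ₂ : G → ℂ) (σ ^ l) = δ₂ * (-1) ^ (l + 1) ∧ (χ₃ : G → ℂ) (σ ^ l) = δ₃ * (-1) ^ (l + 1) ∧ ∀ j : Fin (2 ^ (n - 2) - 1), (χ' j : G → ℂ) (σ ^ l) = δ₁ * (ζ ^ (((j : ℕ) + 1) * l) + (ζ ^ (((j : ℕ) + 1) * l))⁻¹)) ∧ ∀ ρ : G, Odd (orderOf ρ) → ∀ j : Fin (2 ^ (n - 2) - 1), 1 + δ₁ * (χ₁ : G → ℂ) ρ = -δ₂ * (χ₂ : G → ℂ) ρ - δ₃ * (χ₃ : G → ℂ) ρ ∧ 1 + δ₁ * (χ₁ : G → ℂ) ρ = δ₁ * (χ' j : G → ℂ) ρ := by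
  have := Fintype.ofFinite G
  obtain ⟨m, rfl⟩ : ∃ m, n = m + 2 := ⟨n - 2, by omega⟩
  obtain ⟨eP⟩ := hP
  change orderOf σ = 2 ^ (m + 1) at hσo
  change IsPrimitiveRoot ζ (2 ^ (m + 1)) at hζ
  have h4 : 4 ≤ 2 ^ (m + 1) :=
    le_trans (by norm_num) (Nat.pow_le_pow_right two_pos (show 2 ≤ m + 1 by omega))
  obtain ⟨a, b, k, h, hb, hc, hk⟩ := H9.exists_MC_of_dihedral' eP P.2 (le_trans (by norm_num) h4)
  obtain rfl : m = k := by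
    have := Nat.pow_right_injective (le_refl 2) hk
    omega
  have hσa : σ ∈ Subgroup.zpowers a := by
    by_contra h'
    have := orderOf_le_of_pow_eq_one two_pos
      ((sq σ).trans ((H8.mul_self_of_inverts h hc hσ h').trans hb))
    omega
  have hz : Subgroup.zpowers σ = Subgroup.zpowers a := Subgroup.eq_of_le_of_card_ge
    (Subgroup.zpowers_le.2 hσa) (by rw [Nat.card_zpowers, Nat.card_zpowers, hσo, h.ord])
  have hc' : b * σ * b⁻¹ = σ⁻¹ := by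
    obtain ⟨i, rfl⟩ := hσa
    simp only [← conj_zpow, hc, inv_zpow]
  have h' : H9.MC (P : Subgroup G) σ b m := ⟨h.one_le, hσo, hz ▸ h.not_mem, fun g => by
    rw [h.mem]
    constructor
    · rintro ⟨i, hi⟩
      obtain ⟨j, hj⟩ := hz.ge (Subgroup.zpow_mem_zpowers a i)
      exact ⟨j, by simpa only [← hj] using hi⟩
    · rintro ⟨i, hi⟩
      obtain ⟨j, hj⟩ := hz.le (Subgroup.zpow_mem_zpowers σ i)
      exact ⟨j, by simpa only [← hj] using hi⟩, Or.inl hc', Or.inl hb⟩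
  obtain ⟨e, f, hd⟩ := H20.exists_dcol hM h' hb hc' hζ
  let F : Option (Fin 3 ⊕ Fin (2 ^ m - 1)) → G → ℂ := fun k => k.elim (fun _ => 1) (Sum.elim e f)
  have hF : ∀ k, H6.Sgn (F k) := by
    rintro (_ | i | i)
    exacts [H6.sgn_one, hd.sgn_e i, hd.sgn_f i]
  have horth : ∀ k l, k ≠ l → classInner (F k) (F l) = 0 := by
    rintro (_ | i | i) (_ | j | j) h
    exacts [absurd rfl h, (H11.classInner_eq_zero_comm _ _).mp (hd.one_e j),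
      (H11.classInner_eq_zero_comm _ _).mp (hd.one_f j), hd.one_e i,
      hd.orth_ee i j fun h' => h (h' ▸ rfl), (H11.classInner_eq_zero_comm _ _).mp (hd.orth_fe j i),
      hd.one_f i, hd.orth_fe i j, hd.orth_ff i j fun h' => h (h' ▸ rfl)]
  have hinj := H6.irr_injective_sgn hF horth
  have h1 : (hF none).irr.1 = fun _ => 1 := congrArg Subtype.val
    ((hF none).eq_irr_of_ne_zero (ξ := H21.triv G) (by
      change classInner (fun _ => 1) (fun _ => 1) ≠ 0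
      rw [H11.classInner_one_one]; exact one_ne_zero)).symm
  have hne : ∀ k, ((hF (some k)).irr : G → ℂ) ≠ fun _ => 1 := fun k e' =>
    Option.some_ne_none k (hinj (Subtype.ext (e'.trans h1.symm)))
  have hs : ∀ {x : G → ℂ} (hx : H6.Sgn x), ∃ δ : ℤ, (δ = 1 ∨ δ = -1) ∧
      (∀ g, hx.irr.1 g = δ * x g) ∧ ∀ g, δ * hx.irr.1 g = x g := by
    intro x hx
    obtain ⟨ε, hε, h2⟩ := hx.irr_spec
    have h3 := congrFun h2
    rcases hε with rfl | rfl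
    · exact ⟨1, Or.inl rfl, fun g => by simp [h3 g], fun g => by simp [h3 g]⟩
    · exact ⟨-1, Or.inr rfl, fun g => by simp [h3 g], fun g => by simp [h3 g]⟩
  obtain ⟨δ₁, s1, t1, u1⟩ := hs (hd.sgn_e 0)
  obtain ⟨δ₂, s2, t2, u2⟩ := hs (hd.sgn_e 1)
  obtain ⟨δ₃, s3, t3, u3⟩ := hs (hd.sgn_e 2)
  have hf : ∀ j g, (hd.sgn_f j).irr.1 g = -δ₁ * f j g ∧ δ₁ * (hd.sgn_f j).irr.1 g = -f j g := by
    intro j g
    obtain ⟨δ, s, t, u⟩ := hs (hd.sgn_f j)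
    have h2 := hd.reg_f j 1 (by simp)
    rw [← u, ← u1, ← H21.cast_deg, ← H21.cast_deg] at h2
    have h3 : 1 + δ₁ * charDegree (hd.sgn_e 0).irr.1 + δ * charDegree (hd.sgn_f j).irr.1 = 0 := by
      exact_mod_cast h2
    have d1 := H21.deg_pos (hd.sgn_e 0).irr
    have d2 := H21.deg_pos (hd.sgn_f j).irr
    obtain rfl : δ = -δ₁ := by rcases s with rfl | rfl <;> rcases s1 with rfl | rfl <;> omega
    exact ⟨by rw [t]; simp, by rw [← u]; simp⟩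
  refine ⟨?_, (hd.sgn_e 0).irr, (hd.sgn_e 1).irr, (hd.sgn_e 2).irr, fun j => (hd.sgn_f j).irr,
    δ₁, δ₂, δ₃, s1, s2, s3, fun i j hij => ?_, hne (.inl 0), hne (.inl 1), hne (.inl 2),
    fun e' => ?_, fun e' => ?_, fun e' => ?_,
    fun j => ⟨fun e' => ?_, fun e' => ?_, fun e' => ?_, hne (.inr j)⟩, ?_, fun l hl0 hl => ?_,
    fun ρ hρ j => ?_⟩
  · rw [H6.card_eq_of_sgn hF horth fun ξ => ?_]
    · have := Nat.one_le_two_pow (n := m)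
      simp only [Nat.card_eq_fintype_card, Fintype.card_option, Fintype.card_sum, Fintype.card_fin,
        Nat.add_sub_cancel]
      omega
    · rw [hd.mem]
      constructor
      · rintro (h | ⟨i, rfl⟩ | ⟨i, rfl⟩)
        · exact ⟨none, by rw [h]; simp [F, H11.classInner_one_one]⟩
        · exact ⟨some (.inl i), (hd.sgn_e i).inner_irr_ne_zero⟩
        · exact ⟨some (.inr i), (hd.sgn_f i).inner_irr_ne_zero⟩
      · rintro ⟨_ | i | i, h⟩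
        · exact Or.inl (H11.irr_eq_of_classInner_ne_zero H11.isIrrCharacter_one ξ.2 h).symm
        · exact Or.inr (Or.inl ⟨i, (hd.sgn_e i).eq_irr_of_ne_zero h⟩)
        · exact Or.inr (Or.inr ⟨i, (hd.sgn_f i).eq_irr_of_ne_zero h⟩)
  · simpa using @hinj (some (.inr i)) (some (.inr j)) hij
  · simpa using @hinj (some (.inl 0)) (some (.inl 1)) e'
  · simpa using @hinj (some (.inl 0)) (some (.inl 2)) e'
  · simpa using @hinj (some (.inl 1)) (some (.inl 2)) e'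
  · simpa using @hinj (some (.inr j)) (some (.inl 0)) e'
  · simpa using @hinj (some (.inr j)) (some (.inl 1)) e'
  · simpa using @hinj (some (.inr j)) (some (.inl 2)) e'
  · ext ξ
    rw [hd.mem]
    simp only [Fin.exists_fin_succ, Set.mem_setOf_eq, IsEmpty.exists_iff, or_false, or_assoc]
    rfl
  · have hl1 : σ ^ l ≠ 1 := pow_ne_one_of_lt_orderOf hl0.ne' (hσo ▸ hl)
    refine ⟨by rw [t1, hd.val_e0 l hl1, mul_one], by rw [t2, hd.val_e1 l hl1],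
      by rw [t3, hd.val_e2 l hl1], fun j => ?_⟩
    rw [(hf j _).1, hd.val_f j l hl1]
    ring
  · have h2 := hd.reg_e ρ hρ.not_two_dvd_nat
    have h3 := hd.reg_f j ρ hρ.not_two_dvd_nat
    rw [neg_mul, u1, u2, u3, (hf j ρ).2]
    exact ⟨by linear_combination h2, by linear_combination h3⟩

end Cfsg.Agent.S4481
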