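import Cfsg.Statements.S4482
import Cfsg.Agent.H20.Dihedral

set_option autoImplicit false
open Cfsg

namespace Cfsg.Agent.S4482

/-- An order formula for groups with dihedral Sylow 2-subgroups and one class of involutions. Let G be a finite group whose Sylow 2-subgroup P = ⟨σ, τ⟩ is dihedral of order 2^n ≥ 8 (σ of order 2^(n−1), τ an involution inverting σ), let J be the central involution σ^(2^(n−2)), and suppose J, τ and στ are conjugate in G. Fix M over 2 and let χ₁ be an irreducible character in the principal 2-block taking one constant value δ₁ = ±1 at every non-identity power of σ, with χ₁ ≠ 1. Then, with x₁ = χ₁(1) and c(·) denoting orders of centralizers, x₁ ≠ δ₁ and #G · (x₁ − δ₁)² = 2·x₁(x₁ + δ₁)·c(J)³·(1/c(J, τ) + 1/c(J, στ))², where c(J, y) is the order of the joint centralizer of J and y. -/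
theorem result {G : Type*} [Group G] [Finite G] (M : Ideal Cfsg.AlgInt) (hM : Cfsg.IsPModular 2 M) (n : ℕ) (hn : 3 ≤ n) (P : Sylow 2 G) (σ τ : G) (hσ : σ ∈ (P : Subgroup G)) (hτ : τ ∈ (P : Subgroup G)) (hσo : orderOf σ = 2 ^ (n - 1)) (hτo : orderOf τ = 2) (hrel : τ * σ * τ⁻¹ = σ⁻¹) (hgen : Subgroup.closure ({σ, τ} : Set G) = (P : Subgroup G)) (hconj : IsConj (σ ^ (2 ^ (n - 2))) τ ∧ IsConj (σ ^ (2 ^ (n - 2))) (σ * τ)) (χ₁ : Cfsg.IrrCharacter G) (hχ₁ : χ₁ ∈ Cfsg.principalBlock M G) (h1 : (χ₁ : G → ℂ) ≠ (fun _ => 1)) (δ₁ : ℤ) (hδ₁ : δ₁ = 1 ∨ δ₁ = -1) (hval : ∀ l : ℕ, 0 < l → l < 2 ^ (n - 1) → (χ₁ : G → ℂ) (σ ^ l) = δ₁) : (Cfsg.charDegree (χ₁ : G → ℂ) : ℤ) ≠ δ₁ ∧ (Nat.card G : ℚ) * ((Cfsg.charDegree (χ₁ : G → ℂ) : ℚ) - δ₁) ^ 2 = 2 * (Cfsg.charDegree (χ₁ : G → ℂ) : ℚ) * ((Cfsg.charDegree (χ₁ : G → ℂ) : ℚ) + δ₁) * (Nat.card (Subgroup.centralizer ({σ ^ (2 ^ (n - 2))} : Set G)) : ℚ) ^ 3 * (1 / (Nat.card (Subgroup.centralizer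 ({σ ^ (2 ^ (n - 2)), τ} : Set G)) : ℚ) + 1 / (Nat.card (Subgroup.centralizer ({σ ^ (2 ^ (n - 2)), σ * τ} : Set G)) : ℚ)) ^ 2 := by
  have := Fintype.ofFinite G
  obtain ⟨m, rfl⟩ : ∃ m, n = m + 2 := ⟨n - 2, by omega⟩
  change orderOf σ = 2 ^ (m + 1) at hσo
  simp only [Nat.add_sub_cancel] at hconj ⊢
  have h4 : 4 ≤ 2 ^ (m + 1) :=
    le_trans (by norm_num) (Nat.pow_le_pow_right two_pos (show 2 ≤ m + 1 by omega))
  have hb := H20.mul_self_of_orderOf_two hτo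
  have h : H9.MC (P : Subgroup G) σ τ m := ⟨by omega, hσo, fun ⟨k, hk⟩ => by
      rw [← hk, (Commute.zpow_self σ k).eq, mul_inv_cancel_right] at hrel
      have := orderOf_le_of_pow_eq_one two_pos ((sq σ).trans (mul_eq_one_iff_eq_inv.2 hrel))
      omega,
    fun g => hgen ▸ H9.mem_closure_pair_iff' (hrel ▸ inv_mem (Subgroup.mem_zpowers σ))
      (hb ▸ one_mem _) g, Or.inl hrel, Or.inl hb⟩
  have hζ := Complex.isPrimitiveRoot_exp (2 ^ (m + 1)) (by positivity)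
  generalize Complex.exp _ = ζ at hζ
  obtain ⟨e, f, hd⟩ := H20.exists_dcol hM h hb hrel hζ
  have hD := H20.dihSyl_mc h hb hrel
  have hζN : ζ ^ 2 ^ m = -1 := by
    have := hζ.pow_of_dvd (p := 2 ^ m) (by positivity) (pow_dvd_pow 2 (Nat.le_succ m))
    rw [pow_succ, Nat.mul_div_cancel_left _ (by positivity)] at this
    exact this.eq_neg_one_of_two_right
  have hlt : 2 ^ m < 2 ^ (m + 1) := Nat.pow_lt_pow_right one_lt_two (Nat.lt_succ_self m)
  have hδ : (δ₁ : ℂ) = 1 ∨ (δ₁ : ℂ) = -1 := by rcases hδ₁ with rfl | rfl <;> simp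
  have v1 := hval 1 one_pos (show 1 < 2 ^ (m + 1) by omega)
  have v2 := hval 2 two_pos (show 2 < 2 ^ (m + 1) by omega)
  have v3 := hval (2 ^ m) (by positivity) hlt
  have n1 : σ ^ 1 ≠ 1 := pow_ne_one_of_lt_orderOf one_ne_zero (by omega)
  have n2 : σ ^ 2 ≠ 1 := pow_ne_one_of_lt_orderOf two_ne_zero (by omega)
  have hy : e 0 1 = δ₁ * charDegree χ₁.1 := by
    rcases (hd.mem χ₁).1 hχ₁ with h2 | ⟨k, h2⟩ | ⟨j, h2⟩
    · exact absurd h2 h1
    · obtain ⟨ε, hε, h3⟩ := (hd.sgn_e k).irr_spec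
      rw [← h2] at h3
      have w1 := congrFun h3 (σ ^ 1)
      have w2 := congrFun h3 (σ ^ 2)
      rw [Pi.smul_apply, smul_eq_mul] at w1 w2
      rw [v1] at w1
      rw [v2, ← w1] at w2
      fin_cases k
      · have w3 := hd.val_e0 1 n1
        have w4 := congrFun h3 1
        simp only [Fin.zero_eta, Pi.smul_apply, smul_eq_mul] at w1 w4
        rw [w4, H21.cast_deg]
        rw [w3] at w1
        rcases hε with rfl | rfl <;> rcases hδ with h | h <;> rw [h] at w1 ⊢ <;> norm_num at w1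
      · have := (hd.val_e1 2 n2).symm.trans (w2.trans (hd.val_e1 1 n1))
        norm_num at this
      · have := (hd.val_e2 2 n2).symm.trans (w2.trans (hd.val_e2 1 n1))
        norm_num at this
    · obtain ⟨ε, hε, h3⟩ := (hd.sgn_f j).irr_spec
      rw [← h2] at h3
      have w := congrFun h3 (σ ^ 2 ^ m)
      rw [Pi.smul_apply, smul_eq_mul, v3, hd.val_f j _ h.z_ne_one, mul_comm, pow_mul, hζN] at w
      exfalso
      rcases neg_one_pow_eq_or ℂ ((j : ℕ) + 1) with h5 | h5 <;> rw [h5] at w <;>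
        rcases hε with rfl | rfl <;> rcases hδ with h | h <;> rw [h] at w <;> norm_num at w
  let j₀ : Fin (2 ^ m - 1) := ⟨0, by omega⟩
  let α : G → ℂ := (fun _ => 1) + e 0 + f j₀
  have hα1 : α 1 = 0 := hd.reg_f j₀ 1 (by simp)
  have hαv : ∀ l : ℕ, α (σ ^ l) = 2 - (ζ ^ l + (ζ ^ l)⁻¹) := by
    intro l
    by_cases hl : σ ^ l = 1
    · rw [hl, hα1, (hζ.pow_eq_one_iff_dvd l).2 (hσo ▸ orderOf_dvd_of_pow_eq_one hl)]; norm_num
    · simp only [α, Pi.add_apply, hd.val_e0 l hl, hd.val_f j₀ l hl, j₀, zero_add, one_mul]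
      ring
  have key := hD.invol_formula (α := α) (κ := 4) (fun s hs => by
      rcases H8.isConj_cases_two P h hs with h2 | ⟨-, h2⟩ | ⟨-, h2⟩
      exacts [h2, hconj.1.trans h2, hconj.2.trans h2])
    (H11.isClassFunction_add (H11.isClassFunction_add (H11.isClassFunction_const 1)
      (hd.sgn_e 0).isClassFunction) (hd.sgn_f j₀).isClassFunction) (fun g w hw hws => by
      by_cases hw1 : w = 1
      · subst hw1
        exact (hd.reg_f j₀ g (H20.not_dvd_of_pPart_one hw)).trans hα1.symm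
      · have hs : ∀ {x : G → ℂ} (hx : H6.Sgn x), hx.irr ∈ principalBlock M G → x g = x w := by
          intro x hx hm
          obtain ⟨ε, -, h3⟩ := hx.irr_spec
          rw [congrFun h3 g, congrFun h3 w, Pi.smul_apply, Pi.smul_apply,
            H6.principal_apply_of_inSec hM (H8.HasNormalPComplement.mono hD.npc
              (H20.mc_centralizer_le h hws hw1)) ⟨w, hw, IsConj.refl w⟩ hm]
        simp only [α, Pi.add_apply, hs (hd.sgn_e 0) ((hd.mem _).2 (Or.inr (Or.inl ⟨0, rfl⟩))),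
          hs (hd.sgn_f j₀) ((hd.mem _).2 (Or.inr (Or.inr ⟨j₀, rfl⟩)))])
    hα1 (fun w hw => by
      obtain ⟨l, rfl⟩ := mem_powers_iff_mem_zpowers.2 hw
      simp only [← pow_add, hαv]
      rw [pow_add, hζN, mul_neg_one, inv_neg]
      ring)
  have hf1 : f j₀ 1 = -(1 + δ₁ * charDegree χ₁.1) := by
    have := hd.reg_f j₀ 1 (by simp)
    rw [hy] at this
    linear_combination this
  have hfJ : f j₀ (σ ^ 2 ^ m) = 2 := by
    rw [hd.val_f j₀ _ h.z_ne_one]
    simp only [j₀, zero_add, one_mul, hζN]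
    norm_num
  simp only [α, Pi.add_apply, Finset.sum_add_distrib, H20.sgn_sum_conj_conj (hd.sgn_e 0),
    H20.sgn_sum_conj_conj (hd.sgn_f j₀), hd.val_e0 _ h.z_ne_one, hy, hf1, hfJ, Finset.sum_const,
    Finset.card_univ, nsmul_eq_mul, ← Nat.card_eq_fintype_card] at key
  have a1 := (hd.sgn_e 0).apply_one_ne_zero
  have a2 := (hd.sgn_f j₀).apply_one_ne_zero
  rw [hy] at a1
  rw [hf1, neg_ne_zero] at a2
  have a3 := H11.card_ne_zero G
  set s : ℂ := (1 / Nat.card (Subgroup.centralizer ({σ ^ 2 ^ m, τ} : Set G)) +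
        1 / Nat.card (Subgroup.centralizer ({σ ^ 2 ^ m, σ * τ} : Set G))) with hs
  have key2 : (Nat.card G : ℂ) * (charDegree χ₁.1 - δ₁) ^ 2 = 2 * charDegree χ₁.1 *
      (charDegree χ₁.1 + δ₁) * (Nat.card (Subgroup.centralizer ({σ ^ 2 ^ m} : Set G)) : ℂ) ^ 3 *
      s ^ 2 := by
    have a4 : (charDegree χ₁.1 : ℂ) ≠ 0 := right_ne_zero_of_mul a1
    rcases hδ with h | h <;> rw [h] at key a2 ⊢
    · rw [one_mul] at a2 key
      field_simp at key
      linear_combination (1 / 2 : ℂ) * key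
    · rw [neg_one_mul] at a2 key
      field_simp at key
      linear_combination (-1 / 2 : ℂ) * key
  have key3 : (Nat.card G : ℚ) * ((Cfsg.charDegree (χ₁ : G → ℂ) : ℚ) - δ₁) ^ 2 = 2 * (Cfsg.charDegree (χ₁ : G → ℂ) : ℚ) * ((Cfsg.charDegree (χ₁ : G → ℂ) : ℚ) + δ₁) * (Nat.card (Subgroup.centralizer ({σ ^ (2 ^ m)} : Set G)) : ℚ) ^ 3 * (1 / (Nat.card (Subgroup.centralizer ({σ ^ (2 ^ m), τ} : Set G)) : ℚ) + 1 / (Nat.card (Subgroup.centralizer ({σ ^ (2 ^ m), σ * τ} : Set G)) : ℚ)) ^ 2 := by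
    apply Rat.cast_injective (α := ℂ)
    push_cast
    exact key2
  refine ⟨fun hx => ?_, key3⟩
  have d := H21.deg_pos χ₁
  have c1 : 0 < Nat.card (Subgroup.centralizer ({σ ^ 2 ^ m} : Set G)) := Nat.card_pos
  have c2 : 0 < Nat.card (Subgroup.centralizer ({σ ^ 2 ^ m, τ} : Set G)) := Nat.card_pos
  have c3 : 0 < Nat.card (Subgroup.centralizer ({σ ^ 2 ^ m, σ * τ} : Set G)) := Nat.card_pos
  rw [← hx, Int.cast_natCast, sub_self] at key3
  refine absurd key3 (ne_of_lt ?_)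
  rw [zero_pow two_ne_zero, mul_zero]
  positivity

end Cfsg.Agent.S4482
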