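import Cfsg.Statements.S4483
import Cfsg.Agent.H19.RealBlock
import Cfsg.Agent.S0961

set_option autoImplicit false
open Cfsg

namespace Cfsg.Agent.S4483


/-- Let G be a finite group of order 2^n·g₀ with g₀ odd, and M a maximal ideal of the algebraic integers containing 2. Every real-valued irreducible character of G of odd degree lies in the principal 2-block; consequently G has at most 2^(2n) real-valued irreducible characters of odd degree. -/
theorem result {G : Type*} [Group G] [Finite G] (M : Ideal Cfsg.AlgInt) (hM : Cfsg.IsPModular 2 M) : (∀ χ : Cfsg.IrrCharacter G, (∀ g : G, ((χ : G → ℂ) g).im = 0) → Odd (Cfsg.charDegree (χ : G → ℂ)) → χ ∈ Cfsg.principalBlock M G) ∧ Nat.card {χ : Cfsg.IrrCharacter G // (∀ g : G, ((χ : G → ℂ) g).im = 0) ∧ Odd (Cfsg.charDegree (χ : G → ℂ))} ≤ 2 ^ (2 * (Nat.card G).factorization 2) := by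
  classical
  haveI : Fact (Nat.Prime 2) := ⟨Nat.prime_two⟩
  letI := Fintype.ofFinite G
  letI : Fintype (Cfsg.IrrCharacter G) := Fintype.ofFinite _
  have hodd' : ∀ χ : Cfsg.IrrCharacter G, Odd (Cfsg.charDegree χ.1) → ¬ 2 ∣ Cfsg.charDegree χ.1 :=
    fun χ h => h.not_two_dvd_nat
  refine ⟨fun χ hr ho => H19.mem_principalBlock_two_of_inv hM χ (hodd' χ ho) fun x _ =>
    (H19.real_iff_inv (H11.irr_isCharacter χ)).1 hr x, ?_⟩
  have hgen := Cfsg.Agent.S0961.result 2 (H19.oneIrr G)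
  set a := (Nat.card G).factorization 2 with ha
  set φ : G → ℂ := fun x : G => if 2 ∣ orderOf x then 0 else ((2 ^ a : ℕ) : ℂ) * (H19.oneIrr G).1 x
    with hφ
  obtain ⟨m, hm, -⟩ := H11.exists_eq_sum_int hgen
  have hcf : Cfsg.IsClassFunction G φ := (H11.isGen_iff_classInner.1 hgen).1
  have hnorm := H11.classInner_self_eq_sum_int hcf m hm
  have hle : ((∑ ψ, m ψ ^ 2 : ℤ) : ℝ) ≤ (2 : ℝ) ^ (2 * a) := by
    have h1 := congrArg Complex.re hnorm
    rw [H11.classInner_self_re, Complex.intCast_re] at h1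
    rw [← h1]
    have hpos : (0 : ℝ) < Nat.card G := by exact_mod_cast Nat.card_pos
    rw [inv_mul_le_iff₀ hpos]
    calc ∑ g, ‖φ g‖ ^ 2 ≤ ∑ _g : G, (2 : ℝ) ^ (2 * a) := by
          refine Finset.sum_le_sum fun g _ => ?_
          simp only [hφ]
          split_ifs
          · simp
          · simp [H19.oneIrr_coe, ← pow_mul, mul_comm]
      _ = _ := by simp [Nat.card_eq_fintype_card]
  have hne : ∀ χ : Cfsg.IrrCharacter G, (∀ g : G, (χ.1 g).im = 0) → Odd (Cfsg.charDegree χ.1) →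
      m χ ≠ 0 := by
    intro χ hr ho h0
    have hinv := (H19.real_iff_inv (H11.irr_isCharacter χ)).1 hr
    have h1 := hm χ
    rw [h0, H11.classInner_eq_sum_inv (H11.irr_isCharacter χ)] at h1
    have h2 : ∑ g, φ g * χ.1 g⁻¹ = ((2 ^ a : ℕ) : ℂ) * H19.regSum 2 χ.1 := by
      rw [H19.regSum_eq_sum, Finset.mul_sum]
      refine Finset.sum_congr rfl fun g _ => ?_
      simp only [hφ, hinv]
      split_ifs <;> simp [H19.oneIrr_coe]
    rw [h2] at h1
    have h3 : H19.regSum 2 χ.1 = 0 := by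
      simpa [H11.card_ne_zero G] using h1
    obtain ⟨P⟩ : Nonempty (Sylow 2 G) := inferInstance
    have h4 := H19.red_regSum_two hM (H11.isClassFunction_of_irr χ.2) (H19.irr_mem_Vr χ)
      P.isPGroup' (fun x _ _ => by rw [hinv])
    rw [h3, H19.red_zero] at h4
    exact H19.red_char_one_ne_zero hM (H11.irr_isCharacter χ) (hodd' χ ho) h4.symm
  rw [Nat.card_eq_fintype_card, Fintype.card_subtype]
  have h5 : ((Finset.univ.filter fun χ : Cfsg.IrrCharacter G => (∀ g : G, (χ.1 g).im = 0) ∧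
      Odd (Cfsg.charDegree χ.1)).card : ℤ) ≤ ∑ ψ, m ψ ^ 2 := by
    rw [Finset.card_eq_sum_ones]
    push_cast
    calc _ ≤ ∑ ψ ∈ Finset.univ.filter fun χ : Cfsg.IrrCharacter G => (∀ g : G, (χ.1 g).im = 0) ∧
            Odd (Cfsg.charDegree χ.1), m ψ ^ 2 := by
          refine Finset.sum_le_sum fun ψ hψ => ?_
          have := (Finset.mem_filter.1 hψ).2
          have h0 := hne ψ this.1 this.2
          have : 0 < m ψ ^ 2 := by positivity
          omega
      _ ≤ _ := Finset.sum_le_sum_of_subset_of_nonneg (Finset.filter_subset _ _)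
          fun _ _ _ => sq_nonneg _
  have h6 : (∑ ψ, m ψ ^ 2 : ℤ) ≤ 2 ^ (2 * a) := by exact_mod_cast hle
  exact_mod_cast h5.trans h6

end Cfsg.Agent.S4483
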