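import Cfsg.Statements.S4484
import Cfsg.Agent.H12.Arc
import Cfsg.Agent.H12.Galois
import Cfsg.Agent.H24.Deg
import Cfsg.Agent.H58.Simple
import Cfsg.Agent.H11.GroupUtil
import Cfsg.Agent.H19.GaloisNum
import Cfsg.Agent.H19.GaloisBlock
import Cfsg.Agent.H21.Tilde
import Cfsg.Agent.H17.Omega

set_option autoImplicit false
open Cfsg

namespace Cfsg.Agent.S4484

/-- A refinement of Burnside's result on simple groups of order divisible by only two primes. Let G be a finite simple group of order p^a · q^b · g₀ with p, q distinct primes, a > 0, g₀ coprime to p and q, and the order of G different from p. Then g₀ − 1 > log p / log 6, that is 6^(g₀ − 1) > p. -/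
theorem result {G : Type*} [Group G] [Finite G] [IsSimpleGroup G] (p q a b g₀ : ℕ) (hp : p.Prime) (hq : q.Prime) (hpq : p ≠ q) (ha : 0 < a) (hg : Nat.card G = p ^ a * q ^ b * g₀) (hcop : ¬ p ∣ g₀) (hcoq : ¬ q ∣ g₀) (hne : Nat.card G ≠ p) : p < 6 ^ (g₀ - 1) := by
  classical
  have := Fact.mk hp
  have := Fintype.ofFinite G
  have := Fintype.ofFinite (IrrCharacter G)
  have hpG : p ∣ Nat.card G := hg ▸ ((dvd_pow_self p ha.ne').mul_right _).mul_right _
  have hZ : Subgroup.center G = ⊥ := H58.center_eq_bot fun h => by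
    let _ : CommGroup G := { (inferInstance : Group G) with mul_comm := h.is_comm.comm }
    exact hne ((Nat.prime_dvd_prime_iff_eq hp IsSimpleGroup.prime_card).1 hpG).symm
  obtain ⟨P⟩ : Nonempty (Sylow p G) := inferInstance
  have : Nontrivial P := P.2.nontrivial_iff_card.2 ⟨_, hp.factorization_pos_of_dvd
    Nat.card_pos.ne' hpG, P.card_eq_multiplicity⟩
  obtain ⟨⟨x, hxP⟩, -, hxZ, hx⟩ := H11.exists_mem_center_orderOf_eq_prime P.2 ⊤ top_ne_bot
  rw [Subgroup.orderOf_mk] at hx
  set K := (Subgroup.centralizer ({x} : Set G)).index with hK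
  have hpK : ¬ p ∣ K := fun h => P.not_dvd_index (h.trans (Subgroup.index_dvd_of_le fun y hy =>
    Subgroup.mem_centralizer_singleton_iff.2
      (congrArg Subtype.val (Subgroup.mem_center_iff.1 hxZ ⟨y, hy⟩))))
  obtain ⟨M, hM⟩ := H19.exists_isPModular hp
  obtain ⟨χ, hχB, hχ1, hχq⟩ : ∃ χ ∈ principalBlock M G, χ ≠ H19.oneIrr G ∧
      ¬ q ∣ charDegree (χ : G → ℂ) := by
    by_contra! h
    have h1 := H21.blockCoeff_eq_zero_of_sing hM (H19.isPBlock_principalBlock (G := G)) hx.symm.dvd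
    rw [blockCoeff, mul_eq_zero, inv_eq_zero, or_iff_right (H11.card_ne_zero G),
      finsum_mem_eq_finite_toFinset_sum _ (Set.toFinite _), ← Finset.add_sum_erase _ _
        ((Set.Finite.mem_toFinset _).2 (H19.oneIrr_mem_principalBlock hM.2.1))] at h1
    have hq0 : (q : ℂ) ≠ 0 := by exact_mod_cast hq.ne_zero
    refine hq.one_lt.ne' (Nat.dvd_one.1 (H12.dvd_of_isIntegral_div hq.ne_zero ?_))
    rw [H19.oneIrr_coe, map_one, mul_one] at h1
    rw [Nat.cast_one, show (1 : ℂ) = _ from eq_neg_of_add_eq_zero_left h1, neg_div, Finset.sum_div]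
    refine (IsIntegral.sum _ fun χ hχ => ?_).neg
    obtain ⟨c, hc⟩ := h χ ((Set.Finite.mem_toFinset _).1 (Finset.mem_erase.1 hχ).2)
      (Finset.mem_erase.1 hχ).1
    rw [H24.irr_deg χ.2, hc, H11.conj_apply (H11.isCharacter_of_irr χ.2), Nat.cast_mul, mul_assoc,
      mul_div_cancel_left₀ _ hq0]
    exact (isIntegral_natCast c).mul (H12.IsCharacter_isIntegral (H11.isCharacter_of_irr χ.2) _)
  have hker := H11.charKer_eq_bot_of_isSimpleGroup χ.2 fun h => hχ1 (Subtype.ext h)
  obtain ⟨n, μ, h1, h2, -, h3⟩ := H12.exists_eigenvalues_arc (H11.isCharacter_of_irr χ.2) x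
  rw [hx] at h1
  have hn : (χ : G → ℂ) 1 = n := by simpa using h2 0
  have hdn := H24.deg_eq hn
  have hn0 : 0 < n := hdn ▸ H24.deg_pos χ.2
  have hμ0 : ∀ i, μ i ≠ 0 := fun i h => by simpa [h, hp.ne_zero] using h1 i
  have hmult : ∀ j, ordProj[p] n ∣ (Finset.univ.filter fun i => μ i = μ j).card := fun j => by
    set m := (Finset.univ.filter fun i => μ i = μ j).card with hm
    have hη : (μ j)⁻¹ ^ p = 1 := by rw [inv_pow, h1, inv_one]
    have hgeom : ∀ z : ℂ, z ^ p = 1 → ∑ k ∈ Finset.range p, z ^ k = if z = 1 then (p : ℂ) else 0 :=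
      fun z hz => by
        split_ifs with h
        · simp [h]
        · rw [geom_sum_eq h, hz, sub_self, zero_div]
    have e1 : ∑ k ∈ Finset.range p, (χ : G → ℂ) (x ^ k) * (μ j)⁻¹ ^ k = p * m := by
      simp only [h2, Finset.sum_mul, ← mul_pow]
      rw [Finset.sum_comm, Finset.sum_congr rfl fun i _ => hgeom _ (by rw [mul_pow, h1, hη, one_mul]),
        ← Finset.sum_filter, Finset.sum_const, nsmul_eq_mul, mul_comm]
      simp only [mul_inv_eq_one₀ (hμ0 j), hm]
    have hw : ∀ k ∈ Finset.range p, IsIntegral ℤ (K * (χ : G → ℂ) (x ^ k) / n) ∧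
        MemLocalIdeal M (K - K * (χ : G → ℂ) (x ^ k) / n) := fun k hk => by
      rcases Nat.eq_zero_or_pos k with rfl | hk0
      · rw [pow_zero, hn, mul_div_cancel_right₀ _ (by exact_mod_cast hn0.ne'), sub_self]
        exact ⟨isIntegral_natCast K, H19.mli_zero hM.2.1⟩
      have h4 : Subgroup.centralizer ({x ^ k} : Set G) = Subgroup.centralizer {x} := by
        obtain ⟨l, hl⟩ := exists_pow_eq_self_of_coprime (x := x) (n := k)
          (hx ▸ (Nat.coprime_of_lt_prime hk0.ne' (Finset.mem_range.1 hk) hp).symm)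
        ext y
        simp only [Subgroup.mem_centralizer_singleton_iff]
        exact ⟨fun h => hl ▸ (Commute.pow_right h l).eq, fun h => (Commute.pow_right h k).eq⟩
      have h5 := H17.isIntegral_centralChar χ (x ^ k)
      have h6 := hχB (x ^ k)
      simp only [centralChar, h4, hn, mul_one, div_one] at h5 h6
      exact ⟨h5, h6⟩
    have hηi : ∀ k, IsIntegral ℤ ((μ j)⁻¹ ^ k) := fun k =>
      (H12.isIntegral_of_pow_eq_one hp.pos hη).pow k
    have e2 : ((K * (p * m) : ℕ) : ℂ) / n =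
        ∑ k ∈ Finset.range p, K * (χ : G → ℂ) (x ^ k) / n * (μ j)⁻¹ ^ k := by
      push_cast
      rw [← e1, Finset.mul_sum, Finset.sum_div]
      exact Finset.sum_congr rfl fun k _ => by ring
    obtain ⟨s, hs⟩ := H12.dvd_of_isIntegral_div hn0.ne'
      (e2 ▸ IsIntegral.sum _ fun k hk => (hw k hk).1.mul (hηi k))
    rw [hs, Nat.cast_mul, mul_div_cancel_left₀ _ (by exact_mod_cast hn0.ne')] at e2
    obtain ⟨s, rfl⟩ : p ∣ s := by
      rw [← H19.mli_natCast_iff hM, show (s : ℂ) = K * ∑ k ∈ Finset.range p, (μ j)⁻¹ ^ k -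
        ∑ k ∈ Finset.range p, (K - K * (χ : G → ℂ) (x ^ k) / n) * (μ j)⁻¹ ^ k by
          rw [e2, Finset.mul_sum, ← Finset.sum_sub_distrib]
          exact Finset.sum_congr rfl fun k _ => by ring]
      refine H19.mli_sub hM.2.1 (H19.mli_mul_right hM.2.1
        (H19.mlr_of_isIntegral hM.2.1 (isIntegral_natCast K)) ?_) (H19.mli_sum hM.2.1 fun k hk =>
          H19.mli_mul_left hM.2.1 (hw k hk).2 (H19.mlr_of_isIntegral hM.2.1 (hηi k)))
      rw [hgeom _ hη]
      split_ifs
      · exact (H19.mli_natCast_iff hM p).2 dvd_rfl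
      · exact H19.mli_zero hM.2.1
    refine (Nat.Coprime.pow_left _ ((Nat.Prime.coprime_iff_not_dvd hp).2 hpK)).dvd_of_dvd_mul_left
      ((Nat.ordProj_dvd n p).trans ⟨s, Nat.eq_of_mul_eq_mul_left hp.pos ?_⟩)
    rw [mul_left_comm, hs]
    ring
  set S := Finset.univ.image μ with hS
  have hSg : S.card ≤ g₀ := by
    have h4 : S.card * ordProj[p] n ≤ n := by
      conv_rhs => rw [← Finset.card_fin n, Finset.card_eq_sum_card_image μ]
      rw [← smul_eq_mul]
      refine Finset.card_nsmul_le_sum _ _ _ fun s hs => ?_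
      obtain ⟨j, -, rfl⟩ := Finset.mem_image.1 hs
      exact Nat.le_of_dvd (Finset.card_pos.2 ⟨j, by simp⟩) (hmult j)
    have h5 : ordCompl[p] n ∣ g₀ := by
      have h5 := (Nat.ordCompl_dvd n p).trans (hdn ▸ H24.deg_dvd_card χ.2)
      rw [hg, mul_assoc] at h5
      exact (Nat.Coprime.pow_right b ((Nat.Prime.coprime_iff_not_dvd hq).2 fun h =>
        hχq (hdn ▸ h.trans (Nat.ordCompl_dvd n p))).symm).dvd_of_dvd_mul_left
        (((Nat.coprime_ordCompl hp hn0.ne').symm.pow_right a).dvd_of_dvd_mul_left h5)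
    refine le_trans ?_ (Nat.le_of_dvd (Nat.pos_of_ne_zero fun h => hcop (by simp [h])) h5)
    exact (Nat.le_div_iff_mul_le (Nat.ordProj_pos n p)).2 h4
  by_contra! hle
  have hlt : 6 ^ (g₀ - 1) < p := lt_of_le_of_ne hle fun h => by
    have h4 := h ▸ hp
    exact absurd h4.eq_one_of_pow (fun h5 => by rw [h5] at h4; norm_num at h4)
  obtain ⟨c, hc⟩ := H12.exists_cell_six
  set j : Fin n := ⟨0, hn0⟩
  have hjS : μ j ∈ S := Finset.mem_image_of_mem _ (Finset.mem_univ j)
  have hnorm : ∀ i, ‖μ i‖ = 1 := fun i => Complex.norm_eq_one_of_pow_eq_one (h1 i) hp.ne_zero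
  have key : ∀ k l : Fin p, k < l → (fun s : S.erase (μ j) => c ((s / μ j) ^ (k : ℕ))) ≠
      fun s : S.erase (μ j) => c ((s / μ j) ^ (l : ℕ)) := fun k l hkl h => by
    obtain ⟨d, hd⟩ := Nat.exists_eq_add_of_lt hkl
    obtain ⟨T, hT, hT'⟩ := h3 χ.2 (d + 1) j fun i => by
      by_cases hi : μ i = μ j
      · simp [hi]
      have h4 := hc _ _ (by simp [hnorm]) (by simp [hnorm])
        (congrFun h ⟨μ i, Finset.mem_erase.2 ⟨hi, Finset.mem_image_of_mem _ (Finset.mem_univ i)⟩⟩)
      rw [show (l : ℕ) = k + (d + 1) from hd, pow_add, ← mul_one_sub, norm_mul, div_pow (μ i) _ (d + 1),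
        one_sub_div (pow_ne_zero _ (hμ0 j)), norm_div, norm_sub_rev] at h4
      simpa [hnorm] using h4
    have h4 : x ^ (d + 1) ≠ 1 := fun h => by
      have := Nat.le_of_dvd d.succ_pos (hx ▸ orderOf_dvd_of_pow_eq_one h)
      have := l.2
      omega
    have h5 : x ^ (d + 1) ∈ T.normalCore := fun g => by simpa using hT g⁻¹
    rcases (inferInstance : T.normalCore.Normal).eq_bot_or_eq_top with h6 | h6
    · exact h4 (h6.le h5)
    · have h7 := hT' (top_le_iff.1 (h6.ge.trans T.normalCore_le))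
      rw [H11.charCenter_eq_center χ.2 hker, hZ] at h7
      exact h4 h7
  obtain ⟨k, l, hkl, h⟩ := Fintype.exists_ne_map_eq_of_card_lt
    (fun (k : Fin p) (s : S.erase (μ j)) => c ((s / μ j) ^ (k : ℕ))) (by
      rw [Fintype.card_fun, Fintype.card_fin, Fintype.card_fin, Fintype.card_coe,
        Finset.card_erase_of_mem hjS]
      exact (Nat.pow_le_pow_right (by norm_num) (by omega)).trans_lt hlt)
  rcases lt_or_gt_of_ne hkl with h4 | h4
  · exact key k l h4 h
  · exact key l k h4 h.symm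

end Cfsg.Agent.S4484
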