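import Cfsg.Statements.S4489
import Cfsg.Agent.H12.LinHall
import Cfsg.Agent.H12.Galois
import Cfsg.Agent.H24.Deg
import Cfsg.Agent.H5.UniqueP
import Cfsg.Agent.H8.Tate
import Cfsg.Agent.H9.SelfCent
import Cfsg.Agent.H11.GroupUtil
import Cfsg.Agent.H14.Clifford
import Cfsg.Agent.H13.Elementary

set_option autoImplicit false
open Cfsg

namespace Cfsg.Agent.S4489

open Cfsg.Agent.H11 MulAction
open scoped ComplexConjugate

theorem classInner_gal {G : Type*} [Group G] [Fintype G] {φ ψ : G → ℂ} (hψ : IsCharacter G ψ)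
    (σ : ℂ ≃+* ℂ) : classInner (σ • φ) (σ • ψ) = σ (classInner φ ψ) := by
  have h1 : IsCharacter G (σ • ψ) := H12.isCharacter_gal hψ σ.toRingHom
  simp only [classInner_def, conj_apply hψ, conj_apply h1, map_mul, map_sum, map_inv₀, map_natCast]
  rfl

theorem arith {q t s a k F : ℕ} (hq : 1 ≤ q) (hF : 1 + s * q ≤ F) (h1 : a ≤ k + s)
    (h2 : k ≤ t + s + 1) : q * a + 1 ≤ F + q * (t + 1) * F := by
  have h3 : q * (t + 1) * (1 + s * q) ≤ q * (t + 1) * F := Nat.mul_le_mul_left _ hF
  have h4 : q * a ≤ q * (t + 1 + 2 * s) := Nat.mul_le_mul_left _ (by omega)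
  have h5 : 1 * (s * q) ≤ q * (t + 1) * (s * q) := Nat.mul_le_mul_right _ (by nlinarith)
  nlinarith

universe u in
theorem aux {p : ℕ} [hp : Fact p.Prime] (t n : ℕ) : ∀ (P : Type u) [Group P] [Finite P],
    Nat.card P = n → IsPGroup p P → ∀ χ : P → ℂ, IsIrrCharacter P χ → ∀ f : ℕ, χ 1 = f →
    (stabilizer (ℂ ≃+* ℂ) χ).index ≠ 0 → (stabilizer (ℂ ≃+* ℂ) χ).index ≤ (p - 1) * p ^ t →
    ∀ a, (charKer χ).index = p ^ a → (p - 1) * a + 1 ≤ f + (p - 1) * (t + 1) * f := by
  induction n using Nat.strong_induction_on with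
  | _ n ih =>
  intro P _ _ hn hP χ hχ f hf h0 hle a ha
  classical
  have := Fintype.ofFinite P
  have hχc := isCharacter_of_irr hχ
  have hf0 : 0 < f := Nat.pos_of_ne_zero fun h => irr_apply_one_ne_zero hχ (by simp [hf, h])
  have hp1 := hp.out.one_lt
  rcases Nat.eq_zero_or_pos a with rfl | ha0
  · omega
  by_cases hker : charKer χ = ⊥
  swap
  · have := charKer_normal (isClassFunction_of_irr hχ)
    obtain ⟨ψ, hψ, h⟩ := exists_irr_lift hχ (charKer χ) le_rfl
    have h1 : stabilizer (ℂ ≃+* ℂ) ψ = stabilizer (ℂ ≃+* ℂ) χ := by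
      ext σ
      simp only [mem_stabilizer_iff, funext_iff, QuotientGroup.mk_surjective.forall, Pi.smul_apply, h]
    refine ih _ ?_ (P ⧸ charKer χ) rfl (hP.to_quotient _) ψ hψ f ((h 1).trans hf) (h1 ▸ h0)
      (h1 ▸ hle) a ?_
    · rw [← hn, ← (charKer χ).card_mul_index]
      exact lt_mul_of_one_lt_left Nat.card_pos ((Subgroup.one_lt_card_iff_ne_bot _).2 hker)
    · rw [← ha, (eq_bot_iff (a := charKer ψ)).2 fun x hx => ?_, Subgroup.index_bot]
      · rfl
      obtain ⟨x, rfl⟩ := QuotientGroup.mk_surjective x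
      have h2 := apply_eq_of_mem_charKer hx
      rw [h, ← QuotientGroup.mk_one, h] at h2
      exact (QuotientGroup.eq_one_iff x).2 ((mem_charKer_iff hχc).2 h2)
  rw [hker, Subgroup.index_bot] at ha
  have := hP.isNilpotent
  obtain ⟨A, hAn, hAc, hA⟩ := H5.exists_selfCentralizing_normal (G := P)
  by_cases hcyc : IsCyclic A
  · obtain ⟨l, hl, h1⟩ := exists_irr_constituent (isCharacter_restrict hχc A)
      fun h => irr_apply_one_ne_zero hχ (congrFun h 1)
    have hl1 := irr_apply_one_of_comm (fun a b => hAc.is_comm.comm a b) hl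
    obtain ⟨l, rfl⟩ := exists_monoidHom_of_apply_one_eq_one (isCharacter_of_irr hl) hl1
    have hinj : Function.Injective l := (injective_iff_map_eq_one l).2 fun x hx => by
      have h2 : ∀ g, H14.conjChar A (fun g => (l g : ℂ)) g x = 1 := fun g => by
        obtain ⟨m, hm⟩ := MonoidHom.map_cyclic (MulAut.conjNormal g : MulAut A).toMonoidHom
        rw [H14.conjChar_eq_comp]
        change (l ((MulAut.conjNormal g : MulAut A).toMonoidHom x) : ℂ) = 1
        rw [hm, map_zpow, hx, one_zpow, Units.val_one]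
      have h3 := H14.clifford_sum A hχ hl h1
      have h4 := congrFun h3 x
      have h5 := congrFun h3 1
      simp only [Pi.smul_apply, Finset.sum_apply, h2, H14.conjChar_apply_one, map_one,
        Units.val_one, smul_eq_mul] at h4 h5
      have h6 := (mem_charKer_iff hχc).2 (mul_left_cancel₀ (card_ne_zero _) (h4.trans h5.symm))
      rw [hker] at h6
      exact Subtype.ext h6
    have hin : H14.inertia A (fun g => (l g : ℂ)) = A := by
      refine le_antisymm (fun g hg => hA.le fun x hx => ?_)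
        (H14.le_inertia A (isClassFunction_of_irr hl))
      have h2 := congrArg Subtype.val (hinj (Units.ext ((H14.mem_inertia' A).1 hg ⟨x, hx⟩)))
      exact (mul_inv_eq_iff_eq_mul.1 h2).symm
    have hidx : A.index ≤ f := by
      have h2 := H14.clifford_degree A hχ hl h1
      obtain ⟨e, he⟩ := exists_nat_classInner (isCharacter_restrict hχc A) (isCharacter_of_irr hl)
      rw [hin, map_one, Units.val_one, mul_one, hf, he] at h2
      have h3 : f = e * A.index := by exact_mod_cast h2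
      exact Nat.le_of_dvd hf0 ⟨e, by rw [h3, mul_comm]⟩
    obtain ⟨k, hk⟩ := (hP.to_subgroup A).exists_card_eq
    obtain ⟨s, hs⟩ := H24.exists_deg_eq_pow_of_isPGroup hP hχ
    rw [(H24.deg_eq_iff hχc).2 hf] at hs
    have h2 : a ≤ k + s := by
      rw [← Nat.pow_le_pow_iff_right hp1, ← ha, pow_add, ← hk, ← hs, ← A.card_mul_index]
      exact Nat.mul_le_mul_left _ hidx
    have h3 : (stabilizer (ℂ ≃+* ℂ) fun g => (l g : ℂ)).relIndex (stabilizer (ℂ ≃+* ℂ) χ) =
        (orbit (stabilizer (ℂ ≃+* ℂ) χ) fun g => (l g : ℂ)).ncard := index_stabilizer _ _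
    have h4 : orbit (stabilizer (ℂ ≃+* ℂ) χ) (fun g => (l g : ℂ)) ⊆
        Set.range (H14.conjChar A fun g => (l g : ℂ)) := by
      rintro _ ⟨σ, rfl⟩
      refine H14.clifford_conj A hχ hl (H12.isIrrCharacter_gal hl σ.1) h1 ?_
      have h5 := classInner_gal (φ := fun n : A => χ n) (isCharacter_of_irr hl) σ.1
      rw [show σ.1 • (fun n : A => χ n) = fun n : A => χ n from
        funext fun n => congrFun σ.2 n] at h5
      exact h5.trans_ne ((map_ne_zero σ.1).2 h1)
    have h5 : (stabilizer (ℂ ≃+* ℂ) fun g => (l g : ℂ)).relIndex (stabilizer (ℂ ≃+* ℂ) χ) ≤ f := by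
      rw [h3]
      refine (Set.ncard_le_ncard h4 (Set.finite_range _)).trans ?_
      rwa [← Nat.card_coe_set_eq, H14.card_range_conjChar, hin]
    have h6 : (stabilizer (ℂ ≃+* ℂ) fun g => (l g : ℂ)).relIndex (stabilizer (ℂ ≃+* ℂ) χ) ≠ 0 := by
      rw [h3]
      exact ((Set.ncard_pos ((Set.finite_range _).subset h4)).2 (nonempty_orbit _)).ne'
    have h7 := Subgroup.relIndex_mul_index (inf_le_right (a := stabilizer (ℂ ≃+* ℂ)
      fun g => (l g : ℂ)) (b := stabilizer (ℂ ≃+* ℂ) χ))
    rw [Subgroup.inf_relIndex_right] at h7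
    have h8 := Subgroup.index_dvd_of_le (inf_le_left (a := stabilizer (ℂ ≃+* ℂ)
      fun g => (l g : ℂ)) (b := stabilizer (ℂ ≃+* ℂ) χ))
    rw [← h7, index_stabilizer] at h8
    have h9 := (Nat.le_of_dvd (Nat.pos_of_ne_zero (mul_ne_zero h6 h0)) h8).trans
      (Nat.mul_le_mul h5 hle)
    have h10 : (p ^ k).totient ≤ (orbit (ℂ ≃+* ℂ) fun g => (l g : ℂ)).ncard := by
      rw [Nat.totient_eq_card_coprime, ← Set.ncard_coe_finset]
      refine Set.ncard_le_ncard_of_injOn (fun m g => (l g : ℂ) ^ m) (fun m hm => ?_)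
        (fun m hm m' hm' h => ?_) (Set.finite_of_ncard_ne_zero
          (ne_zero_of_dvd_ne_zero (mul_ne_zero h6 h0) h8))
      · obtain ⟨σ, hσ⟩ := H12.exists_ringEquiv_pow (pow_pos hp.out.pos k)
          (Finset.mem_filter.1 hm).2.symm
        exact ⟨σ, funext fun g => hσ _ (by
          rw [← hk, ← Units.val_pow_eq_pow_val, ← map_pow, pow_card_eq_one', map_one, Units.val_one])⟩
      · obtain ⟨x, hx⟩ := IsCyclic.exists_ofOrder_eq_natCard (α := A)
        have h11 : x ^ m = x ^ m' := hinj (Units.ext (by simpa using congrFun h x))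
        exact pow_injOn_Iio_orderOf (by rw [hx, hk]; simpa using (Finset.mem_filter.1 hm).1)
          (by rw [hx, hk]; simpa using (Finset.mem_filter.1 hm').1) h11
    refine arith (by omega) ?_ h2 ?_
    · have := one_add_mul_le_pow (a := ((p - 1 : ℕ) : ℤ)) (by omega) s
      rw [hs]
      have h11 : (1 : ℤ) + (p - 1 : ℕ) = p := by omega
      rw [h11] at this
      exact_mod_cast this
    · rcases k with - | k
      · omega
      have h11 := h10.trans h9
      rw [Nat.totient_prime_pow_succ hp.out, hs, mul_comm, mul_left_comm, ← pow_add] at h11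
      have := (Nat.pow_le_pow_iff_right hp1).1 (Nat.le_of_mul_le_mul_left h11 (by omega))
      omega
  obtain ⟨V, hVn, hVA, hVc, hVe⟩ := H9.exists_normal_elementary_sq hP hAc hcyc
  obtain ⟨l, hl, h1⟩ := exists_irr_constituent (isCharacter_restrict hχc V)
    fun h => irr_apply_one_ne_zero hχ (congrFun h 1)
  have hl1 := irr_apply_one_of_comm (fun a b : V => Subtype.ext
    (congrArg (fun x : A => (x : P)) (hAc.is_comm.comm (⟨a, hVA a.2⟩ : A) ⟨b, hVA b.2⟩))) hl
  obtain ⟨l, rfl⟩ := exists_monoidHom_of_apply_one_eq_one (isCharacter_of_irr hl) hl1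
  have hT : H14.inertia V (fun g => (l g : ℂ)) ≠ ⊤ := fun h => by
    have h2 := H14.clifford_invariant V hχ hl h1 ((H14.inertia_eq_top_iff V).1 h)
    have h3 : V ≤ Subgroup.center P := fun v hv => by
      rw [← charCenter_eq_center hχ hker, mem_charCenter_iff hχc]
      have h4 := congrFun h2 ⟨v, hv⟩
      have h5 := congrFun h2 1
      simp only [Pi.smul_apply, smul_eq_mul, OneMemClass.coe_one] at h4 h5
      rw [h4, h5, norm_mul, norm_mul, norm_monoidHom_apply, norm_monoidHom_apply]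
    have := isCyclic_center_of_faithful hχ hker
    have := Subgroup.isCyclic_of_le h3
    obtain ⟨x, hx⟩ := IsCyclic.exists_ofOrder_eq_natCard (α := V)
    have h4 : orderOf x ∣ p := orderOf_dvd_of_pow_eq_one (Subtype.ext (hVe x x.2))
    rw [hx, hVc] at h4
    have := Nat.le_of_dvd hp.out.pos h4
    nlinarith
  obtain ⟨H, hHn, hHi, hTH⟩ := H8.exists_normal_index_eq_of_ne_top hP hT
  have hVH : V ≤ H := (H14.le_inertia V (isClassFunction_of_irr hl)).trans hTH
  obtain ⟨θ, hθ, h2, h3⟩ := H14.clifford_corr_exists V H hVH hl hTH hχ h1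
  rw [← h3] at h1
  obtain ⟨f', -, hf'⟩ := exists_pos_degree hθ
  have hff : f = p * f' := by
    have h4 := H14.indFun_one H θ
    rw [h2, hf, hHi, hf'] at h4
    exact_mod_cast h4
  have hS : stabilizer (ℂ ≃+* ℂ) χ ≤ stabilizer (ℂ ≃+* ℂ) θ := fun σ hσ => by
    have hnt : Nontrivial P := by
      rw [← Finite.one_lt_card_iff_nontrivial, ha]
      exact Nat.one_lt_pow ha0.ne' hp1
    obtain ⟨z, -, hz, hzp⟩ := exists_mem_center_orderOf_eq_prime hP ⊤ top_ne_bot
    obtain ⟨lam, h4, -⟩ := exists_monoidHom_of_le_center hχ _ le_rfl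
    have h5 : χ z = lam ⟨z, hz⟩ * χ 1 := by simpa using h4 ⟨z, hz⟩ 1
    have h6 : IsPrimitiveRoot (lam ⟨z, hz⟩ : ℂ) p := by
      refine IsPrimitiveRoot.iff_orderOf.2 (orderOf_eq_prime ?_ fun h => ?_)
      · rw [← Units.val_pow_eq_pow_val, ← map_pow, show (⟨z, hz⟩ : Subgroup.center P) ^ p = 1 from
          Subtype.ext (hzp ▸ pow_orderOf_eq_one z), map_one, Units.val_one]
      · have h7 := (mem_charKer_iff hχc (g := z)).2 (by simpa [h] using h5)
        rw [hker, Subgroup.mem_bot] at h7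
        simp [h7, hp1.ne] at hzp
    have h7 : σ (lam ⟨z, hz⟩) = lam ⟨z, hz⟩ := by
      have h8 : σ (χ z) = χ z := congrFun hσ z
      have h9 : σ (χ 1) = χ 1 := congrFun hσ 1
      rw [h5, map_mul, h9] at h8
      exact mul_right_cancel₀ (irr_apply_one_ne_zero hχ) h8
    have h8 : σ • (fun g => (l g : ℂ)) = fun g => (l g : ℂ) := funext fun v => by
      have := NeZero.mk hp.out.ne_zero
      obtain ⟨i, -, hi⟩ := h6.eq_pow_of_pow_eq_one (ξ := (l v : ℂ)) (by
        rw [← Units.val_pow_eq_pow_val, ← map_pow, show v ^ p = 1 from Subtype.ext (hVe v v.2),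
          map_one, Units.val_one])
      change σ (l v) = l v
      rw [← hi, map_pow, h7]
    refine H14.clifford_corr_injective V H hVH hl hTH (H12.isIrrCharacter_gal hθ σ) hθ ?_ h1 ?_
    · have h9 := classInner_gal (φ := fun n : V => θ ⟨n, hVH n.2⟩) (isCharacter_of_irr hl) σ
      rw [h8] at h9
      exact h9.trans_ne ((map_ne_zero σ).2 h1)
    · rw [h2]
      exact (H14.indFun_map H θ σ.toRingHom).trans (h2.symm ▸ hσ)
  obtain ⟨b, hb⟩ := (hP.to_subgroup H).index (charKer θ)
  have h4 := Subgroup.index_dvd_of_le hS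
  have h5 := ih _ (hn ▸ H13.card_lt_of_ne_top fun h => by simp [h, hp1.ne] at hHi) H rfl
    (hP.to_subgroup H) θ hθ f' hf' (ne_zero_of_dvd_ne_zero h0 h4)
    ((Nat.le_of_dvd (Nat.pos_of_ne_zero h0) h4).trans hle) b hb
  have h6 : classInner (fun n : H => χ n) θ ≠ 0 := by
    rw [← H14.classInner_indFun_right H θ (isClassFunction_of_irr hχ), h2, classInner_irr_self hχ]
    exact one_ne_zero
  have h7 : ⨅ ψ : Finset.univ.image (H14.conjChar H θ), charKer ψ.1 = ⊥ :=
    eq_bot_iff.2 fun x hx => by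
      have h8 := H14.clifford H hχ hθ h6
      have h9 := congrFun h8 x
      have h10 := congrFun h8 1
      simp only [Pi.smul_apply, Finset.sum_apply] at h9 h10
      rw [Finset.sum_congr rfl fun ψ hψ =>
        apply_eq_of_mem_charKer (Subgroup.mem_iInf.1 hx ⟨ψ, hψ⟩), ← h10] at h9
      have h11 := (mem_charKer_iff hχc).2 h9
      rw [hker] at h11
      exact Subtype.ext h11
  have h8 := Subgroup.index_iInf_le fun ψ : Finset.univ.image (H14.conjChar H θ) => charKer ψ.1
  rw [h7, Subgroup.index_bot, Finset.prod_congr rfl (g := fun _ => p ^ b) fun ψ _ => by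
    obtain ⟨ψ, hψ⟩ := ψ
    obtain ⟨g, -, rfl⟩ := Finset.mem_image.1 hψ
    exact (congrArg Subgroup.index (charKer_comp (isCharacter_of_irr hθ)
      (MulAut.conjNormal g : MulAut H).toMonoidHom)).trans
      ((Subgroup.index_comap_of_surjective _ (MulAut.conjNormal g).surjective).trans hb),
    Finset.prod_const, Finset.card_univ, Fintype.card_coe, H14.card_image_conjChar, ← pow_mul] at h8
  have h9 : a ≤ b * p + 1 := by
    rw [← Nat.pow_le_pow_iff_right hp1, ← ha, ← H.card_mul_index, hHi, pow_succ]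
    refine Nat.mul_le_mul_right _ (h8.trans (Nat.pow_le_pow_right hp.out.pos
      (Nat.mul_le_mul_left _ ?_)))
    exact Nat.le_of_dvd hp.out.pos (hHi ▸ Subgroup.index_dvd_of_le
      (H14.le_inertia H (isClassFunction_of_irr hθ)))
  obtain ⟨q, rfl⟩ : ∃ q, p = q + 1 := ⟨p - 1, by omega⟩
  rw [Nat.add_sub_cancel] at h5 ⊢
  subst hff
  have := Nat.mul_le_mul_left (q + 1) h5
  have := Nat.mul_le_mul_left q h9
  nlinarith

/-- Let P be a finite p-group of order p^a with a > 0, and χ a faithful irreducible character of P of degree f whose field of values ℚ(χ) has degree (p − 1)·p^t over ℚ. Then a ≤ (f − 1)/(p − 1) + (t + 1)·f; in integer form, (p − 1)·a ≤ (f − 1) + (p − 1)(t + 1)·f. -/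
theorem result {P : Type*} [Group P] [Finite P] (p a : ℕ) (hp : p.Prime) (ha : 0 < a) (hP : Nat.card P = p ^ a) (χ : Cfsg.IrrCharacter P) (hfaith : ∀ g : P, (χ : P → ℂ) g = (χ : P → ℂ) 1 → g = 1) (f t : ℕ) (hf : Cfsg.charDegree (χ : P → ℂ) = f) (hfield : Module.finrank ℚ (IntermediateField.adjoin ℚ (Set.range (χ : P → ℂ))) = (p - 1) * p ^ t) : (p - 1) * a ≤ (f - 1) + (p - 1) * (t + 1) * f := by
  classical
  have := Fact.mk hp
  set K := IntermediateField.adjoin ℚ (Set.range (χ : P → ℂ)) with hK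
  have hp1 := hp.one_lt
  have : FiniteDimensional ℚ K := Module.finite_of_finrank_pos
    (hfield ▸ Nat.mul_pos (by omega) (pow_pos hp.pos t))
  let F : orbit (ℂ ≃+* ℂ) (χ : P → ℂ) → (K →ₐ[ℚ] ℂ) := fun ψ =>
    (ψ.2.choose.toRatAlgEquiv.toAlgHom).comp K.val
  have hF : Function.Injective F := fun ψ ψ' h => Subtype.ext (by
    rw [← ψ.2.choose_spec, ← ψ'.2.choose_spec]
    exact funext fun g => DFunLike.congr_fun h ⟨_, IntermediateField.subset_adjoin ℚ _ ⟨g, rfl⟩⟩)
  have h1 := Nat.card_le_card_of_injective F hF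
  rw [Nat.card_eq_fintype_card (α := K →ₐ[ℚ] ℂ), AlgHom.card, hfield, Nat.card_coe_set_eq,
    ← index_stabilizer] at h1
  have h2 := aux t _ P rfl (IsPGroup.of_card hP) χ χ.2 f
    ((H24.deg_eq_iff (isCharacter_of_irr χ.2)).1 hf) (by
      rw [index_stabilizer]
      exact ((Set.ncard_pos (Set.finite_coe_iff.1 (Finite.of_injective F hF))).2
        (nonempty_orbit _)).ne') h1 a
    (by rw [H12.charKer_eq_bot_of_faithful hfaith, Subgroup.index_bot, hP])
  have := hf ▸ H24.deg_pos χ.2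
  omega

end Cfsg.Agent.S4489
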