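import Cfsg.Statements.S4490
import Cfsg.Agent.H19.RealBlock
import Cfsg.Agent.S0908

set_option autoImplicit false
open Cfsg

namespace Cfsg.Agent.S4490


/-- Let G be a finite group and M a maximal ideal of the algebraic integers containing 2. Every 2-block B of G whose defect groups are the Sylow 2-subgroups of G (a block of full defect) and which is not the principal block is different from its complex-conjugate block, the block formed by the complex conjugates of the members of B. -/
theorem result {G : Type*} [Group G] [Finite G] (M : Ideal Cfsg.AlgInt) (hM : Cfsg.IsPModular 2 M) (B : Set (Cfsg.IrrCharacter G)) (hB : Cfsg.IsPBlock M B) (P : Sylow 2 G) (hfull : Cfsg.IsDefectGroup 2 M B (P : Subgroup G)) (hnp : B ≠ Cfsg.principalBlock M G) : {ψ : Cfsg.IrrCharacter G | ∃ χ ∈ B, (ψ : G → ℂ) = fun g => (starRingEnd ℂ) ((χ : G → ℂ) g)} ≠ B := by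
  haveI : Fact (Nat.Prime 2) := ⟨Nat.prime_two⟩
  intro heq
  have hc := Cfsg.Agent.S0908.result 2 M hM B hB _ hfull
  rw [P.card_eq_multiplicity] at hc
  have hdef : Cfsg.blockDefect 2 B = (Nat.card G).factorization 2 :=
    (Nat.pow_right_injective le_rfl hc).symm
  obtain ⟨χ, hχ, hodd⟩ := H19.exists_not_dvd_of_blockDefect_eq Nat.prime_two
    (H19.block_nonempty hM.2.1 hB) hdef
  have hψ : H19.galIrr H19.conjEquiv χ ∈ B := by
    rw [← heq]
    exact ⟨χ, hχ, rfl⟩
  have h0 := H19.mem_principalBlock_two_of_sameBlock hM χ _ hodd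
    (H19.sameBlock_of_mem hM.2.1 hB hχ hψ) fun x _ => H19.galIrr_conjEquiv_apply χ x
  exact hnp (H19.block_eq_of_mem hM.2.1 hB H19.isPBlock_principalBlock hχ h0)

end Cfsg.Agent.S4490
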