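import Cfsg.Statements.S4492
import Cfsg.Agent.H22.PSolvBlock

set_option autoImplicit false
open Cfsg

namespace Cfsg.Agent.S4492


/-- Let G be a finite p-solvable group, N = O_{p'}(G) its largest normal subgroup of order prime to p, and θ an irreducible character of N invariant under conjugation by G; fix a maximal ideal M of the algebraic integers containing p. Then the irreducible characters of G lying over θ (those whose restriction to N contains θ) form a single p-block of G, and the defect groups of that block are exactly the Sylow p-subgroups of G. -/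
theorem result {G : Type*} [Group G] [Fintype G] (p : ℕ) [Fact p.Prime] (M : Ideal Cfsg.AlgInt) (hM : Cfsg.IsPModular p M) (hsolv : Cfsg.IsPSolvable p G) (N : Subgroup G) [hN : N.Normal] [Fintype N] (hNdef : N = Cfsg.pPrimeCore p G) (θ : Cfsg.IrrCharacter N) (hinv : ∀ (g : G) (n : N), (θ : N → ℂ) ⟨g * n * g⁻¹, hN.conj_mem n n.2 g⟩ = (θ : N → ℂ) n) : ∃ B : Set (Cfsg.IrrCharacter G), Cfsg.IsPBlock M B ∧ (∀ χ : Cfsg.IrrCharacter G, χ ∈ B ↔ Cfsg.classInner (fun n : N => (χ : G → ℂ) n) (θ : N → ℂ) ≠ 0) ∧ (∀ P : Sylow p G, Cfsg.IsDefectGroup p M B (P : Subgroup G)) ∧ ∀ D : Subgroup G, Cfsg.IsDefectGroup p M B D → ∃ P : Sylow p G, D = (P : Subgroup G) := by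
  subst hNdef
  have hKp := H3.not_dvd_card_pPrimeCore p G
  haveI := H3.pPrimePCore_normal p G
  obtain ⟨k, hk⟩ := H22.exists_relIndex_pPrimePCore (p := p) (G := G)
  have hb : IsPBlock M {θ} := H22.isPBlock_singleton_of_not_dvd hM hKp θ
  have hst : ∀ g, g ∈ H22.stab (pPrimeCore p G) {θ} := fun g => by
    rw [← inv_inv g, H22.mem_stab_singleton]
    exact ((H22.eq_cjIrr_inv_iff _ g⁻¹ θ θ).1 fun n => (hinv g⁻¹ n).symm).symm
  have hB := H22.isPBlock_above_of_selfCent hM hKp (H3.pPrimeCore_le_pPrimePCore p G) hk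
    (H22.selfCent_of_isPSolvable hsolv) hb (fun g _ => hst g)
  have hS := H22.isDefectGroup_sylow_above hM hKp hb hst hB
  refine ⟨_, hB, fun χ => by rw [H22.mem_above_singleton, H22.over_iff], hS, fun D hD => ?_⟩
  obtain ⟨P, hP⟩ := (H17.dg_isPGroup hD).exists_le_sylow
  exact ⟨P, (H17.dg_eq_of_le hM hB hD P.isPGroup' (H17.dg_br_ne_zero hM.2.1 hB (hS P)) hP).symm⟩

end Cfsg.Agent.S4492
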