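import Cfsg.Statements.S4495
import Cfsg.Agent.H58.SelfElem

set_option autoImplicit false
open Cfsg

namespace Cfsg.Agent.S4495

/-- Let the finite group G contain an element x of prime order p with C_G(x) = ⟨x⟩, and let t be the number of conjugacy classes of elements of order p. If t ≠ p − 1 then the commutator subgroup has index at most (p − 1)/t; if t = p − 1 it has index exactly p. -/
theorem result {G : Type*} [Group G] [Finite G] (p : ℕ) (hp : p.Prime) (x : G) (hx : orderOf x = p) (hC : Subgroup.centralizer ({x} : Set G) = Subgroup.zpowers x) (t : ℕ) (ht : Nat.card {C : ConjClasses G // ∃ g ∈ C.carrier, orderOf g = p} = t) : (t ≠ p - 1 → (commutator G).index * t ≤ p - 1) ∧ (t = p - 1 → (commutator G).index = p) := by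
  have : Fact p.Prime := ⟨hp⟩
  have h := H58.selfCent_of_elem hx hC
  obtain ⟨P⟩ : Nonempty (Sylow p G) := inferInstance
  obtain ⟨e, he⟩ := h.exists_card_normalizer P
  have het := h.mul_card_classes P he
  rw [ht] at het
  have hp2 := hp.two_le
  refine ⟨fun h1 => ?_, fun h1 => ?_⟩
  · have he1 : e ≠ 1 := by rintro rfl; omega
    have h2 := h.index_dvd P he (h.dvd_card_commutator P he he1)
    rw [← het]
    exact Nat.mul_le_mul_right _ (Nat.le_of_dvd (Nat.pos_of_ne_zero (by rintro rfl; omega)) h2)
  · obtain rfl : e = 1 := Nat.eq_of_mul_eq_mul_right (show 0 < t by omega) (by omega)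
    exact (h.index_commutator_of_eq_one P he).1

end Cfsg.Agent.S4495
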