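import Cfsg.Statements.S4496
import Cfsg.Agent.H58.SelfElem

set_option autoImplicit false
open Cfsg

namespace Cfsg.Agent.S4496

/-- Let the finite group G contain an element x of prime order p with C_G(x) = ⟨x⟩. Then: (a) every normal subgroup of order divisible by p contains the commutator subgroup; (b) every normal subgroup S of order prime to p has order dividing the number of subgroups of order p of G and congruent to 1 modulo p, and in G/S the image of x again has prime order p and commutes only with its own powers. -/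
theorem result {G : Type*} [Group G] [Finite G] (p : ℕ) (hp : p.Prime) (x : G) (hx : orderOf x = p) (hC : Subgroup.centralizer ({x} : Set G) = Subgroup.zpowers x) (S : Subgroup G) [S.Normal] : (p ∣ Nat.card S → commutator G ≤ S) ∧ (¬ p ∣ Nat.card S → Nat.card S ∣ Nat.card {H : Subgroup G // Nat.card H = p} ∧ Nat.card S % p = 1 ∧ orderOf (QuotientGroup.mk x : G ⧸ S) = p ∧ Subgroup.centralizer ({(QuotientGroup.mk x : G ⧸ S)} : Set (G ⧸ S)) = Subgroup.zpowers (QuotientGroup.mk x : G ⧸ S)) := by
  have : Fact p.Prime := ⟨hp⟩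
  have h := H58.selfCent_of_elem hx hC
  refine ⟨h.commutator_le_of_dvd, fun hd => ?_⟩
  have hX : IsPGroup p (Subgroup.zpowers x) := IsPGroup.of_card (n := 1) (by simp [hx])
  obtain ⟨P, hP⟩ := hX.exists_le_sylow
  have hxP := hP (Subgroup.mem_zpowers x)
  have hx1 : x ≠ 1 := fun h => hp.one_lt.ne (by rw [← hx, h, orderOf_one])
  refine ⟨?_, ?_, ?_, le_antisymm (fun g hg => ?_) ?_⟩
  · have h1 := H3.card_sup_mul_card_inf (Subgroup.normalizer ((P : Subgroup G) : Set G)) S
    rw [h.inf_normalizer P hd, Subgroup.card_bot, mul_one] at h1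
    rw [H58.card_subgroups_prime P (h.card P)]
    exact Nat.dvd_of_mul_dvd_mul_left Nat.card_pos
      (h1 ▸ H58.card_normalizer_mul_card_sylow P ▸ Subgroup.card_subgroup_dvd_card _)
  · let _ := MulAction.compHom S ((MulAut.conjNormal (H := S)).comp (Subgroup.zpowers x).subtype)
    have h1 := hX.card_modEq_card_fixedPoints S
    rw [show MulAction.fixedPoints (Subgroup.zpowers x) S = {1} from
      Set.eq_singleton_iff_unique_mem.2 ⟨fun g => map_one (MulAut.conjNormal g.1), fun s hs =>
        Subtype.ext (h.eq_one_of_mem_of_not_dvd P hd (hP (hC.le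
          (Subgroup.mem_centralizer_singleton_iff.2 (mul_inv_eq_iff_eq_mul.1
            (congrArg Subtype.val (hs ⟨x, Subgroup.mem_zpowers x⟩))).symm))) s.2)⟩] at h1
    simpa [Nat.ModEq, Nat.mod_eq_of_lt hp.one_lt] using h1
  · refine ((Nat.dvd_prime hp).1 (hx ▸ orderOf_map_dvd (QuotientGroup.mk' S) x)).resolve_left
      fun h1 => hx1 (h.eq_one_of_mem_of_not_dvd P hd hxP
        ((QuotientGroup.eq_one_iff x).1 (orderOf_eq_one_iff.1 h1)))
  · obtain ⟨g, rfl⟩ := QuotientGroup.mk_surjective g
    have h1 : g⁻¹ * x * g * x⁻¹ ∈ S := by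
      rw [← QuotientGroup.eq_one_iff]
      simp [mul_assoc _ (x : G ⧸ S), ← Subgroup.mem_centralizer_singleton_iff.1 hg]
    obtain ⟨u, hu, h2⟩ := h.exists_eq_comm P hd hxP hx1 h1
    obtain ⟨k, hk⟩ := hC.le (Subgroup.mem_centralizer_singleton_iff.2
      (show g * u⁻¹ * x = x * (g * u⁻¹) from
        calc _ = g * (u⁻¹ * x * u * x⁻¹) * x * u⁻¹ := by group
          _ = _ := by rw [← h2]; group))
    exact ⟨k, by simpa [(QuotientGroup.eq_one_iff u).2 hu] using
      (congrArg (QuotientGroup.mk' S) hk)⟩
  · exact Subgroup.zpowers_le.2 (Subgroup.mem_centralizer_singleton_iff.2 rfl)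

end Cfsg.Agent.S4496
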