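import Cfsg.Statements.S4497
import Cfsg.Agent.H58.SelfElem

set_option autoImplicit false
open Cfsg

namespace Cfsg.Agent.S4497

/-- Let the finite group G contain an element x of prime order p with C_G(x) = ⟨x⟩, let t be the number of conjugacy classes of elements of order p, and let S* = O_{p′}(G) be the largest normal subgroup of order prime to p. Then S* ≤ G′; if t ≠ p − 1 the quotient G′/S* is simple (in particular non-trivial); if t = p − 1 then G′ = S*. -/
theorem result {G : Type*} [Group G] [Finite G] (p : ℕ) (hp : p.Prime) (x : G) (hx : orderOf x = p) (hC : Subgroup.centralizer ({x} : Set G) = Subgroup.zpowers x) (t : ℕ) (ht : Nat.card {C : ConjClasses G // ∃ g ∈ C.carrier, orderOf g = p} = t) : Cfsg.pPrimeCore p G ≤ commutator G ∧ (t ≠ p - 1 → ∀ h : ((Cfsg.pPrimeCore p G).subgroupOf (commutator G)).Normal, IsSimpleGroup (↥(commutator G) ⧸ (Cfsg.pPrimeCore p G).subgroupOf (commutator G))) ∧ (t = p - 1 → commutator G = Cfsg.pPrimeCore p G) := by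
  have : Fact p.Prime := ⟨hp⟩
  have h := H58.selfCent_of_elem hx hC
  obtain ⟨P⟩ : Nonempty (Sylow p G) := inferInstance
  obtain ⟨e, he⟩ := h.exists_card_normalizer P
  have het := h.mul_card_classes P he
  rw [ht] at het
  have hp2 := hp.two_le
  have hO := H3.not_dvd_card_pPrimeCore p G
  have := H3.pPrimeCore_characteristic p G
  have hle : Cfsg.pPrimeCore p G ≤ commutator G := h.le_commutator hO
  refine ⟨hle, fun h1 hn => ?_, fun h1 => ?_⟩
  · have he1 : e ≠ 1 := by rintro rfl; omega
    have hd := h.dvd_card_commutator P he he1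
    have : Nontrivial (↥(commutator G) ⧸ (Cfsg.pPrimeCore p G).subgroupOf (commutator G)) := by
      rw [QuotientGroup.nontrivial_iff, Ne, Subgroup.subgroupOf_eq_top]
      exact fun h2 => hO (hd.trans (Subgroup.card_dvd_of_le h2))
    refine ⟨fun K hK => ?_⟩
    set M := K.comap (QuotientGroup.mk' ((Cfsg.pPrimeCore p G).subgroupOf (commutator G))) with hM
    have hKM : K = M.map (QuotientGroup.mk' _) :=
      (Subgroup.map_comap_eq_self_of_surjective (QuotientGroup.mk'_surjective _) K).symm
    by_cases hdM : p ∣ Nat.card M
    · right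
      have h2 : ∀ Q : Sylow p G, (Q : Subgroup G) ≤ M.map (commutator G).subtype := fun Q => by
        have h3 := h.le_of_dvd Q hd
        have h4 : (Q : Subgroup G).subgroupOf (commutator G) ≤ M := by
          refine H58.le_of_not_dvd_index (p := p) (Q.isPGroup'.comap_subtype) fun hi => ?_
          have h5 := Nat.mul_dvd_mul hdM hi
          rw [M.card_mul_index] at h5
          have h6 := h5.trans (Subgroup.card_subgroup_dvd_card (commutator G))
          rw [← (P : Subgroup G).card_mul_index,
            show Nat.card (P : Subgroup G) = p from h.card P] at h6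
          exact P.not_dvd_index (Nat.dvd_of_mul_dvd_mul_left hp.pos h6)
        intro y hy
        exact ⟨⟨y, h3 hy⟩, h4 hy, rfl⟩
      have h3 : Subgroup.normalClosure ((P : Subgroup G) : Set G) ≤
          M.map (commutator G).subtype := by
        rw [Subgroup.normalClosure, Subgroup.closure_le]
        intro y hy
        obtain ⟨a, ha, hay⟩ := Group.mem_conjugatesOfSet_iff.1 hy
        obtain ⟨g, rfl⟩ := isConj_iff.1 hay
        exact h2 (g • P) (H58.conj_mem_smul_sylow g ha)
      have h4 := (h.commutator_le_of_dvd (K := Subgroup.normalClosure ((P : Subgroup G) : Set G))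
        ((h.card P).symm.dvd.trans (Subgroup.card_dvd_of_le (H := (P : Subgroup G))
          Subgroup.le_normalClosure))).trans h3
      have h5 : M = ⊤ := by
        rw [eq_top_iff]
        intro y _
        obtain ⟨y', hy', e⟩ := h4 y.2
        rwa [← show y' = y from Subtype.ext e]
      rw [hKM, h5]
      exact Subgroup.map_top_of_surjective _ (QuotientGroup.mk'_surjective _)
    · left
      have h2 : M ≤ Cfsg.pPrimeCore p (commutator G) :=
        H3.le_pPrimeCore ((hp.coprime_iff_not_dvd.2 hdM).symm)
      have := H3.pPrimeCore_characteristic p (commutator G)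
      have := H3.normal_map_subtype_of_characteristic (commutator G)
        (Cfsg.pPrimeCore p (commutator G))
      have h3 : (Cfsg.pPrimeCore p (commutator G)).map (commutator G).subtype ≤
          Cfsg.pPrimeCore p G := H3.le_pPrimeCore (by
        rw [H3.card_map_subtype]; exact H3.pPrimeCore_coprime p _)
      rw [hKM, Subgroup.map_eq_bot_iff, QuotientGroup.ker_mk']
      intro y hy
      exact h3 ⟨y, h2 hy, rfl⟩
  · obtain rfl : e = 1 := Nat.eq_of_mul_eq_mul_right (show 0 < t by omega) (by omega)
    refine le_antisymm (H3.le_pPrimeCore ?_) hle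
    rw [(h.index_commutator_of_eq_one P he).2]
    exact (hp.coprime_iff_not_dvd.2 (not_dvd_card_sylow p G)).symm

end Cfsg.Agent.S4497
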