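import Cfsg.Statements.S4500
import Cfsg.Agent.H21.Feit

set_option autoImplicit false
open Cfsg

namespace Cfsg.Agent.S4500

open Cfsg Cfsg.Agent.H21 Cfsg.Agent.H19

theorem aux {G : Type*} [Group G] [Finite G] [Nontrivial G] (p q r a b c : ℕ) (hp : p.Prime)
    (hq : q.Prime) (hr : r.Prime) (hpq : p ≠ q) (hpr : p ≠ r) (ha : a ≤ 2)
    (hG : Nat.card G = p ^ a * q ^ b * r ^ c) :
    ∃ χ : Cfsg.IrrCharacter G, (χ : G → ℂ) ≠ (fun _ => 1) ∧
      ∃ k : ℕ, Cfsg.charDegree (χ : G → ℂ) = q ^ k := by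
  have : Fact p.Prime := ⟨hp⟩
  have key : ∃ χ : IrrCharacter G, χ.1 ≠ (fun _ => 1) ∧ ¬ p ∣ charDegree χ.1 ∧
      ¬ r ∣ charDegree χ.1 := by
    by_cases hpG : p ∣ Nat.card G
    · obtain ⟨M, hM⟩ := exists_isPModular hp
      obtain ⟨x, hx⟩ := exists_prime_orderOf_dvd_card' p hpG
      obtain ⟨χ, h1, h2, h3, -⟩ := exists_ne_not_dvd_deg hM (x := x) (by rw [hx]) hr
      refine ⟨χ, fun h => h2 (Subtype.ext h), ?_, h3⟩
      rw [← height_principal_eq_zero_iff hM]
      refine height_eq_zero_of_defect_le_two hM isPBlock_principal ?_ h1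
      rw [defect_principal hM, hG, Nat.factorization_mul (mul_ne_zero (pow_ne_zero _ hp.ne_zero)
        (pow_ne_zero _ hq.ne_zero)) (pow_ne_zero _ hr.ne_zero),
        Nat.factorization_mul (pow_ne_zero _ hp.ne_zero) (pow_ne_zero _ hq.ne_zero)]
      simp [hp.factorization, hq.factorization, hr.factorization, hpq, hpr, ha]
    · obtain ⟨g, hg⟩ := exists_ne (1 : G)
      obtain ⟨χ, d, h1, h2, h3, h4, -⟩ := H12.exists_irr_not_dvd_degree_ne_zero hr hg
      refine ⟨⟨χ, h1⟩, h2, fun h => hpG (h.trans (deg_dvd_card _)), ?_⟩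
      rwa [charDegree_eq h3]
  obtain ⟨χ, h1, h2, h3⟩ := key
  refine ⟨χ, h1, ?_⟩
  have h4 := deg_dvd_card χ
  rw [hG] at h4
  have h5 : (charDegree χ.1).Coprime (r ^ c) :=
    (((Nat.Prime.coprime_iff_not_dvd hr).2 h3).symm).pow_right _
  have h6 : (charDegree χ.1).Coprime (p ^ a) :=
    (((Nat.Prime.coprime_iff_not_dvd hp).2 h2).symm).pow_right _
  obtain ⟨k, -, hk⟩ := (Nat.dvd_prime_pow hq).1
    (h6.dvd_of_dvd_mul_left (h5.dvd_of_dvd_mul_right h4))
  exact ⟨k, hk⟩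

/-- Let G be a non-trivial finite group of order p^a · q^b · r^c with p, q, r distinct primes and a ≤ 2. Then G has a non-principal irreducible character whose degree is a power of q, and a non-principal irreducible character whose degree is a power of r; the power may be the zeroth, so a non-principal linear character serves for both. -/
theorem result {G : Type*} [Group G] [Finite G] [Nontrivial G] (p q r a b c : ℕ) (hp : p.Prime) (hq : q.Prime) (hr : r.Prime) (hpq : p ≠ q) (hpr : p ≠ r) (hqr : q ≠ r) (ha : a ≤ 2) (hG : Nat.card G = p ^ a * q ^ b * r ^ c) : (∃ χ : Cfsg.IrrCharacter G, (χ : G → ℂ) ≠ (fun _ => 1) ∧ ∃ k : ℕ, Cfsg.charDegree (χ : G → ℂ) = q ^ k) ∧ ∃ χ : Cfsg.IrrCharacter G, (χ : G → ℂ) ≠ (fun _ => 1) ∧ ∃ k : ℕ, Cfsg.charDegree (χ : G → ℂ) = r ^ k := by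
  exact ⟨aux p q r a b c hp hq hr hpq hpr ha hG,
    aux p r q a c b hp hr hq hpr hpq ha (by rw [hG]; ring)⟩

end Cfsg.Agent.S4500
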