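import Cfsg.Statements.S4502
import Cfsg.Agent.H16.DefectOne

set_option autoImplicit false
open Cfsg

namespace Cfsg.Agent.S4502

open Cfsg.Agent.H16 Cfsg.Agent.H17 Cfsg.Agent.H18 Cfsg.Agent.H20 in
theorem exists_bijOn {G : Type*} [Group G] [Finite G] {p : ℕ} [Fact p.Prime] {M : Ideal AlgInt}
    (hM : IsPModular p M) {P : Subgroup G} {B : Set (IrrCharacter G)} (d : CycData p M B P P) :
    ∃ I : IrrCharacter (Nz P) → IrrCharacter G, Set.BijOn I (locSet M (Nz P) B) B := by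
  have := normal_Cz_subgroupOf P
  have hPn : (P.subgroupOf (Nz P)).Normal := H17.normal_subgroupOf_of_le_Nz le_rfl
  obtain ⟨b, hb, hbP⟩ := exists_isInducedBlock_dg hM d.le_Cz le_rfl d.blk d.dg
  obtain ⟨θ, hθ, hθP, -⟩ := H22.existsUnique_canonical hM
    (H22.sup_Cz_of_le_center (subgroupOf_le_center (Z := P) le_rfl)) hb.1 hbP
  have hN : (Cz P).subgroupOf (Nz P) = Cz (P.subgroupOf (Nz P)) := by
    ext x; rw [mem_Cz_subgroupOf d.le_Nz]; rfl
  obtain ⟨hind, hc⟩ := d.loc_eq_above hM hb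
  have dl := d.loc hM
  have hb'Z := IsInducedBlock.dg_subgroupOf hM (dl.le_Cz.trans hN.ge)
    (le_top.trans (Subgroup.normalizer_eq_top (H := P.subgroupOf (Nz P))).ge) hind dl.dg
  have st := (rootData_of_card_prime hM hN (isCyclic_Nz_quotient d.card).1 hind.1 hb'Z (hc ▸ dl)
    (Set.mem_image_of_mem _ hθ) fun x hx => hθP _ hx).isStar hM
  rw [← hc] at st
  obtain ⟨I, ε, s, -⟩ := d.exists_stepIso hM (piProp_of_normal hM dl.blk dl.dg dl.cyc) st
  exact ⟨I, s.bij⟩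

/-- Let G be a finite group whose order is divisible by the prime p exactly once, and let P be a Sylow p-subgroup. Then the number of irreducible characters of G of degree not divisible by p equals the number of conjugacy classes of the normalizer of P. -/
theorem result {G : Type*} [Group G] [Finite G] (p : ℕ) [Fact p.Prime] (hdiv : p ∣ Nat.card G) (hsq : ¬ p ^ 2 ∣ Nat.card G) (P : Sylow p G) : Nat.card {χ : Cfsg.IrrCharacter G // ¬ p ∣ Cfsg.charDegree (χ : G → ℂ)} = Nat.card (ConjClasses (Subgroup.normalizer ((P : Subgroup G) : Set G))) := by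
  classical
  have hp : p.Prime := Fact.out
  obtain ⟨M, hM⟩ := H19.exists_isPModular hp
  have hfac : (Nat.card G).factorization p = 1 := by
    have h1 := (hp.dvd_iff_one_le_factorization Nat.card_pos.ne').1 hdiv
    have h2 := (hp.pow_dvd_iff_le_factorization Nat.card_pos.ne').not.1 hsq
    omega
  have hP : Nat.card (P : Subgroup G) = p := by rw [P.card_eq_multiplicity, hfac, pow_one]
  have hcyc : IsCyclic (P : Subgroup G) := isCyclic_of_prime_card hP
  rw [← H11.card_irr_eq_card_conjClasses]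
  have hle : (P : Subgroup G) ≤ H18.Cz P := H18.le_Cz_of_isCyclic hcyc
  have hind : ∀ ψ : IrrCharacter (H18.Nz (P : Subgroup G)), ∃ B, H16.CycData p M B P P ∧
      ψ ∈ H20.locSet M (H18.Nz (P : Subgroup G)) B := by
    intro ψ
    obtain ⟨B, hB⟩ := H17.inducedBlockDefined_of_local hM P.isPGroup'
      (hle.trans (H18.Cz_le_Nz _)) (H18.Cz_le_Nz _) le_rfl (H17.isPBlock_blockOf ψ)
    obtain ⟨E, hE, hPE⟩ := H17.exists_dg_ge hM hB.2.1 P.isPGroup'
      (H17.IsInducedBlock.br_ne_zero_of_local hM P.isPGroup' (hle.trans (H18.Cz_le_Nz _)) le_rfl hB)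
    rw [P.3 (H17.dg_isPGroup hE) hPE] at hE
    exact ⟨B, ⟨hB.2.1, hE, hcyc, le_rfl, hP⟩,
      H20.IsInducedBlock.subset_locSet hM.2.1 hB (H17.mem_blockOf_self hM.2.1 ψ)⟩
  choose Bl hBl hmem using hind
  have hI : ∀ B : Set (IrrCharacter G), ∃ I : IrrCharacter (H18.Nz (P : Subgroup G)) →
      IrrCharacter G, H16.CycData p M B P P →
        Set.BijOn I (H20.locSet M (H18.Nz (P : Subgroup G)) B) B := by
    intro B
    by_cases h : H16.CycData p M B P P
    · obtain ⟨I, hI⟩ := exists_bijOn hM h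
      exact ⟨I, fun _ => hI⟩
    · exact ⟨fun _ => H17.trivIrr G, fun h' => absurd h' h⟩
  choose I hI using hI
  have hdeg : ∀ B : Set (IrrCharacter G), H16.CycData p M B P P → ∀ χ ∈ B, ¬ p ∣ charDegree χ.1 := by
    intro B d χ hχ h
    refine d.defect_ne_zero hM ((H17.nu_eq_iff_defect_eq_zero hM d.blk hχ).1 (le_antisymm ?_ ?_))
    · exact (Nat.factorization_le_iff_dvd (H21.deg_ne_zero χ) Nat.card_pos.ne').2
        (H17.deg_dvd_card χ) p
    · rw [hfac]
      exact (hp.dvd_iff_one_le_factorization (H21.deg_ne_zero χ)).1 h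
  symm
  refine Nat.card_eq_of_bijective
    (fun ψ => ⟨I (Bl ψ) ψ, hdeg _ (hBl ψ) _ ((hI _ (hBl ψ)).mapsTo (hmem ψ))⟩) ⟨?_, ?_⟩
  · intro ψ ξ h
    have h1 : I (Bl ψ) ψ = I (Bl ξ) ξ := congrArg Subtype.val h
    have h2 : Bl ψ = Bl ξ := H17.block_eq_of_mem hM.2.1 (hBl ψ).blk (hBl ξ).blk
      ((hI _ (hBl ψ)).mapsTo (hmem ψ)) (h1 ▸ (hI _ (hBl ξ)).mapsTo (hmem ξ))
    rw [← h2] at h1
    exact (hI _ (hBl ψ)).injOn (hmem ψ) (h2 ▸ hmem ξ) h1
  · rintro ⟨χ, hχ⟩
    have hB := H17.isPBlock_blockOf (M := M) χ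
    have d : H16.CycData p M (blockOf M χ.1) P P := ⟨hB, (H17.dg_sylow_iff_exists hM hB P).2
      ⟨χ, H17.mem_blockOf_self hM.2.1 χ, hχ⟩, hcyc, le_rfl, hP⟩
    obtain ⟨ψ, hψ, e⟩ := (hI _ d).surjOn (H17.mem_blockOf_self hM.2.1 χ)
    have h1 : H20.locSet M _ (Bl ψ) = H20.locSet M _ (blockOf M χ.1) :=
      H17.block_eq_of_mem hM.2.1 ((hBl ψ).loc hM).blk (d.loc hM).blk (hmem ψ) hψ
    have h2 : Bl ψ = blockOf M χ.1 := H17.IsInducedBlock.unique hM.2.1
      ((hBl ψ).isInducedBlock_loc hM) (h1 ▸ d.isInducedBlock_loc hM)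
    exact ⟨ψ, Subtype.ext (by simp only [h2, e])⟩

end Cfsg.Agent.S4502
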