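import Cfsg.Statements.S4506
import Cfsg.Agent.H19.GaloisBlock
import Cfsg.Agent.H21.Feit
import Cfsg.Agent.S0928

set_option autoImplicit false
open Cfsg

namespace Cfsg.Agent.S4506

open Cfsg.Agent.H19 Cfsg.Agent.H21

/-- The action of the automorphisms of `ℂ` on the irreducible characters. -/
@[reducible] noncomputable def galAct (G : Type*) [Group G] [Finite G] :
    MulAction (RingAut ℂ) (IrrCharacter G) where
  smul σ χ := galIrr σ χ
  one_smul χ := galIrr_refl χ
  mul_smul σ τ χ := galIrr_trans τ σ χ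

theorem gal_comm {G : Type*} [Group G] [Finite G] (σ τ : ℂ ≃+* ℂ) (χ : IrrCharacter G) :
    galIrr σ (galIrr τ χ) = galIrr τ (galIrr σ χ) := by
  obtain ⟨k, hk, -, h1⟩ := exists_powIrr_eq_galIrr (G := G) σ
  obtain ⟨l, hl, -, h2⟩ := exists_powIrr_eq_galIrr (G := G) τ
  rw [h1, h2, h2, h1]
  refine Subtype.ext (funext fun g => ?_)
  simp only [powIrr_apply, ← pow_mul, mul_comm]

theorem apply_eq_of_card {G : Type*} [Group G] [Finite G] {p : ℕ} (hp : p.Prime)
    (χ : IrrCharacter G) (η : ℂ) {e : ℕ}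
    (hr : Nat.card {ψ : IrrCharacter G // ∃ σ : ℂ ≃+* ℂ, σ η = η ∧ ψ.1 = fun g => σ (χ.1 g)} = p ^ e)
    {σ : ℂ ≃+* ℂ} (hσ : σ η = η) {g : G} (hg : orderOf g = p) : σ (χ.1 g) = χ.1 g := by
  letI := galAct G
  let A : Subgroup (RingAut ℂ) := MulAction.stabilizer (RingAut ℂ) η
  have hsm : ∀ (a : A) (ψ : IrrCharacter G), a • ψ = galIrr a.1 ψ := fun _ _ => rfl
  haveI : (MulAction.stabilizer A χ).Normal := ⟨fun a ha b => by
    rw [MulAction.mem_stabilizer_iff] at ha ⊢
    have hcm : ∀ ψ : IrrCharacter G, a • b⁻¹ • ψ = b⁻¹ • a • ψ := fun ψ => gal_comm _ _ ψ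
    rw [mul_smul, mul_smul, hcm, ha, smul_inv_smul]⟩
  have h1 : (MulAction.stabilizer A χ).index = p ^ e := by
    rw [MulAction.index_stabilizer, ← hr, ← Nat.card_coe_set_eq]
    refine Nat.card_congr (Equiv.subtypeEquivRight fun ψ => ⟨?_, ?_⟩)
    · rintro ⟨a, rfl⟩
      exact ⟨a.1, a.2, rfl⟩
    · rintro ⟨τ, h, e⟩
      exact ⟨⟨τ, h⟩, Subtype.ext e.symm⟩
  let a : A := ⟨σ, hσ⟩
  have h2 : a ^ p ^ e ∈ MulAction.stabilizer A χ := h1 ▸ Subgroup.pow_index_mem _ a
  have hc : (p - 1).Coprime (p ^ e) :=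
    Nat.Coprime.pow_right _ ((Nat.coprime_self_sub_left hp.one_le).2 (Nat.coprime_one_left _))
  obtain ⟨k, hk, -, h3⟩ := exists_powIrr_eq_galIrr (G := G) σ
  have h4 : ∀ m : ℕ, ∀ g, ((a ^ m) • χ).1 g = χ.1 (g ^ k ^ m) := by
    intro m
    induction m with
    | zero => intro g; simp
    | succ m ih =>
      intro g
      rw [pow_succ', mul_smul, hsm a, h3, powIrr_apply, ih, ← pow_mul, pow_succ']
  have h5 : ∀ t : ℕ, ((a ^ (p - 1)) ^ t • χ).1 g = χ.1 g := by
    intro t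
    rw [← pow_mul, h4]
    congr 1
    have hpk : k.Coprime p := hk.coprime_dvd_right (hg ▸ orderOf_dvd_natCard g)
    have : k ^ ((p - 1) * t) ≡ 1 [MOD p] := by
      have h0 := (Nat.ModEq.pow_totient hpk).pow t
      rwa [one_pow, Nat.totient_prime hp, ← pow_mul] at h0
    rw [pow_eq_pow_iff_modEq.2 (show _ ≡ 1 [MOD orderOf g] from hg.symm ▸ this), pow_one]
  -- `a ∈ ⟨a ^ (p - 1)⟩ · stabilizer`
  obtain ⟨t, ht⟩ : ∃ t, (p - 1) * t ≡ 1 [MOD p ^ e] := by
    rcases Nat.eq_zero_or_pos e with rfl | he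
    · exact ⟨0, by simp [Nat.ModEq, Nat.mod_one]⟩
    · obtain ⟨t, -, ht⟩ := Nat.exists_mul_mod_eq_one_of_coprime hc (Nat.one_lt_pow he.ne' hp.one_lt)
      exact ⟨t, by rw [Nat.ModEq, ht, Nat.mod_eq_of_lt (Nat.one_lt_pow he.ne' hp.one_lt)]⟩
  have h6 : ∀ m : ℕ, (a ^ m) • χ = (a ^ (m % p ^ e)) • χ := by
    intro m
    conv_lhs => rw [← Nat.mod_add_div m (p ^ e), pow_add, pow_mul, mul_smul,
      MulAction.mem_stabilizer_iff.1 (Subgroup.pow_mem _ h2 _)]
  have h7 := h5 t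
  rw [← pow_mul, h6, ht, ← h6, pow_one] at h7
  exact h7


/-- Let G be a finite group, p a prime, p^a the p-part of the order of G and g′ its p′-part. Call two irreducible characters p-conjugate when one is obtained from the other by applying a field automorphism of ℂ that fixes the g′-th roots of unity, and let r be the number of characters p-conjugate to the irreducible character χ (χ included). Then the exponent of p in r·χ(1) is at most a; and if p^a divides r·χ(1) then p^a already divides χ(1). -/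
theorem result {G : Type*} [Group G] [Finite G] (p : ℕ) (hp : p.Prime) (χ : Cfsg.IrrCharacter G) (r : ℕ) (hr : Nat.card {ψ : Cfsg.IrrCharacter G // ∃ σ : ℂ ≃+* ℂ, σ (Complex.exp (2 * Real.pi * Complex.I / ((Nat.card G / p ^ (Nat.card G).factorization p) : ℕ))) = Complex.exp (2 * Real.pi * Complex.I / ((Nat.card G / p ^ (Nat.card G).factorization p) : ℕ)) ∧ (ψ : G → ℂ) = fun g => σ ((χ : G → ℂ) g)} = r) : (r * Cfsg.charDegree (χ : G → ℂ)).factorization p ≤ (Nat.card G).factorization p ∧ (p ^ (Nat.card G).factorization p ∣ r * Cfsg.charDegree (χ : G → ℂ) → p ^ (Nat.card G).factorization p ∣ Cfsg.charDegree (χ : G → ℂ)) := by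
  classical
  haveI : Fact p.Prime := ⟨hp⟩
  let _ := Fintype.ofFinite G
  let _ := Fintype.ofFinite (IrrCharacter G)
  obtain ⟨M, hM⟩ := exists_isPModular hp
  set η := Complex.exp (2 * Real.pi * Complex.I /
    ((Nat.card G / p ^ (Nat.card G).factorization p) : ℕ)) with hη
  have hη' : IsPrimitiveRoot η (Nat.card G / p ^ (Nat.card G).factorization p) :=
    Complex.isPrimitiveRoot_exp _ (Nat.ordCompl_pos p Nat.card_pos.ne').ne'
  set B := blockOf M χ.1
  have hB : IsPBlock M B := H21.isPBlock_blockOf χ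
  have hχ : χ ∈ B := self_mem_blockOf hM.2.1 χ
  set R := Finset.univ.filter fun ψ : IrrCharacter G =>
    ∃ σ : ℂ ≃+* ℂ, σ η = η ∧ ψ.1 = fun g => σ (χ.1 g) with hR
  have hRc : R.card = r := by rw [← hr, Nat.card_eq_fintype_card, Fintype.card_subtype]
  have hχR : χ ∈ R := Finset.mem_filter.2 ⟨Finset.mem_univ _, RingEquiv.refl ℂ, rfl, rfl⟩
  have hr0 : r ≠ 0 := hRc ▸ (Finset.card_pos.2 ⟨χ, hχR⟩).ne'
  have hRB : R ⊆ Finset.univ.filter (· ∈ B) := by
    intro ψ hψ
    obtain ⟨σ, h1, h2⟩ := (Finset.mem_filter.1 hψ).2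
    have : ψ = galIrr σ χ := Subtype.ext h2
    exact Finset.mem_filter.2 ⟨Finset.mem_univ _, this ▸ sameBlock_galIrr_of_fix hM hη' h1 χ⟩
  have hc : ∀ ψ ∈ R, cZ p B χ ψ = cZ p B χ χ := by
    intro ψ hψ
    obtain ⟨σ, h1, h2⟩ := (Finset.mem_filter.1 hψ).2
    have h3 : pRegularPart p ψ.1 = pRegularPart p χ.1 := by
      funext g
      by_cases hg : p ∣ orderOf g
      · rw [preg_of_sing _ hg, preg_of_sing _ hg]
      rw [preg_of_reg _ hg, preg_of_reg _ hg, h2]
      obtain ⟨k, hk, h4, h5⟩ := exists_powIrr_eq_galIrr (G := G) σ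
      have h6 := modEq_one_of_fix (Nat.ordCompl_pos p Nat.card_pos.ne').ne'
        (Nat.ordCompl_dvd _ p) hη' h4 h1
      have h7 : orderOf g ∣ Nat.card G / p ^ (Nat.card G).factorization p := by
        refine Nat.Coprime.dvd_of_dvd_mul_left (k := orderOf g)
          (m := p ^ (Nat.card G).factorization p)
          (Nat.Coprime.pow_right _ ((Nat.Prime.coprime_iff_not_dvd hp).2 hg).symm) ?_
        rw [Nat.ordProj_mul_ordCompl_eq_self]
        exact orderOf_dvd_natCard g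
      have h8 : g ^ k = g := by rw [pow_eq_pow_iff_modEq.2 (h6.of_dvd h7), pow_one]
      have h9 := congrFun (congrArg Subtype.val (h5 χ)) g
      rw [powIrr_apply, h8] at h9
      exact h9
    have h4 : (cZ p B χ ψ : ℂ) = cZ p B χ χ := by
      rw [cZ_symm, cast_cZ' hM ψ hχ, cast_cZ hM hχ, contr_def, contr_def, h3]
    exact_mod_cast h4
  set c := cZ p B χ χ
  have hc0 : 0 < c := cZ_self_nonneg hM hB hχ
  have hsum := sum_cZ_sq hM hB hχ
  rw [← Finset.sum_sdiff hRB, Finset.sum_congr (s₁ := R) rfl (fun ψ hψ => by rw [hc ψ hψ]),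
    Finset.sum_const, hRc, nsmul_eq_mul] at hsum
  have hS : 0 ≤ ∑ ξ ∈ Finset.univ.filter (· ∈ B) \ R, cZ p B χ ξ ^ 2 :=
    Finset.sum_nonneg fun _ _ => sq_nonneg _
  have h1 : (r : ℤ) * c ≤ (p : ℤ) ^ blockDefect p B := by
    refine le_of_mul_le_mul_right ?_ hc0
    nlinarith
  have h2 : (p : ℤ) ^ blockHeight p B χ.1 ≤ c := Int.le_of_dvd hc0 (pow_height_dvd_cZ_left hM hχ χ)
  have h3 : p ^ r.factorization p ≤ r := Nat.ordProj_le p hr0
  have h3' : (p : ℤ) ^ r.factorization p ≤ r := by exact_mod_cast h3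
  have hp0 : (0 : ℤ) < p := by exact_mod_cast hp.pos
  have hp1 : (1 : ℤ) < p := by exact_mod_cast hp.one_lt
  have h4 : (p : ℤ) ^ (r.factorization p + blockHeight p B χ.1) ≤ r * c := by
    rw [pow_add]
    exact mul_le_mul h3' h2 (pow_pos hp0 _).le (Nat.cast_nonneg _)
  have h5 : r.factorization p + blockHeight p B χ.1 ≤ blockDefect p B :=
    (pow_le_pow_iff_right₀ hp1).1 (h4.trans h1)
  have h6 := nu_eq_minNu_add_height (p := p) hχ
  have h7 := minNu_add_defect hM ⟨χ, hχ⟩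
  have h8 : (r * charDegree χ.1).factorization p = r.factorization p + nu p χ := by
    rw [Nat.factorization_mul hr0 (deg_ne_zero χ)]; rfl
  refine ⟨by omega, fun h => ?_⟩
  have h9 := (hp.pow_dvd_iff_le_factorization (mul_ne_zero hr0 (deg_ne_zero χ))).1 h
  have h10 : r.factorization p + blockHeight p B χ.1 = blockDefect p B := by omega
  rw [h10] at h4
  have h11 : (r : ℤ) * c = (p : ℤ) ^ blockDefect p B := le_antisymm h1 h4
  have h12 : r = p ^ r.factorization p := by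
    refine le_antisymm ?_ h3
    have : (r : ℤ) * (p : ℤ) ^ blockHeight p B χ.1 ≤
        (p : ℤ) ^ r.factorization p * (p : ℤ) ^ blockHeight p B χ.1 := by
      rw [← pow_add, h10, ← h11]
      exact mul_le_mul_of_nonneg_left h2 (Nat.cast_nonneg _)
    exact_mod_cast le_of_mul_le_mul_right this (pow_pos hp0 _)
  have h13 : ∑ ξ ∈ Finset.univ.filter (· ∈ B) \ R, cZ p B χ ξ ^ 2 = 0 := by
    rw [← h11] at hsum; linarith
  rw [Finset.sum_eq_zero_iff_of_nonneg fun _ _ => sq_nonneg _] at h13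
  refine (hp.pow_dvd_iff_le_factorization (deg_ne_zero χ)).2 (S0928.result p χ fun g hg => ?_).ge
  have h14 := congrFun (pow_smul_preg_eq_sum hM hB hχ) g
  rw [Pi.smul_apply, preg_of_sing _ (hg ▸ dvd_rfl), smul_zero, ← Finset.sum_sdiff hRB,
    Finset.sum_eq_zero (fun ξ hξ => by rw [pow_eq_zero_iff two_ne_zero |>.1 (h13 ξ hξ)]; simp),
    zero_add, Finset.sum_apply, Finset.sum_congr rfl (g := fun _ => (c : ℂ) * χ.1 g)
      (fun ψ hψ => by
        obtain ⟨σ, a1, a2⟩ := (Finset.mem_filter.1 hψ).2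
        rw [Pi.smul_apply, hc ψ hψ, a2, smul_eq_mul]
        exact congrArg _ (apply_eq_of_card hp χ η (hr.trans h12) a1 hg)),
    Finset.sum_const, hRc, nsmul_eq_mul] at h14
  have h15 : (r : ℂ) ≠ 0 := by exact_mod_cast hr0
  have h16 : (c : ℂ) ≠ 0 := by exact_mod_cast hc0.ne'
  simpa [h15, h16] using h14.symm

end Cfsg.Agent.S4506
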