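import Cfsg.Statements.S4507
import Cfsg.Agent.H16.DefectOne
import Cfsg.Agent.H12.Galois

set_option autoImplicit false
open Cfsg

namespace Cfsg.Agent.S4507

open Cfsg.Agent.H16 Cfsg.Agent.H17 in
theorem gal_fix {G : Type*} [Group G] [Finite G] {χ : G → ℂ} (hχ : IsCharacter G χ) (σ : ℂ ≃+* ℂ)
    {n : ℕ} (hσ : ∀ z : ℂ, z ^ n = 1 → σ z = z) {g : G} (hg : orderOf g ∣ n) : σ (χ g) = χ g := by
  obtain ⟨s, h1, -, h2⟩ := H11.exists_multiset_eigenvalues hχ g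
  have h3 := h2 1
  simp only [zpow_one] at h3
  rw [h3, map_multiset_sum, Multiset.map_map]
  refine congrArg _ (Multiset.map_congr rfl fun z hz => hσ z ?_)
  obtain ⟨k, rfl⟩ := hg
  rw [pow_mul, h1 z hz, one_pow]

theorem exists_gal {a b k : ℕ} (ha : a ≠ 0) (hb : b ≠ 0) (hab : a.Coprime b) (hk : k.Coprime a) :
    ∃ σ : ℂ ≃+* ℂ, (∀ z : ℂ, z ^ a = 1 → σ z = z ^ k) ∧ ∀ z : ℂ, z ^ b = 1 → σ z = z := by
  obtain ⟨m, h1, h2⟩ := Nat.chineseRemainder hab k 1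
  obtain ⟨σ, hσ⟩ := H12.exists_ringEquiv_pow (n := a * b) (m := m)
    (Nat.pos_of_ne_zero (mul_ne_zero ha hb))
    (Nat.Coprime.mul_right (by rw [Nat.Coprime, h1.gcd_eq]; exact hk)
      (by rw [Nat.Coprime, h2.gcd_eq, Nat.gcd_one_left]))
  refine ⟨σ, fun z hz => ?_, fun z hz => ?_⟩
  · rw [hσ z (by rw [pow_mul, hz, one_pow]), pow_eq_pow_of_modEq h1 hz]
  · rw [hσ z (by rw [mul_comm, pow_mul, hz, one_pow]), pow_eq_pow_of_modEq h2 hz, pow_one]

open Cfsg.Agent.H17 in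
theorem exists_gal_irr {P : Type*} [Group P] [Finite P] {p b : ℕ} [Fact p.Prime]
    (hP : Nat.card P = p) (hb : b ≠ 0) (hpb : p.Coprime b) {l m : IrrCharacter P}
    (hl : l ≠ trivIrr P) (hm : m ≠ trivIrr P) :
    ∃ σ : ℂ ≃+* ℂ, (∀ z : ℂ, z ^ b = 1 → σ z = z) ∧ ∀ x, σ (l.1 x) = m.1 x := by
  have hp : p.Prime := Fact.out
  have hc : IsCyclic P := isCyclic_of_prime_card hP
  have hcomm : ∀ a b : P, a * b = b * a := fun a b => hc.commGroup.mul_comm a b
  obtain ⟨z, hz⟩ := hc.exists_generator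
  obtain ⟨lam, hlam⟩ := H11.exists_monoidHom_of_apply_one_eq_one (H11.irr_isCharacter l)
    (H11.irr_apply_one_of_comm hcomm l.2)
  obtain ⟨mu, hmu⟩ := H11.exists_monoidHom_of_apply_one_eq_one (H11.irr_isCharacter m)
    (H11.irr_apply_one_of_comm hcomm m.2)
  have prim : ∀ (n : IrrCharacter P) (ν : P →* ℂˣ), n ≠ trivIrr P → (n.1 = fun g => (ν g : ℂ)) →
      IsPrimitiveRoot (ν z : ℂ) p := by
    intro n ν hn e
    have h1 : (ν z : ℂ) ^ p = 1 := by
      rw [← Units.val_pow_eq_pow_val, ← map_pow, ← hP, pow_card_eq_one', map_one, Units.val_one]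
    have h2 : (ν z : ℂ) ≠ 1 := fun h => hn (Subtype.ext (by
      rw [e]
      funext x
      obtain ⟨k, rfl⟩ := hz x
      simp [trivIrr, h]))
    have := orderOf_eq_prime h1 h2
    exact this ▸ IsPrimitiveRoot.orderOf _
  have p1 := prim l lam hl hlam
  have p2 := prim m mu hm hmu
  have : NeZero p := ⟨hp.ne_zero⟩
  obtain ⟨k, -, hk, e⟩ := p1.isPrimitiveRoot_iff.1 p2
  obtain ⟨σ, h1, h2⟩ := exists_gal hp.ne_zero hb hpb hk
  refine ⟨σ, h2, fun x => ?_⟩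
  obtain ⟨j, rfl⟩ := hz x
  simp only [hlam, hmu, map_zpow, Units.val_zpow_eq_zpow_val, map_zpow₀]
  rw [h1 _ p1.pow_eq_one, e]

/-- Let G be a finite group whose order g is divisible by the prime p exactly once, g′ = g/p, and fix a maximal ideal M of the algebraic integers containing p. Call two irreducible characters p-conjugate when a field automorphism of ℂ fixing the g′-th roots of unity carries one to the other. Let B be a p-block of positive defect (its defect group is a Sylow p-subgroup). Then B contains a subset Y (the exceptional family) such that: Y is a full p-conjugacy class (its members are pairwise p-conjugate and every p-conjugate of a member of Y lies in Y); every member of B outside Y is p-conjugate only to itself; the size t of Y divides p − 1 and B has exactly t + (p − 1)/t members; and there are signs δ_χ = ±1 (χ ∈ B) such that for every p-regular element x and every θ ∈ Y, Σ_{χ ∈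 B ∖ Y} δ_χ χ(x) + δ_θ θ(x) = 0. -/
theorem result {G : Type*} [Group G] [Finite G] (p : ℕ) [Fact p.Prime] (M : Ideal Cfsg.AlgInt) (hM : Cfsg.IsPModular p M) (hdiv : p ∣ Nat.card G) (hsq : ¬ p ^ 2 ∣ Nat.card G) (B : Set (Cfsg.IrrCharacter G)) (hB : Cfsg.IsPBlock M B) (hd : 0 < Cfsg.blockDefect p B) : ∃ Y : Set (Cfsg.IrrCharacter G), Y ⊆ B ∧ Y.Nonempty ∧ (∀ θ ∈ Y, ∀ ψ : Cfsg.IrrCharacter G, (∃ σ : ℂ ≃+* ℂ, σ (Complex.exp (2 * Real.pi * Complex.I / ((Nat.card G / p ^ (Nat.card G).factorization p) : ℕ))) = Complex.exp (2 * Real.pi * Complex.I / ((Nat.card G / p ^ (Nat.card G).factorization p) : ℕ)) ∧ (ψ : G → ℂ) = fun g => σ ((θ : G → ℂ) g)) ↔ ψ ∈ Y) ∧ (∀ χ ∈ B, χ ∉ Y → ∀ ψ : Cfsg.IrrCharacter G, (∃ σ : ℂ ≃+* ℂ, σ (Complex.exp (2 * Real.pi * Complex.I / ((Nat.card G / p ^ (Nat.card G).factorization p) : ℕ))) = Complex.exp (2 * Real.pi * Complex.I / ((Nat.card G / p ^ (Nat.card G).factorization p) : ℕ)) ∧ (ψ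 : G → ℂ) = fun g => σ ((χ : G → ℂ) g)) → ψ = χ) ∧ Nat.card Y ∣ p - 1 ∧ Nat.card B = Nat.card Y + (p - 1) / Nat.card Y ∧ ∃ δ : Cfsg.IrrCharacter G → ℤ, (∀ χ ∈ B, δ χ = 1 ∨ δ χ = -1) ∧ ∀ x : G, ¬ p ∣ orderOf x → ∀ θ ∈ Y, (∑ᶠ χ ∈ B \ Y, (δ χ : ℂ) * (χ : G → ℂ) x) + (δ θ : ℂ) * (θ : G → ℂ) x = 0 := by
  classical
  have hp : p.Prime := Fact.out
  set n := Nat.card G / p ^ (Nat.card G).factorization p with hn
  have hn0 : n ≠ 0 := (Nat.ordCompl_pos p Nat.card_pos.ne').ne'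
  have hpn : p.Coprime n := Nat.coprime_ordCompl hp Nat.card_pos.ne'
  have hζ := Complex.isPrimitiveRoot_exp n hn0
  have hfac : (Nat.card G).factorization p = 1 := by
    have h1 := (hp.dvd_iff_one_le_factorization Nat.card_pos.ne').1 hdiv
    have h2 := (hp.pow_dvd_iff_le_factorization Nat.card_pos.ne').not.1 hsq
    omega
  obtain ⟨P, hBP⟩ := H17.exists_dg (p := p) hM.2.1 hB
  have hP : Nat.card P = p := by
    have h1 := H17.dg_card hM hB hBP
    have h2 : p ^ blockDefect p B ∣ Nat.card G := h1 ▸ Subgroup.card_subgroup_dvd_card P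
    have h3 := (hp.pow_dvd_iff_le_factorization Nat.card_pos.ne').1 h2
    rw [h1, show blockDefect p B = 1 by omega, pow_one]
  obtain ⟨b, θ, -, -, -, X, Y, δ, ε, exc, h⟩ := H16.exists_defOne' hM hP hB hBP
  have fixσ : ∀ σ : ℂ ≃+* ℂ, σ (Complex.exp (2 * Real.pi * Complex.I / n)) =
      Complex.exp (2 * Real.pi * Complex.I / n) → ∀ z : ℂ, z ^ n = 1 → σ z = z := by
    intro σ hσ z hz
    have : NeZero n := ⟨hn0⟩
    obtain ⟨k, -, rfl⟩ := hζ.eq_pow_of_pow_eq_one hz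
    rw [map_pow, hσ]
  have hreg : ∀ g : G, ¬ p ∣ orderOf g → orderOf g ∣ n := fun g hg => by
    refine (Nat.Coprime.pow_right ((Nat.card G).factorization p)
      ((hp.coprime_iff_not_dvd.2 hg).symm)).dvd_of_dvd_mul_left ?_
    rw [hn, Nat.ordProj_mul_ordCompl_eq_self]
    exact orderOf_dvd_natCard g
  have := Fintype.ofFinite (H18.Nz P)
  have fixθ : ∀ σ : ℂ ≃+* ℂ, (∀ z : ℂ, z ^ n = 1 → σ z = z) → ∀ (g : H18.Nz P) (y : H18.Cz P),
      ¬ p ∣ orderOf y → σ (θ.1 (H16.cjC P g y)) = θ.1 (H16.cjC P g y) := fun σ hσ g y hy =>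
    gal_fix (H11.irr_isCharacter θ) σ hσ (by
      rw [← Subgroup.orderOf_coe, H16.coe_cjC, H16.orderOf_conj_eq]
      exact hreg _ (by rwa [Subgroup.orderOf_coe]))
  have ext : ∀ σ : ℂ ≃+* ℂ, (∀ z : ℂ, z ^ n = 1 → σ z = z) → ∀ χ ∈ B, ∀ ψ ∈ B,
      (∀ g, ¬ p ∣ orderOf g → χ.1 g = ψ.1 g) →
      (∀ x : P, x ≠ 1 → ∀ y : H18.Cz P, ¬ p ∣ orderOf y → σ (χ.1 (x * y)) = ψ.1 (x * y)) →
      ∀ g, σ (χ.1 g) = ψ.1 g := by
    intro σ hσ χ hχ ψ hψ h1 h2 g
    by_cases hg : p ∣ orderOf g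
    · by_cases h0 : χ.1 g = 0 ∧ ψ.1 g = 0
      · rw [h0.1, h0.2, map_zero]
      obtain ⟨x, hx, hx1, y, hy, hyp, e⟩ : ∃ x ∈ P, x ≠ 1 ∧ ∃ y ∈ H18.Cz P,
          ¬ p ∣ orderOf y ∧ IsConj g (x * y) := by
        rcases not_and_or.1 h0 with h0 | h0
        exacts [h.van χ hχ g hg h0, h.van ψ hψ g hg h0]
      rw [H17.irr_isConj χ e, H17.irr_isConj ψ e]
      exact h2 ⟨x, hx⟩ (by simpa using hx1) ⟨y, hy⟩ (by rwa [← Subgroup.orderOf_coe])
    · rw [gal_fix (H11.irr_isCharacter χ) σ hσ (hreg g hg), h1 g hg]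
  have galY : ∀ σ : ℂ ≃+* ℂ, (∀ z : ℂ, z ^ n = 1 → σ z = z) → ∀ l m : IrrCharacter P,
      l ≠ H17.trivIrr P → m ≠ H17.trivIrr P → (∀ x, σ (l.1 x) = m.1 x) →
      ∀ g, σ ((exc l).1 g) = (exc m).1 g := by
    intro σ hσ l m hl hm e
    refine ext σ hσ _ ((h.mem _).2 (Or.inr (h.exc_mem l hl))) _
      ((h.mem _).2 (Or.inr (h.exc_mem m hm)))
      (fun g hg => h.reg_eq (h.exc_mem l hl) (h.exc_mem m hm) hg) fun x hx y hy => ?_
    have h1 := congrArg σ (h.val_Y l hl x hx y hy)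
    rw [finsum_eq_sum_of_fintype] at h1
    simp only [map_mul, map_natCast, map_intCast, map_sum, e, fixθ σ hσ _ y hy] at h1
    rw [← finsum_eq_sum_of_fintype, ← h.val_Y m hm x hx y hy] at h1
    exact mul_left_cancel₀ (H14.card_subgroup_ne_zero _) h1
  have hY0 : Y.card ≠ 0 := fun h0 => by
    have := h.card_Y
    rw [h0, mul_zero, zero_add] at this
    exact hp.one_lt.ne this
  have hmul : p - 1 = Y.card * X.card := by rw [h.card_X, ← h.card_Y, Nat.add_sub_cancel, mul_comm]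
  refine ⟨Y, fun χ hχ => (h.mem χ).2 (Or.inr hχ), Finset.card_ne_zero.1 hY0, fun χ hχ ψ => ?_,
    fun χ hχ hχY ψ ⟨σ, hσ, e⟩ => ?_, ?_, ?_, fun χ => if χ ∈ Y then -ε else δ χ, fun χ _ => ?_,
    fun x hx χ hχ => ?_⟩
  · obtain ⟨l, hl, rfl⟩ := h.exc_surj χ hχ
    constructor
    · rintro ⟨σ, hσ, e⟩
      have hm : H19.galIrr σ l ≠ H17.trivIrr P := fun h0 => hl (by
        rw [← H19.galIrr_symm_galIrr σ l, h0]
        exact Subtype.ext (funext fun x => by simp [H19.galIrr_apply, H17.trivIrr]))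
      have : ψ = exc (H19.galIrr σ l) := Subtype.ext (by
        rw [e]; exact funext (galY σ (fixσ σ hσ) l _ hl hm fun x => rfl))
      rw [this]
      exact h.exc_mem _ hm
    · intro hψ
      obtain ⟨m, hm, rfl⟩ := h.exc_surj ψ hψ
      obtain ⟨σ, h1, h2⟩ := exists_gal_irr hP hn0 hpn hl hm
      exact ⟨σ, h1 _ hζ.pow_eq_one, funext fun g => (galY σ h1 l m hl hm h2 g).symm⟩
  · have hχX : χ ∈ X := ((h.mem χ).1 hχ).resolve_right hχY
    refine Subtype.ext (e.trans (funext (ext σ (fixσ σ hσ) χ hχ χ hχ (fun _ _ => rfl)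
      fun x hx y hy => ?_)))
    have h0 := h.val_X χ hχX x x.2 (by simpa using hx) y hy
    have h1 := congrArg σ h0
    rw [finsum_eq_sum_of_fintype] at h1
    simp only [map_mul, map_natCast, map_intCast, map_sum, fixθ σ (fixσ σ hσ) _ y hy] at h1
    rw [← finsum_eq_sum_of_fintype, ← h0] at h1
    exact mul_left_cancel₀ (H14.card_subgroup_ne_zero _) h1
  · simpa using Dvd.intro _ hmul.symm
  · rw [h.card_eq, hmul]
    simp [Nat.mul_div_cancel_left _ (Nat.pos_of_ne_zero hY0), add_comm]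
  · dsimp only
    split_ifs
    · rcases h.sign_Y with h | h <;> simp [h]
    · exact h.sign_X χ
  · have h1 : B \ (Y : Set _) = X := by
      ext ξ
      simp only [Set.mem_sdiff, h.mem, Finset.mem_coe]
      exact ⟨fun ⟨a, b⟩ => a.resolve_right b, fun a => ⟨Or.inl a, Finset.disjoint_left.1 h.disj a⟩⟩
    have hχ' : χ ∈ Y := hχ
    dsimp only
    rw [h1, finsum_mem_coe_finset, if_pos hχ', Finset.sum_congr rfl fun ξ hξ => by
      rw [if_neg (Finset.disjoint_left.1 h.disj hξ)], ← h.rel χ hχ x hx]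
    simp

end Cfsg.Agent.S4507
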