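import Cfsg.Statements.S4509
import Cfsg.Agent.H58.SelfElem

set_option autoImplicit false
open Cfsg

namespace Cfsg.Agent.S4509

/-- Let the finite group G contain an element x of prime order p with C_G(x) = ⟨x⟩; let t be the number of conjugacy classes of elements of order p and 1 + n·p the number of subgroups of order p. Then G has a normal subgroup of order 1 + n·p if and only if either t = p − 1, or t < p − 1 and G″ ≠ G′. Moreover, if t = p − 1 then G′ has order 1 + n·p and G/G′ is cyclic of order p; and if t < p − 1 and G″ ≠ G′ then G″ has order 1 + n·p and G′ has order p·(1 + n·p). -/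
theorem result {G : Type*} [Group G] [Finite G] (p : ℕ) (hp : p.Prime) (x : G) (hx : orderOf x = p) (hC : Subgroup.centralizer ({x} : Set G) = Subgroup.zpowers x) (t : ℕ) (ht : Nat.card {C : ConjClasses G // ∃ g ∈ C.carrier, orderOf g = p} = t) (n : ℕ) (hn : Nat.card {H : Subgroup G // Nat.card H = p} = 1 + n * p) : ((∃ S : Subgroup G, S.Normal ∧ Nat.card S = 1 + n * p) ↔ (t = p - 1 ∨ (t < p - 1 ∧ derivedSeries G 2 ≠ derivedSeries G 1))) ∧ (t = p - 1 → Nat.card (commutator G) = 1 + n * p ∧ IsCyclic (G ⧸ commutator G) ∧ (commutator G).index = p) ∧ (t < p - 1 → derivedSeries G 2 ≠ derivedSeries G 1 → Nat.card (derivedSeries G 2) = 1 + n * p ∧ Nat.card (commutator G) = p * (1 + n * p)) := by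
  have : Fact p.Prime := ⟨hp⟩
  have h := H58.selfCent_of_elem hx hC
  obtain ⟨P⟩ : Nonempty (Sylow p G) := inferInstance
  obtain ⟨e, he⟩ := h.exists_card_normalizer P
  have het := h.mul_card_classes P he
  rw [ht] at het
  have hp2 := hp.two_le
  rw [H58.card_subgroups_prime P (h.card P)] at hn
  rw [← hn]
  have hnd := not_dvd_card_sylow p G
  have hA : t = p - 1 → Nat.card (commutator G) = Nat.card (Sylow p G) ∧
      IsCyclic (G ⧸ commutator G) ∧ (commutator G).index = p := fun h1 => by
    obtain rfl : e = 1 := Nat.eq_of_mul_eq_mul_right (show 0 < t by omega) (by omega)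
    obtain ⟨h2, h3⟩ := h.index_commutator_of_eq_one P he
    exact ⟨h3, isCyclic_of_prime_card (p := p) h2, h2⟩
  have hB : t < p - 1 → derivedSeries G 2 ≠ derivedSeries G 1 →
      Nat.card (derivedSeries G 2) = Nat.card (Sylow p G) ∧
      Nat.card (commutator G) = p * Nat.card (Sylow p G) := fun h1 h2 => by
    have he1 : e ≠ 1 := by rintro rfl; omega
    have hd := h.dvd_card_commutator P he he1
    have hPG := h.le_of_dvd P hd
    have hS : ¬ p ∣ Nat.card (derivedSeries G 2) := fun h3 =>
      h2 (le_antisymm (Subgroup.commutator_le_left _ _) (h.commutator_le_of_dvd h3))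
    have h3 : (P : Subgroup G) ⊔ derivedSeries G 2 = commutator G := by
      refine le_antisymm (sup_le hPG (Subgroup.commutator_le_left _ _)) fun g hg => ?_
      obtain ⟨y, hy, hy1⟩ := h.exists_mem P
      obtain ⟨u, hu, hgu⟩ := h.exists_eq_comm P hS hy hy1 (s := g⁻¹ * y * g⁻¹⁻¹ * y⁻¹)
        (Subgroup.commutator_mem_commutator (inv_mem hg) (hPG hy))
      have h4 : g * u⁻¹ ∈ (P : Subgroup G) := by
        refine h.mem_of_commute P hy hy1 ?_
        calc y * (g * u⁻¹) = g * (g⁻¹ * y * g⁻¹⁻¹ * y⁻¹) * y * u⁻¹ := by group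
          _ = _ := by rw [hgu]; group
      have := mul_mem (Subgroup.mem_sup_left (T := derivedSeries G 2) h4)
        (Subgroup.mem_sup_right (S := (P : Subgroup G)) hu)
      simpa using this
    have h4 : Nat.card (derivedSeries G 2) = Nat.card (Sylow p G) := by
      rw [h.card_eq_iff P hS, eq_top_iff, ← P.normalizer_sup_eq_top' hPG, ← h3]
      exact sup_le le_sup_left (sup_le (Subgroup.le_normalizer.trans le_sup_left) le_sup_right)
    refine ⟨h4, ?_⟩
    have h5 := H3.card_sup_mul_card_inf (P : Subgroup G) (derivedSeries G 2)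
    have h6 : (P : Subgroup G) ⊓ derivedSeries G 2 = ⊥ :=
      eq_bot_iff.2 fun y hy => h.eq_one_of_mem_of_not_dvd P hS hy.1 hy.2
    rwa [h3, h6, Subgroup.card_bot, mul_one, h4,
      show Nat.card (P : Subgroup G) = p from h.card P] at h5
  refine ⟨⟨?_, ?_⟩, hA, hB⟩
  · rintro ⟨S, hS, hc⟩
    by_cases h1 : t = p - 1
    · exact Or.inl h1
    have he1 : e ≠ 1 := by rintro rfl; omega
    have he0 : e ≠ 0 := by rintro rfl; omega
    have hd := h.dvd_card_commutator P he he1
    have hS' : ¬ p ∣ Nat.card S := hc ▸ hnd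
    refine Or.inr ⟨lt_of_le_of_ne ?_ h1, fun h2 => hS' (hd.trans ?_)⟩
    · rw [← het]; exact Nat.le_mul_of_pos_left _ (by omega)
    have := H58.SelfCent.sup_normal P ((h.card_eq_iff P hS').1 hc)
    have h3 := h.commutator_le_of_dvd (K := (P : Subgroup G) ⊔ S)
      ((h.card P).symm.dvd.trans (Subgroup.card_dvd_of_le (H := (P : Subgroup G)) le_sup_left))
    apply Subgroup.card_dvd_of_le
    change derivedSeries G 1 ≤ S
    rw [← h2]
    refine Subgroup.commutator_le.2 fun a ha b hb => ?_
    have ha' : a ∈ (((P : Subgroup G) ⊔ S : Subgroup G) : Set G) := h3 ha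
    have hb' : b ∈ (((P : Subgroup G) ⊔ S : Subgroup G) : Set G) := h3 hb
    rw [Subgroup.mul_normal] at ha' hb'
    obtain ⟨a, ha1, u, hu, rfl⟩ := ha'
    obtain ⟨b, hb1, v, hv, rfl⟩ := hb'
    rw [← QuotientGroup.eq_one_iff, ← QuotientGroup.mk'_apply, map_commutatorElement,
      commutatorElement_eq_one_iff_mul_comm]
    simp only [map_mul, QuotientGroup.mk'_apply, (QuotientGroup.eq_one_iff u).2 hu,
      (QuotientGroup.eq_one_iff v).2 hv, mul_one]
    rw [← QuotientGroup.mk_mul, h.comm P ha1 hb1, QuotientGroup.mk_mul]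
  · rintro (h1 | ⟨h1, h2⟩)
    · exact ⟨_, inferInstance, (hA h1).1⟩
    · exact ⟨_, inferInstance, (hB h1 h2).1⟩

end Cfsg.Agent.S4509
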