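import Cfsg.Statements.S4513
import Cfsg.Agent.H16.DefectOne
import Cfsg.Agent.H20.InvSum

set_option autoImplicit false
open Cfsg

namespace Cfsg.Agent.S4513

/-- Blocks of defect one for p = 2. Let M be a maximal ideal of the algebraic integers containing 2, B a 2-block of the finite group G whose defect group is the subgroup generated by an involution x, C = C_G(x), b a block of C inducing B and θ a member of b taking the same value at x as at 1 (there is exactly one). Then B consists of exactly two irreducible characters, which agree on every element of odd order, and they can be labelled χ₁, χ₂ with signs ε₁, ε₂ = ±1, ε₁ε₂ = −1, such that χᵢ(x y) = εᵢ θ(y) for every element y of C of odd order. -/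
theorem result {G : Type*} [Group G] [Finite G] (M : Ideal Cfsg.AlgInt) (hM : Cfsg.IsPModular 2 M) (x : G) (hx : orderOf x = 2)
    (B : Set (Cfsg.IrrCharacter G)) (hB : Cfsg.IsPBlock M B) (hBD : Cfsg.IsDefectGroup 2 M B (Subgroup.zpowers x))
    (b : Set (Cfsg.IrrCharacter ↥(Subgroup.centralizer ({x} : Set G)))) (hb : Cfsg.IsInducedBlock M (Subgroup.centralizer ({x} : Set G)) b B)
    (θ : Cfsg.IrrCharacter ↥(Subgroup.centralizer ({x} : Set G))) (hθ : θ ∈ b)
    (hθx : ∀ z : ↥(Subgroup.centralizer ({x} : Set G)), (z : G) = x → (θ : ↥(Subgroup.centralizer ({x} : Set G)) → ℂ) z = (θ : ↥(Subgroup.centralizer ({x} : Set G)) → ℂ) 1) :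
    Nat.card B = 2 ∧ (∀ χ ∈ B, ∀ ψ ∈ B, ∀ g : G, ¬ 2 ∣ orderOf g → (χ : G → ℂ) g = (ψ : G → ℂ) g) ∧
      ∃ χ₁ ∈ B, ∃ χ₂ ∈ B, χ₁ ≠ χ₂ ∧ ∃ ε₁ ε₂ : ℤ, (ε₁ = 1 ∨ ε₁ = -1) ∧ (ε₂ = 1 ∨ ε₂ = -1) ∧ ε₁ * ε₂ = -1 ∧
        ∀ y : ↥(Subgroup.centralizer ({x} : Set G)), ¬ 2 ∣ orderOf y →
          (χ₁ : G → ℂ) (x * y) = (ε₁ : ℂ) * (θ : ↥(Subgroup.centralizer ({x} : Set G)) → ℂ) y ∧ (χ₂ : G → ℂ) (x * y) = (ε₂ : ℂ) * (θ : ↥(Subgroup.centralizer ({x} : Set G)) → ℂ) y := by
  classical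
  generalize hC : Subgroup.centralizer ({x} : Set G) = C at b hb θ hθ hθx ⊢
  obtain rfl : H18.Cz (Subgroup.zpowers x) = C := (H20.centralizer_zpowers x).trans hC
  have hx1 : x ≠ 1 := by rintro rfl; simp at hx
  have hmem : ∀ z ∈ Subgroup.zpowers x, z = 1 ∨ z = x := fun z hz => by
    obtain ⟨k, rfl⟩ := (mem_powers_iff_mem_zpowers).2 hz
    dsimp only
    rw [← pow_mod_orderOf, hx]
    rcases Nat.mod_two_eq_zero_or_one k with h | h <;> simp [h]
  obtain ⟨X, Y, δ, ε, exc, d⟩ := H16.exists_defOne hM ((Nat.card_zpowers x).trans hx) hBD hb hθ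
    (fun z hz => (hmem z hz).elim (fun h => by rw [show z = 1 from Subtype.ext h]) (hθx z))
    (T := H16.stabC _ θ.1) fun _ => Iff.rfl
  have hN : (H18.Cz (Subgroup.zpowers x)).relIndex (H18.Nz (Subgroup.zpowers x)) = 1 :=
    Nat.dvd_one.1 d.dvd
  have hNC := Subgroup.relIndex_eq_one.1 hN
  have hT : (H18.Cz (Subgroup.zpowers x)).relIndex (H16.stabC _ θ.1) = 1 := Nat.dvd_one.1 d.e_dvd
  obtain ⟨χ₁, hX⟩ := Finset.card_eq_one.1 (d.card_X.trans hT)
  obtain ⟨χ₂, hY⟩ := Finset.card_eq_one.1 (show Y.card = 1 by rw [d.card_Y', hT])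
  subst hX hY
  have hne : χ₁ ≠ χ₂ := by simpa using d.disj
  have hB' : ∀ χ, χ ∈ B ↔ χ = χ₁ ∨ χ = χ₂ := by simpa using d.mem
  have hrel : ∀ g, ¬ 2 ∣ orderOf g → (ε : ℂ) * χ₂.1 g = δ χ₁ * χ₁.1 g := by simpa using d.rel
  have hεδ : ε = δ χ₁ := by
    have h1 := hrel 1 (by simp)
    rw [← H21.cast_deg, ← H21.cast_deg] at h1
    have h2 : ε * charDegree χ₂.1 = δ χ₁ * charDegree χ₁.1 := by exact_mod_cast h1
    have := H21.deg_pos χ₁
    have := H21.deg_pos χ₂
    rcases d.sign_Y with h | h <;> rcases d.sign_X χ₁ with h' | h' <;> rw [h, h'] at h2 ⊢ <;> omega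
  have hε0 : (ε : ℂ) ≠ 0 := by rcases d.sign_Y with h | h <;> simp [h]
  have hreg : ∀ g, ¬ 2 ∣ orderOf g → χ₁.1 g = χ₂.1 g := fun g hg =>
    mul_left_cancel₀ hε0 (by rw [hrel g hg, hεδ])
  have := Fintype.ofFinite (H18.Nz (Subgroup.zpowers x))
  have hcj : ∀ (g : H18.Nz (Subgroup.zpowers x)) y, θ.1 (H16.cjC _ g y) = θ.1 y := fun g y =>
    H11.isClassFunction_of_irr θ.2 y ⟨g, hNC g.2⟩
  have hCN : H18.Cz (Subgroup.zpowers x) = H18.Nz (Subgroup.zpowers x) :=
    le_antisymm (Subgroup.centralizer_le_normalizer _) hNC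
  have hTN : H16.stabC _ θ.1 = H18.Nz (Subgroup.zpowers x) :=
    le_antisymm (fun g hg => hg.1) fun g hg => ⟨hg, fun c c' h => by
      rw [← hcj ⟨g, hg⟩ c]; exact congrArg _ (Subtype.ext h)⟩
  refine ⟨?_, ?_, χ₁, (hB' _).2 (Or.inl rfl), χ₂, (hB' _).2 (Or.inr rfl), hne, ε, -ε, d.sign_Y,
    by rcases d.sign_Y with h | h <;> simp [h], by rcases d.sign_Y with h | h <;> simp [h],
    fun y hy => ⟨?_, ?_⟩⟩
  · rw [d.card_eq]; rfl
  · intro χ hχ ψ hψ g hg
    rcases (hB' _).1 hχ with rfl | rfl <;> rcases (hB' _).1 hψ with rfl | rfl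
    exacts [rfl, hreg g hg, (hreg g hg).symm, rfl]
  · have h1 := d.val_X χ₁ (by simp) x (Subgroup.mem_zpowers x) hx1 y hy
    simp only [hcj, finsum_eq_sum_of_fintype, Finset.sum_const, Finset.card_univ, nsmul_eq_mul,
      ← Nat.card_eq_fintype_card, hTN] at h1
    rw [hεδ]
    exact mul_left_cancel₀ (H11.card_ne_zero _) (h1.trans (by ring))
  · obtain ⟨l, hl, hl2⟩ := d.exc_surj χ₂ (by simp)
    have h1 := d.val_Y l hl ⟨x, Subgroup.mem_zpowers x⟩ (fun e => hx1 (congrArg Subtype.val e)) y hy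
    have h2 : ∀ g : H18.Nz (Subgroup.zpowers x),
        H16.cjP _ g ⟨x, Subgroup.mem_zpowers x⟩ = ⟨x, Subgroup.mem_zpowers x⟩ := fun g =>
      Subtype.ext (by
        rw [H16.coe_cjP, ← hNC g.2 x (Subgroup.mem_zpowers x), mul_inv_cancel_right])
    have h3 : l.1 ⟨x, Subgroup.mem_zpowers x⟩ = -1 := by
      have := Fintype.ofFinite (Subgroup.zpowers x)
      have h4 := H11.sum_irr_eq_zero l.2 fun e => hl (Subtype.ext e)
      rw [show (Finset.univ : Finset (Subgroup.zpowers x)) = {1, ⟨x, Subgroup.mem_zpowers x⟩} by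
        ext z
        simp only [Finset.mem_univ, true_iff, Finset.mem_insert, Finset.mem_singleton]
        exact (hmem z z.2).imp Subtype.ext Subtype.ext,
        Finset.sum_pair fun e => hx1 (congrArg Subtype.val e).symm,
        H11.irr_apply_one_of_comm (fun a b => mul_comm' a b) l.2] at h4
      linear_combination h4
    simp only [hcj, h2, h3, finsum_eq_sum_of_fintype, Finset.sum_const, Finset.card_univ,
      nsmul_eq_mul, ← Nat.card_eq_fintype_card, hl2] at h1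
    rw [← hCN] at h1
    refine mul_left_cancel₀ (H11.card_ne_zero _) (h1.trans ?_)
    push_cast
    ring

end Cfsg.Agent.S4513
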