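import Cfsg.Statements.S4633
import Cfsg.Agent.H18.Regular
import Cfsg.Agent.H18.CyclicAct

set_option autoImplicit false
open Cfsg

namespace Cfsg.Agent.S4633

open Cfsg.Agent.H18 Cfsg.Agent.H19 MonoidAlgebra

/-- Let B be a block of the finite group G relative to a maximal ideal M of the algebraic integers containing the prime p, with a nontrivial cyclic defect group P. Let c be a block of C_G(P) inducing B and T the stabilizer of c in N_G(P) (the elements of N_G(P) conjugating c to itself); T contains C_G(P). Then T/C_G(P) is cyclic of order dividing p − 1, and it acts freely on the non-identity elements of P: an element of T fixing some non-identity element of P under conjugation lies in C_G(P). -/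
theorem result {G : Type*} [Group G] [Finite G] (p : ℕ) [Fact p.Prime] (M : Ideal Cfsg.AlgInt) (hM : Cfsg.IsPModular p M) (B : Set (Cfsg.IrrCharacter G)) (hB : Cfsg.IsPBlock M B) (P : Subgroup G) (hPD : Cfsg.IsDefectGroup p M B P) (hP1 : P ≠ ⊥) (hcyc : IsCyclic P) (c : Set (Cfsg.IrrCharacter (Subgroup.centralizer (P : Set G)))) (hc : Cfsg.IsInducedBlock M (Subgroup.centralizer (P : Set G)) c B) (T : Subgroup G) (hT : ∀ g : G, g ∈ T ↔ (g ∈ Subgroup.normalizer (P : Set G) ∧ Cfsg.StabilizesBlock (Subgroup.centralizer (P : Set G)) c g)) [hn : ((Subgroup.centralizer (P : Set G)).subgroupOf T).Normal] : IsCyclic (T ⧸ (Subgroup.centralizer (P : Set G)).subgroupOf T) ∧ (Subgroup.centralizer (P : Set G)).relIndex T ∣ p - 1 ∧ ∀ g ∈ T, ∀ x ∈ P, x ≠ 1 → g * x * g⁻¹ = x → g ∈ Subgroup.centralizer (P : Set G) := by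
  have := charP_kk hM
  have hab := le_Cz_of_isCyclic hcyc
  have hm := isMaxPair_of_isInducedBlock hM hPD hab hc
  have hP := hm.pairOf.pair
  obtain rfl := eq_NP_of_iff hM hc.1 hT
  have h1 := hm.not_dvd_relIndex (isPrim_gid hM.2.1 hB)
  rw [top_inf_eq, sup_eq_right.2 hab] at h1
  have h2 : NP ⊤ P (bid M (Cz P) c) ≤ Nz P := inf_le_left.trans inf_le_right
  have h3 : ∀ g ∈ NP ⊤ P (bid M (Cz P) c), ∀ x ∈ P, x ≠ 1 → g * x * g⁻¹ = x → g ∈ Cz P :=
    fun g hg x hx hx1 hgx => mem_Cz_of_fixed_of_isCyclic hP.isP hcyc h2 h1 hg hx hx1 hgx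
  have h4 := isCyclic_quotient_of_free hP.isP hP1 hcyc h2 h3
  exact ⟨h4.1, h4.2, h3⟩

end Cfsg.Agent.S4633
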