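import Cfsg.Statements.S4634
import Cfsg.Agent.H20.AFB9
import Cfsg.Agent.H16.CycGen

set_option autoImplicit false
open Cfsg

namespace Cfsg.Agent.S4634

/-- Let B be a block of the finite group G relative to a maximal ideal M of the algebraic integers containing the prime p, with a nontrivial cyclic defect group P, let c be a block of C_G(P) inducing B, T the stabilizer of c in N_G(P) and e the index of C_G(P) in T. Let F be any finite group of order #P · e having a cyclic subgroup Q of order #P that is its own centralizer (F is then the semidirect product of Q by a cyclic group of order e acting faithfully). Then there is a perfect isometry from the set of all irreducible characters of F onto B whose signs agree on all the characters of F that do not contain Q in their kernel. -/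
theorem result {G : Type*} [Group G] [Finite G] (p : ℕ) [Fact p.Prime] (M : Ideal Cfsg.AlgInt) (hM : Cfsg.IsPModular p M) (B : Set (Cfsg.IrrCharacter G)) (hB : Cfsg.IsPBlock M B) (P : Subgroup G) (hPD : Cfsg.IsDefectGroup p M B P) (hP1 : P ≠ ⊥) (hcyc : IsCyclic P) (c : Set (Cfsg.IrrCharacter (Subgroup.centralizer (P : Set G)))) (hc : Cfsg.IsInducedBlock M (Subgroup.centralizer (P : Set G)) c B) (T : Subgroup G) (hT : ∀ g : G, g ∈ T ↔ (g ∈ Subgroup.normalizer (P : Set G) ∧ Cfsg.StabilizesBlock (Subgroup.centralizer (P : Set G)) c g)) (e : ℕ) (he : (Subgroup.centralizer (P : Set G)).relIndex T = e) (F : Type*) [Group F] [Finite F] (hF : Nat.card F = Nat.card P * e) (Q : Subgroup F) (hQ : IsCyclic Q) (hQcard : Nat.card Q = Nat.card P) (hQC : Subgroup.centralizer (Q : Set F) = Q) : ∃ (I : Cfsg.IrrCharacter F → Cfsg.IrrCharacter G) (ε : Cfsg.IrrCharacter F → ℤ), Cfsg.IsPerfectIsometry p M (Set.univ : Set (Cfsg.IrrCharacter F)) B I ε ∧ ∀ η η' : Cfsg.IrrCharacter F, (∃ x ∈ Q, (η : F → ℂ) x ≠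 (η : F → ℂ) 1) → (∃ x ∈ Q, (η' : F → ℂ) x ≠ (η' : F → ℂ) 1) → ε η = ε η' := by
  classical
  have := Fintype.ofFinite G
  have := Fintype.ofFinite F
  have := Fintype.ofFinite (IrrCharacter G)
  have := Fintype.ofFinite (IrrCharacter F)
  have hp : p.Prime := hM.1
  have hab : P ≤ H18.Cz P := H18.le_Cz_of_isCyclic hcyc
  have hm := H18.isMaxPair_of_isInducedBlock hM hPD hab hc
  have hl : blockRank p B = e := by
    obtain ⟨Z, d⟩ := H16.exists_cycData hB hPD hcyc hP1
    obtain ⟨X, Y, I, ε, t⟩ := d.exists_cycTree' hM hc hT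
    exact he ▸ t.blockRank_eq hM d
  obtain rfl := H18.eq_NP_of_iff hM hc.1 hT
  have := H19.charP_kk hM
  have hP := hm.pairOf.pair.isP
  have h1 := hm.not_dvd_relIndex (H18.isPrim_gid hM.2.1 hB)
  rw [top_inf_eq, sup_eq_right.2 hab] at h1
  have hfree := fun g hg x => H18.mem_Cz_of_fixed_of_isCyclic (g := g) (x := x) hP hcyc
    H20.NP_le_Nz' h1 hg
  have s : H20.AB M p B P _ := ⟨⟨hM, hB, hm⟩, hab, hfree⟩
  have hn : ((H18.Cz P).subgroupOf (H18.NP ⊤ P (H18.bid M (H18.Cz P) c))).Normal :=
    (H16.normal_Cz_subgroupOf P).comap (Subgroup.inclusion H20.NP_le_Nz')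
  have h2 := (H18.isCyclic_quotient_of_free hP hP1 hcyc H20.NP_le_Nz' hfree).2
  obtain ⟨r, h3, h4, -⟩ := s.count hP1
  obtain ⟨d, D⟩ := s.exists_dec
  have hE := H20.card_autOf (H20.NP_le_Nz' (P := P) (e := H18.bid M (H18.Cz P) c))
  rw [he] at h1 h2 h3 hE
  have hi : Q.index = e := Nat.eq_of_mul_eq_mul_left Nat.card_pos
    (Q.card_mul_index.trans (hQcard ▸ hF))
  let φ : Q ≃* P := mulEquivOfCyclicCardEq hQcard
  have hQp : IsPGroup p Q := hP.of_equiv φ.symm
  have hQn : Q.Normal := by
    let S := hQp.toSylow (hi ▸ h1)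
    have h5 : Nat.card (Sylow p F) = 1 := by
      have h5 := card_sylow_modEq_one p F
      have h6 := Nat.le_of_dvd (Nat.sub_pos_of_lt hp.one_lt) ((hi ▸ S.card_dvd_index).trans h2)
      rwa [Nat.ModEq, Nat.mod_eq_of_lt (by have := hp.pos; omega), Nat.mod_eq_of_lt hp.one_lt] at h5
    have := (Nat.card_eq_one_iff_unique.1 h5).1
    exact Sylow.normal_of_subsingleton S
  have hN : ⊤ ≤ H18.Nz Q := (Subgroup.normalizer_eq_top Q).ge
  have h5 : H20.Frob Q :=
    ⟨H20.comm_of_le_Cz hQC.ge, fun g x hx h h' => hQC.le (H18.mem_Cz_of_fixed_of_isCyclic hQp hQ hN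
      (by rwa [show H18.Cz Q = Q from hQC, Subgroup.relIndex_top_right, hi]) trivial hx h h'),
      (Abelianization.commutator_subset_ker ((IsCyclic.mulAutMulEquiv Q).toMonoidHom.comp
        MulAut.conjNormal)).trans fun g hg => hQC.le fun x hx => (mul_inv_eq_iff_eq_mul.1
          (congrArg (fun σ : MulAut Q => (σ ⟨x, hx⟩ : F))
            (((IsCyclic.mulAutMulEquiv Q).map_eq_one_iff (x := MulAut.conjNormal g)).1 hg))).symm,
      have := (Subgroup.nontrivial_iff_ne_bot P).2 hP1; φ.toEquiv.nontrivial⟩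
  have h6 : (H20.fE Q).map (MulAut.congr φ).toMonoidHom =
      H20.autOf (H20.NP_le_Nz' (e := H18.bid M (H18.Cz P) c)) := by
    have h6 := (Subgroup.card_map_of_injective (f := (MulAut.congr φ).toMonoidHom)
      (K := H20.fE Q) (MulAut.congr φ).injective).trans (h5.card_fE.trans hi)
    by_cases h7 : p = 2
    · obtain rfl : e = 1 := by simpa [h7] using h2
      rw [Subgroup.card_eq_one.1 h6, Subgroup.card_eq_one.1 hE]
    · obtain ⟨n, hn⟩ := hP.exists_card_eq
      have : IsCyclic (ZMod (Nat.card P))ˣ := by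
        rw [hn]; exact ZMod.isCyclic_units_of_prime_pow p hp h7 n
      have := isCyclic_of_surjective _ (IsCyclic.mulAutMulEquiv P).symm.surjective
      exact H16.eq_of_le_cyclic (P := ⊤) inferInstance le_top le_top (h6.trans hE.symm)
  refine h5.perfect hM hQp (hi ▸ h1) D φ (fun u v => ?_) (r := r) (by rw [hi, h3, hQcard])
    (by rw [h4, hl, hi])
  rw [← H20.exists_fE_iff, ← H20.exists_autOf_iff H20.NP_le_Nz', ← h6]
  simp [MulAut.congr]

end Cfsg.Agent.S4634
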