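import Cfsg.Statements.S4638
import Cfsg.Agent.H20.AFB7

set_option autoImplicit false
open Cfsg

namespace Cfsg.Agent.S4638

/-- Let B be a block of the finite group G relative to a maximal ideal M of the algebraic integers containing 2, with a Klein four defect group P, and let c be its Brauer correspondent: the block of N_G(P) with defect group P that induces B. Then there is a perfect isometry from c onto B. -/
theorem result {G : Type*} [Group G] [Finite G] (M : Ideal Cfsg.AlgInt) (hM : Cfsg.IsPModular 2 M) (B : Set (Cfsg.IrrCharacter G)) (hB : Cfsg.IsPBlock M B) (P : Subgroup G) (hPD : Cfsg.IsDefectGroup 2 M B P) (hV : IsKleinFour P) (c : Set (Cfsg.IrrCharacter (Subgroup.normalizer (P : Set G)))) (hcD : Cfsg.IsDefectGroup 2 M c (P.subgroupOf (Subgroup.normalizer (P : Set G)))) (hc : Cfsg.IsInducedBlock M (Subgroup.normalizer (P : Set G)) c B) : ∃ (I : Cfsg.IrrCharacter (Subgroup.normalizer (P : Set G)) → Cfsg.IrrCharacter G) (ε : Cfsg.IrrCharacter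 (Subgroup.normalizer (P : Set G)) → ℤ), Cfsg.IsPerfectIsometry 2 M c B I ε := by
  classical
  have := Fintype.ofFinite G
  have := Fintype.ofFinite (IrrCharacter G)
  have := Fintype.ofFinite (IrrCharacter (H18.Nz P))
  have := H19.charP_kk hM
  have hN : P ≤ H18.Nz P := Subgroup.le_normalizer
  let φ := Subgroup.subgroupOfEquivOfLe hN
  have hV' : IsKleinFour (P.subgroupOf (H18.Nz P)) := ⟨(Nat.card_congr φ.toEquiv).trans hV.card_four,
    (Monoid.exponent_eq_of_mulEquiv φ).trans hV.exponent_two⟩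
  obtain ⟨e, he⟩ := H18.exists_isMaxPair_of_isDefect (H18.isPrim_gid hM.2.1 hc.1)
    (H18.isDefect_of_isDefectGroup hM hc.1 hcD)
  have hD := H18.isDefect_of_isDefectGroup hM hB hPD
  have h1 := H18.isPairOf_incl_iff.2 he.pairOf
  rw [H18.map_top_subtype, Subgroup.map_subgroupOf_eq_of_le hN] at h1
  change H18.IsPairOf 2 _ (H18.bid M (H18.Nz P) c) _ _ at h1
  have h2 := (H18.isInducedBlock_iff_br hM h1.pair.isP hN (H18.Cz_le_Nz P) le_rfl hc.1 hB).1 hc
  have h3 : H18.IsMaxPair 2 ⊤ (H18.gid M B) P (H17.incl _ e) := by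
    refine H18.IsPairOf.isMaxPair ⟨h1.pair.up le_top (inf_le_right.trans (H18.Cz_le_Nz P)) le_rfl,
      ?_⟩ hD
    rw [← h1.occ, ← mul_assoc, ← H18.br_br_of_le le_rfl, ← H18.br_mul h1.pair.isP
      (fun g hg => H18.cj_br_of_mem_self _ hg) fun g hg => (H18.bid_mem _ c).2 g (hN hg), h2]
  have key : ∀ {K : Type _} [Group K] [Fintype K] [Fintype (IrrCharacter K)]
      {b : Set (IrrCharacter K)} {Q : Subgroup K} {f : MonoidAlgebra (H19.kk M) K},
      H17.BS M 2 b Q f → IsKleinFour Q →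
        Nat.card b = 4 ∧ ∃ d, H20.Dec M 2 b Q (H18.NP ⊤ Q f) d := fun s h => by
    have h4 := H20.le_Cz_of_comm (H20.comm_of_klein h)
    have h5 := H20.counts_of_three_invols s h4 (H20.card_invols_klein h)
    rw [h.card_four] at h5
    exact ⟨by omega, (H20.ab_of_three_invols s h4 (H20.card_invols_klein h)).1.exists_dec⟩
  obtain ⟨h4, d, D⟩ := key ⟨hM, hB, h3⟩ hV
  obtain ⟨h5, d', D'⟩ := key ⟨hM, hc.1, he⟩ hV'
  refine H20.perfect_of_klein hM D D' hV h4 h5 φ fun u v => ?_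
  rw [H18.NP_subgroupOf hN]
  exact ⟨fun ⟨t, ht, h⟩ => ⟨t, ⟨⟨trivial, t.2⟩, ht.2⟩, congrArg Subtype.val h⟩,
    fun ⟨t, ht, h⟩ => ⟨⟨t, ht.1.2⟩, ⟨⟨ht.1.2, ht.1.2⟩, ht.2⟩, Subtype.ext h⟩⟩

end Cfsg.Agent.S4638
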