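import Cfsg.Statements.S4640
import Cfsg.Agent.H22.Res

set_option autoImplicit false
open Cfsg

namespace Cfsg.Agent.S4640


/-- Let N be a normal subgroup of the finite group G of index a power of the prime p, M a maximal ideal of the algebraic integers containing p, b a block of N stabilized by every element of G, and B a block of G covering b (some member of B has a member of b as a constituent of its restriction to N). Suppose that B has a commutative defect group P. Then G = NP and P ∩ N is a defect group of b; every member of B restricts to a member of b; every member of b is the restriction of exactly [G : N] members of B; B contains exactly [G : N] times as many irreducible characters as b; and B and b have the same p-regular rank. -/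
theorem result {G : Type*} [Group G] [Fintype G] (p : ℕ) [Fact p.Prime] (M : Ideal Cfsg.AlgInt) (hM : Cfsg.IsPModular p M) (N : Subgroup G) [N.Normal] [Fintype N] (hNi : ∃ k : ℕ, N.index = p ^ k) (b : Set (Cfsg.IrrCharacter N)) (hb : Cfsg.IsPBlock M b) (hstab : ∀ g : G, Cfsg.StabilizesBlock N b g) (B : Set (Cfsg.IrrCharacter G)) (hB : Cfsg.IsPBlock M B) (hcov : ∃ χ ∈ B, ∃ θ ∈ b, Cfsg.classInner (fun n : N => (χ : G → ℂ) n) (θ : N → ℂ) ≠ 0) (P : Subgroup G) (hPD : Cfsg.IsDefectGroup p M B P) (hPab : ∀ x ∈ P, ∀ y ∈ P, x * y = y * x) : N ⊔ P = ⊤ ∧ Cfsg.IsDefectGroup p M b ((P ⊓ N).subgroupOf N) ∧ (∀ χ ∈ B, ∃ θ ∈ b, ∀ n : N, (χ : G → ℂ) n = (θ : N → ℂ) n) ∧ (∀ θ ∈ b, Nat.card {χ : Cfsg.IrrCharacter G // χ ∈ B ∧ ∀ n : N, (χ : G → ℂ) n = (θ : N → ℂ) n} = N.index) ∧ Nat.card B = N.index * Nat.card b ∧ Cfsg.blockRank p B = Cfsg.blockRank p b := by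
  have hmax : M.IsMaximal := hM.2.1
  obtain ⟨k, hk⟩ := hNi
  have hc : H22.Covers N B b := (H22.covers_iff N B b).2 hcov
  have hst : ∀ g, g ∈ H22.stab N b := fun g => (H22.stabilizesBlock_iff N).1 (hstab g)
  have hBa : B = H22.above N b := hc.eq_above_of_index hM hk hB hb
  have hsup : P ⊔ N = ⊤ := H22.sup_eq_top_of_stab hM hk hb hst (hBa ▸ hPD)
  have hirr : ∀ χ ∈ B, IsIrrCharacter N (fun n : N => χ.1 n) := fun χ hχ =>
    H22.isIrr_res_of_comm_dg hM hk hB hPD hsup hPab hχ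
  have h3 : ∀ χ ∈ B, ∃ θ ∈ b, ∀ n : N, (χ : G → ℂ) n = (θ : N → ℂ) n := by
    intro χ hχ
    obtain ⟨θ, hθ, ho⟩ := hc.exists_under hmax hB hb hχ
    have := H22.eq_of_over_of_res_eq (θ := ⟨_, hirr χ hχ⟩) (fun n => rfl) ho
    exact ⟨θ, hθ, fun n => by rw [this]⟩
  have h3' : ∀ θ ∈ b, ∃ χ ∈ B, ∀ n : N, (χ : G → ℂ) n = (θ : N → ℂ) n := by
    intro θ hθ
    obtain ⟨χ, hχ, ho⟩ := hc.exists_over hmax hB hb hθ
    have := H22.eq_of_over_of_res_eq (θ := ⟨_, hirr χ hχ⟩) (fun n => rfl) ho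
    exact ⟨χ, hχ, fun n => by rw [this]⟩
  have h4 : ∀ θ ∈ b, Nat.card {χ : Cfsg.IrrCharacter G //
      χ ∈ B ∧ ∀ n : N, (χ : G → ℂ) n = (θ : N → ℂ) n} = N.index := by
    intro θ hθ
    obtain ⟨χ, hχ, h⟩ := h3' θ hθ
    rw [← H22.card_ext_of_commutator_le N (H22.commutator_le_of_sup_comm hsup hPab) χ (hirr χ hχ)]
    refine Nat.card_congr (Equiv.subtypeEquivRight fun ψ => ⟨fun hψ n => ?_, fun hψ => ?_⟩)
    · rw [hψ.2, h]
    · have h' : ∀ n : N, ψ.1 n = θ.1 n := fun n => by rw [hψ, h]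
      exact ⟨hBa ▸ ⟨θ, hθ, H22.over_of_res_eq h'⟩, h'⟩
  refine ⟨by rw [sup_comm, hsup], ?_, h3, h4, H22.card_eq_mul_of_res N h3 h4, ?_⟩
  · exact (H18.isDefectGroup_subgroupOf_iff hM hb inf_le_right).2
      (hc.isDefect_inf_of_stab hM hB hb hst hPD)
  · exact H22.blockRank_eq_of_res N
      (fun g hg => H22.mem_of_not_dvd_of_index hM.1 hk hg) h3 h3'

end Cfsg.Agent.S4640
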