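import Cfsg.Statements.S4641
import Cfsg.Agent.H21.Feit
import Cfsg.Agent.H17.Numeric
import Cfsg.Agent.H16.BrauerBlock

set_option autoImplicit false
open Cfsg

namespace Cfsg.Agent.S4641

open Cfsg Cfsg.Agent.H21 Cfsg.Agent.H19

/-- Let B be a block of the finite group G relative to a maximal ideal M of the algebraic integers containing the prime p, let p^a be the p-part of the order of G and p^d the order of a defect group D of B, and let g be the greatest common divisor of the degrees of the members of B. Then the p-part of g is exactly p^(a−d), and writing g = p^(a−d)·u there is a positive integer v, prime to p and at least the p-regular rank of B (its number of irreducible Brauer characters), with Σ_{χ ∈ B} χ(1)² = p^(2a−d)·u²·v. -/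
theorem result {G : Type*} [Group G] [Finite G] (p : ℕ) [Fact p.Prime] (M : Ideal Cfsg.AlgInt) (hM : Cfsg.IsPModular p M) (B : Set (Cfsg.IrrCharacter G)) (hB : Cfsg.IsPBlock M B) (D : Subgroup G) (hD : Cfsg.IsDefectGroup p M B D) (a d : ℕ) (ha : (Nat.card G).factorization p = a) (hd : Nat.card D = p ^ d) (g : ℕ) (hg1 : ∀ χ ∈ B, g ∣ Cfsg.charDegree (χ : G → ℂ)) (hg2 : ∀ g' : ℕ, (∀ χ ∈ B, g' ∣ Cfsg.charDegree (χ : G → ℂ)) → g' ∣ g) : g.factorization p = a - d ∧ ∃ v : ℕ, 0 < v ∧ ¬ p ∣ v ∧ Cfsg.blockRank p B ≤ v ∧ ∑ᶠ χ ∈ B, Cfsg.charDegree (χ : G → ℂ) ^ 2 = p ^ (2 * a - d) * (g / p ^ (a - d)) ^ 2 * v := by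
  classical
  have := Fintype.ofFinite G
  have := Fintype.ofFinite (IrrCharacter G)
  have hp := hM.1
  have hL := H17.lamClosed_of_isPBlock hM.2.1 hB
  obtain rfl : d = blockDefect p B := by
    rw [H17.dg_card hM hB hD] at hd
    exact (Nat.pow_right_injective hp.two_le hd).symm
  obtain ⟨ψ, hψ, hψ0⟩ := exists_nu_eq_minNu (p := p) (block_nonempty hM.2.1 hB)
  have had := minNu_add_defect hM ⟨ψ, hψ⟩
  rw [ha] at had
  set d := blockDefect p B with hdd
  set m := minNu p B with hm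
  have hmd : a - d = m := by omega
  have hg0 : g ≠ 0 := fun h => deg_ne_zero ψ (Nat.eq_zero_of_zero_dvd (h ▸ hg1 ψ hψ))
  have hpm : p ^ m ∣ g := hg2 _ fun χ hχ =>
    (hp.pow_dvd_iff_le_factorization (deg_ne_zero χ)).2 (minNu_le hχ)
  have hgf : g.factorization p = m := by
    refine le_antisymm ?_ ((hp.pow_dvd_iff_le_factorization hg0).1 hpm)
    rw [← hψ0]
    exact (Nat.factorization_le_iff_dvd hg0 (deg_ne_zero ψ)).2 (hg1 ψ hψ) p
  refine ⟨by rw [hgf, hmd], ?_⟩
  obtain ⟨u, hu⟩ := hpm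
  have hu0 : u ≠ 0 := by rintro rfl; simp at hu; exact hg0 hu
  have hup : ¬ p ∣ u := by
    intro h
    have : p ^ (m + 1) ∣ g := by rw [hu, pow_succ]; exact Nat.mul_dvd_mul_left _ h
    have := (hp.pow_dvd_iff_le_factorization hg0).1 this
    omega
  rw [hmd, finsum_mem_eq_sum_filter']
  have hdiv : g / p ^ m = u := by rw [hu, Nat.mul_div_cancel_left _ (pow_pos hp.pos _)]
  rw [hdiv]
  -- the degrees of the projective indecomposables
  have hdnum : ∀ (χ : IrrCharacter G), charDegree χ.1 =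
      ∑ i : H16.IBr M G, H16.dnum χ.1 i * H16.bdim i := by
    intro χ
    have := H16.degree_eq_sum_dnum hM (H11.irr_isCharacter χ)
    rw [← cast_deg] at this
    exact_mod_cast this
  set Φ : H16.IBr M G → ℕ := fun i =>
    ∑ χ ∈ Finset.univ.filter (· ∈ B), H16.dnum χ.1 i * charDegree χ.1 with hΦ
  have hsum : ∑ χ ∈ Finset.univ.filter (· ∈ B), charDegree χ.1 ^ 2 =
      ∑ i ∈ Finset.univ.filter (· ∈ H16.ibrOf M B), H16.bdim i * Φ i := by
    have h1 : ∑ i ∈ Finset.univ.filter (· ∈ H16.ibrOf M B), H16.bdim i * Φ i =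
        ∑ i, H16.bdim i * Φ i := by
      rw [Finset.sum_filter]
      refine Finset.sum_congr rfl fun i _ => ?_
      split_ifs with hi
      · rfl
      · rw [hΦ]
        simp only
        rw [Finset.sum_eq_zero, mul_zero]
        intro χ hχ
        rw [H16.dnum_eq_zero_of_notMem_ibrOf (by simpa using hχ) hi, zero_mul]
    rw [h1]
    simp only [hΦ, Finset.mul_sum]
    rw [Finset.sum_comm]
    refine Finset.sum_congr rfl fun χ _ => ?_
    rw [sq]
    conv_lhs => rw [hdnum χ, Finset.sum_mul, ← hdnum χ]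
    exact Finset.sum_congr rfl fun i _ => by ring
  have hΦc : ∀ i ∈ H16.ibrOf M B, (Φ i : ℂ) = H16.pim i 1 := by
    intro i hi
    rw [H16.pim_eq_sum, Finset.sum_apply, hΦ]
    simp only [Finset.sum_filter]
    push_cast
    refine Finset.sum_congr rfl fun χ _ => ?_
    split_ifs with h
    · rw [cast_deg]; rfl
    · rw [H16.dnum_eq_zero_of_notMem hL hi h]; simp
  have hΦd : ∀ i ∈ H16.ibrOf M B, p ^ a * u ∣ Φ i := by
    intro i hi
    refine Nat.Coprime.mul_dvd_of_dvd_of_dvd
      (((Nat.Prime.coprime_iff_not_dvd hp).2 hup).pow_left _) ?_ ?_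
    · obtain ⟨k, hk⟩ := exists_int_apply_one (p := p)
        (H11.isGen_of_isCharacter (H16.isCharacter_pim i)) (fun x hx => H16.pim_of_dvd hM i hx)
      rw [← hΦc i hi, ha] at hk
      have : (Φ i : ℤ) = (p : ℤ) ^ a * k := by exact_mod_cast hk
      have h3 : ((p ^ a : ℕ) : ℤ) ∣ (Φ i : ℤ) := ⟨k, by rw [this]; push_cast; rfl⟩
      exact Int.natCast_dvd_natCast.1 h3
    · refine Finset.dvd_sum fun χ hχ => Dvd.dvd.mul_left ?_ _
      exact (Dvd.intro_left _ hu.symm).trans (hg1 χ (by simpa using hχ))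
  have hΦ0 : ∀ i ∈ H16.ibrOf M B, 0 < Φ i := by
    rintro i ⟨χ, hχ, h⟩
    exact Finset.sum_pos' (fun _ _ => Nat.zero_le _)
      ⟨χ, by simpa using hχ, Nat.mul_pos (Nat.pos_of_ne_zero h) (deg_pos χ)⟩
  have hbd : ∀ i ∈ H16.ibrOf M B, g ∣ H16.bdim i := by
    intro i hi
    obtain ⟨n, hn0, hn⟩ := H16.exists_ibr_eq_sum_int hM hL hi
    have h1 := congrFun hn 1
    rw [H16.ibr_one hM, Finset.sum_apply] at h1
    simp only [Pi.smul_apply, smul_eq_mul, preg_one hp, ← cast_deg] at h1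
    have h2 : (H16.bdim i : ℤ) = ∑ χ : IrrCharacter G, n χ * charDegree χ.1 := by
      exact_mod_cast h1
    have h3 : (g : ℤ) ∣ H16.bdim i := by
      rw [h2]
      refine Finset.dvd_sum fun χ _ => ?_
      by_cases hχ : χ ∈ B
      · exact Dvd.dvd.mul_left (by exact_mod_cast hg1 χ hχ) _
      · simp [hn0 χ hχ]
    exact_mod_cast h3
  have h2a : 2 * a - d = a + m := by omega
  have hterm : ∀ i ∈ Finset.univ.filter (· ∈ H16.ibrOf M B),
      p ^ (a + m) * u ^ 2 ∣ H16.bdim i * Φ i := by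
    intro i hi
    have := Nat.mul_dvd_mul (hbd i (by simpa using hi)) (hΦd i (by simpa using hi))
    rw [hu] at this
    convert this using 1
    ring
  obtain ⟨v, hv⟩ := Finset.dvd_sum hterm
  have hpos : 0 < p ^ (a + m) * u ^ 2 := by
    have := hp.pos
    positivity
  have hle : blockRank p B ≤ v := by
    have h1 : (Finset.univ.filter (· ∈ H16.ibrOf M B)).card * (p ^ (a + m) * u ^ 2) ≤
        ∑ i ∈ Finset.univ.filter (· ∈ H16.ibrOf M B), H16.bdim i * Φ i := by
      rw [← smul_eq_mul, ← Finset.sum_const]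
      exact Finset.sum_le_sum fun i hi => Nat.le_of_dvd
        (Nat.mul_pos (H16.bdim_pos i) (hΦ0 i (by simpa using hi))) (hterm i hi)
    rw [hv, mul_comm] at h1
    rw [H16.blockRank_block_eq_card hM hB, Nat.card_coe_set_eq, Set.ncard_eq_toFinset_card']
    convert Nat.le_of_mul_le_mul_left h1 hpos using 2
    ext i; simp
  have hv0 : 0 < v := (blockRank_pos hM hB).trans_le hle
  refine ⟨v, hv0, fun hpv => ?_, hle, by rw [hsum, hv, h2a]⟩
  have h1 := factorization_sum_deg_sq hM hB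
  rw [hsum, hv, ha, ← hm] at h1
  have h2 : p ^ (a + m + 1) ∣ p ^ (a + m) * u ^ 2 * v := by
    rw [pow_succ, mul_assoc]
    exact Nat.mul_dvd_mul_left _ (hpv.mul_left _)
  have := (hp.pow_dvd_iff_le_factorization (Nat.mul_pos hpos hv0).ne').1 h2
  omega

end Cfsg.Agent.S4641
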