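import Cfsg.Statements.S4644
import Cfsg.Agent.H18.AbelSum

set_option autoImplicit false
open Cfsg

namespace Cfsg.Agent.S4644

open Cfsg.Agent.H18 Cfsg.Agent.H19 MonoidAlgebra

/-- Let B be a block of the finite group G relative to a maximal ideal M of the algebraic integers containing the prime p, with a commutative defect group P; let c be a block of C_G(P) inducing B and T the stabilizer of c in N_G(P). Let u be an element of P fixed under conjugation by every element of T, H = C_G(u) (so C_G(P) ≤ H), and f the block of H induced by c inside H. Then B and f have the same p-regular rank and the same number of irreducible characters. -/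
theorem result {G : Type*} [Group G] [Finite G] (p : ℕ) [Fact p.Prime] (M : Ideal Cfsg.AlgInt) (hM : Cfsg.IsPModular p M) (B : Set (Cfsg.IrrCharacter G)) (hB : Cfsg.IsPBlock M B) (P : Subgroup G) (hPD : Cfsg.IsDefectGroup p M B P) (hPab : ∀ x ∈ P, ∀ y ∈ P, x * y = y * x) (c : Set (Cfsg.IrrCharacter (Subgroup.centralizer (P : Set G)))) (hc : Cfsg.IsInducedBlock M (Subgroup.centralizer (P : Set G)) c B) (T : Subgroup G) (hT : ∀ g : G, g ∈ T ↔ (g ∈ Subgroup.normalizer (P : Set G) ∧ Cfsg.StabilizesBlock (Subgroup.centralizer (P : Set G)) c g)) (u : G) (hu : u ∈ P) (huT : ∀ g ∈ T, g * u * g⁻¹ = u) (H : Subgroup G) (hH : H = Subgroup.centralizer ({u} : Set G)) (f : Set (Cfsg.IrrCharacter H)) (hf : Cfsg.IsInducedBlockIn M H (Subgroup.centralizer (P : Set G)) c f) : Cfsg.blockRank p B = Cfsg.blockRank p f ∧ Nat.card B = Nat.card f := by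
  classical
  have := charP_kk hM
  have := Fintype.ofFinite G
  obtain rfl : H = Cz (Subgroup.zpowers u) := hH.trans (H20.centralizer_zpowers u).symm
  have hab : P ≤ Cz P := fun x hx => mem_Cz.2 fun q hq => hPab q hq x hx
  have hm := isMaxPair_of_isInducedBlock hM hPD hab hc
  have hP := hm.pairOf.pair
  have hb := isPrim_gid hM.2.1 hB
  obtain rfl := eq_NP_of_iff hM hc.1 hT
  have hQ := (Subgroup.zpowers_le).2 hu
  have hs := Sub.unique hP (sub_qsub hP hQ)
    ((isInducedBlockIn_iff_sub hM hP.isP hab hQ hc.1 hf.2.1).1 hf)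
  have hfc := H17.lamClosed_of_isPBlock hM.2.1 hf.2.1
  have key : ∀ Q ≤ P, _ := fun Q hQ => rkB_qsub_sup hM hb hm hab Q hQ u hu
    fun t ht => huT t ⟨⟨trivial, ht.1.2⟩, ht.2⟩
  constructor
  · have h1 := key ⊥ bot_le
    have h2 : qsub p P (bid M (Cz P) c) ⊥ =
        bid M ⊤ (H22.irrMap Subgroup.topEquiv.symm '' B) := by
      rw [← gid_eq_of_coeff_eq (B := B) (K := ⊤) (A := H22.irrMap Subgroup.topEquiv.symm '' B)
        fun g => by rw [subgroupBlockCoeff_of_mem _ _ (Subgroup.mem_top g), H22.blockCoeff_image']; rfl,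
        ← esub_one hb hm.pairOf, ← Subgroup.zpowers_one_eq_bot]
      exact eq_esub hP (v := 1) (sub_qsub hP ((Subgroup.zpowers_le).2 P.one_mem))
    rwa [bot_sup_eq, hs, rkB_bid hfc, h2, Cz_bot, rkB_bid (lamClosed_image _
      (H17.lamClosed_of_isPBlock hM.2.1 hB)), H22.blockRank_image] at h1
  · have h1 := sum_rkB_of_abelian_top hM hB hm hab (η := 1) fun _ _ _ _ _ => rfl
    have h2 := sum_rkB_qsub hM hb hm hab hQ (η := 1) fun _ _ _ _ _ => rfl
    have h3 : NP (Cz (Subgroup.zpowers u)) P (bid M (Cz P) c) = NP ⊤ P (bid M (Cz P) c) :=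
      le_antisymm (fun t ht => ⟨⟨trivial, ht.1.2⟩, ht.2⟩) fun t ht =>
        ⟨⟨mem_Cz_zpowers.2 (mul_inv_eq_iff_eq_mul.1 (huT t ht)).symm, ht.1.2⟩, ht.2⟩
    rw [if_pos rfl] at h1 h2
    rw [hs, bset_bid hfc, h3] at h2
    refine Nat.cast_injective (R := ℂ) (h1.symm.trans ((Finset.sum_congr rfl fun v _ => ?_).trans h2))
    have h4 := (Subgroup.zpowers_le).2 v.2
    rw [sup_comm, ← key _ h4, eq_esub hP (sub_qsub hP h4)]

end Cfsg.Agent.S4644
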