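import Cfsg.Statements.S4647
import Cfsg.Agent.H18.RankOneAlg
import Cfsg.Agent.H18.PermMax

set_option autoImplicit false
open Cfsg

namespace Cfsg.Agent.S4647

open Cfsg.Agent.H18 Cfsg.Agent.H19 MonoidAlgebra

section

open MulAction Matrix
open Cfsg.Agent.H16 (rk)

variable {p : ℕ} [Fact p.Prime] {F : Type*} [Field F] [CharP F p] {G : Type*} [Group G] [Finite G]

/-- The two-sided action of `S × S` on `G`. -/
@[reducible] def biAct (S : Subgroup G) : MulAction (S × S) G where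
  smul γ y := γ.1 * y * (γ.2 : G)⁻¹
  one_smul y := show ((1 : S) : G) * y * ((1 : S) : G)⁻¹ = y by simp
  mul_smul a b y := show ((a.1 * b.1 : S) : G) * y * ((a.2 * b.2 : S) : G)⁻¹ =
    a.1 * (b.1 * y * (b.2 : G)⁻¹) * (a.2 : G)⁻¹ by simp [mul_assoc]

theorem card_le_rk [Fintype G] (b : F[G]) (A : Set G) (h : ∀ u : G → F, (∀ x ∉ A, u x = 0) →
    (Matrix.of fun x y => b.coeff (x * y⁻¹)) *ᵥ u = 0 → u = 0) : Nat.card A ≤ rk (lr b 1) := by
  classical
  let φ : (A → F) →ₗ[F] F[G] := lr b 1 ∘ₗ (coeffLinearEquiv F).symm.toLinearMap ∘ₗ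
    (Finsupp.linearEquivFunOnFinite F F G).symm.toLinearMap ∘ₗ
      Function.ExtendByZero.linearMap F (Subtype.val : A → G)
  have hφ : Function.Injective φ := (injective_iff_map_eq_zero _).2 fun u hu => by
    have h1 := h (Function.extend Subtype.val u 0) (fun x hx => Function.extend_apply' _ _ _
      fun ⟨y, hy⟩ => hx (hy ▸ y.2)) (funext fun x => by
        have h2 := congrArg (fun z : F[G] => z.coeff x) hu
        simp only [φ, LinearMap.comp_apply, lr_apply, mul_one, H17.coeff_mul_right] at h2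
        exact h2)
    funext y
    have := congrFun h1 y
    rwa [Subtype.val_injective.extend_apply] at this
  have h1 := LinearMap.finrank_range_of_inj hφ
  rw [Module.finrank_fintype_fun_eq_card, ← Nat.card_eq_fintype_card] at h1
  rw [← h1]
  exact Submodule.finrank_mono (LinearMap.range_comp_le_range _ _)

theorem isNil_of_rk_le {b : F[G]} (hb : IsPrim (fixAlg F ⊤ ⊤) b) {D : Subgroup G}
    (hD : IsDefect p ⊤ b D)
    (hrk : rk (lr b 1) * Nat.card D ≤ p ^ (2 * (Nat.card G).factorization p)) : IsNil p ⊤ b := by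
  classical
  intro Q f hQ x hx _ hp
  have := Fintype.ofFinite G
  obtain ⟨P, hP, hQP⟩ := exists_isDefect_ge le_rfl hb le_top hQ.pair.isP hQ.br_ne_zero
  obtain ⟨S, hS⟩ := hP.isP.exists_le_sylow
  let := biAct (S : Subgroup G)
  have hsm : ∀ (γ : S × S) (y : G), γ • y = γ.1 * y * (γ.2 : G)⁻¹ := fun _ _ => rfl
  have hΓ : IsPGroup p (S × S) := fun γ => by
    obtain ⟨m, hm⟩ := S.isPGroup' γ.1
    obtain ⟨n, hn⟩ := S.isPGroup' γ.2
    refine ⟨m + n, Prod.ext ?_ ?_⟩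
    · rw [Prod.pow_fst, pow_add, pow_mul, hm, one_pow]; rfl
    · rw [Prod.pow_snd, add_comm, pow_add, pow_mul, hn, one_pow]; rfl
  let U : Subgroup G → G → Subgroup (S × S) := fun R y =>
    stabilizer _ y ⊓ (R.subgroupOf S).comap (MonoidHom.fst S S)
  have hU : ∀ R y γ, γ ∈ U R y ↔ γ.1 * y * (γ.2 : G)⁻¹ = y ∧ (γ.1 : G) ∈ R := fun _ _ _ => Iff.rfl
  have hNZ : ∀ R y, br R b ≠ 0 → NZ (Matrix.of fun x y => b.coeff (x * y⁻¹)) (U R y) :=
    fun R y h => by
      obtain ⟨c, hc, h1⟩ := br_ne_zero_iff.1 h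
      refine ⟨c * y, y, fun γ hγ => ?_, inf_le_left, by simpa using h1⟩
      rw [mem_stabilizer_iff, hsm, ← mul_assoc, mem_Cz.1 hc (γ.1 : G) hγ.2, mul_assoc c, mul_assoc c]
      exact congrArg (c * ·) hγ.1
  obtain ⟨g, hg⟩ := (hNZ P 1 hP.ne).exists_cs_le hΓ (by
      ext x y
      rw [Matrix.mul_apply, Matrix.of_apply]
      conv_rhs => rw [← hb.idem, H17.coeff_mul_right]
      exact Fintype.sum_equiv (Equiv.mulRight y⁻¹) _ _ fun z => by simp [mul_assoc])
    (fun g x y => by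
      rw [Matrix.of_apply, Matrix.of_apply, hsm, hsm]
      conv_rhs => rw [← hb.mem.2 (g.1 : G)⁻¹ trivial, coeff_cj]
      congr 1
      group)
    (fun T ⟨y, z, hy, hz, h⟩ hT γ hγ => by
      have h1 : ∀ γ ∈ T, γ.1 * z * (γ.2 : G)⁻¹ = z := fun γ hγ => hz hγ
      have h2 : (T.map (MonoidHom.fst S S)).map (S : Subgroup G).subtype = P :=
        hP.max le_top (S.isPGroup'.to_subgroup _ |>.map _) (br_ne_zero_iff.2 ⟨_, mem_Cz.2 (by
          rintro _ ⟨_, ⟨γ, hγ, rfl⟩, rfl⟩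
          have h3 : γ.1 * y * (γ.2 : G)⁻¹ = y := hy hγ
          change γ.1 * (y * z⁻¹) = y * z⁻¹ * γ.1
          conv_rhs => rw [← h3, ← h1 γ hγ]
          group), h⟩) fun u hu => ⟨⟨u, hS hu⟩, ⟨(⟨u, hS hu⟩, ⟨u, hS hu⟩),
            hT ((hU _ _ _).2 ⟨by simp, hu⟩), rfl⟩, rfl⟩
      have h3 : (γ.1 : G) ∈ P := h2 ▸ ⟨_, ⟨γ, hγ, rfl⟩, rfl⟩
      have h4 := h1 (γ.1, γ.1) (hT ((hU _ _ _).2 ⟨by simp, h3⟩))
      refine (hU _ _ _).2 ⟨?_, h3⟩
      rw [inv_injective (mul_left_cancel ((h1 γ hγ).trans h4.symm))]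
      simp)
    (fun A hA => by
      have h1 : Nat.card (U P 1) = Nat.card D := by
        rw [← hP.card_eq hD]
        refine Nat.card_congr ⟨fun γ => ⟨γ.1.1, γ.2.2⟩, fun u => ⟨(⟨u, hS u.2⟩, ⟨u, hS u.2⟩),
          (hU _ _ _).2 ⟨by simp, u.2⟩⟩, fun γ => Subtype.ext (Prod.ext rfl (Subtype.ext ?_)),
          fun _ => rfl⟩
        simpa [mul_inv_eq_one] using ((hU _ _ _).1 γ.2).1
      refine (card_le_rk b A hA).trans (Nat.le_of_mul_le_mul_right (hrk.trans_eq ?_) Nat.card_pos)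
      rw [← h1, Subgroup.index_mul_card, Nat.card_prod, S.card_eq_multiplicity, two_mul, pow_add])
    (hNZ Q x hQ.br_ne_zero)
  refine mem_Cz_of_inv_mul_mem S.isPGroup' hx.2 (k := (g.1⁻¹ * g.2 : S)) (SetLike.coe_mem _)
    (mem_Cz.2 fun u hu => ?_) hp
  have h1 : x * u * x⁻¹ ∈ Q := (Subgroup.mem_normalizer_iff.1 hx.2 u).1 hu
  have h2 := ((hU _ _ _).1 (hg (Subgroup.mem_map_of_mem _ ((hU Q x (⟨_, hS (hQP h1)⟩,
    ⟨u, hS (hQP hu)⟩)).2 ⟨by simp, h1⟩)))).1
  rw [mul_one, mul_inv_eq_one] at h2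
  have h3 : g.1 * (x * u * x⁻¹) * (g.1 : G)⁻¹ = g.2 * u * (g.2 : G)⁻¹ := h2
  calc u * ((((g.1⁻¹ * g.2 : S)) : G)⁻¹ * x) = (g.2 : G)⁻¹ * (g.2 * u * (g.2 : G)⁻¹) * g.1 * x := by
        simp [mul_assoc]
    _ = _ := by rw [← h3]; simp [mul_assoc]

end

/-- Let B be a block of the finite group G relative to a maximal ideal M of the algebraic integers containing the prime p, p^a the p-part of the order of G and p^d the order of a defect group D of B. If Σ_{χ ∈ B} χ(1)² = p^(2a−d) (the least possible value), then B is nilpotent. -/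
theorem result {G : Type*} [Group G] [Finite G] (p : ℕ) [Fact p.Prime] (M : Ideal Cfsg.AlgInt) (hM : Cfsg.IsPModular p M) (B : Set (Cfsg.IrrCharacter G)) (hB : Cfsg.IsPBlock M B) (D : Subgroup G) (hD : Cfsg.IsDefectGroup p M B D) (a d : ℕ) (ha : (Nat.card G).factorization p = a) (hd : Nat.card D = p ^ d) (hmin : ∑ᶠ χ ∈ B, Cfsg.charDegree (χ : G → ℂ) ^ 2 = p ^ (2 * a - d)) : Cfsg.IsNilpotentBlock p M B := by
  classical
  have := charP_kk hM
  have := H17.irr_finite G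
  have := Fintype.ofFinite (IrrCharacter G)
  have hA := H17.lamClosed_of_isPBlock hM.2.1 hB
  rw [isNilpotentBlock_iff hM, and_iff_right hB]
  have hb := isPrim_gid hM.2.1 hB
  have hf : IsIdempotentElem (H17.fC B).1 := congrArg Subtype.val (H17.fC_mul_self B)
  refine isNil_of_rk_le hb ((isDefectGroup_iff_gid hM hB).1 hD) ?_
  have h1 : H16.rk (lr (gid M B) 1) = H16.rk (lr (H17.fC B).1 1) :=
    rk_eq_of_lift (fun x => (H17.fR M B).1 * x) (lr_idem hb.idem .one) (lr_idem hf .one)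
      (fun x => by rw [lr_apply, map_mul, mul_one, H16.piG_fR]; rfl)
      (fun x => by rw [lr_apply, map_mul, mul_one, ← H17.coe_iotaZ, H17.iotaZ_fR hA])
  have h2 : H16.rk (lr (H17.fC B).1 1) = p ^ (2 * a - d) := by
    rw [← hmin, ← Nat.cast_inj (R := ℂ), cast_rk_lr hf .one, H16.idemChar_eq_sum,
      H17.charLift_sum_fun, H17.finsum_mem_irr, Finset.sum_filter, Nat.cast_sum]
    refine Finset.sum_congr rfl fun χ _ => ?_
    rw [H17.charLift_smul_fun, ← mul_one (H17.fC B).1]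
    split_ifs with h
    · rw [H17.charLift_fC_mul_of_mem h, H17.charLift_one, Nat.cast_pow, H21.cast_deg, sq]
    · rw [H17.charLift_fC_mul_of_notMem h, mul_zero, Nat.cast_zero]
  have h3 : d ≤ a := by
    rw [← ha]
    exact (Nat.Prime.pow_dvd_iff_le_factorization Fact.out Nat.card_pos.ne').1
      (hd ▸ D.card_subgroup_dvd_card)
  rw [h1, h2, hd, ha, ← pow_add, Nat.sub_add_cancel (by omega)]

end Cfsg.Agent.S4647
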