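import Cfsg.Statements.S4650
import Cfsg.Agent.H18.Regular

set_option autoImplicit false
open Cfsg

namespace Cfsg.Agent.S4650

open Cfsg.Agent.H18 Cfsg.Agent.H19 MonoidAlgebra

/-- Let B be a block of the finite group G relative to a maximal ideal M of the algebraic integers containing the prime p, with a nontrivial commutative defect group P; let c be a block of C_G(P) inducing B and T the stabilizer of c in N_G(P). Then T/C_G(P) acts freely on the non-identity elements of P (an element of T fixing a non-identity element of P under conjugation lies in C_G(P)) if and only if, for every nontrivial subgroup Q of P, the block of C_G(Q) induced by c inside C_G(Q) is a nilpotent block of C_G(Q). -/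
theorem result {G : Type*} [Group G] [Finite G] (p : ℕ) [Fact p.Prime] (M : Ideal Cfsg.AlgInt) (hM : Cfsg.IsPModular p M) (B : Set (Cfsg.IrrCharacter G)) (hB : Cfsg.IsPBlock M B) (P : Subgroup G) (hPD : Cfsg.IsDefectGroup p M B P) (hPab : ∀ x ∈ P, ∀ y ∈ P, x * y = y * x) (hP1 : P ≠ ⊥) (c : Set (Cfsg.IrrCharacter (Subgroup.centralizer (P : Set G)))) (hc : Cfsg.IsInducedBlock M (Subgroup.centralizer (P : Set G)) c B) (T : Subgroup G) (hT : ∀ g : G, g ∈ T ↔ (g ∈ Subgroup.normalizer (P : Set G) ∧ Cfsg.StabilizesBlock (Subgroup.centralizer (P : Set G)) c g)) : (∀ g ∈ T, ∀ x ∈ P, x ≠ 1 → g * x * g⁻¹ = x → g ∈ Subgroup.centralizer (P : Set G)) ↔ ∀ Q : Subgroup G, Q ≤ P → Q ≠ ⊥ → ∀ f : Set (Cfsg.IrrCharacter (Subgroup.centralizer (Q : Set G))), Cfsg.IsInducedBlockIn M (Subgroup.centralizer (Q : Set G)) (Subgroup.centralizer (P : Set G)) c f → Cfsg.IsNilpotentBlock p M f := by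
  have := charP_kk hM
  have hab : P ≤ Cz P := fun x hx => mem_Cz.2 fun q hq => hPab q hq x hx
  have hm := isMaxPair_of_isInducedBlock hM hPD hab hc
  have hP := hm.pairOf.pair
  have hb := isPrim_gid hM.2.1 hB
  obtain rfl := eq_NP_of_iff hM hc.1 hT
  have key : ∀ Q ≤ P, ∀ f : Set (IrrCharacter (Cz Q)), IsInducedBlockIn M (Cz Q) (Cz P) c f →
      (IsNilpotentBlock p M f ↔ NP ⊤ P (bid M (Cz P) c) ⊓ Cz Q ≤ Cz P) := by
    intro Q hQP f hf
    have hs := (isInducedBlockIn_iff_sub hM hP.isP hab hQP hc.1 hf.2.1).1 hf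
    have h1 := hm.local_of_le_Cz hb hs (hab.trans (Cz_anti hQP))
    rw [top_inf_eq] at h1
    rw [isNilpotentBlock_iff_bid hM, and_iff_right hf.2.1,
      h1.isNil_iff_of_abelian (isPrim_bid hM.2.1 hf.2.1) hab]
    exact ⟨fun h x hx => h ⟨⟨hx.2, hx.1.1.2⟩, hx.1.2⟩, fun h x hx => h ⟨⟨⟨trivial, hx.1.2⟩, hx.2⟩, hx.1.1⟩⟩
  constructor
  · intro h Q hQP hQ1 f hf
    obtain ⟨⟨q, hq⟩, hq1⟩ := Subgroup.ne_bot_iff_exists_ne_one.1 hQ1
    refine (key Q hQP f hf).2 fun x hx => h x hx.1 q (hQP hq) (fun h => hq1 (Subtype.ext h)) ?_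
    rw [← mem_Cz.1 hx.2 q hq, mul_inv_cancel_right]
  · intro h g hg x hx hx1 hgx
    have hQP : Subgroup.zpowers x ≤ P := (Subgroup.zpowers_le).2 hx
    obtain ⟨a, ha⟩ := hP.exists_sub hQP
    obtain ⟨f, hf, rfl⟩ := (ha.left hP).exists_block hM
    have h1 := (isInducedBlockIn_iff_sub hM hP.isP hab hQP hc.1 hf).2 ha
    refine (key _ hQP f h1).1 (h _ hQP (by simpa using hx1) f h1) ⟨hg, ?_⟩
    refine mem_Cz_iff_le.2 ((Subgroup.zpowers_le).2 (Subgroup.mem_centralizer_singleton_iff.2 ?_))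
    rw [← mul_inv_eq_iff_eq_mul.1 hgx]

end Cfsg.Agent.S4650
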