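import Cfsg.Statements.S4651
import Cfsg.Agent.H17.Chains

set_option autoImplicit false
open Cfsg

namespace Cfsg.Agent.S4651

/-- An alternating-sum identity over chains of p-subgroups (the character-count form behind the chain reformulation of Alperin's weight conjecture, which holds unconditionally for the difference k − l). Let b be a block of the finite group G relative to a maximal ideal M of the algebraic integers containing the prime p. Consider the nonempty chains s = {Q_0 < Q_1 < ⋯ < Q_m} of nontrivial p-subgroups of G in which every member is normal in the largest member; let N_G(s) be the intersection of the normalizers of the members (the stabilizer of the chain), and let b_s be the set of irreducible characters of N_G(s) lying in blocks of N_G(s) that induce b. Then #G · (k(b) − l(b)) equals the sum over all such chains s of (−1)^m · #N_G(s) · (k(b_s) − l(b_s)), where k counts irreducible characters and l is the p-regular rank; equivalently, k(b) − l(b) is the alternating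 sum of k(b_s) − l(b_s) over representatives of the conjugacy classes of such chains. -/
theorem result {G : Type*} [Group G] [Finite G] (p : ℕ) [Fact p.Prime] (M : Ideal Cfsg.AlgInt) (hM : Cfsg.IsPModular p M) (b : Set (Cfsg.IrrCharacter G)) (hb : Cfsg.IsPBlock M b) : (Nat.card G : ℤ) * ((Nat.card b : ℤ) - (Cfsg.blockRank p b : ℤ)) = ∑ᶠ s ∈ {s : Finset (Subgroup G) | s.Nonempty ∧ (∀ Q ∈ s, ∀ R ∈ s, Q ≤ R ∨ R ≤ Q) ∧ (∀ Q ∈ s, Q ≠ ⊥ ∧ IsPGroup p Q) ∧ ∃ T ∈ s, ∀ Q ∈ s, Q ≤ T ∧ T ≤ Subgroup.normalizer ((Q : Subgroup G) : Set G)}, (-1 : ℤ) ^ (s.card - 1) * (Nat.card (((⨅ Q ∈ s, Subgroup.normalizer ((Q : Subgroup G) : Set G) : Subgroup G))) : ℤ) * ((Nat.card {ψ : Cfsg.IrrCharacter (((⨅ Q ∈ s, Subgroup.normalizer ((Q : Subgroup G) : Set G) : Subgroup G))) | ∃ β : Set (Cfsg.IrrCharacter (((⨅ Q ∈ s, Subgroup.normalizer ((Q : Subgroup G) : Set G) : Subgroup G)))), ψ ∈ β ∧ Cfsg.IsInducedBlock M (((⨅ Q ∈ s, Subgroup.normalizer ((Q : Subgroup G) : Set G) : Subgroup G))) β b} : ℤ) - (Cfsg.blockRank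 p {ψ : Cfsg.IrrCharacter (((⨅ Q ∈ s, Subgroup.normalizer ((Q : Subgroup G) : Set G) : Subgroup G))) | ∃ β : Set (Cfsg.IrrCharacter (((⨅ Q ∈ s, Subgroup.normalizer ((Q : Subgroup G) : Set G) : Subgroup G)))), ψ ∈ β ∧ Cfsg.IsInducedBlock M (((⨅ Q ∈ s, Subgroup.normalizer ((Q : Subgroup G) : Set G) : Subgroup G))) β b} : ℤ)) := by
  classical
  have := Fintype.ofFinite (Subgroup G)
  rw [H17.knorr_robinson hM (H17.lamClosed_of_isPBlock hM.2.1 hb), ← finsum_mem_coe_finset]
  refine finsum_mem_congr ?_ fun s hs => ?_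
  · ext s
    rw [Finset.mem_coe, Finset.mem_filter, and_iff_right (Finset.mem_univ _), Set.mem_setOf_eq]
    refine and_congr_right fun h0 => and_congr_right fun h1 => and_congr_right fun h2 =>
      ⟨fun h => ⟨s.sup id, ?_, fun Q hQ => ⟨Finset.le_sup (f := id) hQ, h Q hQ⟩⟩, ?_⟩
    · refine (H17.sup_mem_or_of_chain h1).resolve_left fun e => ?_
      obtain ⟨Q, hQ⟩ := h0
      exact (h2 Q hQ).1 (eq_bot_iff.2 (e ▸ Finset.le_sup (f := id) hQ))
    · rintro ⟨T, -, hT⟩ Q hQ
      exact (Finset.sup_le fun R hR => (hT R hR).1).trans (hT Q hQ).2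
  · obtain ⟨-, h1, h2, T, -, hT⟩ := hs
    have h : H17.IsCh p s := ⟨h1, h2, fun Q hQ =>
      (Finset.sup_le fun R hR => (hT R hR).1).trans (hT Q hQ).2⟩
    rw [H17.setOf_induced_eq_locSet hM h.isP h.sup_le_chN H17.Cz_sup_le_chN
      (H17.chN_le_Nz_sup subset_rfl) hb]

end Cfsg.Agent.S4651
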