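import Cfsg.Statements.S4654
import Cfsg.Agent.H18.Regular

set_option autoImplicit false
open Cfsg

namespace Cfsg.Agent.S4654

open Cfsg.Agent.H18 Cfsg.Agent.H19 MonoidAlgebra

/-- Fix a prime p and a maximal ideal M of the algebraic integers containing p. Let P be a normal p-subgroup of the finite group G, B a p-block of G and e a p-block of C_G(P) such that (P, e) is a Brauer pair of B (as P is normal, this says that e occurs in the idempotent of B, which is supported on C_G(P)). Let T be the stabilizer of e in G under conjugation. Then the idempotent of e is a block idempotent of T: some block E of T has, at every element of T, the same idempotent coefficient as e (zero off C_G(P)); and the idempotent of B is the sum of the distinct G-conjugates of the idempotent of e: its coefficient at g is the sum over all x in G of the coefficient of e at x⁻¹ g x, divided by the order of T. -/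
theorem result {G : Type*} [Group G] [Fintype G] (p : ℕ) [Fact p.Prime] (M : Ideal Cfsg.AlgInt) (hM : Cfsg.IsPModular p M) (P : Subgroup G) [P.Normal] (hP : IsPGroup p P) (B : Set (Cfsg.IrrCharacter G)) (e : Set (Cfsg.IrrCharacter (Subgroup.centralizer (P : Set G)))) (hBe : Cfsg.IsBrauerPairOf p M B P e) (T : Subgroup G) (hT : ∀ x : G, x ∈ T ↔ Cfsg.StabilizesBlock (Subgroup.centralizer (P : Set G)) e x) : (∃ E : Set (Cfsg.IrrCharacter T), Cfsg.IsPBlock M E ∧ ∀ t : T, Cfsg.blockCoeff E t = Cfsg.subgroupBlockCoeff (Subgroup.centralizer (P : Set G)) e (t : G)) ∧ ∀ g : G, Cfsg.blockCoeff B g = (Nat.card T : ℂ)⁻¹ * ∑ x : G, Cfsg.subgroupBlockCoeff (Subgroup.centralizer (P : Set G)) e (x⁻¹ * g * x) := by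
  classical
  have := charP_kk hM
  have hB := hBe.2.1
  have he := hBe.1.2
  have hN : ⊤ ≤ Nz P := (Subgroup.normalizer_eq_top P).ge
  have hN' : ∀ x : G, cs x (Cz P) = Cz P := fun x => mem_Nz_iff_cs.1 (Nz_le_Nz_Cz P (hN trivial))
  have hT' : T = stab (bid M (Cz P) e) := by
    ext x
    rw [hT, stabilizesBlock_Cz_iff hM.2.1 he (hN trivial), mem_stab]
  subst hT'
  constructor
  · obtain ⟨E, hE, -, h⟩ := exists_block_of_le_stab hM hP he (T := stab (bid M (Cz P) e))
      (bid_mem _ e).2 ((le_stab_bid e).trans inf_le_right) (le_top.trans hN) (fun x hx => hx)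
    exact ⟨E, hE, h⟩
  · intro g
    have hb := isPrim_gid hM.2.1 hB
    have hbr := br_idem_eq_self le_rfl hP le_top hN hb.mem hb.idem
    have hb' : IsPrim (fixAlg (kk M) (Cz P) ⊤) (gid M B) := by
      have := (isPrim_iff_of_normal hP le_top hN).2 hb
      rwa [top_inf_eq] at this
    obtain ⟨A, hA, hAB⟩ := exists_bid_eq_of_idem (fixAlg_mono le_rfl le_top hb'.mem) hb.idem
    have hocc := ((isBrauerPairOf_iff hM).1 hBe).2.2.2
    rw [hbr] at hocc
    have hmem : ∀ ξ : IrrCharacter (Cz P), ξ ∈ A ↔
        ∃ x : G, ξ ∈ H22.irrMap (conjEquiv x (hN' x)) '' e := by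
      intro ξ
      have hξ := H17.isPBlock_blockOf (M := M) ξ
      have hξ' := H17.mem_blockOf_self hM.2.1 ξ
      rw [H17.mem_iff_lam_eB hA, lam_eq_one_iff hM.2.1 hξ hξ' (gid_idem hA),
        ← (H17.incl_injective (Cz P)).eq_iff, map_mul]
      change bid M (Cz P) A * bid M (Cz P) _ = bid M (Cz P) _ ↔ _
      rw [hAB]
      constructor
      · intro h
        obtain ⟨x, -, hx⟩ := exists_cj_of_cover le_top (hN.trans (Nz_le_Nz_Cz P)) hb'
          (isPrim_bid hM.2.1 he) (isPrim_bid hM.2.1 hξ) hocc h
        rw [← bid_image_conj x (hN' x)] at hx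
        exact ⟨x, bid_inj' hM.2.1 (H22.isPBlock_image _ he) hξ hx ▸ hξ'⟩
      · rintro ⟨x, hx⟩
        rw [← H17.block_eq_blockOf hM.2.1 (H22.isPBlock_image _ he) hx, bid_image_conj,
          ← cj_gid B x, ← map_mul, hocc]
    have hsum : ∑ x : G, H17.fC (H22.irrMap (conjEquiv x (hN' x)) '' e) =
        (Nat.card (stab (bid M (Cz P) e)) : ℂ) • H17.fC A := by
      apply H17.ZG.ext_omegaZ
      intro ξ
      rw [map_sum, map_smul]
      simp only [H17.omegaZ_fC]
      by_cases hξ : ξ ∈ A
      · obtain ⟨y, hy⟩ := (hmem ξ).1 hξ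
        rw [if_pos hξ, smul_eq_mul, mul_one, Finset.sum_boole]
        congr 1
        rw [← Fintype.card_subtype, ← Nat.card_eq_fintype_card]
        refine Nat.card_congr (((Equiv.mulLeft y).subtypeEquiv fun x => ?_).symm)
        rw [Equiv.coe_mulLeft, mem_stab]
        constructor
        · intro h
          rwa [bid_inj' hM.2.1 (H22.isPBlock_image (conjEquiv (y * x) (hN' _)) he)
            (H22.isPBlock_image (conjEquiv y (hN' _)) he)
            (by rw [bid_image_conj, bid_image_conj, cj_mul, h])]
        · intro h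
          have h1 := congrArg (bid M (Cz P)) (H17.block_eq_of_mem hM.2.1 (H22.isPBlock_image _ he)
            (H22.isPBlock_image _ he) h hy)
          rw [bid_image_conj, bid_image_conj, cj_mul] at h1
          exact (cj y).injective h1
      · rw [if_neg hξ, smul_zero]
        exact Finset.sum_eq_zero fun x _ => if_neg fun h => hξ ((hmem ξ).2 ⟨x, h⟩)
    have h1 := congrArg (fun z : H17.ZG (Cz P) ℂ => (H17.incl (Cz P) z.1).coeff g) hsum
    simp only [AddSubmonoidClass.coe_finsetSum, map_sum, H17.coeff_sum_apply, Subalgebra.coe_smul,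
      map_smul, H17.coeff_smul_apply'] at h1
    rw [← blockCoeff_eq_of_bid_eq (hN.trans (Nz_le_Nz_Cz P)) hA
      (H17.lamClosed_of_isPBlock hM.2.1 hB) hAB, ← coeff_cid, cid,
      eq_inv_mul_iff_mul_eq₀ (Nat.cast_ne_zero.2 Nat.card_pos.ne'), ← h1]
    refine Finset.sum_congr rfl fun x _ => ?_
    rw [← subgroupBlockCoeff_image_conj x (hN' x), ← coeff_cid, cid]

end Cfsg.Agent.S4654
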