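import Cfsg.Statements.S4661
import Cfsg.Agent.H18.PairBridge

set_option autoImplicit false
open Cfsg

namespace Cfsg.Agent.S4661

open Cfsg.Agent.H18 Cfsg.Agent.H19 MonoidAlgebra

/-- Fix a prime p and a maximal ideal M of the algebraic integers containing p. Let (P, e) be a maximal Brauer pair of the p-block B of the finite group G, Q ≤ P, and f the p-block of C_G(Q) with (Q, f) ≤ (P, e). Then C_P(Q) is contained in a defect group of f (as a block of the group C_G(Q)); and for some x in G the conjugate pair (x Q x⁻¹, conjugate of f) again lies below (P, e) and C_P(x Q x⁻¹) is a defect group of the conjugate of f in C_G(x Q x⁻¹). -/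
theorem result {G : Type*} [Group G] [Fintype G] (p : ℕ) [Fact p.Prime] (M : Ideal Cfsg.AlgInt) (hM : Cfsg.IsPModular p M) (B : Set (Cfsg.IrrCharacter G)) (P Q : Subgroup G) (e : Set (Cfsg.IrrCharacter (Subgroup.centralizer (P : Set G)))) (f : Set (Cfsg.IrrCharacter (Subgroup.centralizer (Q : Set G)))) (hmax : Cfsg.IsMaximalBrauerPair p M B P e) (hQP : Q ≤ P) (hf : Cfsg.IsPBlock M f) (hle : Cfsg.SubpairLE p M Q f P e) : (∃ D : Subgroup (Subgroup.centralizer (Q : Set G)), Cfsg.IsDefectGroup p M f D ∧ (P ⊓ Subgroup.centralizer (Q : Set G)).subgroupOf (Subgroup.centralizer (Q : Set G)) ≤ D) ∧ ∃ x : G, Cfsg.SubpairLE p M (Q.map (MulAut.conj x).toMonoidHom) (Cfsg.conjBlock Q x f) P e ∧ Cfsg.IsDefectGroup p M (Cfsg.conjBlock Q x f) ((P ⊓ Subgroup.centralizer ((Q.map (MulAut.conj x).toMonoidHom) : Set G)).subgroupOf (Subgroup.centralizer ((Q.map (MulAut.conj x).toMonoidHom) : Set G))) := by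
  have := charP_kk hM
  have hm := maxPair_of_isMaximalBrauerPair hM hmax
  have hb := isPrim_gid hM.2.1 hmax.1.2.1
  have hs := sub_of_subpairLE hM hle
  constructor
  · obtain ⟨D, hD, h⟩ := exists_isDefect_ge (p := p) le_rfl (isPrim_bid hM.2.1 hf)
      (inf_le_right : P ⊓ Cz Q ≤ Cz Q) (hm.pairOf.pair.isP.to_le inf_le_left)
      (hs.br_ne_zero hm.pairOf.pair (inf_le_inf_left P (Cz_le_Nz Q)))
    exact ⟨D.subgroupOf _, (isDefectGroup_subgroupOf_iff hM hf hD.le).2 hD,
      Subgroup.subgroupOf_mono _ h⟩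
  · obtain ⟨x, -, h1, h2⟩ := hm.exists_sub_isDefect hb (hm.pairOf.of_sub hb.mem hb.idem hs)
      (L := Cz Q) inf_le_right (le_inf le_top (Cz_le_Nz Q)) (bid_mem _ f).2
    refine ⟨x, (subpairLE_conj_iff hM hmax.1.1.2 hf x).2 h1,
      (isDefectGroup_subgroupOf_iff hM (isPBlock_conjBlock x hf) inf_le_right).2 ?_⟩
    rw [bid_conjBlock]
    rwa [← Cz_cs] at h2

end Cfsg.Agent.S4661
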