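import Cfsg.Statements.S4662
import Cfsg.Agent.H18.PairBridge

set_option autoImplicit false
open Cfsg

namespace Cfsg.Agent.S4662

open Cfsg.Agent.H18 Cfsg.Agent.H19 MonoidAlgebra

/-- Fix a prime p and a maximal ideal M of the algebraic integers containing p. Let (P, e) be a maximal Brauer pair of the p-block B of the finite group G, Q ≤ P, and f the p-block of C_G(Q) with (Q, f) ≤ (P, e). Let T be the stabilizer of f in N_G(Q). Then the idempotent of f is a block idempotent of T, and N_P(Q) is contained in a defect group of that block of T; moreover for some x in G the conjugate pair (x Q x⁻¹, conjugate of f) again lies below (P, e) and, with T' the stabilizer of the conjugate of f in N_G(x Q x⁻¹), N_P(x Q x⁻¹) is a defect group of the block of T' whose idempotent is that of the conjugate of f. -/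
theorem result {G : Type*} [Group G] [Fintype G] (p : ℕ) [Fact p.Prime] (M : Ideal Cfsg.AlgInt) (hM : Cfsg.IsPModular p M) (B : Set (Cfsg.IrrCharacter G)) (P Q : Subgroup G) (e : Set (Cfsg.IrrCharacter (Subgroup.centralizer (P : Set G)))) (f : Set (Cfsg.IrrCharacter (Subgroup.centralizer (Q : Set G)))) (hmax : Cfsg.IsMaximalBrauerPair p M B P e) (hQP : Q ≤ P) (hf : Cfsg.IsPBlock M f) (hle : Cfsg.SubpairLE p M Q f P e) (T : Subgroup G) (hT : ∀ y : G, y ∈ T ↔ y ∈ Subgroup.normalizer (Q : Set G) ∧ Cfsg.StabilizesBlock (Subgroup.centralizer (Q : Set G)) f y) : (∃ F : Set (Cfsg.IrrCharacter T), Cfsg.IsPBlock M F ∧ (∀ t : T, Cfsg.blockCoeff F t = Cfsg.subgroupBlockCoeff (Subgroup.centralizer (Q : Set G)) f (t : G)) ∧ ∃ D : Subgroup T, Cfsg.IsDefectGroup p M F D ∧ (P ⊓ Subgroup.normalizer (Q : Set G)).subgroupOf T ≤ D) ∧ ∃ x : G, Cfsg.SubpairLE p M (Q.map (MulAut.conj x).toMonoidHom) (Cfsg.conjBlock Q x f) P e ∧ ∀ (T' : Subgroup G), (∀ y : G, y ∈ T'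 ↔ y ∈ Subgroup.normalizer ((Q.map (MulAut.conj x).toMonoidHom) : Set G) ∧ Cfsg.StabilizesBlock (Subgroup.centralizer ((Q.map (MulAut.conj x).toMonoidHom) : Set G)) (Cfsg.conjBlock Q x f) y) → ∃ F' : Set (Cfsg.IrrCharacter T'), Cfsg.IsPBlock M F' ∧ (∀ t : T', Cfsg.blockCoeff F' t = Cfsg.subgroupBlockCoeff (Subgroup.centralizer ((Q.map (MulAut.conj x).toMonoidHom) : Set G)) (Cfsg.conjBlock Q x f) (t : G)) ∧ Cfsg.IsDefectGroup p M F' ((P ⊓ Subgroup.normalizer ((Q.map (MulAut.conj x).toMonoidHom) : Set G)).subgroupOf T') := by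
  have := charP_kk hM
  have hm := maxPair_of_isMaximalBrauerPair hM hmax
  have hP := hm.pairOf.pair
  have hb := isPrim_gid hM.2.1 hmax.1.2.1
  have hs := sub_of_subpairLE hM hle
  have hQ := (hs.left hP).isP
  obtain rfl := eq_stab_of_iff hM hf hT
  constructor
  · obtain ⟨E, hE, h1, h2⟩ := exists_block_of_le_stab hM hQ hf (Cz_le_stab_bid f) (le_stab_bid f)
      inf_le_left (fun x hx => hx.2)
    obtain ⟨D, hD, h⟩ := exists_isDefect_ge (p := p) le_rfl (isPrim_bid hM.2.1 hE)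
      (S := P ⊓ Nz Q) (le_inf inf_le_right fun x hx => hs.fix hP hx.1 hx.2)
      (hP.isP.to_le inf_le_left) (by rw [h1]; exact hs.br_ne_zero hP le_rfl)
    exact ⟨E, hE, h2, D.subgroupOf _, (isDefectGroup_subgroupOf_iff hM hE hD.le).2 hD,
      Subgroup.subgroupOf_mono _ h⟩
  · obtain ⟨x, -, h1, h2⟩ := hm.exists_sub_isDefect hb (hm.pairOf.of_sub hb.mem hb.idem hs)
      (L := Nz Q ⊓ stab (bid M (Cz Q) f)) (inf_le_right.trans (Cz_le_stab_bid f))
      (le_inf le_top inf_le_left) (fun x hx => hx.2)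
    refine ⟨x, (subpairLE_conj_iff hM hmax.1.1.2 hf x).2 h1, fun T' hT' => ?_⟩
    have hf' := isPBlock_conjBlock x hf
    obtain rfl := eq_stab_of_iff hM hf' hT'
    obtain ⟨E, hE, h3, h4⟩ := exists_block_of_le_stab hM (isPGroup_cs x hQ) hf'
      (Cz_le_stab_bid _) (le_stab_bid _) inf_le_left (fun x hx => hx.2)
    have h5 : P ⊓ Nz (cs x Q) ≤ stab (cj x (bid M (Cz Q) f)) := fun y hy => h1.fix hP hy.1 hy.2
    refine ⟨E, hE, h4, (isDefectGroup_subgroupOf_iff hM hE
      (le_inf inf_le_right (by rw [bid_conjBlock]; exact h5))).2 ?_⟩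
    rw [h3, bid_conjBlock]
    rwa [cs_inf, ← Nz_cs, ← stab_cj, ← inf_assoc, inf_eq_left.2 h5] at h2

end Cfsg.Agent.S4662
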