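import Cfsg.Statements.S4664
import Cfsg.Agent.H19.GaloisBlock

set_option autoImplicit false
open Cfsg

namespace Cfsg.Agent.S4664


/-- Fix a prime p and a maximal ideal M of the algebraic integers containing p, and let B be a p-block of the finite group G. Let m be the p'-part of the order of G and η = exp(2πi/m). Then every coefficient of the idempotent of B lies in the cyclotomic field ℚ(η). -/
theorem result {G : Type*} [Group G] [Fintype G] (p : ℕ) [Fact p.Prime] (M : Ideal Cfsg.AlgInt) (hM : Cfsg.IsPModular p M) (B : Set (Cfsg.IrrCharacter G)) (hB : Cfsg.IsPBlock M B) (g : G) : Cfsg.blockCoeff B g ∈ IntermediateField.adjoin ℚ ({Complex.exp (2 * Real.pi * Complex.I / ((Nat.card G / p ^ (Nat.card G).factorization p : ℕ) : ℂ))} : Set ℂ) := by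
  set m := Nat.card G / p ^ (Nat.card G).factorization p with hm
  have hm0 : m ≠ 0 := (Nat.ordCompl_pos p Nat.card_pos.ne').ne'
  have hη := Complex.isPrimitiveRoot_exp m hm0
  set η := Complex.exp (2 * Real.pi * Complex.I / (m : ℂ)) with hηdef
  obtain ⟨q, hq⟩ := H12.exists_algebraMap_of_forall_algEquiv
    (F := IntermediateField.adjoin ℚ ({η} : Set ℂ)) (x := Cfsg.blockCoeff B g)
    ((H19.isAlgebraic_blockCoeff B g).tower_top _) (fun σ => by
      have hfix : σ.toRingEquiv η = η :=
        σ.commutes ⟨η, IntermediateField.mem_adjoin_simple_self ℚ η⟩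
      have := H19.blockCoeff_image_galIrr σ.toRingEquiv B g
      rw [H19.image_galIrr_eq_of_fix hM hη hfix hB] at this
      exact this.symm)
  rw [hq]
  exact q.2

end Cfsg.Agent.S4664
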