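import Cfsg.Statements.S4666
import Cfsg.Agent.H21.TildeInt

set_option autoImplicit false
open Cfsg

namespace Cfsg.Agent.S4666

open Cfsg Cfsg.Agent.H19 Cfsg.Agent.H21

/-- Fix a prime p and a maximal ideal M of the algebraic integers containing p, and a p-block B of the finite group G of defect d. For every integer combination χ of the irreducible characters in B, p^d times the function that agrees with χ on p-regular elements and vanishes elsewhere is again an integer combination of the irreducible characters in B. -/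
theorem result {G : Type*} [Group G] [Fintype G] (p : ℕ) [Fact p.Prime] (M : Ideal Cfsg.AlgInt) (hM : Cfsg.IsPModular p M) (B : Set (Cfsg.IrrCharacter G)) (hB : Cfsg.IsPBlock M B) (χ : G → ℂ) (hχ : (∃ n : Cfsg.IrrCharacter G → ℤ, ∀ g : G, χ g = ∑ᶠ ψ ∈ B, (n ψ : ℂ) * (ψ : G → ℂ) g)) : (∃ n : Cfsg.IrrCharacter G → ℤ, ∀ g : G, (p ^ Cfsg.blockDefect p B : ℂ) * Cfsg.pRegularPart p χ g = ∑ᶠ ψ ∈ B, (n ψ : ℂ) * (ψ : G → ℂ) g) := by
  classical
  have := Fintype.ofFinite (Cfsg.IrrCharacter G)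
  obtain ⟨n, hn⟩ := hχ
  have h1 : χ = ∑ ψ ∈ Finset.univ.filter (· ∈ B), (n ψ : ℂ) • ψ.1 := by
    funext g
    rw [hn, finsum_mem_eq_sum_filter', Finset.sum_apply]
    rfl
  refine ⟨fun ξ => ∑ ψ ∈ Finset.univ.filter (· ∈ B), n ψ * cZ p B ψ ξ, fun g => ?_⟩
  rw [finsum_mem_eq_sum_filter', h1, preg_sum, Finset.sum_apply, Finset.mul_sum]
  push_cast
  simp only [Finset.sum_mul]
  rw [Finset.sum_comm]
  refine Finset.sum_congr rfl fun ψ hψ => ?_
  have h2 := congrFun (pow_smul_preg_eq_sum hM hB (χ := ψ) (by simpa using hψ)) g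
  rw [Finset.sum_apply] at h2
  simp only [Pi.smul_apply, smul_eq_mul] at h2
  rw [preg_smul, Pi.smul_apply, smul_eq_mul, mul_left_comm, h2, Finset.mul_sum]
  exact Finset.sum_congr rfl fun ξ _ => by ring

end Cfsg.Agent.S4666
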