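import Cfsg.Statements.S4668
import Cfsg.Agent.H18.Regular
import Cfsg.Agent.H52.Ambient

set_option autoImplicit false
open Cfsg

namespace Cfsg.Agent.S4668

open Cfsg.Agent.H18 Cfsg.Agent.H19 MonoidAlgebra

/-- Fix a prime p and a maximal ideal M of the algebraic integers containing p. Let Q₀ < Q₁ < ⋯ < Q_m be a strictly increasing chain of p-subgroups of the finite group G and N the intersection of their normalizers. Then every block idempotent of N is supported on C_G(Q_m): for every p-block E of N, the idempotent coefficient of E vanishes at every element of N outside C_G(Q_m). -/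
theorem result {G : Type*} [Group G] [Fintype G] (p : ℕ) [Fact p.Prime] (M : Ideal Cfsg.AlgInt) (hM : Cfsg.IsPModular p M) (m : ℕ) (Q : Fin (m + 1) → Subgroup G) (hQ : StrictMono Q) (hQp : ∀ i, IsPGroup p (Q i)) (N : Subgroup G) (hN : ∀ g : G, g ∈ N ↔ ∀ i, g ∈ Subgroup.normalizer (Q i : Set G)) (E : Set (Cfsg.IrrCharacter N)) (hE : Cfsg.IsPBlock M E) (n : N) (hn : (n : G) ∉ Subgroup.centralizer (Q (Fin.last m) : Set G)) : Cfsg.blockCoeff E n = 0 := by
  have := charP_kk hM
  have hE' := H17.lamClosed_of_isPBlock hM.2.1 hE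
  by_contra hne
  have hp : ¬ p ∣ orderOf (n : G) := fun h => hne (by
    rw [← subgroupBlockCoeff_coe]; exact subgroupBlockCoeff_eq_zero_of_dvd hM hE' h)
  have key : ∀ R ≤ N, IsPGroup p R → N ≤ Nz R → (n : G) ∈ Cz R := by
    intro R hR hRp hNR
    by_contra h
    apply hne
    rw [← subgroupBlockCoeff_coe]
    have hb := isPrim_bid hM.2.1 hE
    refine subgroupBlockCoeff_eq_zero_of_supp (K := N ⊓ Cz R) inf_le_left
      ((le_inf le_rfl hNR).trans (inf_Nz_le_Nz_inf_Cz N R)) hE' (fun g hg => ?_) (fun h' => h h'.2)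
    by_cases hgN : g ∈ N
    · exact br_eq_self_iff.1 (br_idem_eq_self le_rfl hRp hR hNR hb.mem hb.idem) g
        fun h' => hg ⟨hgN, h'⟩
    · exact hb.mem.1 g hgN
  have hNi : ∀ i, N ≤ Nz (Q i) := fun i g hg => (hN g).1 hg i
  apply hn
  induction (Fin.last m) using Fin.induction with
  | zero =>
    exact key _ (fun g hg => (hN g).2 fun i => Subgroup.le_normalizer (hQ.monotone (Fin.zero_le i) hg))
      (hQp 0) (hNi 0)
  | succ i ih =>
    have h1 := key (Q i.succ ⊓ Cz (Q i.castSucc)) (fun g hg => (hN g).2 fun j => by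
      rcases le_or_gt j i.castSucc with h | h
      · exact Cz_le_Nz _ (Cz_anti (hQ.monotone h) hg.2)
      · exact Subgroup.le_normalizer (hQ.monotone (Fin.castSucc_lt_iff_succ_le.1 h) hg.1))
      ((hQp _).to_le inf_le_left) (fun g hg => by
        rw [mem_Nz_iff_cs, cs_inf, ← Cz_cs, mem_Nz_iff_cs.1 (hNi _ hg), mem_Nz_iff_cs.1 (hNi _ hg)])
    have h2 := H52.IsGenCoprime.commutator_eq_bot_of_AxB (X := Subgroup.zpowers (n : G))
      (H52.isGenCoprime_of_coprime (by
        rw [Nat.card_zpowers]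
        exact ((Nat.Prime.coprime_iff_not_dvd Fact.out).2 hp).symm)) (hQp i.castSucc) (hQp i.succ)
      (Subgroup.commutator_eq_bot_iff_le_centralizer.2 ((Subgroup.zpowers_le).2 ih))
      ((hQ.monotone Fin.castSucc_lt_succ.le).trans Subgroup.le_normalizer)
      ((Subgroup.zpowers_le).2 (hNi _ n.2))
      (Subgroup.commutator_eq_bot_iff_le_centralizer.2 ((Subgroup.zpowers_le).2 h1))
    exact (Subgroup.zpowers_le).1 (Subgroup.commutator_eq_bot_iff_le_centralizer.1 h2)

end Cfsg.Agent.S4668
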