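import Cfsg.Statements.S4669
import Cfsg.Agent.H22.Central

set_option autoImplicit false
open Cfsg

namespace Cfsg.Agent.S4669


/-- Fix a prime p and a maximal ideal M of the algebraic integers containing p. If the p-block B of the finite group G has a defect group P contained in the centre of G, then B has p-regular rank one (a single irreducible Brauer character). -/
theorem result {G : Type*} [Group G] [Fintype G] (p : ℕ) [Fact p.Prime] (M : Ideal Cfsg.AlgInt) (hM : Cfsg.IsPModular p M) (B : Set (Cfsg.IrrCharacter G)) (hB : Cfsg.IsPBlock M B) (P : Subgroup G) (hD : Cfsg.IsDefectGroup p M B P) (hPZ : P ≤ Subgroup.center G) : Cfsg.blockRank p B = 1 := by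
  exact H22.blockRank_of_sup_Cz hM (H22.sup_Cz_of_le_center hPZ) hB hD

end Cfsg.Agent.S4669
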