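import Cfsg.Statements.S4670
import Cfsg.Agent.H17.First

set_option autoImplicit false
open Cfsg

namespace Cfsg.Agent.S4670

/-- Fix a prime p and a maximal ideal M of the algebraic integers containing p. Let P be a p-subgroup of the finite group G and H a subgroup containing N_G(P). For every p-block B of G with defect group P there is exactly one p-block c of H with defect group P whose idempotent agrees with that of B, modulo the local ideal at M, at every element of C_G(P) (their Brauer-map images at P coincide); and every p-block c of H with defect group P arises in this way from exactly one such B. This is the Brauer correspondence over H. -/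
theorem result {G : Type*} [Group G] [Fintype G] (p : ℕ) [Fact p.Prime] (M : Ideal Cfsg.AlgInt) (hM : Cfsg.IsPModular p M) (P H : Subgroup G) (hP : IsPGroup p P) (hH : Subgroup.normalizer (P : Set G) ≤ H) : (∀ B : Set (Cfsg.IrrCharacter G), Cfsg.IsPBlock M B → Cfsg.IsDefectGroup p M B P → ∃! c : Set (Cfsg.IrrCharacter H), Cfsg.IsPBlock M c ∧ Cfsg.IsDefectGroup p M c (P.subgroupOf H) ∧ ∀ x : G, x ∈ Subgroup.centralizer (P : Set G) → Cfsg.MemLocalIdeal M (Cfsg.blockCoeff B x - Cfsg.subgroupBlockCoeff H c x)) ∧ (∀ c : Set (Cfsg.IrrCharacter H), Cfsg.IsPBlock M c → Cfsg.IsDefectGroup p M c (P.subgroupOf H) → ∃! B : Set (Cfsg.IrrCharacter G), Cfsg.IsPBlock M B ∧ Cfsg.IsDefectGroup p M B P ∧ ∀ x : G, x ∈ Subgroup.centralizer (P : Set G) → Cfsg.MemLocalIdeal M (Cfsg.blockCoeff B x - Cfsg.subgroupBlockCoeff H c x)) := by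
  have hPH : P ≤ H := Subgroup.le_normalizer.trans hH
  have hCH : H18.Cz P ≤ H := (H18.Cz_le_Nz P).trans hH
  have key : ∀ (B : Set (Cfsg.IrrCharacter G)) (c : Set (Cfsg.IrrCharacter H)),
      Cfsg.IsPBlock M B → Cfsg.IsPBlock M c →
      ((∀ x : G, x ∈ Subgroup.centralizer (P : Set G) →
        Cfsg.MemLocalIdeal M (Cfsg.blockCoeff B x - Cfsg.subgroupBlockCoeff H c x)) ↔
      H18.br P (H17.eB M B).1 = H18.br P (H17.incl H (H17.eB M c).1)) := by
    intro B c hB hc
    have h1 : ∀ x ∈ H18.Cz P,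
        (Cfsg.MemLocalIdeal M (Cfsg.blockCoeff B x - Cfsg.subgroupBlockCoeff H c x) ↔
        (H18.br P (H17.eB M B).1).coeff x = (H18.br P (H17.incl H (H17.eB M c).1)).coeff x) := by
      intro x hx
      rw [H18.coeff_br_of_mem _ hx, H18.coeff_br_of_mem _ hx, Cfsg.subgroupBlockCoeff,
        dif_pos (hCH hx), H19.mli_sub_iff_red_eq hM.2.1 (H17.mlr_blockCoeff hM.2.1 hB _)
          (H17.mlr_blockCoeff hM.2.1 hc _), H17.coeff_eB]
      rw [H17.coeff_incl, dif_pos (hCH hx), H17.coeff_eB]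
    constructor
    · intro h
      apply H17.ga_ext
      intro x
      by_cases hx : x ∈ H18.Cz P
      · exact (h1 x hx).1 (h x hx)
      · rw [H18.coeff_br_of_not_mem _ hx, H18.coeff_br_of_not_mem _ hx]
    · intro h x hx
      exact (h1 x hx).2 (by rw [h])
  constructor
  · intro B hB hBP
    obtain ⟨c, hc, hcP⟩ := H17.exists_isInducedBlock_of_Nz_le hM hH hB hBP
    refine ⟨c, ⟨hc.1, hcP, (key B c hB hc.1).2 (H17.IsInducedBlock.br_eq_of_Nz_le hM hH hc hcP)⟩,
      fun c' hc' => H17.IsInducedBlock.eq_of_Nz_le hM hH ?_ hc hc'.2.1 hcP⟩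
    exact H17.isInducedBlock_of_br_eq hM hP hPH hCH hB hc'.1 (H17.dg_br_ne_zero hM.2.1 hB hBP)
      ((key B c' hB hc'.1).1 hc'.2.2)
  · intro c hc hcP
    obtain ⟨B, hB⟩ := H17.inducedBlockDefined_of_Nz_le hM hH hc hcP
    refine ⟨B, ⟨hB.2.1, H17.IsInducedBlock.dg_of_Nz_le hM hH hB hcP,
      (key B c hB.2.1 hc).2 (H17.IsInducedBlock.br_eq_of_Nz_le hM hH hB hcP)⟩,
      fun B' hB' => H17.IsInducedBlock.unique hM.2.1 ?_ hB⟩
    exact H17.isInducedBlock_of_br_eq hM hP hPH hCH hB'.1 hc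
      (H17.dg_br_ne_zero hM.2.1 hB'.1 hB'.2.1) ((key B' c hB'.1 hc).1 hB'.2.2)

end Cfsg.Agent.S4670
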