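import Cfsg.Statements.S4675
import Cfsg.Agent.H16.RankOne

set_option autoImplicit false
open Cfsg

namespace Cfsg.Agent.S4675

/-- Fix a prime p and a maximal ideal M of the algebraic integers containing p. Let B be a p-block of the finite group G with defect group P and p-regular rank one (a single irreducible Brauer character). Then there are a function φ on G that is, on the p-regular elements, an integer combination of the members of B, and natural numbers d_χ (χ ∈ B), such that every χ ∈ B agrees with d_χ·φ on the p-regular elements and Σ_{χ ∈ B} d_χ² equals the order of P (the single Cartan invariant of B is the order of P). -/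
theorem result {G : Type*} [Group G] [Fintype G] (p : ℕ) [Fact p.Prime] (M : Ideal Cfsg.AlgInt) (hM : Cfsg.IsPModular p M) (B : Set (Cfsg.IrrCharacter G)) (hB : Cfsg.IsPBlock M B) (P : Subgroup G) (hP : Cfsg.IsDefectGroup p M B P) (hl : Cfsg.blockRank p B = 1) : ∃ φ : G → ℂ, ∃ d : Cfsg.IrrCharacter G → ℕ, (∃ n : Cfsg.IrrCharacter G → ℤ, ∀ x : G, Cfsg.IsPRegular p x → φ x = ∑ᶠ ψ ∈ B, (n ψ : ℂ) * (ψ : G → ℂ) x) ∧ (∀ χ ∈ B, ∀ x : G, Cfsg.IsPRegular p x → (χ : G → ℂ) x = (d χ : ℂ) * φ x) ∧ ∑ᶠ χ ∈ B, d χ ^ 2 = Nat.card P := by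
  classical
  have := H17.irr_finite G
  have := Fintype.ofFinite (IrrCharacter G)
  have hA := H17.lamClosed_of_isPBlock hM.2.1 hB
  obtain ⟨i, hi⟩ := H16.exists_ibrOf_eq_singleton hM hA hl
  have hi' : i ∈ H16.ibrOf M B := by rw [hi]; rfl
  refine ⟨H16.ibr p i, fun χ => H16.dnum χ.1 i, ?_, ?_, ?_⟩
  · obtain ⟨n, hn0, hn⟩ := H16.exists_ibr_eq_sum_int hM hA hi'
    refine ⟨n, fun x hx => ?_⟩
    rw [H17.finsum_mem_irr, hn, Finset.sum_apply, Finset.sum_filter]
    refine Finset.sum_congr rfl fun χ _ => ?_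
    split_ifs with h
    · rw [Pi.smul_apply, H16.pRegularPart_of_not_dvd _ hx, smul_eq_mul]
    · simp [hn0 χ h]
  · intro χ hχ x hx
    have := congrFun (H16.pRegularPart_eq_of_ibrOf_eq_singleton hM hi hχ) x
    rwa [H16.pRegularPart_of_not_dvd _ hx, Pi.smul_apply, smul_eq_mul] at this
  · rw [H17.dg_card hM hB hP, ← H16.cartan_eq_pow_defect hM hB hi, H16.cartan_eq_sum,
      H17.finsum_mem_irr, Finset.sum_filter]
    refine Finset.sum_congr rfl fun χ _ => ?_
    split_ifs with h
    · ring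
    · rw [H16.dnum_eq_zero_of_notMem hA hi' h, mul_zero]

end Cfsg.Agent.S4675
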