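import Cfsg.Statements.S4681
import Cfsg.Agent.H18.Fusion

set_option autoImplicit false
open Cfsg

namespace Cfsg.Agent.S4681

open Cfsg.Agent.H18 Cfsg.Agent.H19 MonoidAlgebra

/-- Fix a prime p and a maximal ideal M of the algebraic integers containing p. Let B₀ be the principal p-block of the finite group G, P a Sylow p-subgroup and e₀ the principal p-block of C_G(P). Then (P, e₀) is a maximal Brauer pair of B₀, and the fusion system of B₀ on (P, e₀) is the fusion system of G on P: its maps from each subgroup of P are exactly the conjugation maps into P by elements of G. -/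
theorem result {G : Type*} [Group G] [Fintype G] (p : ℕ) [Fact p.Prime] (M : Ideal Cfsg.AlgInt) (hM : Cfsg.IsPModular p M) (S : Sylow p G) : Cfsg.IsMaximalBrauerPair p M (Cfsg.principalBlock M G) (S : Subgroup G) (Cfsg.principalBlock M (Subgroup.centralizer ((S : Subgroup G) : Set G))) ∧ ∀ F : Cfsg.FusionSystem (S : Subgroup G), Cfsg.IsBlockFusionSystemOn p M (Cfsg.principalBlock M G) (S : Subgroup G) (Cfsg.principalBlock M (Subgroup.centralizer ((S : Subgroup G) : Set G))) F → ∀ Q : Subgroup G, F.Hom Q = (Cfsg.groupFusionSystem (S : Subgroup G)).Hom Q := by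
  have := charP_kk hM
  have h1 := isPairOf_principal hM S.isPGroup'
  have hP := h1.pair
  constructor
  · exact (isMaximalBrauerPair_iff hM).2 ⟨H17.isPBlock_principalBlock, H17.isPBlock_principalBlock,
      h1, fun R g h2 h3 => (isSyl_top_iff.2 ⟨S, rfl⟩).max R le_top h2.pair.isP h3.le⟩
  · intro F hF Q
    ext φ
    rw [pairFusion_of_isBlockFusionSystemOn hM hF]
    constructor
    · rintro ⟨g, -, h2, f, h3, h4⟩
      exact ⟨h3.le, fun x => h4.le (by rw [h2]; exact conj_mem_cs.2 x.2), g, h2⟩
    · rintro ⟨h2, h3, g, h4⟩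
      obtain ⟨f, hf⟩ := hP.exists_sub h2
      refine ⟨g, trivial, h4, f, hf, ((hf.left hP).cj trivial).sub_of_aug hP ?_
        (aug_bid_principal hM.2.1 _) ?_⟩
      · rw [aug_cj]; exact hf.aug_eq_one (aug_bid_principal hM.2.1 _)
      · rintro _ ⟨x, hx, rfl⟩
        have := h3 ⟨x, hx⟩
        rwa [h4] at this

end Cfsg.Agent.S4681
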