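import Cfsg.Statements.S4682
import Cfsg.Agent.H18.Fusion

set_option autoImplicit false
open Cfsg

namespace Cfsg.Agent.S4682

open Cfsg.Agent.H18 Cfsg.Agent.H19 MonoidAlgebra

/-- Fix a prime p and a maximal ideal M of the algebraic integers containing p, a p-block B of the finite group G with maximal Brauer pair (P, e), P abelian, and a Brauer pair (Q, f) ≤ (P, e). Let T_Q be the stabilizer of f in N_G(Q) and T_P the stabilizer of e in N_G(P). Then every element of T_Q is a product of an element of T_P and an element of C_G(Q); and the index of C_G(Q) in T_Q equals the index of T_P ∩ C_G(Q) in T_P ∩ N_G(Q). -/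
theorem result {G : Type*} [Group G] [Fintype G] (p : ℕ) [Fact p.Prime] (M : Ideal Cfsg.AlgInt) (hM : Cfsg.IsPModular p M) (B : Set (Cfsg.IrrCharacter G)) (P : Subgroup G) (e : Set (Cfsg.IrrCharacter (Subgroup.centralizer (P : Set G)))) (hmax : Cfsg.IsMaximalBrauerPair p M B P e) (hab : ∀ x ∈ P, ∀ y ∈ P, x * y = y * x) (Q : Subgroup G) (f : Set (Cfsg.IrrCharacter (Subgroup.centralizer (Q : Set G)))) (hQP : Q ≤ P) (hf : Cfsg.IsPBlock M f) (hle : Cfsg.SubpairLE p M Q f P e) (TQ : Subgroup G) (hTQ : ∀ y : G, y ∈ TQ ↔ y ∈ Subgroup.normalizer (Q : Set G) ∧ Cfsg.StabilizesBlock (Subgroup.centralizer (Q : Set G)) f y) (TP : Subgroup G) (hTP : ∀ y : G, y ∈ TP ↔ y ∈ Subgroup.normalizer (P : Set G) ∧ Cfsg.StabilizesBlock (Subgroup.centralizer (P : Set G)) e y) : (∀ x ∈ TQ, ∃ y ∈ TP, ∃ c ∈ Subgroup.centralizer (Q : Set G), x = y * c) ∧ ((Subgroup.centralizer (Q : Set G)).subgroupOf TQ).index = ((TP ⊓ Subgroup.centralizer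 (Q : Set G)).subgroupOf (TP ⊓ Subgroup.normalizer (Q : Set G))).index := by
  have := charP_kk hM
  have hm := maxPair_of_isMaximalBrauerPair hM hmax
  have hP := hm.pairOf.pair
  have hs := sub_of_subpairLE hM hle
  obtain rfl := eq_NP_of_iff hM hf hTQ
  obtain rfl := eq_NP_of_iff hM hmax.1.1.2 hTP
  have hPQ : P ≤ Cz Q := fun x hx => mem_Cz.2 fun q hq => hab q (hQP hq) x hx
  have key : ∀ x ∈ NP ⊤ Q (bid M (Cz Q) f), ∃ t ∈ NP ⊤ P (bid M (Cz P) e), t⁻¹ * x ∈ Cz Q := by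
    intro x hx
    obtain ⟨t, ht, h⟩ := hm.exists_NP_of_le_Cz (isPrim_gid hM.2.1 hmax.1.2.1) hs (g := x) trivial
      (by rw [mem_Nz_iff_cs.1 hx.1.2, NP_fix hx]; exact hs) hPQ
      (by rw [mem_Nz_iff_cs.1 hx.1.2]; exact hPQ)
    exact ⟨t, ht, h.2⟩
  refine ⟨fun x hx => ?_, ?_⟩
  · obtain ⟨t, ht, h⟩ := key x hx
    exact ⟨t, ht, _, h, by simp⟩
  · have h1 : NP ⊤ Q (bid M (Cz Q) f) = (NP ⊤ P (bid M (Cz P) e) ⊓ Nz Q) ⊔ Cz Q := by
      apply le_antisymm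
      · intro x hx
        obtain ⟨t, ht, h⟩ := key x hx
        refine (mem_sup_iff_inv_mul (inf_le_right.trans (Nz_le_Nz_Cz Q))).2 ⟨t, ⟨ht, ?_⟩, h⟩
        have := (Nz Q).mul_mem hx.1.2 ((Nz Q).inv_mem (Cz_le_Nz Q h))
        rwa [mul_inv_rev, mul_inv_cancel_left, inv_inv] at this
      · exact sup_le (fun x hx => ⟨⟨trivial, hx.2⟩,
          hs.fix_of_stab hP trivial hx.1.1.2 hx.1.2 hx.2⟩)
          ((top_inf_eq _).ge.trans (hs.left hP).C_le_NP)
    change (Cz Q).relIndex _ = (_ ⊓ Cz Q).relIndex _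
    have h2 := relIndex_sup_sup (K := ⊥) (T := NP ⊤ P (bid M (Cz P) e) ⊓ Nz Q) (C := Cz Q) bot_le
      (inf_le_right.trans (Nz_le_Nz_Cz Q))
    rw [bot_sup_eq, bot_sup_eq, inf_assoc _ (Nz Q) (Cz Q), inf_eq_right.2 (Cz_le_Nz Q)] at h2
    rw [h1, h2]

end Cfsg.Agent.S4682
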