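import Cfsg.Statements.S4685
import Cfsg.Agent.H18.NilBlock
import Cfsg.Agent.H98.Hyp

set_option autoImplicit false
open Cfsg

namespace Cfsg.Agent.S4685

open Cfsg.Agent.H18 Cfsg.Agent.H19 MonoidAlgebra

/-- Fix a prime p and a maximal ideal M of the algebraic integers containing p, a p-block B of the finite group G with maximal Brauer pair (P, e) and fusion system F on P. Then for every h the number of irreducible characters of height h in B is divisible by the index of Z(P) ∩ foc(F) in Z(P), where foc(F) is the focal subgroup of F. -/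
theorem result {G : Type*} [Group G] [Fintype G] (p : ℕ) [Fact p.Prime] (M : Ideal Cfsg.AlgInt) (hM : Cfsg.IsPModular p M) (B : Set (Cfsg.IrrCharacter G)) (P : Subgroup G) (e : Set (Cfsg.IrrCharacter (Subgroup.centralizer (P : Set G)))) (hmax : Cfsg.IsMaximalBrauerPair p M B P e) (F : Cfsg.FusionSystem P) (hF : Cfsg.IsBlockFusionSystemOn p M B P e F) (h : ℕ) : ((P ⊓ Subgroup.centralizer (P : Set G) ⊓ F.focalSubgroup).subgroupOf (P ⊓ Subgroup.centralizer (P : Set G))).index ∣ Nat.card {χ : Cfsg.IrrCharacter G // χ ∈ B ∧ Cfsg.blockHeight p B (χ : G → ℂ) = h} := by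
  have := charP_kk hM
  obtain ⟨-, hB, hm⟩ := (isMaximalBrauerPair_iff hM).1 hmax
  have hb := isPrim_gid hM.2.1 hB
  have h1 := relIndex_dvd_card_height hM hB hm (N := F.focalSubgroup.subgroupOf P)
    ((Cz P).subgroupOf P) ?_
    (fun lam hl => (pairFusion_of_isBlockFusionSystemOn hM hF).isStable hl) h
    fun χ hχ _ v hv => exists_loc_ne_zero_of_le_Cz hM hB hm hχ (sub_esub hm.pairOf.pair v)
      fun x hx => mem_Cz_zpowers.2 (mem_Cz.1 hv x hx).symm
  · rw [Subgroup.inf_subgroupOf_left]
    rwa [← Subgroup.inf_subgroupOf_left (K := P) (H := Cz P),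
      Subgroup.relIndex_subgroupOf inf_le_left] at h1
  refine Subgroup.map_le_iff_le_comap.1 (le_trans (le_of_eq ?_) (H98.commutator_le_foc F))
  rw [commutator_def, Subgroup.map_commutator, ← MonoidHom.range_eq_map, Subgroup.range_subtype]

end Cfsg.Agent.S4685
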