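import Cfsg.Statements.S4686
import Cfsg.Agent.H18.Fusion

set_option autoImplicit false
open Cfsg

namespace Cfsg.Agent.S4686

open Cfsg.Agent.H18 Cfsg.Agent.H19 MonoidAlgebra

/-- Fix a prime p and a maximal ideal M of the algebraic integers containing p, a p-block B of the finite group G with maximal Brauer pair (P, e) and fusion system F on P. Then B is nilpotent (for every Brauer pair (Q, f) of B the stabilizer of f in N_G(Q) is C_G(Q) extended by a p-group) if and only if F is the inner fusion system of P: its maps from each subgroup of P are exactly the conjugations by elements of P. -/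
theorem result {G : Type*} [Group G] [Fintype G] (p : ℕ) [Fact p.Prime] (M : Ideal Cfsg.AlgInt) (hM : Cfsg.IsPModular p M) (B : Set (Cfsg.IrrCharacter G)) (P : Subgroup G) (e : Set (Cfsg.IrrCharacter (Subgroup.centralizer (P : Set G)))) (hmax : Cfsg.IsMaximalBrauerPair p M B P e) (F : Cfsg.FusionSystem P) (hF : Cfsg.IsBlockFusionSystemOn p M B P e F) : Cfsg.IsNilpotentBlock p M B ↔ ∀ Q : Subgroup G, F.Hom Q = (Cfsg.innerFusionSystem P).Hom Q := by
  have := charP_kk hM
  have hm := maxPair_of_isMaximalBrauerPair hM hmax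
  have hP := hm.pairOf.pair
  have hb := isPrim_gid hM.2.1 hmax.1.2.1
  have h𝓕 := pairFusion_of_isBlockFusionSystemOn hM hF
  rw [isNilpotentBlock_iff hM, and_iff_right hmax.1.2.1]
  constructor
  · intro hnil Q
    ext φ
    constructor
    · intro hφ
      obtain ⟨g, hg, h1, f, h2, h3⟩ := (h𝓕 Q φ).1 hφ
      obtain ⟨k, hk, h4⟩ := hnil.exists_inner hb hm h2 hg h3
      refine ⟨h2.le, k, hk, fun x => ?_⟩
      have h5 := mem_Cz.1 h4 x x.2
      rw [h1]
      calc g * x * g⁻¹ = k * (k⁻¹ * g * x) * g⁻¹ := by group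
        _ = _ := by rw [← h5]; group
    · rintro ⟨h1, k, hk, h2⟩
      rw [show φ = conjHom Q k from MonoidHom.ext h2]
      exact F.conj_mem h1 hk
  · intro h
    refine hm.isNil_of_inner hb fun Q f hs x hx => ?_
    have h1 : conjHom Q x ∈ F.Hom Q := (h𝓕.mem_iff hP hs).2 ⟨x, trivial, fun _ => rfl, by
      rw [mem_Nz_iff_cs.1 hx.1.2, NP_fix hx]; exact hs⟩
    rw [h] at h1
    obtain ⟨-, k, hk, h2⟩ := h1
    refine ⟨k, hk, mem_Cz.2 fun q hq => ?_⟩
    have h3 : x * q * x⁻¹ = k * q * k⁻¹ := h2 ⟨q, hq⟩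
    calc q * (k⁻¹ * x) = k⁻¹ * (k * q * k⁻¹) * x := by group
      _ = _ := by rw [← h3]; group

end Cfsg.Agent.S4686
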