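import Cfsg.Statements.S4687
import Cfsg.Agent.H18.Fusion

set_option autoImplicit false
open Cfsg

namespace Cfsg.Agent.S4687

open Cfsg.Agent.H18 Cfsg.Agent.H19 MonoidAlgebra

/-- Fix a prime p and a maximal ideal M of the algebraic integers containing p, and a p-block B of the finite group G with maximal Brauer pair (P, e), P abelian. Then B is nilpotent if and only if its inertial quotient is trivial: every element of N_G(P) stabilizing e centralizes P. -/
theorem result {G : Type*} [Group G] [Fintype G] (p : ℕ) [Fact p.Prime] (M : Ideal Cfsg.AlgInt) (hM : Cfsg.IsPModular p M) (B : Set (Cfsg.IrrCharacter G)) (P : Subgroup G) (e : Set (Cfsg.IrrCharacter (Subgroup.centralizer (P : Set G)))) (hmax : Cfsg.IsMaximalBrauerPair p M B P e) (hab : ∀ x ∈ P, ∀ y ∈ P, x * y = y * x) : Cfsg.IsNilpotentBlock p M B ↔ ∀ x : G, x ∈ Subgroup.normalizer (P : Set G) → Cfsg.StabilizesBlock (Subgroup.centralizer (P : Set G)) e x → x ∈ Subgroup.centralizer (P : Set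 G) := by
  have := charP_kk hM
  have hm := maxPair_of_isMaximalBrauerPair hM hmax
  have hP := hm.pairOf.pair
  have hb := isPrim_gid hM.2.1 hmax.1.2.1
  have hPQ : ∀ Q ≤ P, P ≤ Cz Q := fun Q hQP x hx => mem_Cz.2 fun q hq => hab q (hQP hq) x hx
  rw [isNilpotentBlock_iff hM, and_iff_right hmax.1.2.1]
  constructor
  · intro hnil x hx h
    have h1 := hnil.NP_le_sup hm.pairOf (hm.isDefect_NP hb)
      ⟨⟨trivial, hx⟩, (stabilizesBlock_Cz_iff hM.2.1 hmax.1.1.2 hx).1 h⟩
    exact (sup_le (hPQ P le_rfl) inf_le_right : P ⊔ ⊤ ⊓ Cz P ≤ Cz P) h1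
  · intro h
    refine hm.isNil_of_local hb fun Q f hs x hx _ => ?_
    obtain ⟨t, ht, h1⟩ := hm.exists_NP_of_le_Cz hb hs (g := x) trivial
      (by rw [mem_Nz_iff_cs.1 hx.1.2, NP_fix hx]; exact hs) (hPQ Q hs.le)
      (by rw [mem_Nz_iff_cs.1 hx.1.2]; exact hPQ Q hs.le)
    have h2 := Cz_anti hs.le (h t ht.1.2 ((stabilizesBlock_Cz_iff hM.2.1 hmax.1.1.2 ht.1.2).2 ht.2))
    simpa using (Cz Q).mul_mem h2 h1.2

end Cfsg.Agent.S4687
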