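import Cfsg.Statements.S4689
import Cfsg.Agent.H18.NilBlock

set_option autoImplicit false
open Cfsg

namespace Cfsg.Agent.S4689

open Cfsg.Agent.H18 Cfsg.Agent.H19 MonoidAlgebra

/-- Fix a prime p and a maximal ideal M of the algebraic integers containing p, and a nilpotent p-block B of the finite group G. Then B has p-regular rank one (a single irreducible Brauer character), and some χ₀ ∈ B restricts to that Brauer character: every χ ∈ B agrees on the p-regular elements with a natural-number multiple of χ₀. -/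
theorem result {G : Type*} [Group G] [Fintype G] (p : ℕ) [Fact p.Prime] (M : Ideal Cfsg.AlgInt) (hM : Cfsg.IsPModular p M) (B : Set (Cfsg.IrrCharacter G)) (hnil : Cfsg.IsNilpotentBlock p M B) : Cfsg.blockRank p B = 1 ∧ ∃ χ₀ ∈ B, ∀ χ ∈ B, ∃ d : ℕ, ∀ x : G, Cfsg.pRegularPart p (χ : G → ℂ) x = (d : ℂ) * Cfsg.pRegularPart p (χ₀ : G → ℂ) x := by
  have := charP_kk hM
  obtain ⟨hB, hnil⟩ := (isNilpotentBlock_iff hM).1 hnil
  refine ⟨hnil.blockRank_eq_one hM hB, ?_⟩
  obtain ⟨P, hP⟩ := exists_isDefectGroup (p := p) hM.2.1 hB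
  obtain ⟨e, hm⟩ := exists_isMaxPair_of_isDefect (isPrim_gid hM.2.1 hB)
    ((isDefectGroup_iff_gid hM hB).1 hP)
  obtain ⟨χ, hχ, h0⟩ := H21.exists_height_zero (p := p) (H17.block_nonempty hM.2.1 hB)
  obtain ⟨Φ, hΦ⟩ := hnil.exists_equiv hM hB hm hχ h0
  refine ⟨χ, hχ, fun ψ hψ => ?_⟩
  obtain ⟨η, hη⟩ := Φ.surjective ⟨ψ, hψ⟩
  have h1 := hΦ η
  rw [hη] at h1
  obtain ⟨m, -, hm1⟩ := H11.exists_pos_degree η.2
  refine ⟨m, fun x => ?_⟩
  rw [← hm1]
  exact congrFun (h1 ▸ preg_bstar hM hB hm (hnil.isStable (isPrim_gid hM.2.1 hB) hm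
    (H17.irr_isClassFunction η)) hχ) x

end Cfsg.Agent.S4689
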