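import Cfsg.Statements.S4693
import Cfsg.Agent.H18.Fusion

set_option autoImplicit false
open Cfsg

namespace Cfsg.Agent.S4693

open Cfsg.Agent.H18 Cfsg.Agent.H19 MonoidAlgebra

/-- Fix a prime p and a maximal ideal M of the algebraic integers containing p, a p-block B of the finite group G with maximal Brauer pair (P, e) and fusion system F on P, and a Brauer pair (Q, f) ≤ (P, e) with Q centric in F. Suppose every element of G normalizes Q and stabilizes f. Then the idempotent of B agrees with that of f modulo M at every element of G, and f is the idempotent of a nilpotent block of Q·C_G(Q): some p-block of Q·C_G(Q) has the idempotent coefficients of f and is nilpotent. -/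
theorem result {G : Type*} [Group G] [Fintype G] (p : ℕ) [Fact p.Prime] (M : Ideal Cfsg.AlgInt) (hM : Cfsg.IsPModular p M) (B : Set (Cfsg.IrrCharacter G)) (P : Subgroup G) (e : Set (Cfsg.IrrCharacter (Subgroup.centralizer (P : Set G)))) (hmax : Cfsg.IsMaximalBrauerPair p M B P e) (F : Cfsg.FusionSystem P) (hF : Cfsg.IsBlockFusionSystemOn p M B P e F) (Q : Subgroup G) (f : Set (Cfsg.IrrCharacter (Subgroup.centralizer (Q : Set G)))) (hQP : Q ≤ P) (hf : Cfsg.IsPBlock M f) (hle : Cfsg.SubpairLE p M Q f P e) (hcen : F.IsCentric Q) (hG : ∀ x : G, x ∈ Subgroup.normalizer (Q : Set G) ∧ Cfsg.StabilizesBlock (Subgroup.centralizer (Q : Set G)) f x) : (∀ g : G, Cfsg.MemLocalIdeal M (Cfsg.blockCoeff B g - Cfsg.subgroupBlockCoeff (Subgroup.centralizer (Q : Set G)) f g)) ∧ ∃ F' : Set (Cfsg.IrrCharacter ↥(Q ⊔ Subgroup.centralizer (Q : Set G))), Cfsg.IsPBlock M F' ∧ (∀ t : ↥(Q ⊔ Subgroup.centralizer (Q : Set G)), Cfsg.blockCoeff F' t = Cfsg.subgroupBlockCoeff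 (Subgroup.centralizer (Q : Set G)) f (t : G)) ∧ Cfsg.IsNilpotentBlock p M F' := by
  have := charP_kk hM
  have hm := maxPair_of_isMaximalBrauerPair hM hmax
  have hP := hm.pairOf.pair
  have hB := hmax.1.2.1
  have hb := isPrim_gid hM.2.1 hB
  have hs := sub_of_subpairLE hM hle
  have hQ := hs.left hP
  have hN : ⊤ ≤ Nz Q := fun x _ => (hG x).1
  have hfix : ∀ x, cj x (bid M (Cz Q) f) = bid M (Cz Q) f := fun x =>
    (stabilizesBlock_Cz_iff hM.2.1 hf (hG x).1).1 (hG x).2
  have hD := ((pairFusion_of_isBlockFusionSystemOn hM hF).centric_iff hb hm hs).1 hcen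
  rw [top_inf_eq] at hD
  constructor
  · have h1 := hQ.isPrim_self (L := ⊤) le_top le_top (le_inf le_top hN) (fun x _ => hfix x)
    have h2 := (hm.pairOf.of_sub hb.mem hb.idem hs).occ
    rw [br_idem_eq_self le_rfl hQ.isP le_top hN hb.mem hb.idem] at h2
    have h3 := hb.eq_of_mul_ne_zero (isCommSub_fixAlg le_rfl) h1 (by rw [h2]; exact h1.ne_zero)
    intro g
    rw [mli_sub_iff_red_eq hM.2.1 (H17.mlr_blockCoeff hM.2.1 hB g)
      (mlr_subgroupBlockCoeff hM.2.1 (H17.lamClosed_of_isPBlock hM.2.1 hf) g), ← coeff_gid,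
      ← coeff_bid, h3]
  · obtain ⟨E, hE, h1, h2⟩ := exists_block_of_le_stab hM hQ.isP hf (T := Q ⊔ Cz Q) le_sup_right
      le_sup_left (le_top.trans hN) (fun x _ => hfix x)
    refine ⟨E, hE, h2, (isNilpotentBlock_iff_bid hM).2 ⟨hE, ?_⟩⟩
    rw [h1]
    intro R r hR x hx _ hp
    have hQN : Q ≤ Nz (Cz Q) := Subgroup.le_normalizer.trans (Nz_le_Nz_Cz Q)
    have hx' : x ∈ Cz Q := (pMod_sup hQ.isP hQN).mem_of_not_dvd hx.1 hp
    refine Cz_anti (fun y hy => ?_) hx'
    have h3 : IsPGroup p (R ⊔ Q : Subgroup G) :=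
      isPGroup_sup_of_le_Nz hQ.isP hR.pair.isP (le_top.trans hN)
    have h4 := hD.max (S := (R ⊔ Q) ⊓ Cz Q) inf_le_right (h3.to_le inf_le_left)
      (br_ne_zero_of_le inf_le_left (by rw [← br_br, hQ.br_self]; exact hR.br_ne_zero))
      (inf_le_inf_right _ le_sup_right)
    obtain ⟨q, hq, h5⟩ := (mem_sup_iff_inv_mul hQN).1 (hR.pair.le hy)
    have h6 : q⁻¹ * y ∈ Q ⊓ Cz Q := h4 ▸ ⟨Subgroup.mul_mem _
      (Subgroup.mem_sup_right (Q.inv_mem hq)) (Subgroup.mem_sup_left hy), h5⟩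
    simpa using Q.mul_mem hq h6.1

end Cfsg.Agent.S4693
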