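import Cfsg.Statements.S4694
import Cfsg.Agent.H18.Fusion
import Cfsg.Agent.H22.Quot

set_option autoImplicit false
open Cfsg

namespace Cfsg.Agent.S4694

open Cfsg.Agent.H18 Cfsg.Agent.H19 MonoidAlgebra

theorem qG_qG {G H K S : Type*} [Group G] [Group H] [Group K] [CommRing S] (f : G →* H)
    (g : H →* K) (a : S[G]) : H22.qG g (H22.qG f a) = H22.qG (g.comp f) a := by
  rw [H22.qG, H22.qG, H22.qG, ← AlgHom.comp_apply, ← MonoidAlgebra.mapDomainAlgHom_comp]

theorem incl_qG {G H S : Type*} [Group G] [Group H] [CommRing S] (K : Subgroup H) (f : G →* K)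
    (a : S[G]) : H17.incl K (H22.qG f a) = H22.qG (K.subtype.comp f) a := qG_qG f K.subtype a

theorem incl_qG_inclusion {G S : Type*} [Group G] [CommRing S] {K L : Subgroup G} (h : K ≤ L)
    (a : S[K]) : H17.incl L (H22.qG (Subgroup.inclusion h) a) = H17.incl K a := incl_qG L _ a

theorem incl_qG_range {G H S : Type*} [Group G] [Group H] [CommRing S] (f : G →* H)
    (a : S[G]) : H17.incl f.range (H22.qG f.rangeRestrict a) = H22.qG f a := incl_qG _ _ a


/-- Fix a prime p and a maximal ideal M of the algebraic integers containing p, a p-block B of the finite group G and a Brauer pair (Q, e) of B. Let T be the stabilizer of e in N_G(Q) and suppose that (Q, e) carries a weight: the block of T whose idempotent is that of e contains an irreducible character χ that is constant on the cosets of Q and whose degree has p-part equal to the p-part of the index of Q in T. Then Z(Q) is a defect group of e as a block of C_G(Q), and Q is the largest normal p-subgroup of T: every p-subgroup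 of T normalized by T lies in Q. -/
theorem result {G : Type*} [Group G] [Fintype G] (p : ℕ) [Fact p.Prime] (M : Ideal Cfsg.AlgInt) (hM : Cfsg.IsPModular p M) (B : Set (Cfsg.IrrCharacter G)) (Q : Subgroup G) (e : Set (Cfsg.IrrCharacter (Subgroup.centralizer (Q : Set G)))) (hQe : Cfsg.IsBrauerPairOf p M B Q e) (T : Subgroup G) (hT : ∀ y : G, y ∈ T ↔ y ∈ Subgroup.normalizer (Q : Set G) ∧ Cfsg.StabilizesBlock (Subgroup.centralizer (Q : Set G)) e y) (F' : Set (Cfsg.IrrCharacter T)) (hF' : Cfsg.IsPBlock M F') (hF'e : ∀ t : T, Cfsg.blockCoeff F' t = Cfsg.subgroupBlockCoeff (Subgroup.centralizer (Q : Set G)) e (t : G)) (χ : Cfsg.IrrCharacter T) (hχ : χ ∈ F') (hχQ : ∀ q : G, q ∈ Q → ∀ t : T, ∀ t' : T, (t' : G) = q * (t : G) → (χ : T → ℂ) t' = (χ : T → ℂ) t) (hdeg : (Cfsg.charDegree (χ : T → ℂ)).factorization p + (Nat.card Q).factorization p = (Nat.card T).factorization p) : Cfsg.IsDefectGroup p M e ((Q ⊓ Subgroup.centralizer (Q : Set G)).subgroupOf (Subgroup.centralizer (Q : Set G)))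 ∧ ∀ R : Subgroup G, R ≤ T → IsPGroup p R → (∀ t ∈ T, t ∈ Subgroup.normalizer (R : Set G)) → R ≤ Q := by
  have := charP_kk hM
  have he := hQe.1.2
  have hP := (pairOf_of_isBrauerPairOf hM hQe).pair
  have hT' := eq_NP_of_iff hM he hT
  have hCT : Cz Q ≤ T := hT' ▸ le_trans (le_inf le_top le_rfl) hP.C_le_NP
  have hQT : Q ≤ T := hT' ▸ hP.le_NP
  have hTN : T ≤ Nz Q := fun x hx => ((hT x).1 hx).1
  have := normal_subgroupOf_of_le_Nz hTN
  let f := QuotientGroup.mk' (Q.subgroupOf T)
  have hf : Function.Surjective f := QuotientGroup.mk'_surjective _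
  have hker : ∀ t : T, f t = 1 ↔ (t : G) ∈ Q := fun t => QuotientGroup.eq_one_iff t
  obtain ⟨ψ, rfl⟩ := H22.exists_infl_eq hf (χ := χ) fun n hn =>
    hχQ n ((hker n).1 hn) 1 n (by simp)
  have hb := H17.isPBlock_blockOf (M := M) ψ
  have hψ := H17.mem_blockOf_self hM.2.1 ψ
  have hD0 : IsDefectGroup p M (blockOf M ψ.1) ⊥ := by
    rw [H17.dg_bot_iff hM hb, ← H17.nu_eq_iff_defect_eq_zero hM hb hψ, ← H22.nu_infl hf]
    have h1 := (Q.subgroupOf T).index_mul_card
    rw [Nat.card_congr (Subgroup.subgroupOfEquivOfLe hQT).toEquiv] at h1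
    rw [← h1, Nat.factorization_mul Subgroup.index_ne_zero_of_finite Nat.card_pos.ne',
      Finsupp.add_apply] at hdeg
    exact add_right_cancel hdeg
  constructor
  · let ι : Cz Q →* T ⧸ Q.subgroupOf T := f.comp (Subgroup.inclusion hCT)
    have hι : ∀ c : Cz Q, ι c = 1 ↔ (c : G) ∈ Q := fun c => hker _
    have hkp : IsPGroup p ι.ker := (hP.isP.comap_subtype (K := Cz Q)).to_le fun c hc => (hι c).1 hc
    have hN : ι.range.Normal := by
      have h1 := normal_subgroupOf_of_le_Nz (hTN.trans (Nz_le_Nz_Cz Q))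
      rw [MonoidHom.range_comp, Subgroup.inclusion_range]
      exact h1.map f hf
    have hE : gid M F' = H22.qG (Subgroup.inclusion hCT) (gid M e) := by
      apply H17.incl_injective T
      rw [incl_qG_inclusion]
      exact bid_eq_of_coeff_eq hCT hF'e
    have hk' : ι.rangeRestrict.ker = ι.ker := MonoidHom.ker_rangeRestrict ι
    have hkp' : IsPGroup p ι.rangeRestrict.ker := by rw [hk']; exact hkp
    have hc := isPrim_bid hM.2.1 (H22.isPBlock_preimage_of_preg ι.rangeRestrict_surjective hM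
      hkp' (fun y _ => mem_Cz.2 fun q hq => Subtype.ext
        (mem_Cz.1 y.2 q ((hι q).1 (by rwa [hk'] at hq)))) he)
    have hc' : bid M ι.range (H22.infl ι.rangeRestrict_surjective ⁻¹' e) = H22.qG ι (gid M e) := by
      rw [← incl_qG_range, H22.qG_gid _ (H17.lamClosed_of_isPBlock hM.2.1 he)]
      rfl
    rw [hc'] at hc
    have hbc := H17.lamClosed_of_isPBlock hM.2.1 hb
    have hF := H17.lamClosed_of_isPBlock hM.2.1 hF'
    have hne : gid M (blockOf M ψ.1) * H22.qG ι (gid M e) ≠ 0 := by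
      rw [← qG_qG, ← hE, H22.qG_gid hf hF, H22.gid_mul hbc (H22.lamClosed_preimage_infl hf hF),
        Set.inter_eq_left.2 (H22.subset_preimage_of_mem hf hM.2.1 hb hF hψ hχ)]
      exact (isPrim_gid hM.2.1 hb).ne_zero
    obtain ⟨D, hD⟩ := H17.exists_dg (p := p) hM.2.1 he
    have hD' := (isDefectGroup_iff_gid hM he).1 hD
    have h1 : br (D.map ι) (H22.qG ι (gid M e)) ≠ 0 := by
      rw [H22.br_qG ι hD'.isP fun g _ => cj_gid e g]
      refine H22.qG_idem_ne_zero hkp ?_ hD'.ne
      rw [← br_mul hD'.isP (fun g _ => cj_gid e g) (fun g _ => cj_gid e g),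
        gid_idem (H17.lamClosed_of_isPBlock hM.2.1 he)]
    have h2 := H22.br_ne_zero_of_mul_left (hD'.isP.map ι) (fun g _ => cj_gid _ g)
      (fun g hg => hc.mem.2 g (Subgroup.map_le_range ι D hg))
      (H22.br_mul_ne_zero_of_isPrim hc (gid_idem hbc) (fun g _ => cj_gid _ g) hne
        (Subgroup.map_le_range ι D) (hD'.isP.map ι) h1)
    have h3 := ((isDefectGroup_iff_gid hM hb).1 hD0).max le_top (hD'.isP.map ι) h2 bot_le
    have h4 : ((Q ⊓ Cz Q).subgroupOf (Cz Q)) = ι.ker := by
      ext c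
      exact ⟨fun h => (hι c).2 h.1, fun h => ⟨(hι c).1 h, c.2⟩⟩
    have h5 : D = ι.ker := le_antisymm ((Subgroup.map_eq_bot_iff D).1 h3)
      (H17.le_dg_of_normal hM hkp he hD)
    exact h4 ▸ h5 ▸ hD
  · intro R hR hRp hN r hr
    have h1 := normal_subgroupOf_of_le_Nz (K := R) (T := T) hN
    have h2 := h1.map f hf
    exact (hker ⟨r, hR hr⟩).1
      (H17.le_dg_of_normal (N := (R.subgroupOf T).map f) hM (hRp.comap_subtype.map f) hb hD0
        ⟨⟨r, hR hr⟩, hr, rfl⟩)

end Cfsg.Agent.S4694
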