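import Cfsg.Statements.S4697
import Cfsg.Agent.H21.KBCyc

set_option autoImplicit false
open Cfsg

namespace Cfsg.Agent.S4697

open Subgroup (zpowers)
open scoped IsMulCommutative

theorem card_sup_le {A : Type*} [CommGroup A] [Finite A] (S T : Subgroup A) :
    Nat.card (S ⊔ T : Subgroup A) ≤ Nat.card S * Nat.card T := by
  rw [← Nat.card_prod]
  refine Nat.card_le_card_of_surjective (fun x : S × T =>
    (⟨x.1 * x.2, Subgroup.mul_mem_sup x.1.2 x.2.2⟩ : (S ⊔ T : Subgroup A))) fun x => ?_
  obtain ⟨a, ha, b, hb, h⟩ := Subgroup.mem_sup.1 x.2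
  exact ⟨(⟨a, ha⟩, ⟨b, hb⟩), Subtype.ext h⟩

/-- Let p be a prime, M a maximal ideal of the algebraic integers containing p, and B a p-block of the finite group G with an abelian defect group D of order p^d. If D has rank 2 (its least number of generators is 2) then B contains at most p^d irreducible characters; if D has rank 3 then the number k of irreducible characters in B satisfies k^3 ≤ p^(5d). -/
theorem result {G : Type*} [Group G] [Finite G] (p : ℕ) [Fact p.Prime] (M : Ideal Cfsg.AlgInt) (hM : Cfsg.IsPModular p M) (B : Set (Cfsg.IrrCharacter G)) (hB : Cfsg.IsPBlock M B) (D : Subgroup G) (hBD : Cfsg.IsDefectGroup p M B D) (hab : IsMulCommutative D) (d : ℕ) (hDd : Nat.card D = p ^ d) : (Group.rank D = 2 → Nat.card B ≤ p ^ d) ∧ (Group.rank D = 3 → Nat.card B ^ 3 ≤ p ^ (5 * d)) := by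
  classical
  have hp := hM.1
  have hd : blockDefect p B = d := by
    have := H17.dg_card hM hB hBD
    rw [hDd] at this
    exact (Nat.pow_right_injective hp.two_le this).symm
  have hcomm : ∀ x y : D, x * y = y * x := fun x y => mul_comm x y
  obtain ⟨S, hS, hS'⟩ := Group.rank_spec D
  constructor
  · intro h
    obtain ⟨x, y, -, rfl⟩ := Finset.card_eq_two.1 (hS.trans h)
    rw [Finset.coe_pair, Set.insert_eq, Subgroup.closure_union, ← Subgroup.zpowers_eq_closure,
      ← Subgroup.zpowers_eq_closure] at hS'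
    exact hd ▸ H21.card_le_of_two_gen hM hB hBD (fun _ => hcomm _ _) hS'
  · intro h
    obtain ⟨x, y, z, -, -, -, rfl⟩ := Finset.card_eq_three.1 (hS.trans h)
    rw [Finset.coe_insert, Finset.coe_pair, Set.insert_eq, Set.insert_eq, Subgroup.closure_union,
      Subgroup.closure_union, ← Subgroup.zpowers_eq_closure, ← Subgroup.zpowers_eq_closure,
      ← Subgroup.zpowers_eq_closure] at hS'
    have h1 := H21.card_mul_le_of_three_gen hM hB hBD hcomm hS'
    have h2 := H21.card_mul_le_of_three_gen hM hB hBD hcomm (z := y) (y := x) (w := z)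
      (by rw [← hS', sup_left_comm])
    have h3 := H21.card_mul_le_of_three_gen hM hB hBD hcomm (z := z) (y := x) (w := y)
      (by rw [← hS', sup_comm, sup_assoc])
    have h4 : p ^ d ≤ orderOf x * (orderOf y * orderOf z) := by
      rw [← hDd, ← Subgroup.card_top (G := D), ← hS', ← Nat.card_zpowers, ← Nat.card_zpowers,
        ← Nat.card_zpowers]
      exact (card_sup_le _ _).trans (Nat.mul_le_mul_left _ (card_sup_le _ _))
    rw [hd] at h1 h2 h3
    refine Nat.le_of_mul_le_mul_right ?_ (pow_pos hp.pos d)
    calc Nat.card B ^ 3 * p ^ d ≤ Nat.card B ^ 3 * (orderOf x * (orderOf y * orderOf z)) :=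
          Nat.mul_le_mul_left _ h4
      _ = Nat.card B * orderOf x * (Nat.card B * orderOf y) * (Nat.card B * orderOf z) := by ring
      _ ≤ p ^ (2 * d) * p ^ (2 * d) * p ^ (2 * d) := by gcongr
      _ = _ := by ring

end Cfsg.Agent.S4697
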