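import Cfsg.Statements.S4698
import Cfsg.Agent.H21.KBCyc

set_option autoImplicit false
open Cfsg

namespace Cfsg.Agent.S4698

universe u

theorem main (p : ℕ) [Fact p.Prime] {M : Ideal AlgInt} (hM : IsPModular p M) (d : ℕ) :
    ∀ (G : Type u) [Group G] [Finite G] (B : Set (IrrCharacter G)), IsPBlock M B →
      blockDefect p B = d → 3 ≤ d → Nat.card B ≤ p ^ (2 * d - 2) := by
  induction d using Nat.strong_induction_on with
  | _ d ih =>
  intro G _ _ B hB hd h3
  have hp := hM.1
  by_cases hh : ∀ χ ∈ B, blockHeight p B χ.1 = 0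
  swap
  · push Not at hh
    obtain ⟨χ, hχ, h0⟩ := hh
    have := H21.two_mul_card_le_of_height_ne_zero hM hB hχ h0
    rw [hd] at this
    omega
  obtain ⟨D, hD⟩ := H18.exists_isDefectGroup (p := p) hM.2.1 hB
  have hc := H17.dg_card hM hB hD
  have hnt : Nontrivial D := Finite.one_lt_card_iff_nontrivial.1
    (hc ▸ Nat.one_lt_pow (by omega) hp.one_lt)
  have := (IsPGroup.of_card hc).center_nontrivial
  obtain ⟨z, hz⟩ := exists_ne (1 : Subgroup.center D)
  obtain ⟨K, _, _, f, c, hcb, -, -, h1, -, h2⟩ := H21.exists_major_quot hM hB hD z.1.2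
    fun x hx => H17.mem_Cg.2 (congrArg Subtype.val (Subgroup.mem_center_iff.1 z.2 ⟨x, hx⟩))
  obtain ⟨k, hk⟩ := H20.isPElt_of_mem (IsPGroup.of_card hc) z.1.2
  have hk0 : k ≠ 0 := fun h => hz (Subtype.ext (Subtype.ext (orderOf_eq_one_iff.1 (by simpa [h] using hk))))
  rw [hk, hp.factorization_pow, Finsupp.single_eq_same, hd] at h1
  have h4 : Nat.card c ≤ p ^ (2 * d - 4) := by
    by_cases h5 : blockDefect p c ≤ 2
    · exact (H21.card_le_of_defect_le_two hM hcb h5).trans (Nat.pow_le_pow_right hp.pos (by omega))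
    · exact (ih _ (by omega) K c hcb rfl (by omega)).trans (Nat.pow_le_pow_right hp.pos (by omega))
  have h5 := (h2 hh).trans (Nat.mul_le_mul_left _ ((H21.blockRank_le_card hM hcb).trans h4))
  rw [hd, ← pow_add, show 2 * d + (2 * d - 4) = (2 * d - 2) * 2 by omega, pow_mul] at h5
  exact (Nat.pow_le_pow_iff_left two_ne_zero).1 h5

/-- Let p be a prime, M a maximal ideal of the algebraic integers containing p, and B a p-block of defect d of the finite group G, containing k irreducible characters. Then k ≤ p^d when d ≤ 2, and k ≤ p^(2d − 2) when d ≥ 3. -/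
theorem result {G : Type*} [Group G] [Finite G] (p : ℕ) [Fact p.Prime] (M : Ideal Cfsg.AlgInt) (hM : Cfsg.IsPModular p M) (B : Set (Cfsg.IrrCharacter G)) (hB : Cfsg.IsPBlock M B) (d : ℕ) (hd : Cfsg.blockDefect p B = d) : (d ≤ 2 → Nat.card B ≤ p ^ d) ∧ (3 ≤ d → Nat.card B ≤ p ^ (2 * d - 2)) := by
  exact ⟨fun h => hd ▸ H21.card_le_of_defect_le_two hM hB (hd ▸ h), main p hM d G B hB hd⟩

end Cfsg.Agent.S4698
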