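import Cfsg.Statements.S4699
import Cfsg.Agent.H16.TIDim

set_option autoImplicit false
open Cfsg

namespace Cfsg.Agent.S4699

/-- Let p be a prime and G a finite group whose Sylow p-subgroup P is cyclic of order p^n with n ≥ 2 and meets every other Sylow p-subgroup trivially. Then every faithful irreducible representation of G on a finite-dimensional space over a finite field of characteristic p has dimension at least p^n − (p − 1). -/
theorem result {G : Type*} [Group G] [Finite G] (p : ℕ) [Fact p.Prime] (P : Sylow p G) (hcyc : IsCyclic P) (n : ℕ) (hn : 2 ≤ n) (hPn : Nat.card P = p ^ n) (hTI : ∀ Q : Sylow p G, Q ≠ P → (P : Subgroup G) ⊓ (Q : Subgroup G) = ⊥) (F : Type*) [Field F] [Finite F] [CharP F p] (V : Type*) [AddCommGroup V] [Module F V] [FiniteDimensional F V] (ρ : Representation F G V) (hfaith : Function.Injective ρ) (hirr : ρ.IsIrreducible) : p ^ n - (p - 1) ≤ Module.finrank F V := by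
  classical
  have hp : p.Prime := Fact.out
  have := Fintype.ofFinite P
  have := Fintype.ofFinite (G ⧸ H18.Nz (P : Subgroup G))
  obtain ⟨u, hu⟩ := IsCyclic.exists_generator (α := P)
  have ho : orderOf u = p ^ n := (orderOf_eq_card_of_forall_mem_zpowers hu).trans hPn
  have hlt : p ^ 1 < p ^ n := Nat.pow_lt_pow_right hp.one_lt hn
  have hP : (P : Subgroup G) ≠ ⊥ := fun h => by
    have h1 : Nat.card P = 1 := by rw [h, Subgroup.card_bot]
    have := hp.one_lt
    rw [← hPn, h1, pow_one] at hlt
    omega
  have hV : Nontrivial V := (Representation.irreducible_iff_isSimpleModule_asModule ρ).1 hirr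
    |>.nontrivial
  have hchar : CharP (Module.End F V) p := charP_of_injective_algebraMap (R := F)
    (FaithfulSMul.algebraMap_injective _ _) p
  obtain ⟨a, w, ha, han, hac, hw, haw⟩ := H16.exists_invariant_dvd (F := F) P hcyc hP ρ hu
  have h1 := H16.trH_sub_mem_trI (F := F) P hTI ρ ha
  set c := H16.trH ρ (H18.Nz (P : Subgroup G)) a with hc
  have hcG : ∀ g, Commute c (ρ g) := H16.commute_trH ρ _ ha
  have haP : ∀ x : P, Commute a (ρ x) := fun x => ha x (Subgroup.le_normalizer x.2)
  have h2 : (ρ u - 1) ^ (p - 1) ∈ H16.trI (ρ.comp (P : Subgroup G).subtype) := by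
    rw [← haw]
    rcases Representation.IsIrreducible.bijective_or_eq_zero
      (⟨c, fun g => (hcG g).eq⟩ : Representation.IntertwiningMap ρ ρ) with h | h
    · have h3 : IsUnit (c - a) := by
        rw [sub_eq_add_neg]
        exact han.neg.isUnit_add_left_of_commute ((Module.End.isUnit_iff c).2 h)
          (hac c fun x => hcG x).symm.neg_left
      obtain ⟨b, hb⟩ := h3
      have h4 : ∀ x : P, Commute (↑b⁻¹ : Module.End F V) (ρ x) := fun x =>
        Commute.units_inv_left (hb ▸ (hcG x).sub_left (haP x))
      have h5 := H16.mul_mem_trI (ρ := ρ.comp (P : Subgroup G).subtype) h4 h1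
      rw [← hb, Units.inv_mul] at h5
      simpa using H16.mul_mem_trI (ρ := ρ.comp (P : Subgroup G).subtype) (a := a * w)
        (fun x => (haP x).mul_left (hw x)) h5
    · have h3 : c = 0 := congrArg Representation.IntertwiningMap.toLinearMap h
      rw [h3, zero_sub] at h1
      exact H16.mul_mem_trI' (ρ := ρ.comp (P : Subgroup G).subtype) (neg_mem_iff.1 h1) hw
  have h3 : ∀ k, (ρ u - 1) ^ p ^ k = ρ (u ^ p ^ k : P) - 1 := fun k => by
    rw [sub_pow_char_pow_of_commute p k (Commute.one_right _), one_pow, Subgroup.coe_pow, map_pow]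
  have hnil : IsNilpotent (ρ u - 1) :=
    ⟨p ^ n, by rw [h3, ← ho, pow_orderOf_eq_one, Subgroup.coe_one, map_one, sub_self]⟩
  have h4 : (ρ u - 1) ^ Module.finrank F V = 0 := by
    have := LinearMap.aeval_self_charpoly (ρ u - 1)
    rwa [hnil.charpoly_eq_X_pow_finrank, map_pow, Polynomial.aeval_X] at this
  have hl := Nat.find_spec hnil
  have hl' := Nat.find_min' hnil h4
  have hpl : p < Nat.find hnil := by
    by_contra h
    have h5 := pow_eq_zero_of_le (not_lt.1 h) hl
    have h6 := h3 1
    rw [pow_one, h5, eq_comm, sub_eq_zero, ← map_one ρ] at h6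
    have h7 : u ^ p = 1 := Subtype.ext (hfaith h6)
    have := Nat.le_of_dvd hp.pos (orderOf_dvd_of_pow_eq_one h7)
    rw [pow_one] at hlt
    omega
  by_contra h
  have h5 := H16.pow_mul_eq_zero_of_mem_trI (F := F) (ρ.comp (P : Subgroup G).subtype) hu hPn
    (l := Nat.find hnil) (m := Nat.find hnil - p) hl (by have := hp.pos; omega) h2
  refine Nat.find_min hnil (m := Nat.find hnil - p + (p - 1)) (by have := hp.pos; omega) ?_
  rw [pow_add]
  exact h5

end Cfsg.Agent.S4699
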