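import Cfsg.Statements.S4701
import Cfsg.Agent.H58.BrRed

set_option autoImplicit false
open Cfsg

namespace Cfsg.Agent.S4701

/-- Let G be a finite perfect group and p a prime dividing the order of G with p^3 larger than the order of G. Suppose a Sylow p-subgroup of G is not normal and G has no normal subgroup of order 2. Then p > 3 and G is isomorphic to PSL(2, p), or to SL(2, 2^m) with p = 2^m + 1. -/
theorem result {G : Type*} [Group G] [Finite G] (hperf : commutator G = ⊤) (p : ℕ) [Fact p.Prime] (hdvd : p ∣ Nat.card G) (hbig : Nat.card G < p ^ 3) (P : Sylow p G) (hP : ¬ (P : Subgroup G).Normal) (h2 : ∀ N : Subgroup G, N.Normal → Nat.card N ≠ 2) : (∃ (F : Type) (_ : Field F) (_ : Fintype F), Fintype.card F = p ∧ 3 < p ∧ Nonempty (G ≃* Matrix.ProjectiveSpecialLinearGroup (Fin 2) F)) ∨ (∃ (m : ℕ) (F : Type) (_ : Field F) (_ : Fintype F), Fintype.card F = 2 ^ m ∧ p = 2 ^ m + 1 ∧ 3 < p ∧ Nonempty (G ≃* Matrix.SpecialLinearGroup (Fin 2) F)) := by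
  have hP' := H58.card_sylow_of_card_lt hdvd hbig P hP
  obtain ⟨n, hn⟩ := H58.exists_card_sylow_eq p G
  have hF := H58.not_formF_of_card_lt hperf hbig P hP' hn
  have hc := (Cfsg.pPrimeCore p G).index_mul_card
  have hpos : 0 < Nat.card (Cfsg.pPrimeCore p G) := Nat.card_pos
  have h2' := h2 (Cfsg.pPrimeCore p G) inferInstance
  have key : p ^ 3 ≤ 3 * (Cfsg.pPrimeCore p G).index → Cfsg.pPrimeCore p G = ⊥ := by
    intro h
    refine Subgroup.eq_bot_of_card_eq _ ?_
    by_contra h1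
    have h3 : 3 ≤ Nat.card (Cfsg.pPrimeCore p G) := by omega
    have := Nat.mul_le_mul_left (Cfsg.pPrimeCore p G).index h3
    omega
  obtain ⟨-, h3, ⟨h4, -, h⟩ | ⟨m, hm, h4, K, _, _, hK, _, ⟨f⟩⟩⟩ :=
    H58.brauer_reynolds hperf P hP' hn hF
  · refine Or.inl ⟨ZMod p, inferInstance, inferInstance, ZMod.card p, h3,
      H58.nonempty_equiv_of_quotient_bot (key ?_) h⟩
    change 2 * (Cfsg.pPrimeCore p G).index = _ at h4
    obtain ⟨q, rfl⟩ : ∃ q, p = q + 1 := ⟨p - 1, by omega⟩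
    rw [Nat.add_sub_cancel] at h4
    have h5 : 3 ≤ q := by omega
    nlinarith [Nat.mul_le_mul h5 h5, Nat.mul_le_mul_left (q * q) h5]
  · refine Or.inr ⟨m, K, inferInstance, inferInstance, hK, hm, h3,
      H58.nonempty_equiv_of_quotient_bot (key ?_) ⟨f.trans (H57.psl2EquivSL2 K)⟩⟩
    change (Cfsg.pPrimeCore p G).index = _ at h4
    obtain ⟨q, hq⟩ : ∃ q, 2 ^ m = q + 1 := ⟨2 ^ m - 1, by omega⟩
    rw [h4, hm, hq, Nat.add_sub_cancel]
    have h5 : 3 ≤ q := by
      have : q ≠ 2 := by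
        rintro rfl
        rcases m with _ | m
        · simp at hq
        · rw [pow_succ] at hq; omega
      omega
    nlinarith [Nat.mul_le_mul h5 h5, Nat.mul_le_mul_left (q * q) h5]

end Cfsg.Agent.S4701
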