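import Cfsg.Statements.S4704
import Cfsg.Agent.H58.LinM

set_option autoImplicit false
open Cfsg

namespace Cfsg.Agent.S4704

/-- Let G be a finite group with centre Z, p > 7 a prime, and suppose a Sylow p-subgroup of G has order p and is not normal. Let ζ be a faithful irreducible character of G and t the number of conjugacy classes of G consisting of elements of order p. Then one of the following holds: G/Z is isomorphic to PSL(2, p), ζ has degree (p + 1)/2 or (p − 1)/2 and t = 2; or ζ has degree at least p − 1; or ζ has degree at least p + 3/2 − √(p + 5/4) and p ≤ t^2 − 3t + 1. -/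
theorem result {G : Type*} [Group G] [Finite G] (p : ℕ) [Fact p.Prime] (hp : 7 < p) (P : Sylow p G) (hP : Nat.card P = p) (hnn : ¬ (P : Subgroup G).Normal) (ζ : G → ℂ) (hζ : Cfsg.IsIrrCharacter G ζ) (hfaith : ∀ g : G, ζ g = ζ 1 → g = 1) (t : ℕ) (ht : Nat.card {c : ConjClasses G // ∃ g : G, ConjClasses.mk g = c ∧ orderOf g = p} = t) : ((∃ (F : Type) (_ : Field F) (_ : Fintype F), Fintype.card F = p ∧ Nonempty (G ⧸ Subgroup.center G ≃* Matrix.ProjectiveSpecialLinearGroup (Fin 2) F)) ∧ (2 * Cfsg.charDegree ζ = p + 1 ∨ 2 * Cfsg.charDegree ζ = p - 1) ∧ t = 2) ∨ p - 1 ≤ Cfsg.charDegree ζ ∨ ((p : ℝ) + 3 / 2 - Real.sqrt ((p : ℝ) + 5 / 4) ≤ (Cfsg.charDegree ζ : ℝ) ∧ (p : ℤ) ≤ (t : ℤ) ^ 2 - 3 * t + 1) := by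
  have := Fintype.ofFinite G
  have hp' : p.Prime := Fact.out
  have hp10 : 10 ≤ p := by
    by_contra h
    obtain rfl | rfl : p = 8 ∨ p = 9 := by omega
    all_goals exact absurd hp' (by decide)
  obtain ⟨u, x, α, e, S⟩ := H58.exists_sett P hP
  have h0 := S.mul_card_classes
  rw [ht] at h0
  by_cases hd : Cfsg.charDegree ζ + 2 ≤ p
  swap
  · exact Or.inr (Or.inl (by omega))
  rcases S.main_cases hp10 hnn (ζ := ⟨ζ, hζ⟩) hfaith hd with ⟨h3, h1, h2⟩ | ⟨h1, h2, -⟩
  · exact Or.inl ⟨⟨ZMod p, inferInstance, inferInstance, ZMod.card p, h1⟩, h2,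
      Nat.eq_of_mul_eq_mul_left S.e_pos (by omega)⟩
  have h3 : p = t * e + 1 := by rw [mul_comm]; omega
  have h4 := h2 t h3
  change Cfsg.charDegree ζ + e = p at h1
  refine Or.inr (Or.inr ⟨?_, ?_⟩)
  · have h5 : (p : ℝ) = Cfsg.charDegree ζ + e := by exact_mod_cast h1.symm
    have h6 : (p : ℝ) = t * e + 1 := by exact_mod_cast h3
    have h7 : (e : ℝ) + 3 ≤ t := by exact_mod_cast h4
    have h8 : (e : ℝ) + 3 / 2 ≤ Real.sqrt ((p : ℝ) + 5 / 4) :=
      Real.le_sqrt_of_sq_le (by nlinarith [Nat.cast_nonneg (α := ℝ) e])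
    linarith
  · zify at h3 h4
    nlinarith [Int.natCast_nonneg t]

end Cfsg.Agent.S4704
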