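import Cfsg.Statements.S4706
import Cfsg.Agent.H58.BrSing
import Cfsg.Agent.H57.SpecSL2

set_option autoImplicit false
open Cfsg

namespace Cfsg.Agent.S4706

/-- Let p > 2 be a prime and G a permutation group on p letters whose Sylow p-subgroup P has normalizer of order 2p. Then either P is normal in G, or p − 1 = 2^a for some a and G is isomorphic to SL(2, 2^a). -/
theorem result {α : Type*} [Fintype α] [DecidableEq α] {p : ℕ} [Fact p.Prime] (hp : 2 < p) (hα : Fintype.card α = p) (G : Subgroup (Equiv.Perm α)) (P : Sylow p G) (hN : Nat.card (Subgroup.normalizer ((P : Subgroup G) : Set G)) = 2 * p) : (P : Subgroup G).Normal ∨ ∃ (a : ℕ) (F : Type) (_ : Field F) (_ : Fintype F), p = 2 ^ a + 1 ∧ Fintype.card F = 2 ^ a ∧ Nonempty (G ≃* Matrix.SpecialLinearGroup (Fin 2) F) := by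
  classical
  have hΩ : Nat.card α = p := by rw [Nat.card_eq_fintype_card, hα]
  have hdvd : p ∣ Nat.card G :=
    (Dvd.intro_left 2 hN.symm).trans (Subgroup.card_subgroup_dvd_card _)
  obtain ⟨t, ht⟩ := exists_prime_orderOf_dvd_card' p hdvd
  obtain ⟨e, he⟩ := H59.exists_coord_of_orderOf hΩ ht
  have htr : MulAction.IsPretransitive G α := ⟨fun a b => by
    obtain ⟨x, rfl⟩ := e.surjective a
    obtain ⟨y, rfl⟩ := e.surjective b
    refine ⟨t ^ (y - x).val, ?_⟩
    rw [H59.pow_smul_coord he]
    simp⟩
  have hP := H59.card_sylow_eq_prime hΩ P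
  by_cases hn : Nat.card (Sylow p G) = 1
  · left
    rw [P.card_eq_index_normalizer, Subgroup.index_eq_one] at hn
    exact Subgroup.normalizer_eq_top_iff.1 hn
  right
  have hn1 : 1 < Nat.card (Sylow p G) := by
    have : 0 < Nat.card (Sylow p G) := Nat.card_pos
    omega
  have hc := H58.card_normalizer_mul_card_sylow P
  have hp3 : 3 < p := by
    by_contra h
    obtain rfl : p = 3 := by omega
    have h1 := H59.card_dvd_factorial (G := G) (Ω := α)
    rw [hΩ, ← hc] at h1
    erw [hN] at h1
    have := Nat.le_of_dvd (by decide) h1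
    rw [show Nat.factorial 3 = 6 from rfl] at this
    omega
  have hs : IsSimpleGroup G := by
    refine H59.isSimpleGroup_of_prime_index hΩ P hn1 ?_
    have h1 := Subgroup.index_mul_card ((P : Subgroup G).subgroupOf
      (Subgroup.normalizer ((P : Subgroup G) : Set G)))
    rw [Nat.card_congr (Subgroup.subgroupOfEquivOfLe
      (Subgroup.le_normalizer (H := (P : Subgroup G)))).toEquiv, hP, hN] at h1
    rw [Nat.eq_of_mul_eq_mul_right (by omega) h1]
    exact Nat.prime_two
  have hG : ¬ IsMulCommutative G := H58.not_comm_of_not_prime (by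
    rw [← hc]
    erw [hN]
    exact Nat.not_prime_mul (by omega) hn)
  have h2 : MulAction.IsMultiplyPretransitive G α 2 := by
    refine (H59.isAff_or_two_pretransitive he).resolve_left fun h => hG ?_
    have := H59.isSolvable_of_isAff e h
    exact ⟨⟨IsSimpleGroup.comm_iff_isSolvable.2 this⟩⟩
  have := Fintype.ofFinite G
  obtain ⟨m, hm, K, _, _, hK, _, ⟨f⟩⟩ := H58.iso_of_prime_degree h2 hΩ hp3
    (H58.commutator_eq_top hG) P hN
  exact ⟨m, K, inferInstance, inferInstance, hm, hK, ⟨f.trans (H57.psl2EquivSL2 K)⟩⟩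

end Cfsg.Agent.S4706
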