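import Cfsg.Statements.S4712
import Cfsg.Agent.H19.PConj

set_option autoImplicit false
open Cfsg

namespace Cfsg.Agent.S4712


/-- Let p be an odd prime, M a maximal ideal of the algebraic integers containing p, G a finite group of order n with p-part p^a, and B a p-block of G. Call an irreducible character χ p-rational when χ(g^k) = χ(g) for every g and every k coprime to n with k ≡ 1 modulo n/p^a (χ is fixed by the Galois automorphisms fixing the roots of unity of order prime to p). Then the number of p-rational irreducible characters in B is at least the p-regular rank of B (the number of irreducible Brauer characters in B). -/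
theorem result {G : Type*} [Group G] [Finite G] (p : ℕ) [Fact p.Prime] (hodd : p ≠ 2) (M : Ideal Cfsg.AlgInt) (hM : Cfsg.IsPModular p M) (B : Set (Cfsg.IrrCharacter G)) (hB : Cfsg.IsPBlock M B) : Cfsg.blockRank p B ≤ Nat.card {χ : Cfsg.IrrCharacter G // χ ∈ B ∧ ∀ k : ℕ, Nat.Coprime k (Nat.card G) → k ≡ 1 [MOD Nat.card G / p ^ (Nat.card G).factorization p] → ∀ g : G, (χ : G → ℂ) (g ^ k) = (χ : G → ℂ) g} := by
  obtain ⟨k₀, h1, h2, h3⟩ := H19.exists_generator_modEq hM.1 hodd (Nat.card_pos (α := G)).ne'
  refine (H19.blockRank_le_card_fixed hM (H17.lamClosed_of_isPBlock hM.2.1 hB) h1 h2).trans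
    (le_of_eq (Nat.card_congr (Equiv.subtypeEquivRight fun χ => and_congr_right fun _ =>
      ⟨fun h k hk hk1 g => ?_, fun h => h k₀ h1 h2⟩)))
  obtain ⟨j, hj⟩ := h3 k hk hk1
  rw [← pow_eq_pow_iff_modEq.2 (hj.of_dvd (orderOf_dvd_natCard g))]
  clear hj
  induction j with
  | zero => rw [pow_zero, pow_one]
  | succ j ih => rw [pow_succ, pow_mul, h, ih]

end Cfsg.Agent.S4712
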