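import Cfsg.Statements.S4714
import Cfsg.Agent.H22.Central

set_option autoImplicit false
open Cfsg

namespace Cfsg.Agent.S4714


/-- Let p be a prime, M a maximal ideal of the algebraic integers containing p, D a p-subgroup of the finite group G with G = D·C_G(D), and B a p-block with defect group D. Let χ be a member of B having D in its kernel (there is exactly one, the canonical character of B). Then the irreducible characters in B are exactly the functions θ on G for which there is an irreducible character ζ of D such that θ(yx) = ζ(y)χ(x) whenever y ∈ D, x has order prime to p and x commutes with y, and θ(z) = 0 whenever the p-part of z does not lie in D. -/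
theorem result {G : Type*} [Group G] [Finite G] (p : ℕ) [Fact p.Prime] (M : Ideal Cfsg.AlgInt) (hM : Cfsg.IsPModular p M) (D : Subgroup G) (hD : IsPGroup p D) (hG : D ⊔ Subgroup.centralizer (D : Set G) = ⊤) (B : Set (Cfsg.IrrCharacter G)) (hB : Cfsg.IsPBlock M B) (hBD : Cfsg.IsDefectGroup p M B D) (χ : Cfsg.IrrCharacter G) (hχ : χ ∈ B) (hχD : ∀ y ∈ D, (χ : G → ℂ) y = (χ : G → ℂ) 1) : (∀ θ : Cfsg.IrrCharacter G, θ ∈ B ↔ ∃ ζ : Cfsg.IrrCharacter D, (∀ (y : D) (x : G), ¬ p ∣ orderOf x → Commute (y : G) x → (θ : G → ℂ) ((y : G) * x) = (ζ : D → ℂ) y * (χ : G → ℂ) x) ∧ (∀ z : G, (∀ y : G, Cfsg.IsPPart p z y → y ∉ D) → (θ : G → ℂ) z = 0)) ∧ ∀ ζ : Cfsg.IrrCharacter D, ∃ θ ∈ B, (∀ (y : D) (x : G), ¬ p ∣ orderOf x → Commute (y : G) x → (θ : G → ℂ) ((y : G) * x) = (ζ : D → ℂ) y * (χ : G → ℂ) x) ∧ (∀ z : G, (∀ y : G, Cfsg.IsPPart p z y → y ∉ D) → (θ : G → ℂ) z = 0) := by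
  have hc : ∀ x : G, ¬ p ∣ orderOf x → x ∈ H18.Cz D := fun x hx => H22.mem_Cz_of_sup_Cz hD hG hx
  have key : ∀ (θ : IrrCharacter G) (ζ : IrrCharacter D), θ.1 = H22.prD p D ζ.1 χ.1 ↔
      (∀ (y : D) (x : G), ¬ p ∣ orderOf x → Commute (y : G) x →
        (θ : G → ℂ) ((y : G) * x) = (ζ : D → ℂ) y * (χ : G → ℂ) x) ∧
      (∀ z : G, (∀ y : G, Cfsg.IsPPart p z y → y ∉ D) → (θ : G → ℂ) z = 0) := by
    intro θ ζ
    constructor
    · intro h
      refine ⟨fun y x hx _ => by rw [h, H22.prD_mul hD hc _ _ y hx], fun z hz => ?_⟩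
      obtain ⟨y, hy⟩ := H20.exists_pPart (Fact.out : p.Prime) z
      rw [h, H22.prD_of_notMem hD hc _ _ hy (hz y hy)]
    · rintro ⟨h1, h2⟩
      refine H22.eq_prD hD hc (fun y x hx => h1 y x hx (H18.mem_Cz.1 (hc x hx) y y.2))
        (fun g z hz hzD => h2 g fun y hy => ?_)
      rwa [H20.pPart_unique Fact.out hy hz]
  refine ⟨fun θ => ⟨fun hθ => ?_, fun ⟨ζ, h⟩ => ?_⟩, fun ζ => ?_⟩
  · obtain ⟨ζ, h⟩ := H22.exists_eq_prD hM hG hB hBD hχ hχD hθ
    exact ⟨ζ, (key θ ζ).1 h⟩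
  · obtain ⟨ψ, hψ, -, h'⟩ := H22.exists_mem_eq_prD hM hG hB hBD hχ hχD ζ
    have : θ = ψ := Subtype.ext (((key θ ζ).2 h).trans h'.symm)
    rwa [this]
  · obtain ⟨ψ, hψ, -, h'⟩ := H22.exists_mem_eq_prD hM hG hB hBD hχ hχD ζ
    exact ⟨ψ, hψ, (key ψ ζ).1 h'⟩

end Cfsg.Agent.S4714
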