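import Cfsg.Statements.S4715
import Cfsg.Agent.H21.Major

set_option autoImplicit false
open Cfsg

namespace Cfsg.Agent.S4715

open Cfsg.Agent.H18

/-- Let p be a prime, M a maximal ideal of the algebraic integers containing p, B a p-block of the finite group G with defect group D of order p^d, H = D·C_G(D), b a block of H inducing B, T the stabilizer of b in N_G(D) and e = [T : H] the inertial index of B; let n be the integer with p^n ≤ e < p^(n+1) and p^c the order of the centre of D. Then every irreducible character in B has height h with h + c ≤ n + d. -/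
theorem result {G : Type*} [Group G] [Finite G] (p : ℕ) [Fact p.Prime] (M : Ideal Cfsg.AlgInt) (hM : Cfsg.IsPModular p M) (B : Set (Cfsg.IrrCharacter G)) (hB : Cfsg.IsPBlock M B) (D : Subgroup G) (hBD : Cfsg.IsDefectGroup p M B D) (d : ℕ) (hDd : Nat.card D = p ^ d) (H : Subgroup G) (hH : H = D ⊔ Subgroup.centralizer (D : Set G)) (b : Set (Cfsg.IrrCharacter H)) (hind : Cfsg.IsInducedBlock M H b B) (T : Subgroup G) (hT : ∀ g : G, g ∈ T ↔ (g ∈ Subgroup.normalizer (D : Set G) ∧ ∀ θ ∈ b, ∀ θ' : Cfsg.IrrCharacter H, (∀ h h' : H, (h' : G) = g * h * g⁻¹ → (θ' : H → ℂ) h' = (θ : H → ℂ) h) → θ' ∈ b)) (e : ℕ) (he : H.relIndex T = e) (n : ℕ) (hn : p ^ n ≤ e ∧ e < p ^ (n + 1)) (c : ℕ) (hc : Nat.card (Subgroup.center D) = p ^ c) : ∀ χ ∈ B, Cfsg.blockHeight p B (χ : G → ℂ) + c ≤ n + d := by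
  subst hH he
  have := Fintype.ofFinite G
  have := H19.charP_kk hM
  intro χ hχ
  have hp := hM.1
  have hDp : IsPGroup p D := IsPGroup.of_card hDd
  have hmax : IsMaxPair p ⊤ (gid M B) D (bid M (D ⊔ Cz D) b) :=
    ((H17.isInducedBlock_iff_pairOf hM hDp hind.1 hB).1 hind).isMaxPair
      (isDefect_of_isDefectGroup hM hB hBD)
  have hb := H17.lamClosed_of_isPBlock hM.2.1 hind.1
  have h1 := H21.card_center_mul_pow_height_le hM hB hmax (H := D ⊔ Cz D) (T := T)
    (fun g hg => (hT g).2 ⟨hg.1.2, fun θ hθ θ' h => by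
      have h2 := mem_Nz_iff_cs.1 (H17.Nz_le_Nz_sup_Cz D hg.1.2)
      have h3 : H22.irrMap (conjEquiv g h2) '' b = b :=
        bid_inj (lamClosed_image _ hb) hb (by rw [bid_image_conj]; exact hg.2)
      exact h3 ▸ ⟨θ, hθ, (irrMap_conjEquiv_eq_iff g h2 θ θ').2 h⟩⟩)
    (sup_le (le_Cz_comm.1 inf_le_right) (Cz_anti inf_le_left)) hχ
  have h2 : Nat.card (D ⊓ Cz D : Subgroup G) = p ^ c := by
    rw [← hc, ← Nat.card_congr (Subgroup.subgroupOfEquivOfLe (inf_le_left : D ⊓ Cz D ≤ D)).toEquiv]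
    congr 2
    ext x
    simp only [Subgroup.mem_subgroupOf, Subgroup.mem_inf, x.2, true_and, mem_Cz,
      Subgroup.mem_center_iff, Subtype.forall, Subtype.ext_iff, Subgroup.coe_mul]
  have h3 : blockDefect p B = d := by
    have := H17.dg_card hM hB hBD
    rw [hDd] at this
    exact (Nat.pow_right_injective hp.two_le this).symm
  rw [h2, h3, ← pow_add] at h1
  have h4 := h1.trans_lt (Nat.mul_lt_mul_of_pos_right hn.2 (pow_pos hp.pos d))
  rw [← pow_add, Nat.pow_lt_pow_iff_right hp.one_lt] at h4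
  omega

end Cfsg.Agent.S4715
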