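import Cfsg.Statements.S4717
import Cfsg.Agent.H21.Feit
import Cfsg.Agent.H17.Center

set_option autoImplicit false
open Cfsg

namespace Cfsg.Agent.S4717

open Cfsg Cfsg.Agent.H21 Cfsg.Agent.H19

/-- Let p be a prime, M a maximal ideal of the algebraic integers containing p, and r a natural number; say that a finite group X has deficiency class r when X has no non-principal p-block of defect ≥ r. If G has deficiency class r then so does the centralizer of every p-element of G; conversely, if r > 0 and the centralizer of every element of order p has deficiency class r, then G has deficiency class r. -/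
theorem result {G : Type*} [Group G] [Finite G] (p : ℕ) [Fact p.Prime] (M : Ideal Cfsg.AlgInt) (hM : Cfsg.IsPModular p M) (r : ℕ) : ((∀ B' : Set (Cfsg.IrrCharacter G), Cfsg.IsPBlock M B' → B' ≠ Cfsg.principalBlock M G → Cfsg.blockDefect p B' < r) → ∀ y : G, (∃ k : ℕ, orderOf y = p ^ k) → (∀ B' : Set (Cfsg.IrrCharacter ↥(Subgroup.centralizer ({y} : Set G))), Cfsg.IsPBlock M B' → B' ≠ Cfsg.principalBlock M ↥(Subgroup.centralizer ({y} : Set G)) → Cfsg.blockDefect p B' < r)) ∧ (0 < r → (∀ y : G, orderOf y = p → (∀ B' : Set (Cfsg.IrrCharacter ↥(Subgroup.centralizer ({y} : Set G))), Cfsg.IsPBlock M B' → B' ≠ Cfsg.principalBlock M ↥(Subgroup.centralizer ({y} : Set G)) → Cfsg.blockDefect p B' < r)) → (∀ B' : Set (Cfsg.IrrCharacter G), Cfsg.IsPBlock M B' → B' ≠ Cfsg.principalBlock M G → Cfsg.blockDefect p B' < r)) := by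
  constructor
  · intro h y hy b hb hne
    obtain ⟨B, hB⟩ := (H20.truncMul_Cg hM hy).defined hM.2.1 hb
    refine (defect_le_of_induced hM hB).trans_lt (h B hB.2.1 fun h0 => hne ?_)
    exact (third_main hM ⟨B, hB⟩).1 (h0 ▸ hB)
  · intro hr h B hB hne
    by_contra hd
    obtain ⟨D, hD⟩ := H17.exists_dg (p := p) hM.2.1 hB
    have hD0 : D ≠ ⊥ := by
      rw [Ne, H17.dg_eq_bot_iff hM hB hD]; omega
    obtain ⟨x, hxD, hxC, hx1⟩ := H17.exists_mem_Cz_ne_one (H17.dg_isPGroup hD) hD0
    have hpx := H17.dvd_orderOf_of_mem_pGroup (H17.dg_isPGroup hD) hxD hx1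
    set y := x ^ (orderOf x / p) with hy
    have hyo : orderOf y = p := orderOf_pow_orderOf_div (orderOf_pos x).ne' hpx
    have hDH : D ≤ H17.Cg y := H17.le_Cg_of_mem_Cz (Subgroup.pow_mem _ hxC _)
    have hCH : H18.Cz D ≤ H17.Cg y := fun c hc =>
      H17.mem_Cg.2 (Subgroup.mem_centralizer_iff.1 hc y (Subgroup.pow_mem _ hxD _)).symm
    obtain ⟨b, hb, hbD⟩ := H17.exists_isInducedBlock_dg hM hDH hCH hB hD
    have h1 := h y hyo b hb.1 fun h0 => hne (inducedBlock_unique hM.2.1 hb
      ((third_main hM ⟨B, hb⟩).2 h0))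
    rw [← H17.dg_factorization hM hb.1 hbD, H17.card_subgroupOf_eq hDH,
      H17.dg_factorization hM hB hD] at h1
    exact hd h1

end Cfsg.Agent.S4717
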