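import Cfsg.Statements.S4719
import Cfsg.Agent.H21.FourBound
import Cfsg.Agent.H21.Induced
import Cfsg.Agent.H17.Numeric
import Cfsg.Agent.S4718

set_option autoImplicit false
universe u
open Cfsg

namespace Cfsg.Agent.S4719

open Cfsg.Agent.H21

theorem exists_single (p : ℕ) [Fact p.Prime] (a : ℕ) : ∃ N : ℕ, ∀ (G : Type u) [Group G] [Finite G]
    (M : Ideal AlgInt), IsPModular p M → (Nat.card G).factorization p ≤ a →
    (∀ B : Set (IrrCharacter G), IsPBlock M B → B = principalBlock M G) → Nat.card G ≤ N := by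
  choose N hN using S4718.result.{u} p
  refine ⟨(Finset.range (a + 1)).sup N, fun G _ _ M hM ha hB => ?_⟩
  exact (hN _ G M hM rfl hB).trans (Finset.le_sup (f := N) (Finset.mem_range.2 (by omega)))

theorem factorization_le {G : Type*} [Group G] [Finite G] (p : ℕ) (H : Subgroup G) :
    (Nat.card H).factorization p ≤ (Nat.card G).factorization p := by
  rw [factorization_card_eq H]
  omega

theorem step (a j : ℕ) : ∃ N : ℕ, ∀ (G : Type u) [Group G] [Finite G] (M : Ideal AlgInt) (r : ℕ),
    IsPModular 2 M → (Nat.card G).factorization 2 = a →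
    (∀ B : Set (IrrCharacter G), IsPBlock M B → B ≠ principalBlock M G → blockDefect 2 B < r) →
    ∀ E : Subgroup G, (∀ x ∈ E, ∀ y ∈ E, x * y = y * x) → (∀ x ∈ E, x * x = 1) →
    Nat.card E = 2 ^ (r + 1) → ∀ Q ≤ E, Nat.card E ≤ 2 ^ (j + 1) * Nat.card Q →
    Nat.card (Subgroup.centralizer (Q : Set G)) ≤ N := by
  induction j with
  | zero =>
    obtain ⟨N, hN⟩ := exists_single.{u} 2 a
    refine ⟨N, fun G _ _ M r hM ha hB E hc hsq hE Q hQ hcard => ?_⟩
    have := Fintype.ofFinite G
    refine hN _ M hM (ha ▸ factorization_le 2 _) fun b hb => ?_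
    have hQp : IsPGroup 2 Q := (IsPGroup.of_card hE).to_le hQ
    have hQC : Q ≤ H18.Cz Q := fun x hx =>
      Subgroup.mem_centralizer_iff.2 fun y hy => hc y (hQ hy) x (hQ hx)
    have hCN : H18.Cz Q ≤ H18.Nz Q := Subgroup.centralizer_le_normalizer _
    have hdef := H17.inducedBlockDefined_of_local hM hQp hQC le_rfl hCN hb
    obtain ⟨B, hind⟩ := hdef
    obtain ⟨D, hD⟩ := H17.exists_dg (p := 2) hM.2.1 hb
    have h1 := Subgroup.card_le_of_le (H17.le_dg_map_of_le_Nz hM hQp hQC hCN hb hD)
    rw [Subgroup.card_subtype, H17.dg_card hM hb hD] at h1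
    have h2 := defect_le_of_induced hM hind
    have h3 : 2 ^ r ≤ 2 ^ blockDefect 2 b := by
      rw [hE, pow_succ] at hcard
      omega
    have h4 := (Nat.pow_le_pow_iff_right one_lt_two).1 h3
    have h5 : B = principalBlock M G := by
      by_contra hne
      have := hB B hind.2.1 hne
      omega
    exact (third_main hM ⟨B, hind⟩).1 (h5 ▸ hind)
  | succ j ih =>
    obtain ⟨N, hN⟩ := ih
    obtain ⟨N', hN'⟩ := four_bound.{u} (a + N + N + N)
    refine ⟨N + N', fun G _ _ M r hM ha hB E hc hsq hE Q hQ hcard => ?_⟩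
    by_cases hle : Nat.card E ≤ 2 ^ (j + 1) * Nat.card Q
    · exact (hN G M r hM ha hB E hc hsq hE Q hQ hle).trans (Nat.le_add_right _ _)
    refine le_trans ?_ (Nat.le_add_left _ _)
    have hQ0 : 0 < Nat.card Q := Nat.card_pos
    have hlt : 2 * Nat.card Q < Nat.card E := by
      have : 2 ≤ 2 ^ (j + 1) := by
        rw [pow_succ]
        have := Nat.one_le_two_pow (n := j)
        omega
      have := Nat.mul_le_mul_right (Nat.card Q) this
      omega
    have hEC : E ≤ Subgroup.centralizer (Q : Set G) := fun x hx =>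
      Subgroup.mem_centralizer_iff.2 fun y hy => hc y (hQ hy) x hx
    obtain ⟨e₁, he₁, hn₁⟩ : ∃ e ∈ E, e ∉ Q := by
      by_contra h
      push Not at h
      have := Subgroup.card_le_of_le (show E ≤ Q from h)
      omega
    obtain ⟨e₂, he₂, hn₂, hn₃⟩ : ∃ e ∈ E, e ∉ Q ∧ e₁ * e ∉ Q := by
      by_contra h
      push Not at h
      have h1 : (E : Set G) ⊆ (Q : Set G) ∪ (fun x => e₁ * x) ⁻¹' (Q : Set G) := by
        intro x hx
        by_cases hx' : x ∈ Q
        · exact Or.inl hx'
        · exact Or.inr (h x hx hx')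
      have h2 := (Set.ncard_le_ncard h1).trans (Set.ncard_union_le _ _)
      rw [Set.ncard_preimage_of_injective_subset_range (mul_right_injective e₁)
        (by rw [(Group.mulLeft_bijective e₁).surjective.range_eq]; exact Set.subset_univ _)] at h2
      rw [← Nat.card_coe_set_eq, ← Nat.card_coe_set_eq] at h2
      change Nat.card E ≤ Nat.card Q + Nat.card Q at h2
      omega
    have key : ∀ e (he : e ∈ E), e ∉ Q →
        cc (⟨e, hEC he⟩ : Subgroup.centralizer (Q : Set G)) ≤ N := by
      intro e he hn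
      have hle' : Q ⊔ Subgroup.zpowers e ≤ E := sup_le hQ ((Subgroup.zpowers_le).2 he)
      have h1 : 2 * Nat.card Q ≤ Nat.card (Q ⊔ Subgroup.zpowers e : Subgroup G) := by
        obtain ⟨k, hk⟩ := Subgroup.card_dvd_of_le (le_sup_left : Q ≤ Q ⊔ Subgroup.zpowers e)
        have hk0 : k ≠ 0 := by
          rintro rfl
          exact Nat.card_pos.ne' hk
        have hk1 : k ≠ 1 := by
          rintro rfl
          have := Subgroup.eq_of_le_of_card_ge (le_sup_left : Q ≤ Q ⊔ Subgroup.zpowers e)
            (by omega)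
          exact hn (this ▸ Subgroup.mem_sup_right (Subgroup.mem_zpowers e))
        rw [hk, mul_comm]
        exact Nat.mul_le_mul_left _ (by omega)
      refine le_trans ?_ (hN G M r hM ha hB E hc hsq hE _ hle' ?_)
      · rw [cc, ← Subgroup.card_subtype]
        refine Subgroup.card_le_of_le ?_
        rintro _ ⟨x, hx, rfl⟩
        have h2 : Q ⊔ Subgroup.zpowers e ≤ Subgroup.centralizer ({(x : G)} : Set G) := by
          refine sup_le (fun y hy => ?_) ((Subgroup.zpowers_le).2 ?_)
          · exact Subgroup.mem_centralizer_singleton_iff.2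
              (Subgroup.mem_centralizer_iff.1 x.2 y hy)
          · exact Subgroup.mem_centralizer_singleton_iff.2
              (congrArg Subtype.val (Subgroup.mem_centralizer_singleton_iff.1 hx)).symm
        exact Subgroup.mem_centralizer_iff.2 fun y hy =>
          Subgroup.mem_centralizer_singleton_iff.1 (h2 hy)
      · calc Nat.card E ≤ 2 ^ (j + 1 + 1) * Nat.card Q := hcard
          _ = 2 ^ (j + 1) * (2 * Nat.card Q) := by ring
          _ ≤ _ := Nat.mul_le_mul_left _ h1
    refine hN' _ ⟨e₁, hEC he₁⟩ ⟨e₂, hEC he₂⟩ (Subtype.ext (hsq _ he₁)) (Subtype.ext (hsq _ he₂))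
      (Subtype.ext (hc _ he₁ _ he₂)) ?_ ?_ ?_ ?_
    · intro h
      have : e₁ = 1 := congrArg Subtype.val h
      exact hn₁ (this ▸ Q.one_mem)
    · intro h
      have : e₂ = 1 := congrArg Subtype.val h
      exact hn₂ (this ▸ Q.one_mem)
    · intro h
      have : e₁ * e₂ = 1 := congrArg Subtype.val h
      exact hn₃ (this ▸ Q.one_mem)
    · have k1 := key _ he₁ hn₁
      have k2 := key _ he₂ hn₂
      have k3 : cc ((⟨e₁, hEC he₁⟩ : Subgroup.centralizer (Q : Set G)) * ⟨e₂, hEC he₂⟩) ≤ N :=
        key _ (E.mul_mem he₁ he₂) hn₃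
      have k4 := factorization_le 2 (Subgroup.centralizer (Q : Set G))
      omega

/-- For every natural number a there is a bound N with the following property. Let G be a finite group with Sylow 2-subgroups of order 2^a and r ≥ 0 such that G has no non-principal 2-block (relative to a maximal ideal of the algebraic integers containing 2) of defect ≥ r, and suppose a Sylow 2-subgroup of G contains an elementary abelian subgroup of order 2^(r+1). Then the order of G is at most N. -/
theorem result (a : ℕ) : ∃ N : ℕ, ∀ (G : Type u) [Group G] [Finite G] (M : Ideal Cfsg.AlgInt) (r : ℕ) (P : Sylow 2 G), Cfsg.IsPModular 2 M → Nat.card P = 2 ^ a → (∀ B : Set (Cfsg.IrrCharacter G), Cfsg.IsPBlock M B → B ≠ Cfsg.principalBlock M G → Cfsg.blockDefect 2 B < r) → (∃ E : Subgroup G, E ≤ (P : Subgroup G) ∧ IsMulCommutative E ∧ (∀ x ∈ E, x * x = 1) ∧ Nat.card E = 2 ^ (r + 1)) → Nat.card G ≤ N := by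
  obtain ⟨N, hN⟩ := step.{u} a a
  refine ⟨N, fun G _ _ M r P hM hP hB ⟨E, hEP, hc, hsq, hE⟩ => ?_⟩
  have ha : (Nat.card G).factorization 2 = a := by
    rw [P.card_eq_multiplicity] at hP
    exact Nat.pow_right_injective le_rfl hP
  have h := hN G M r hM ha hB E
    (fun x hx y hy => congrArg Subtype.val (hc.is_comm.comm ⟨x, hx⟩ ⟨y, hy⟩)) hsq hE ⊥ bot_le (by
      have := Subgroup.card_le_of_le hEP
      rw [Subgroup.card_bot, pow_succ]
      omega)
  have h2 : Subgroup.centralizer ((⊥ : Subgroup G) : Set G) = ⊤ := by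
    rw [eq_top_iff]
    intro x _
    rw [Subgroup.mem_centralizer_iff]
    intro y hy
    rw [Subgroup.mem_bot.1 hy, one_mul, mul_one]
  rwa [h2, Subgroup.card_top] at h

end Cfsg.Agent.S4719
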