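import Cfsg.Statements.S4721
import Cfsg.Agent.H20.AbFrob3

set_option autoImplicit false
open Cfsg

namespace Cfsg.Agent.S4721

/-- Let p be a prime, M a maximal ideal of the algebraic integers containing p, and G a finite group with a nontrivial abelian Sylow p-subgroup P, N = N_G(P), C = C_G(P), such that N/C is cyclic of order 3, #P > 4, and C_G(y) ∩ N = C for every non-identity y ∈ P. Then the principal p-block is the disjoint union of a set X of exactly 3 characters containing the principal character and a set Y of (#P − 1)/3 characters, with signs a_χ = ±1 (χ ∈ X, a = 1 at the principal character) and δ = ±1 such that every χ ∈ X takes the value a_χ at every element whose p-part is a non-identity element of P, and there is a map ζ from the non-principal linear characters of P onto Y, constant on N-conjugacy classes, with ζ_ψ(z) = δ·Σ ψ'(y) over the N-orbit of ψ, for z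 with p-part y ≠ 1 in P. If moreover G has an involution lying in no proper normal subgroup of G, then exactly two of the three numbers −δ and a_χ (χ ∈ X non-principal) equal −1, and the product of the degrees of the two non-principal members of X and of any member of Y is a perfect square. -/
theorem result {G : Type*} [Group G] [Finite G] (p : ℕ) [Fact p.Prime] (M : Ideal Cfsg.AlgInt) (hM : Cfsg.IsPModular p M) (P : Sylow p G) (hab : IsMulCommutative P) (hP1 : Nat.card P ≠ 1) (hCN : (Subgroup.centralizer ((P : Subgroup G) : Set G)).relIndex (Subgroup.normalizer ((P : Subgroup G) : Set G)) = 3) (hcyc : ∃ g : G, g ∈ Subgroup.normalizer ((P : Subgroup G) : Set G) ∧ Subgroup.centralizer ((P : Subgroup G) : Set G) ⊔ Subgroup.zpowers g = Subgroup.normalizer ((P : Subgroup G) : Set G)) (hm2 : 3 + 1 < Nat.card P) (hfrob : ∀ y : G, y ∈ (P : Subgroup G) → y ≠ 1 → Subgroup.centralizer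 ({y} : Set G) ⊓ Subgroup.normalizer ((P : Subgroup G) : Set G) = Subgroup.centralizer ((P : Subgroup G) : Set G)) : ∃ (X Y : Set (Cfsg.IrrCharacter G)), Cfsg.principalBlock M G = X ∪ Y ∧ Disjoint X Y ∧ Nat.card X = 3 ∧ Nat.card Y = (Nat.card P - 1) / 3 ∧ (∃ χ₁ ∈ X, (χ₁ : G → ℂ) = fun _ => 1) ∧ ∃ (a : Cfsg.IrrCharacter G → ℤ) (δ : ℤ) (ζ : (↥(P : Subgroup G) →* ℂˣ) → Cfsg.IrrCharacter G), (δ = 1 ∨ δ = -1) ∧ (∀ χ ∈ X, (a χ = 1 ∨ a χ = -1) ∧ ∀ z y : G, Cfsg.IsPPart p z y → y ∈ (P : Subgroup G) → y ≠ 1 → (χ : G → ℂ) z = (a χ : ℂ)) ∧ (∀ ψ : ↥(P : Subgroup G) →* ℂˣ, ψ ≠ 1 → ζ ψ ∈ Y) ∧ (∀ η ∈ Y, ∃ ψ : ↥(P : Subgroup G) →* ℂˣ, ψ ≠ 1 ∧ ζ ψ = η) ∧ (∀ ψ ψ' : ↥(P : Subgroup G) →* ℂˣ, ψ ≠ 1 → (∃ n : G, n ∈ Subgroup.normalizer ((P : Subgroup G) : Set G) ∧ ∀ w w' : ↥(P : Subgroup G), (w' : G) = n * w * n⁻¹ → ψ' w' = ψ w) → ζ ψ' = ζ ψ) ∧ (∀ ψ : ↥(P : Subgroup G) →* ℂˣ, ψ ≠ 1 → ∀ (z : G) (y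 : ↥(P : Subgroup G)), Cfsg.IsPPart p z (y : G) → (y : G) ≠ 1 → (ζ ψ : G → ℂ) z = (δ : ℂ) * ∑ᶠ ψ' ∈ {ψ' : ↥(P : Subgroup G) →* ℂˣ | ∃ n : G, n ∈ Subgroup.normalizer ((P : Subgroup G) : Set G) ∧ ∀ w w' : ↥(P : Subgroup G), (w' : G) = n * w * n⁻¹ → ψ' w' = ψ w}, ((ψ' y : ℂˣ) : ℂ)) ∧ ((∃ t : G, orderOf t = 2 ∧ ∀ K : Subgroup G, K.Normal → t ∈ K → K = ⊤) → Nat.card {χ : Cfsg.IrrCharacter G // χ ∈ X ∧ (χ : G → ℂ) ≠ (fun _ => 1) ∧ a χ = -1} + (if δ = 1 then 1 else 0) = 2 ∧ ∀ η ∈ Y, IsSquare (Cfsg.charDegree (η : G → ℂ) * ∏ᶠ χ ∈ {χ : Cfsg.IrrCharacter G | χ ∈ X ∧ (χ : G → ℂ) ≠ fun _ => 1}, Cfsg.charDegree (χ : G → ℂ))) := by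
  classical
  have := Fintype.ofFinite G
  have := Fintype.ofFinite (H20.AE P)
  have h : H20.AF P := ⟨fun a b => hab.1.1 a b, hfrob⟩
  have hm : Nat.card (H20.AE P) = 3 := (H20.card_AE P).trans hCN
  obtain ⟨ι, q, μ, a, δ, χ₁, χ₂, E⟩ := h.exists_af3 hM hm hm2
  have D := E.afd
  have hr : (Nat.card P - 1) / 3 = Nat.card ι := hm ▸ D.card_div
  refine ⟨H20.afX M μ, Set.range μ,
    (Set.sdiff_union_of_subset (Set.range_subset_iff.2 D.mem)).symm, Set.disjoint_sdiff_left, ?_,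
    by rw [hr, Nat.card_range_of_injective D.inj], ⟨_, D.triv_mem hM, rfl⟩, a, δ,
    fun ψ => μ (q ψ), D.sign, fun χ hχ => ⟨E.sign χ hχ, fun z y => D.valX hM h hχ⟩,
    fun ψ _ => ⟨_, rfl⟩, ?_, fun ψ ψ' hψ ho => ?_, fun ψ hψ z y hz hy => ?_, ?_⟩
  · rw [E.eq]
    exact Set.ncard_eq_three.2 ⟨_, _, _, E.ne₁, E.ne₂, E.ne, rfl⟩
  · rintro _ ⟨i, rfl⟩
    obtain ⟨ψ, hψ, rfl⟩ := D.surj i
    exact ⟨ψ, hψ, rfl⟩
  · obtain ⟨e, rfl⟩ := (H20.orbit_iff ψ ψ').1 ho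
    exact congrArg μ ((D.q_eq _ _ (H20.lact_ne_one hψ e) hψ).2 ⟨e, rfl⟩)
  · rw [h.finsum_orbit hψ, D.valY hM h hψ hz fun e => hy (congrArg Subtype.val e)]
    simp
  rintro ⟨t, ht, hK⟩
  have hc := D.card
  have h2 := D.two_le
  obtain ⟨ψ, hψ1, hψ⟩ := h.exists_good ht (by omega) (by rw [hm] at hc ⊢; omega)
  obtain ⟨v₁, hv₁⟩ := H20.exists_int_invol (H11.irr_isCharacter χ₁) ht
  obtain ⟨v₂, hv₂⟩ := H20.exists_int_invol (H11.irr_isCharacter χ₂) ht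
  obtain ⟨v₃, hv₃⟩ := H20.exists_int_invol (H11.irr_isCharacter (μ (q ψ))) ht
  have f1 := E.afa_eq hM hψ1 1
  have f2 := E.afa_eq hM hψ1 t
  have f3 := E.formula hM h hm ht hψ1 hψ
  rw [H20.afa_one hM, ← H21.cast_deg, ← H21.cast_deg, ← H21.cast_deg] at f1
  rw [h.afa_invol hM ht hψ, hv₁, hv₂, hv₃] at f2
  rw [hv₁, hv₂, hv₃, ← H21.cast_deg, ← H21.cast_deg, ← H21.cast_deg] at f3
  obtain ⟨k1, k2⟩ := H20.three_sign_lemma (E.sign _ E.mem₁) (E.sign _ E.mem₂) (a₃ := -δ)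
    (by rcases D.sign with h | h <;> simp [h]) (H21.deg_pos χ₁) (H21.deg_pos χ₂)
    (H21.deg_pos (μ (q ψ))) (v₁ := v₁) (v₂ := v₂) (v₃ := v₃) (fun e => E.ne₂ (Subtype.ext
      (H11.irr_eq_one_of_charKer_eq_top χ₂.2 (hK _ (H11.charKer_normal
        (H11.isClassFunction_of_irr χ₂.2)) ((H11.mem_charKer_iff (H11.irr_isCharacter χ₂)).2 (by
          rw [hv₂, e, ← H21.cast_deg]; simp)))).symm))
    (by apply Int.cast_injective (α := ℂ); push_cast; linear_combination -f1)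
    (by apply Int.cast_injective (α := ℂ); push_cast; linear_combination -f2)
    (by push_cast; linear_combination f3)
  have hX : ∀ χ : IrrCharacter G, (χ ∈ H20.afX M μ ∧ χ.1 ≠ fun _ => 1) ↔ χ = χ₁ ∨ χ = χ₂ := by
    intro χ
    have : (χ.1 ≠ fun _ => 1) ↔ χ ≠ H21.triv G :=
      (Subtype.ext_iff (a1 := χ) (a2 := H21.triv G)).not.symm
    rw [E.eq, this]
    have := E.ne₁
    have := E.ne₂
    grind
  refine ⟨?_, ?_⟩
  · simp only [← and_assoc, hX]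
    change Set.ncard {χ | (χ = χ₁ ∨ χ = χ₂) ∧ a χ = -1} + _ = 2
    rcases k2 with ⟨a1, a2, a3⟩ | ⟨a1, a2, a3⟩ | ⟨a1, a2, a3⟩
    · rw [show {χ | (χ = χ₁ ∨ χ = χ₂) ∧ a χ = -1} = {χ₂} by ext; grind, if_pos (by omega)]
      simp
    · rw [show {χ | (χ = χ₁ ∨ χ = χ₂) ∧ a χ = -1} = {χ₁} by ext; grind, if_pos (by omega)]
      simp
    · rw [show {χ | (χ = χ₁ ∨ χ = χ₂) ∧ a χ = -1} = {χ₁, χ₂} by ext; grind, if_neg (by omega),
        Set.ncard_pair E.ne]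
  · rintro _ ⟨i, rfl⟩
    simp only [hX]
    rw [show {χ | χ = χ₁ ∨ χ = χ₂} = {χ₁, χ₂} from rfl, finprod_mem_pair E.ne, mul_comm,
      H21.charDegree_eq ((D.regY hM i (q ψ) (g := 1) (by simpa using hM.1.ne_one)).trans
        (H21.cast_deg _).symm)]
    exact k1

end Cfsg.Agent.S4721
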