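import Cfsg.Statements.S4722
import Cfsg.Agent.H20.Exceptional

set_option autoImplicit false
open Cfsg

namespace Cfsg.Agent.S4722

/-- Let M be a maximal ideal of the algebraic integers containing 2, P a 2-subgroup of the finite group G, U a subset of P, and t an involution of G such that no element of U is inverted by any conjugate of t. Let θ be a generalized character of P vanishing outside U, and for χ in the principal 2-block B₀ put a_χ = #P⁻¹ Σ_{y ∈ P} χ(y) θ(y⁻¹). Then Σ_{χ ∈ B₀} a_χ χ(t)^2/χ(1) = 0, Σ_{χ ∈ B₀} a_χ χ(1) = 0 and Σ_{χ ∈ B₀} a_χ χ(t) = 0. If moreover #P⁻¹ Σ_{y ∈ P} θ(y) ≠ 0, then either at least two of the a_χ have positive real part and at least two have negative real part, or G has a proper normal subgroup containing O_2'(G) and t. -/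
theorem result {G : Type*} [Group G] [Finite G] (M : Ideal Cfsg.AlgInt) (hM : Cfsg.IsPModular 2 M) (P : Subgroup G) (hP : IsPGroup 2 P) (U : Set G) (hUP : U ⊆ (P : Set G)) (t : G) (ht : orderOf t = 2) (hinv : ∀ u ∈ U, ∀ g : G, (g * t * g⁻¹) * u * (g * t * g⁻¹)⁻¹ ≠ u⁻¹) (θ : ↥P → ℂ) (hθ : Cfsg.IsGeneralizedCharacter ↥P θ) (hθU : ∀ y : ↥P, (y : G) ∉ U → θ y = 0) : (∑ᶠ χ ∈ Cfsg.principalBlock M G, ((Nat.card ↥P : ℂ)⁻¹ * ∑ᶠ y : ↥P, (χ : G → ℂ) (y : G) * θ y⁻¹) * (χ : G → ℂ) t ^ 2 / (χ : G → ℂ) 1 = 0) ∧ (∑ᶠ χ ∈ Cfsg.principalBlock M G, ((Nat.card ↥P : ℂ)⁻¹ * ∑ᶠ y : ↥P, (χ : G → ℂ) (y : G) * θ y⁻¹) * (χ : G → ℂ) 1 = 0) ∧ (∑ᶠ χ ∈ Cfsg.principalBlock M G, ((Nat.card ↥P : ℂ)⁻¹ * ∑ᶠ y : ↥P, (χ : G → ℂ) (y : G) * θ y⁻¹) * (χ : G → ℂ) t = 0) ∧ ((Nat.card ↥P : ℂ)⁻¹ * ∑ᶠ y : ↥P, θ y ≠ 0 → (2 ≤ Nat.card {χ : Cfsg.IrrCharacter G // χ ∈ Cfsg.principalBlock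 M G ∧ 0 < (((Nat.card ↥P : ℂ)⁻¹ * ∑ᶠ y : ↥P, (χ : G → ℂ) (y : G) * θ y⁻¹)).re} ∧ 2 ≤ Nat.card {χ : Cfsg.IrrCharacter G // χ ∈ Cfsg.principalBlock M G ∧ (((Nat.card ↥P : ℂ)⁻¹ * ∑ᶠ y : ↥P, (χ : G → ℂ) (y : G) * θ y⁻¹)).re < 0}) ∨ ∃ K : Subgroup G, K.Normal ∧ K ≠ ⊤ ∧ Cfsg.pPrimeCore 2 G ≤ K ∧ t ∈ K) := by
  obtain ⟨h1, h2, h3⟩ := H20.brauer_three_relations hM
    (H17.lamClosed_of_isPBlock hM.2.1 H17.isPBlock_principalBlock) hP ht hinv hθU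
  refine ⟨h1, h2, h3, fun h0 => ?_⟩
  by_cases hK : ∃ K : Subgroup G, K.Normal ∧ K ≠ ⊤ ∧ Cfsg.pPrimeCore 2 G ≤ K ∧ t ∈ K
  · exact Or.inr hK
  have htt : t * t = 1 := by rw [← sq, ← ht, pow_orderOf_eq_one]
  haveI := Fintype.ofFinite P
  have ha : ((Nat.card P : ℂ)⁻¹ * ∑ᶠ y : P, (H21.triv G).1 y * θ y⁻¹).re ≠ 0 := by
    obtain ⟨n, hn⟩ := H11.exists_int_classInner hθ H11.isGen_one
    have e : (Nat.card P : ℂ)⁻¹ * ∑ᶠ y : P, θ y = n := by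
      rw [← hn, H11.classInner_def, finsum_eq_sum_of_fintype]; simp
    have e' : ∑ᶠ y : P, (H21.triv G).1 y * θ y⁻¹ = ∑ᶠ y : P, θ y := by
      rw [finsum_eq_sum_of_fintype, finsum_eq_sum_of_fintype, ← Equiv.sum_comp (Equiv.inv P)]
      simp [H21.triv]
    rw [e', e, Complex.intCast_re]
    rw [e] at h0
    exact_mod_cast h0
  refine Or.inl ⟨H20.brauer_two_pos hM htt _ h1 h2 h3 ha hK, ?_⟩
  have h := H20.brauer_two_pos hM htt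
    (fun χ => -((Nat.card P : ℂ)⁻¹ * ∑ᶠ y : P, χ.1 y * θ y⁻¹))
    (by simp only [neg_mul, neg_div, finsum_neg_distrib, h1, neg_zero])
    (by simp only [neg_mul, finsum_neg_distrib, h2, neg_zero])
    (by simp only [neg_mul, finsum_neg_distrib, h3, neg_zero])
    (by simpa only [Complex.neg_re, neg_ne_zero] using ha) hK
  simpa only [Complex.neg_re, neg_pos] using h

end Cfsg.Agent.S4722
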