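import Cfsg.Statements.S4723
import Cfsg.Agent.H21.Principal
import Cfsg.Agent.H22.Reynolds

set_option autoImplicit false
open Cfsg

namespace Cfsg.Agent.S4723

open Cfsg.Agent.H21

theorem aux {G : Type*} [Group G] [Finite G] {p : ℕ} [Fact p.Prime] {M : Ideal AlgInt}
    (hM : IsPModular p M) (N : Subgroup G) [N.Normal] {k : ℕ} (hk : N.index = p ^ k)
    {b : Set (IrrCharacter N)} (hb : IsPBlock M b) (hst : ∀ g, g ∈ H22.stab N b) :
    ∃ θ ∈ b, nu p θ = minNu p b ∧ ∀ g, H22.cjIrr N g θ = θ := by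
  classical
  have hp : p.Prime := Fact.out
  have := Fintype.ofFinite G
  have := Fintype.ofFinite N
  have hB := H22.isPBlock_above_of_index hM hk hb
  obtain ⟨P, hP⟩ := H17.exists_dg (p := p) hM.2.1 hB
  have hsup := H22.sup_eq_top_of_stab hM hk hb hst hP
  have hdef := (H22.covers_above hM.2.1 hb).isDefect_inf_of_stab hM hB hb hst hP
  rw [← H18.isDefectGroup_subgroupOf_iff hM hb inf_le_right] at hdef
  have h1 := H17.dg_card hM hb hdef
  rw [Nat.card_congr (Subgroup.subgroupOfEquivOfLe inf_le_right).toEquiv] at h1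
  have h2 := H22.card_eq_card_inf_mul (N := N) P
  rw [H22.card_map_mk'_of_not_dvd (N := N) (H17.dg_isPGroup hP)
    (by rw [hsup, Subgroup.index_top]; exact hp.one_lt.ne' ∘ Nat.dvd_one.1), h1,
    H17.dg_card hM hB hP, ← pow_add] at h2
  have h3 := Nat.pow_right_injective hp.two_le h2
  have h4 := minNu_add_defect hM (block_nonempty hM.2.1 hB)
  have h5 := minNu_add_defect hM (block_nonempty hM.2.1 hb)
  have h6 := factorization_card_eq (p := p) N
  obtain ⟨χ, hχ, hν⟩ := exists_nu_eq_minNu (p := p) (block_nonempty hM.2.1 hB)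
  obtain ⟨θ, hθ, ho⟩ := hχ
  have h7 := minNu_le (p := p) hθ
  have ho' := (H22.over_iff _ _ _).1 ho
  have h8 := H14.clifford_degree N χ.2 θ.2 ho'
  obtain ⟨e, he⟩ := H11.exists_nat_classInner
    (H11.isCharacter_restrict (H11.isCharacter_of_irr χ.2) N) (H11.isCharacter_of_irr θ.2)
  rw [he, ← cast_deg, ← cast_deg] at h8
  have h9 : charDegree χ.1 = e * (H14.inertia N θ.1).index * charDegree θ.1 := by
    exact_mod_cast h8
  have he0 : e ≠ 0 := by
    rintro rfl
    exact deg_ne_zero χ (by simpa using h9)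
  have hi0 : (H14.inertia N θ.1).index ≠ 0 := Subgroup.index_ne_zero_of_finite
  have h10 : nu p χ = e.factorization p + (H14.inertia N θ.1).index.factorization p + nu p θ := by
    rw [nu, h9, Nat.factorization_mul (mul_ne_zero he0 hi0) (deg_ne_zero θ),
      Nat.factorization_mul he0 hi0]
    rfl
  refine ⟨θ, hθ, by omega, fun g => H22.mem_inertia_iff.1 ?_⟩
  have h11 : ¬ p ∣ (H14.inertia N θ.1).index := by
    intro h
    have := hp.factorization_pos_of_dvd hi0 h
    omega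
  rw [H22.eq_top_of_not_dvd_index hk (H14.le_inertia N (H17.irr_isClassFunction θ)) h11]
  trivial

/-- Let p be a prime, M a maximal ideal of the algebraic integers containing p, H a normal subgroup of the finite group G and b a p-block of H. Let T be the stabilizer of b in G. Then b contains a character θ of height zero whose own stabilizer in G (the elements g with θ(g h g⁻¹) = θ(h) for all h ∈ H) has index prime to p in T, i.e. contains a Sylow p-subgroup of T. -/
theorem result {G : Type*} [Group G] [Finite G] (p : ℕ) [Fact p.Prime] (M : Ideal Cfsg.AlgInt) (hM : Cfsg.IsPModular p M) (H : Subgroup G) [H.Normal] (b : Set (Cfsg.IrrCharacter ↥H)) (hb : Cfsg.IsPBlock M b) (T : Subgroup G) (hT : (∀ g : G, g ∈ T ↔ ∀ θ ∈ b, ∀ θ' : Cfsg.IrrCharacter ↥H, (∀ h h' : ↥H, (h' : G) = g * h * g⁻¹ → (θ' : ↥H → ℂ) h' = (θ : ↥H → ℂ) h) → θ' ∈ b)) : ∃ θ ∈ b, Cfsg.blockHeight p b (θ : ↥H → ℂ) = 0 ∧ ∃ S : Subgroup G, S ≤ T ∧ (∀ g : G, g ∈ S ↔ (g ∈ T ∧ ∀ h h' : ↥H,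 (h' : G) = g * h * g⁻¹ → (θ : ↥H → ℂ) h' = (θ : ↥H → ℂ) h)) ∧ ¬ p ∣ S.relIndex T := by
  have hTe : T = H22.stab H b := by
    ext g
    rw [hT, H22.mem_stab_iff_forall']
  obtain ⟨S, hS⟩ := H8.exists_isSylowIn p T
  have hHL : H ≤ S ⊔ H := le_sup_right
  have hLT : S ⊔ H ≤ T := sup_le hS.le (hTe ▸ H22.le_stab H b)
  obtain ⟨k, hk⟩ : ∃ k, (H.subgroupOf (S ⊔ H)).index = p ^ k := by
    change ∃ k, H.relIndex (S ⊔ H) = p ^ k
    rw [Subgroup.relIndex_sup_right]
    exact IsPGroup.index hS.isPGroup _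
  obtain ⟨θ', hθ', hν, hinv⟩ := aux hM (H.subgroupOf (S ⊔ H)) hk (H22.isPBlock_toSub hHL hb)
    (fun g => (H22.mem_stab_toSub hHL g b).2 (hTe ▸ hLT g.2))
  obtain ⟨θ, hθ, rfl⟩ := hθ'
  have hmin : minNu p (H22.toSub hHL '' b) = minNu p b := by
    rw [minNu, minNu, H22.image_degree_factorization]
  rw [H22.nu_toSub, hmin] at hν
  refine ⟨θ, hθ, (height_eq_zero_iff hθ).2 hν, T ⊓ H14.inertia H θ.1, inf_le_left, fun g => ?_, ?_⟩
  · rw [Subgroup.mem_inf, H14.mem_inertia']
    refine and_congr_right fun _ => ⟨fun h x x' hx => ?_, fun h n => h _ _ rfl⟩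
    rw [← h x]
    exact congrArg θ.1 (Subtype.ext hx)
  · have hle : S ≤ T ⊓ H14.inertia H θ.1 := by
      refine le_inf hS.le fun g hg => H22.mem_inertia_iff.2 ?_
      have := hinv ⟨g, Subgroup.mem_sup_left hg⟩
      rw [H22.cjIrr_toSub] at this
      exact (H22.toSub hHL).injective this
    exact fun h => hS.not_dvd (h.trans (Subgroup.relIndex_dvd_of_le_left T hle))

end Cfsg.Agent.S4723
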