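import Cfsg.Statements.S4724
import Cfsg.Agent.H58.PD
import Cfsg.Agent.S0799
import Cfsg.Agent.S0253
import Cfsg.Agent.S0494
import Cfsg.Agent.H28.PSL2Small

set_option autoImplicit false
open Cfsg

namespace Cfsg.Agent.S4724

open MulAction Subgroup
open scoped MatrixGroups

section Aux

variable {G : Type*} [Group G] [Finite G] {p : ℕ} [hp : Fact p.Prime]

theorem selfCent {Ω : Type*} [MulAction G Ω] [Finite Ω] [FaithfulSMul G Ω] [IsPretransitive G Ω]
    (hΩ : Nat.card Ω = p) (P : Sylow p G) : H58.SelfCent p G := by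
  obtain ⟨t, c, -, h1, h2⟩ := H59.exists_coord_sylow hΩ P
  refine .of_one P (H59.card_sylow_eq_prime hΩ P) fun g hg => ?_
  have h3 := H59.isAff_of_conj h2 (s := g) (n := 1) (by
    rw [pow_one, ← hg t (h1 ▸ mem_zpowers t), mul_inv_cancel_right])
  rw [show g = t ^ (c.symm (g • c 0)).val from FaithfulSMul.eq_of_smul_eq_smul (α := Ω) fun a => by
    obtain ⟨y, rfl⟩ := c.surjective a
    rw [H59.pow_smul_coord h2, h3]; simp, ← h1]
  exact pow_mem (mem_zpowers t) _

theorem galois [IsSimpleGroup G] (hG : ¬ IsMulCommutative G) (hp5 : 5 ≤ p) (H : Subgroup G)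
    (hH : H.index = p) (φ : G ≃* PSL(2, ZMod p)) : p = 5 ∨ p = 7 ∨ p = 11 := by
  have h1 := H28.card_PSL2 (ZMod.card p)
  obtain ⟨k, hk⟩ := hp.out.odd_of_ne_two (by omega)
  have h2 : Nat.gcd 2 (p - 1) = 2 := Nat.gcd_eq_left ⟨k, by omega⟩
  have h3 := H.index_mul_card
  have h4 := Nat.card_congr (H.equivMapOfInjective (φ : G →* PSL(2, ZMod p)) φ.injective).toEquiv
  rw [h2, ← Nat.card_congr φ.toEquiv, ← h3, hH, mul_left_comm, mul_right_inj' hp.out.ne_zero] at h1
  have h5 : 2 * Nat.card H + 1 = p * p := by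
    have := Nat.one_le_pow 2 p hp.out.pos
    rw [← sq]; omega
  have h6 : ∀ {A : Type} [Group A] {n : ℕ}, Nat.card A = n →
      Nonempty (H.map (φ : G →* PSL(2, ZMod p)) ≃* A) → Nat.card H = n :=
    fun h ⟨ψ⟩ => h4.trans ((Nat.card_congr ψ.toEquiv).trans h)
  rcases S0799.result (ZMod.card p) p (H.map (φ : G →* PSL(2, ZMod p))) with
    ⟨m, h7, h8⟩ | ⟨Q, K, h7, ⟨ψ⟩⟩ | h | h | h | ⟨K, _, _, m, h7, h8⟩
  · have h9 : 2 * m ≤ p + 1 := by
      rw [h2] at h7
      rcases h7 with h | h <;> have := Nat.le_of_dvd (by omega) h <;> omega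
    have h10 : Nat.card H ≤ 2 * m := by
      rcases h8 with h | h
      · omega
      · exact (h6 DihedralGroup.nat_card h).le
    nlinarith
  · have := φ.symm.isSimpleGroup
    have h8 := H58.card_normalizer_mul_card_sylow Q
    have h9 := H58.one_lt_card_sylow (G := PSL(2, ZMod p)) (p := p)
      (fun h => hG ⟨⟨fun a b => φ.injective (by simp [h.1.1 (φ a)])⟩⟩)
      (by rw [← Nat.card_congr φ.toEquiv, ← h3, hH]; exact dvd_mul_right _ _)
    obtain ⟨n, h10⟩ := H58.exists_card_sylow_eq p PSL(2, ZMod p)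
    have h11 := card_le_of_le h7
    rw [← Nat.card_congr ψ.toEquiv, ← h4] at h11
    rw [← Nat.card_congr φ.toEquiv, ← h3, hH, h10] at h8
    have : 0 < n := by rcases n with _ | n <;> omega
    have h12 := Nat.mul_le_mul h11 (show p + 1 ≤ 1 + n * p by nlinarith)
    have := Nat.card_pos (α := H)
    erw [h8] at h12
    nlinarith
  · have := h6 (n := 12) (by rw [nat_card_alternatingGroup]; simp; rfl) h
    left; nlinarith
  · have := h6 (n := 24) (by rw [Nat.card_perm]; simp; rfl) h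
    right; left; nlinarith
  · have := h6 (n := 60) (by rw [nat_card_alternatingGroup]; simp; rfl) h
    right; right; nlinarith
  · have h9 := (hp.out.pow_eq_iff.1 h7).1
    have h10 : p ∣ 2 * Nat.card H := by
      rcases h8 with h | h
      · have := H28.card_PSL2 h9
        rw [h2, ← h6 rfl h] at this
        exact ⟨_, this⟩
      · rw [h6 H29.card_PGL2 h, Nat.card_eq_fintype_card, h9]
        exact Dvd.dvd.mul_left (Dvd.dvd.mul_left (dvd_mul_right _ _) _) _
    exact absurd (Nat.dvd_one.1 ((Nat.dvd_add_right h10).1 ⟨p, h5⟩)) hp.out.one_lt.ne'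

omit [Finite G] in
theorem mem_normalizer_of_TI {E : Subgroup G} (hTI : ∀ g : G, g ∉ normalizer (E : Set G) →
    E ⊓ E.map (MulAut.conj g).toMonoidHom = ⊥) {y g : G} (hy : y ∈ E) (h1 : y ≠ 1)
    (h : g * y * g⁻¹ ∈ E) : g ∈ normalizer (E : Set G) := by
  by_contra hg
  have : g * y * g⁻¹ ∈ E ⊓ E.map (MulAut.conj g).toMonoidHom := ⟨h, y, hy, rfl⟩
  rw [hTI g hg, mem_bot, conj_eq_one_iff] at this
  exact h1 this

theorem dih [IsSimpleGroup G] (hG : ¬ IsMulCommutative G) {x : G} {e : ℕ} (hx : orderOf x = e)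
    (he : Odd e) (hN : Nat.card (normalizer (zpowers x : Set G)) = 2 * e)
    (hTI : ∀ g : G, g ∉ normalizer (zpowers x : Set G) →
      zpowers x ⊓ (zpowers x).map (MulAut.conj g).toMonoidHom = ⊥) : H58.Dih x e := by
  have hE : Nat.card (zpowers x) = e := by rw [Nat.card_zpowers, hx]
  have h1 : ((zpowers x).subgroupOf (normalizer (zpowers x : Set G))).index = 2 := by
    have := ((zpowers x).subgroupOf (normalizer (zpowers x : Set G))).index_mul_card
    rw [hN, Nat.card_congr (subgroupOfEquivOfLe le_normalizer).toEquiv, hE] at this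
    exact Nat.eq_of_mul_eq_mul_right he.pos this
  have h2 : ∀ g ∈ normalizer (zpowers x : Set G), Odd (orderOf g) → g ∈ zpowers x := fun g hg h => by
    obtain ⟨k, hk⟩ := h
    have h3 : g ^ 2 ∈ zpowers x := sq_mem_of_index_two h1 ⟨g, hg⟩
    rw [show g = (g ^ 2) ^ (k + 1) by
      rw [← pow_mul, show 2 * (k + 1) = orderOf g + 1 by omega, pow_succ, pow_orderOf_eq_one,
        one_mul]]
    exact pow_mem h3 _
  have h3 : ∀ a ∈ zpowers x, ∀ b ∈ zpowers x, a * b = b * a := by
    rintro _ ⟨i, rfl⟩ _ ⟨j, rfl⟩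
    exact zpow_mul_comm x i j
  have h4 : ∀ y ∈ zpowers x, Odd (orderOf y) := fun y hy =>
    he.of_dvd_nat (hE ▸ orderOf_dvd_natCard _ hy)
  obtain ⟨⟨s, hs⟩, hs2⟩ := exists_prime_orderOf_dvd_card' (G := normalizer (zpowers x : Set G)) 2
    (hN ▸ dvd_mul_right _ _)
  rw [← orderOf_coe] at hs2
  have hss : s * s = 1 := by rw [← sq, ← hs2]; exact pow_orderOf_eq_one s
  have h5 : s ∉ zpowers x := fun h => absurd (hs2 ▸ h4 s h) (by decide)
  have h6 : ∀ g ∈ normalizer (zpowers x : Set G), g ∉ zpowers x → s * g ∈ zpowers x :=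
    fun g hg h => (mul_mem_iff_of_index_two h1 (a := ⟨s, hs⟩) (b := ⟨g, hg⟩)).2
      (iff_of_false h5 h)
  obtain ⟨k, hk⟩ := (mem_normalizer_iff.1 hs x).1 (mem_zpowers x)
  have h7 : ∀ w ∈ zpowers x, s * w * s⁻¹ = w ^ k := by
    rintro _ ⟨i, rfl⟩
    simp only [← conj_zpow, ← hk, zpow_comm]
  have h8 : ∀ y ∈ zpowers x, s * y * s⁻¹ = y → y = 1 := fun y hy h => by
    by_contra h0
    obtain ⟨i, r, hr, h9⟩ := H58.exists_prime_order_pow h0
    have h10 : s * y ^ i * s⁻¹ = y ^ i := by rw [← conj_pow, h]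
    have h11 := pow_mem hy i
    generalize y ^ i = w at *
    have := Fact.mk hr
    have h12 : w ≠ 1 := by rintro rfl; exact hr.one_lt.ne (by simpa using h9)
    have h13 : Odd r := h9 ▸ h4 w h11
    obtain ⟨R, hR⟩ := (H58.isPGroup_zpowers_of_orderOf_eq h9).exists_le_sylow
    have hw := hR (mem_zpowers w)
    have h14 : ∀ g ∈ (R : Subgroup G), Odd (orderOf g) := fun g hg => by
      obtain ⟨n, hn⟩ := IsPGroup.iff_orderOf.1 R.2 ⟨g, hg⟩
      rw [← orderOf_coe] at hn
      exact hn ▸ h13.pow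
    have : Nontrivial (R : Subgroup G) := ⟨⟨⟨w, hw⟩, 1, fun h => h12 (congrArg Subtype.val h)⟩⟩
    obtain ⟨⟨⟨z, hz⟩, hz'⟩, hz1⟩ := (nontrivial_iff_exists_ne 1).1 R.2.center_nontrivial
    have h15 : ∀ g ∈ (R : Subgroup G), g * z = z * g := fun g hg =>
      congrArg Subtype.val (mem_center_iff.1 hz' ⟨g, hg⟩)
    have h16 : z ∈ zpowers x := h2 z (mem_normalizer_of_TI hTI h11 h12 (by
      rwa [← h15 w hw, mul_inv_cancel_right])) (h14 z hz)
    have h17 : (R : Subgroup G) ≤ zpowers x := fun g hg => h2 g (mem_normalizer_of_TI hTI h16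
      (fun h => hz1 (Subtype.ext (Subtype.ext h))) (by rwa [h15 g hg, mul_inv_cancel_right]))
      (h14 g hg)
    refine H58.not_normalizer_le_centralizer hG R (h9 ▸ orderOf_dvd_natCard w) fun g hg y hy => ?_
    by_cases h18 : g ∈ zpowers x
    · exact h3 _ (h17 hy) _ h18
    have h19 := h3 _ (h17 hy) _ (h6 g (mem_normalizer_of_TI hTI h11 h12
      (h17 ((mem_normalizer_iff.1 hg w).1 hw))) h18)
    obtain ⟨n, hn⟩ := IsPGroup.iff_orderOf.1 R.2 ⟨y, hy⟩
    rw [← orderOf_coe] at hn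
    have h20 : (r : ℤ) ∣ k - 1 := by
      rw [← h9, orderOf_dvd_iff_zpow_eq_one, zpow_sub, ← h7 w h11, h10]; simp
    have h21 : ((r ^ n : ℕ) : ℤ) ∣ (k - 1) * (k + 1) := by
      rw [← hn, orderOf_dvd_iff_zpow_eq_one, show (k - 1) * (k + 1) = k * k - 1 by ring, zpow_sub,
        zpow_mul, ← h7 y (h17 hy), ← h7 _ ((mem_normalizer_iff.1 hs y).1 (h17 hy))]
      simp [← mul_assoc, hss, mul_assoc y, ← mul_inv_rev]
    have h22 : IsCoprime ((r ^ n : ℕ) : ℤ) (k + 1) := by
      rw [Nat.cast_pow]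
      refine IsCoprime.pow_left ((Nat.prime_iff_prime_int.1 hr).coprime_iff_not_dvd.2 fun h => ?_)
      have := Int.natCast_dvd_natCast.1 (show (r : ℤ) ∣ (2 : ℕ) by simpa using dvd_sub h h20)
      rw [(Nat.prime_dvd_prime_iff_eq hr Nat.prime_two).1 this] at h13
      exact absurd h13 (by decide)
    have h23 := h22.dvd_of_dvd_mul_right h21
    rw [← hn, orderOf_dvd_iff_zpow_eq_one, zpow_sub, ← h7 y (h17 hy), zpow_one, mul_inv_eq_one,
      mul_inv_eq_iff_eq_mul] at h23
    rw [← mul_assoc, ← h23, mul_assoc, mul_assoc] at h19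
    exact mul_left_cancel h19
  have h9 : ∀ g ∈ normalizer (zpowers x : Set G), g ∉ zpowers x → ∀ y ∈ zpowers x,
      g * y * g⁻¹ = y⁻¹ := fun g hg h y hy => by
    have h9 := (mem_normalizer_iff.1 hs y).1 hy
    have h10 := h8 _ (mul_mem hy h9) (by
      rw [← conj_mul, h3 _ hy _ h9, inv_eq_of_mul_eq_one_right hss]
      congr 1
      rw [← mul_assoc, ← mul_assoc, hss, one_mul, mul_assoc, hss, mul_one])
    have h11 := h3 _ hy _ (h6 g hg h)
    rw [← eq_inv_of_mul_eq_one_right h10]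
    calc g * y * g⁻¹ = s * (s * g * y) * g⁻¹ := by simp [← mul_assoc, hss]
      _ = s * y * (s * g * g⁻¹) := by rw [← h11]; group
      _ = s * y * s⁻¹ := by rw [mul_inv_cancel_right, inv_eq_of_mul_eq_one_right hss]
  have h10 : ∀ j, ¬ e ∣ j → x ^ j ≠ 1 := fun j hj h => hj (hx ▸ orderOf_dvd_of_pow_eq_one h)
  refine ⟨hx, he, fun j hj => ?_, fun i j hi => ⟨fun h => ?_, ?_⟩⟩
  · rw [← hE]
    congr 2
    have h11 := pow_mem (mem_zpowers x) j
    refine le_antisymm (fun g hg => ?_) fun g hg =>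
      mem_centralizer_singleton_iff.2 (h3 _ hg _ h11)
    by_contra h
    rw [mem_centralizer_singleton_iff, ← mul_inv_eq_iff_eq_mul] at hg
    rw [h9 g (mem_normalizer_of_TI hTI h11 (h10 j hj) (hg.symm ▸ h11)) h _ h11] at hg
    exact h10 j hj (h8 _ h11 ((h9 s hs h5 _ h11).trans hg))
  · obtain ⟨g, hg⟩ := isConj_iff.1 h
    have h11 := pow_mem (mem_zpowers x) i
    by_cases h : g ∈ zpowers x
    · left; rw [← hg, h3 _ h _ h11, mul_inv_cancel_right]
    · right
      rw [← hg, h9 g (mem_normalizer_of_TI hTI h11 (h10 i hi)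
        (hg.symm ▸ pow_mem (mem_zpowers x) j)) h _ h11]
  · rintro (h | h)
    · rw [h]
    · exact isConj_iff.2 ⟨s, h ▸ h9 s hs h5 _ (pow_mem (mem_zpowers x) i)⟩

end Aux

theorem sign_eq {α : Type*} [Fintype α] [DecidableEq α] {p : ℕ} [hp : Fact p.Prime] (hp2 : p ≠ 2)
    (c : ZMod p ≃ α) {g : Equiv.Perm α} {a b : ZMod p} (ha : orderOf a = p - 1)
    (hg : ∀ y, g (c y) = c (a * y + b)) (ho : orderOf g = p - 1) : Equiv.Perm.sign g = -1 := by
  have h0 := hp.out.two_le
  have h1 : a - 1 ≠ 0 := fun h => by rw [sub_eq_zero.1 h, orderOf_one] at ha; omega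
  have h2 : a ≠ 0 := by rintro rfl; simp at ha; omega
  obtain ⟨f, hf⟩ : ∃ f, a * f + b = f := ⟨-b / (a - 1), by field_simp; ring⟩
  have h3 : ∀ (j : ℕ) y, (g ^ j) (c (y + f)) = c (a ^ j * y + f) := fun j y => by
    induction j with
    | zero => simp
    | succ j ih => rw [pow_succ', Equiv.Perm.mul_apply, ih, hg]; congr 1; linear_combination hf
  have h4 : g.IsCycle := by
    refine ⟨c (1 + f), ?_, fun y hy => ?_⟩
    · rw [hg, Ne, c.apply_eq_iff_eq]
      exact fun h => h1 (by linear_combination h - hf)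
    · obtain ⟨y, rfl⟩ := c.surjective y
      have h4 : y - f ≠ 0 := fun h => hy (by rw [sub_eq_zero.1 h, hg, hf])
      have h5 : zpowers (Units.mk0 a h2) = ⊤ := by
        rw [← Subgroup.card_eq_iff_eq_top, Nat.card_zpowers, ← orderOf_units, Units.val_mk0, ha,
          Nat.card_units, Nat.card_zmod]
      obtain ⟨j, hj⟩ := (mem_powers_iff_mem_zpowers (x := Units.mk0 a h2)).2
        (h5 ▸ mem_top (Units.mk0 _ h4))
      refine ⟨(j : ℕ), ?_⟩
      rw [zpow_natCast, h3, mul_one, show a ^ j = y - f by simpa using congrArg Units.val hj,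
        sub_add_cancel]
  rw [h4.sign, ← h4.orderOf, ho, (hp.out.even_sub_one hp2).neg_one_pow]

/-- Let G be a transitive permutation group of prime degree p having exactly one irreducible character of degree p. Let P be a Sylow p-subgroup and suppose N_G(P) = P·E for a subgroup E with P ∩ E = 1, such that the normalizer of E has order 2·#E and E meets each of its conjugates by elements outside its normalizer trivially. Then p is 5, 7 or 11 and G is isomorphic to PSL(2, p). -/
theorem result {α : Type*} [Fintype α] [DecidableEq α] {p : ℕ} [Fact p.Prime] (hα : Fintype.card α = p) (G : Subgroup (Equiv.Perm α)) [MulAction.IsPretransitive G α] (huniq : ∃! χ : Cfsg.IrrCharacter G, Cfsg.charDegree (χ : G → ℂ) = p) (P : Sylow p G) (E : Subgroup G) (hPE : (P : Subgroup G) ⊔ E = Subgroup.normalizer ((P : Subgroup G) : Set G)) (hPE' : (P : Subgroup G) ⊓ E = ⊥) (hNE : Nat.card (Subgroup.normalizer (E : Set G)) = 2 * Nat.card E) (hTI : ∀ g : G, g ∉ Subgroup.normalizer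 (E : Set G) → E ⊓ E.map (MulAut.conj g).toMonoidHom = ⊥) : (p = 5 ∨ p = 7 ∨ p = 11) ∧ ∃ (F : Type) (_ : Field F) (_ : Fintype F), Fintype.card F = p ∧ Nonempty (G ≃* Matrix.ProjectiveSpecialLinearGroup (Fin 2) F) := by
  classical
  have hp : p.Prime := Fact.out
  have hΩ : Nat.card α = p := by rw [Nat.card_eq_fintype_card, hα]
  have h := selfCent hΩ P
  have hP := h.card P
  obtain ⟨X, hX, hX'⟩ := huniq
  have hn : ¬ (P : Subgroup G).Normal := fun hn => by
    obtain ⟨k, h1, h2⟩ := H59.card_normalizer_sylow hΩ P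
    have h3 := H58.charDegree_sq_le X
    have h4 := Nat.le_of_dvd (by have := hp.two_le; omega) h1
    rw [normalizer_eq_top, card_top] at h2
    rw [hX, h2, sq] at h3
    have := Nat.le_of_mul_le_mul_left h3 hp.pos
    have := hp.pos
    omega
  obtain ⟨u, x₀, a, e, S₀⟩ := H58.exists_sett P hP
  have hC : ∀ c, Commute u c → c ∈ (P : Subgroup G) := fun c hc =>
    h.mem_of_commute P S₀.u_mem S₀.u_ne hc
  have hE : E ≤ normalizer ((P : Subgroup G) : Set G) := hPE ▸ le_sup_right
  have hE1 : ∀ c ∈ E, Commute u c → c = 1 := fun c h h' => (mem_bot.1 (hPE' ▸ ⟨hC c h', h⟩))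
  obtain ⟨x, hx, S⟩ : ∃ x ∈ E, H58.Sett P u x a e := by
    have h1 := S₀.x_mem
    rw [← hPE, ← SetLike.mem_coe, coe_mul_of_right_le_normalizer_left _ _ hE] at h1
    obtain ⟨y, hy, x, hx, rfl⟩ := h1
    refine ⟨x, hx, S₀.hP, S₀.ou, ?_, S₀.α0, S₀.oα, fun h => ?_, S₀.gen⟩
    · have h2 := S₀.xu
      simp only [mul_inv_rev, ← mul_assoc] at h2
      rw [mul_inv_eq_iff_eq_mul, h.comm P (S₀.upow_mem a) hy, mul_assoc y, mul_assoc y] at h2
      exact mul_left_cancel h2
    · rw [hE1 x hx (S₀.commute_of_dvd (hE hx) h), orderOf_one] at h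
      exact hp.one_lt.ne' (Nat.dvd_one.1 h)
  clear S₀
  have hxe : x ^ e = 1 := hE1 _ (pow_mem hx e) (S.commute_pow_iff.2 dvd_rfl)
  have ox : orderOf x = e := Nat.dvd_antisymm (orderOf_dvd_of_pow_eq_one hxe)
    (S.commute_pow_iff.1 (by rw [pow_orderOf_eq_one]; exact Commute.one_right u))
  obtain rfl : E = zpowers x := le_antisymm (fun g hg => by
    obtain ⟨j, -, c, hc, rfl⟩ := S.exists_pow_mul (hE hg)
    rw [hE1 c ((mul_mem_cancel_left (pow_mem hx j)).1 hg) hc, mul_one]
    exact pow_mem (mem_zpowers x) j) (zpowers_le.2 hx)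
  rw [Nat.card_zpowers, ox] at hNE
  have he1 : ¬ e ∣ 1 := fun h1 => hn (by
    have h2 := H59.card_eq_prime_of_normalizer_le hΩ P fun g hg => by
      obtain ⟨j, hj, c, hc, rfl⟩ := S.exists_pow_mul hg
      rw [show j = 0 by have := Nat.dvd_one.1 h1; omega, pow_zero, one_mul]
      exact hC c hc
    rw [(card_eq_iff_eq_top _).1 (hP.trans h2.symm)]
    infer_instance)
  have hXc := H11.irr_isCharacter X
  obtain ⟨l, hl1, hl2, hl⟩ := S.exists_lam hXc (τ := 1) norm_one (by simp [hxe]) (by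
    have h1 := H58.cast_mu hXc S.up 0
    rw [H58.fco, Finset.sum_eq_single 0 (fun i _ hi => by
      rw [S.vanish X hX.symm.dvd (H58.orderOf_upow S.ou hi).symm.dvd, zero_mul]) (by simp),
      H58.upow_zero, ← H21.cast_deg, hX] at h1
    simpa [H58.p_ne_zero] using h1)
  have hK : ∀ K : Subgroup G, K.Normal → K ≠ ⊥ → p ∣ Nat.card K := fun K _ h0 =>
    have := H59.normal_isPretransitive_of_prime hΩ K h0
    H59.prime_dvd_card_of_transitive (G := K) hΩ
  have hG : ¬ IsMulCommutative G := fun h => hn ⟨fun y hy g => by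
    rwa [h.1.1 g y, mul_inv_cancel_right]⟩
  have hperf : _root_.commutator G = ⊤ := by
    have h1 := h.le_of_dvd P (hK (_root_.commutator G) inferInstance fun h =>
      hG ((commutator_eq_bot_iff G).1 h))
    have h2 : x ∈ _root_.commutator G := by
      by_contra h2
      obtain ⟨φ, hφ⟩ := CommGroup.exists_apply_ne_one_of_hasEnoughRootsOfUnity
        (Abelianization G) ℂ (a := Abelianization.of x) fun h => h2 (by
          rwa [← Abelianization.ker_of, MonoidHom.mem_ker])
      have h3 := H11.isIrrCharacter_monoidHom (φ.comp Abelianization.of)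
      have h4 := congrFun (congrArg Subtype.val (hX' ⟨_, H11.isIrrCharacter_mul_linear X.2
        (H11.isCharacter_of_irr h3) (by simp)⟩ (by simpa [charDegree] using hX))) x
      have h5 := hl 1 he1
      rw [pow_one, pow_one] at h5
      simp only [Pi.mul_apply, h5] at h4
      exact hφ (Units.ext ((mul_eq_left₀ (by rintro rfl; simp at hl1)).1 h4))
    rw [eq_top_iff, ← Sylow.normalizer_sup_eq_top' P h1, ← P.coe_coe, ← hPE]
    exact sup_le (sup_le h1 (zpowers_le.2 h2)) le_rfl
  have : Nontrivial G := ⟨⟨u, 1, S.u_ne⟩⟩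
  have : IsSimpleGroup G := ⟨fun K _ => (eq_or_ne K ⊥).imp_right fun h0 =>
    top_le_iff.1 (hperf ▸ h.commutator_le_of_dvd (hK K inferInstance h0))⟩
  obtain ⟨e', t, h1, he2, het, ⟨D⟩⟩ := H58.exists_brData hperf P hP
  obtain rfl : e = e' := S.relIndex_eq.symm.trans h1
  have hp2 := hp.two_le
  have ht : 0 < t := by rcases t with _ | t <;> omega
  have hp3 : 3 ≤ p := by have := Nat.le_mul_of_pos_right e ht; omega
  suffices 5 ≤ p ∧ Nonempty (G ≃* PSL(2, ZMod p)) by
    obtain ⟨h5, ⟨φ⟩⟩ := this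
    obtain ⟨ω⟩ : Nonempty α := Fintype.card_pos_iff.1 (by omega)
    exact ⟨galois hG h5 (stabilizer G ω) ((index_stabilizer_of_transitive G ω).trans hΩ) φ,
      ZMod p, inferInstance, inferInstance, ZMod.card p, ⟨φ⟩⟩
  rcases Nat.even_or_odd' e with ⟨k, hk | hk⟩
  · have h2 : t ≠ 1 := by
      rintro rfl
      obtain ⟨c, hc⟩ := H59.exists_coord_of_orderOf hΩ S.ou
      have h2 := sign_eq (by omega) c (g := x) (a := a) (by rw [S.oα]; omega) (fun y => by
        have := H59.isAff_of_conj hc (s := x) (n := a.val) S.xu y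
        rwa [ZMod.natCast_zmod_val] at this) (by
        rw [orderOf_coe, ox]; omega)
      rw [show Equiv.Perm.sign x.1 = 1 from H58.hom_comm_eq_one hG
        (Equiv.Perm.sign.comp G.subtype) x] at h2
      exact absurd h2 (by decide)
    have h3 : ¬ e ∣ k := Nat.not_dvd_of_pos_of_lt (by omega) (by omega)
    have h4 : x ^ k * x ^ k = 1 := by rw [← pow_add, ← two_mul, ← hk, hxe]
    have h5 : x ^ k ≠ 1 := fun h => h3 (ox ▸ orderOf_dvd_of_pow_eq_one h)
    have h6 := S.card_mul_le h D ht (by omega) h3 h4 rfl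
    have h7 : Nat.card (centralizer ({x ^ k} : Set G)) ≤ 2 * e := hNE ▸ card_le_of_le fun g hg =>
      mem_normalizer_of_TI hTI (pow_mem (mem_zpowers x) k) h5 (by
        rw [mem_centralizer_singleton_iff.1 hg, mul_inv_cancel_right]
        exact pow_mem (mem_zpowers x) k)
    obtain ⟨n, h8⟩ := H58.exists_card_sylow_eq p G
    have h9 := S.card_G
    rw [h.cent P, hP, h8] at h9
    have h10 : 2 * e + 1 ≤ p := by
      have := Nat.mul_le_mul_left e (show 2 ≤ t by omega)
      omega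
    have h11 : n ≤ 3 := by
      by_contra h11
      rw [h9] at h6
      generalize Nat.card (centralizer ({x ^ k} : Set G)) = c at *
      have h12 : (4 : ℝ) ≤ n := by exact_mod_cast (by omega : 4 ≤ n)
      have h13 : (c : ℝ) ≤ 2 * e := by exact_mod_cast h7
      have h14 : (2 * e + 1 : ℝ) ≤ p := by exact_mod_cast h10
      have h15 : (2 : ℝ) ≤ e := by exact_mod_cast he2
      have h16 : (0 : ℝ) ≤ c := Nat.cast_nonneg c
      push_cast at h6
      have h17 : (c : ℝ) ^ 2 ≤ 2 * e * (p - 1) := by nlinarith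
      have h18 : (4 : ℝ) * p * (e * p) * (p + 1) ≤ (1 + n * p) * (e * p) * (2 * p - c) := by
        gcongr <;> nlinarith
      have h19 : (c : ℝ) ^ 2 * p * (2 * p - 1) ≤ 2 * e * (p - 1) * p * (2 * p - 1) := by
        gcongr; linarith
      have h20 : (0 : ℝ) < e * p * (10 * p - 2) := by
        have : (0 : ℝ) < 10 * p - 2 := by linarith
        have : (0 : ℝ) < p := by linarith
        positivity
      nlinarith
    have h12 : 5 ≤ p := by omega
    rcases (H58.brauer_simple hG P hP h8 fun h => by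
      have := H58.le_of_formF hp.one_le h; omega).2 with h13 | ⟨m, h13, h14, -⟩
    · exact ⟨h12, h13.2.2⟩
    · rw [← h13, show 2 ^ m = p - 1 by omega, h9, mul_comm e, mul_left_comm,
        mul_right_inj' hp.ne_zero] at h14
      obtain ⟨q, rfl⟩ : ∃ q, p = q + 2 := ⟨p - 2, by omega⟩
      rw [show q + 2 - 1 = q + 1 from rfl, Nat.add_sub_cancel] at h14
      have h15 : q + 2 ∣ e - 2 := by
        zify [he2] at h14 ⊢
        exact ⟨q - 1 - n * e, by linarith⟩
      obtain rfl : e = 2 := by have := Nat.eq_zero_of_dvd_of_lt h15 (by omega); omega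
      have h16 : q < 8 := by nlinarith
      have h17 : q = 3 := by
        have h17 : 3 ≤ q := by omega
        interval_cases q
        · rfl
        · omega
        · rcases m with _ | _ | _ | m <;> omega
        · omega
        · exact absurd hp (by norm_num)
      subst h17
      obtain ⟨φ⟩ := S0494.result (G := G) (by omega)
      obtain ⟨ψ⟩ := S0253.result (ZMod.card (3 + 2))
      exact ⟨le_rfl, ⟨φ.trans ψ.symm⟩⟩
  · have H := dih hG ox ⟨k, hk⟩ hNE hTI
    have h2 : l = 1 := by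
      have h2 := H.real hXc one_pos (by omega)
      rw [hl 1 he1, pow_one] at h2
      have h3 : l ^ 2 = 1 := by
        rw [sq]; nth_rw 2 [← h2]; rw [Complex.mul_conj, Complex.normSq_eq_norm_sq, hl1]; simp
      rwa [hk, pow_succ, pow_mul, h3, one_pow, one_mul] at hl2
    obtain ⟨θ, h3, h4⟩ := S.small_of_dih h D hn het (by omega) H hX fun j hj => by
      rw [hl j hj, h2, one_pow]
    obtain ⟨-, h5, h6⟩ := S.equiv_of_small hn (H11.irr_isCharacter θ)
      (H58.faithful_of_simple (D.ne_triv_of_mem_Y h3)) h4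
    exact ⟨by omega, H58.nonempty_equiv_of_quotient_bot (H58.center_eq_bot hG) h6⟩

end Cfsg.Agent.S4724
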