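import Cfsg.Statements.S4726
import Cfsg.Agent.H17.Root

set_option autoImplicit false
open Cfsg

namespace Cfsg.Agent.S4726

/-- Let p be a prime, M a maximal ideal of the algebraic integers containing p, H a subgroup of the finite group G and b a p-block of H with defect group D₀ such that C_G(D₀) ≤ H. Then b induces a block of G, and for every block B of G induced by b there is a defect group D of B with Z(D) ≤ Z(D₀) ≤ D₀ ≤ D (as subgroups of G). In particular, if the defect groups of B are abelian then D₀ is a defect group of B. -/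
theorem result {G : Type*} [Group G] [Finite G] (p : ℕ) [Fact p.Prime] (M : Ideal Cfsg.AlgInt) (hM : Cfsg.IsPModular p M) (H : Subgroup G) (b : Set (Cfsg.IrrCharacter ↥H)) (hb : Cfsg.IsPBlock M b) (D₀ : Subgroup ↥H) (hD₀ : Cfsg.IsDefectGroup p M b D₀) (hC : Subgroup.centralizer ((D₀.map H.subtype : Subgroup G) : Set G) ≤ H) : Cfsg.InducedBlockDefined M H b ∧ ∀ B : Set (Cfsg.IrrCharacter G), Cfsg.IsInducedBlock M H b B → (∃ D : Subgroup G, Cfsg.IsDefectGroup p M B D ∧ (Subgroup.center ↥D).map D.subtype ≤ ((Subgroup.center ↥D₀).map D₀.subtype).map H.subtype ∧ ((Subgroup.center ↥D₀).map D₀.subtype).map H.subtype ≤ D₀.map H.subtype ∧ D₀.map H.subtype ≤ D) ∧ (∀ D : Subgroup G, Cfsg.IsDefectGroup p M B D → IsMulCommutative ↥D → Cfsg.IsDefectGroup p M B (D₀.map H.subtype)) := by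
  refine ⟨H17.inducedBlockDefined_of_Cz_le hM hb hD₀ hC, fun B hB => ?_⟩
  obtain ⟨D, hD, h1, h2⟩ := H17.IsInducedBlock.exists_dg_centric hM hB hD₀ hC
  refine ⟨⟨D, hD, ?_, Subgroup.map_mono (Subgroup.map_subtype_le _), h1⟩, fun E hE hab => ?_⟩
  · rintro _ ⟨z, hz, rfl⟩
    have h3 : (z : G) ∈ H18.Cz (D₀.map H.subtype) := H18.mem_Cz.2 fun q hq =>
      congrArg Subtype.val (Subgroup.mem_center_iff.1 hz ⟨q, h1 hq⟩)
    obtain ⟨y, hy, hyz⟩ := h2 ⟨z.2, h3⟩
    refine ⟨y, ⟨⟨y, hy⟩, Subgroup.mem_center_iff.2 fun q => Subtype.ext (Subtype.ext ?_), rfl⟩, hyz⟩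
    have := H18.mem_Cz.1 h3 q ⟨q, q.2, rfl⟩
    rw [← show (y : G) = z from hyz] at this
    exact this
  · obtain ⟨x, rfl⟩ := H17.dg_exists_cs_eq hM hB.2.1 hE hD
    have h3 : H18.cs x E ≤ H18.Cz (D₀.map H.subtype) := by
      intro a ha
      refine H18.mem_Cz.2 fun q hq => ?_
      have := congrArg Subtype.val (hab.is_comm.comm ⟨_, H18.mem_cs.1 (h1 hq)⟩ ⟨_, H18.mem_cs.1 ha⟩)
      simp only [Subgroup.coe_mul, mul_assoc, mul_inv_cancel_left, mul_right_inj] at this
      rw [← mul_assoc, ← mul_assoc] at this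
      exact mul_right_cancel this
    rwa [le_antisymm h1 ((le_inf le_rfl h3).trans h2)]

end Cfsg.Agent.S4726
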