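import Cfsg.Statements.S4727
import Cfsg.Agent.H19.PiKer

set_option autoImplicit false
open Cfsg

namespace Cfsg.Agent.S4727


/-- Let p be a prime, π a set of primes containing p, M a maximal ideal of the algebraic integers containing p, and B a p-block of the finite group G with defect group D; let B₁ be the block of N_G(D) with defect group D that induces B (the Brauer correspondent of B). Suppose every element of O_π'(N_G(D)), the largest normal subgroup of N_G(D) whose order has no prime divisor in π, lies in the kernel of every member of B₁. If y is a p-element whose centralizer C has a normal Hall π'-subgroup (every element of C whose order has no prime divisor in π lies in O_π'(C)), then χ(y x) = χ(y) for every χ ∈ B and every x ∈ C whose order has no prime divisor in π. -/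
theorem result {G : Type*} [Group G] [Finite G] (p : ℕ) [Fact p.Prime] (M : Ideal Cfsg.AlgInt) (hM : Cfsg.IsPModular p M) (π : Set ℕ) (hpπ : p ∈ π) (B : Set (Cfsg.IrrCharacter G)) (hB : Cfsg.IsPBlock M B) (D : Subgroup G) (hBD : Cfsg.IsDefectGroup p M B D) (B₁ : Set (Cfsg.IrrCharacter ↥(Subgroup.normalizer (D : Set G)))) (hB₁ : Cfsg.IsInducedBlock M (Subgroup.normalizer (D : Set G)) B₁ B) (hB₁D : Cfsg.IsDefectGroup p M B₁ (D.subgroupOf (Subgroup.normalizer (D : Set G)))) (hker : ∀ n : ↥(Subgroup.normalizer (D : Set G)), n ∈ Cfsg.piCore {q | q ∉ π} ↥(Subgroup.normalizer (D : Set G)) → n ∈ Cfsg.blockKer B₁) (y : G) (hy : ∃ k : ℕ, orderOf y = p ^ k) (hC : ∀ x : ↥(Subgroup.centralizer ({y} : Set G)), (∀ q : ℕ, q.Prime → q ∣ orderOf x → q ∉ π) → x ∈ Cfsg.piCore {q | q ∉ π} ↥(Subgroup.centralizer ({y} : Set G))) : ∀ χ ∈ B, ∀ x : G, x ∈ Subgroup.centralizer ({y} : Set G) → (∀ q : ℕ, q.Prime → q ∣ orderOf x → q ∉ π) → (χ : G → ℂ) (y * x) = (χ : G → ℂ)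 y := by
  intro χ hχ x hx hq
  have hσ : p ∉ {q | q ∉ π} := fun h => h hpπ
  haveI := Fintype.ofFinite (H17.Cg y)
  have hBc := H17.lamClosed_of_isPBlock hM.2.1 hB
  have hxp : ¬ p ∣ orderOf (⟨x, hx⟩ : H17.Cg y) := by
    rw [← Subgroup.orderOf_coe]; exact fun h => hq p Fact.out h hpπ
  have h1 := H20.apply_eq_blockPart_locSet hM hBc
    (h := (⟨y, H17.self_mem_Cg y⟩ * ⟨x, hx⟩ : H17.Cg y)) (H20.pPart_mul_Cg hy hxp) le_rfl hχ
  have h2 := H20.apply_eq_blockPart_locSet hM hBc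
    (h := (⟨y, H17.self_mem_Cg y⟩ : H17.Cg y)) (H20.pPart_self Fact.out hy) le_rfl hχ
  refine h1.trans (Eq.trans ?_ h2.symm)
  rw [H20.blockPart_eq_finsum, H20.blockPart_eq_finsum]
  refine finsum_mem_congr rfl fun θ hθ => ?_
  have hind := ((H20.truncMul_Cg hM hy).mem_locSet_iff_blockOf hM.2.1 θ hB).1 hθ
  obtain ⟨D₀, hD₀⟩ := H18.exists_isDefectGroup (p := p) hM.2.1 hind.1
  haveI : (Subgroup.zpowers (⟨y, H17.self_mem_Cg y⟩ : H17.Cg y)).Normal := by
    refine ⟨?_⟩
    rintro _ ⟨k, rfl⟩ g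
    refine ⟨k, ?_⟩
    have hc : Commute (⟨y, H17.self_mem_Cg y⟩ : H17.Cg y) g := H20.self_central_Cg y g
    simp only
    rw [← (hc.zpow_left k).eq, mul_inv_cancel_right]
  have hle := H17.le_dg_of_normal hM (H20.isPGroup_zpowers (p := p)
    (x := (⟨y, H17.self_mem_Cg y⟩ : H17.Cg y)) (by rw [← Subgroup.orderOf_coe]; exact hy))
    hind.1 hD₀
  have hk := H19.ker_descend hM hσ hBD hB₁ hB₁D hker hind hD₀ (by
    intro g hg
    rw [H17.mem_Cg]
    exact (H18.mem_Cz.1 hg y ⟨_, hle (Subgroup.mem_zpowers _), rfl⟩).symm) ⟨x, hx⟩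
    (hC ⟨x, hx⟩ (by simpa using hq)) θ (H17.mem_blockOf_self hM.2.1 θ)
  rw [H11.apply_mul_of_mem_charKer' (H17.irr_isClassFunction θ)
    ((H11.mem_charKer_irr_iff θ.2).2 hk)]

end Cfsg.Agent.S4727
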