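import Cfsg.Statements.S4730
import Cfsg.Agent.H17.DefZero

set_option autoImplicit false
open Cfsg

namespace Cfsg.Agent.S4730

/-- Let p be a prime, M a maximal ideal of the algebraic integers containing p, and G a finite group with trivial centre, Sylow p-subgroup P of order p^a and centre Z(P) of order p^b. If χ is a faithful irreducible character of G whose degree is a power of p, then the p-block of χ has defect at most a − b; in particular, if P is abelian then χ lies in a block of defect zero. -/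
theorem result {G : Type*} [Group G] [Finite G] (p : ℕ) [Fact p.Prime] (M : Ideal Cfsg.AlgInt) (hM : Cfsg.IsPModular p M) (hZ : Subgroup.center G = ⊥) (P : Sylow p G) (a b : ℕ) (ha : Nat.card P = p ^ a) (hb : Nat.card (Subgroup.center ↥(P : Subgroup G)) = p ^ b) (χ : Cfsg.IrrCharacter G) (hfaith : ∀ g : G, (χ : G → ℂ) g = (χ : G → ℂ) 1 → g = 1) (n : ℕ) (hdeg : Cfsg.charDegree (χ : G → ℂ) = p ^ n) : Cfsg.blockDefect p (Cfsg.blockOf M (χ : G → ℂ)) ≤ a - b ∧ (IsMulCommutative ↥(P : Subgroup G) → Cfsg.blockDefect p (Cfsg.blockOf M (χ : G → ℂ)) = 0) := by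
  have hp : p.Prime := Fact.out
  have hB := H17.isPBlock_blockOf (M := M) χ
  have hχ := H17.mem_blockOf_self hM.2.1 χ
  have haG : (Nat.card G).factorization p = a := by
    have := P.card_eq_multiplicity
    rw [ha] at this
    exact (Nat.pow_right_injective hp.two_le this).symm
  have hker : H11.charKer χ.1 = ⊥ := eq_bot_iff.2 fun g hg =>
    hfaith g ((H11.mem_charKer_irr_iff χ.2).1 hg)
  set Z : Subgroup G := (Subgroup.center (P : Subgroup G)).map (P : Subgroup G).subtype with hZd
  have hZc : Nat.card Z = p ^ b := by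
    rw [hZd, Subgroup.card_map_of_injective (P : Subgroup G).subtype_injective, hb]
  have hidx : ∀ z ∈ Z, ¬ p ∣ (H17.Cg z).index := by
    rintro _ ⟨z, hz, rfl⟩ h
    refine P.not_dvd_index (h.trans (Subgroup.index_dvd_of_le fun y hy => H17.mem_Cg.2 ?_))
    exact congrArg Subtype.val (Subgroup.mem_center_iff.1 hz ⟨y, hy⟩)
  have h0 : ∀ z ∈ Z, z ≠ 1 → χ.1 z = 0 := fun z hz h1 => by
    rcases H12.irr_eq_zero_or_norm_eq χ.2 (H21.cast_deg χ).symm z (by
      rw [hdeg]; exact Nat.Coprime.pow_left _ ((hp.coprime_iff_not_dvd).2 (hidx z hz))) with h | h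
    · exact h
    · have : z ∈ H11.charCenter χ.1 := (H11.mem_charCenter_iff (H11.irr_isCharacter χ)).2 (by
        rw [h, ← H21.cast_deg, Complex.norm_natCast])
      rw [H11.charCenter_eq_center χ.2 hker, hZ] at this
      exact absurd this h1
  obtain ⟨ψ, hψ, hν⟩ := H21.exists_nu_eq_minNu (p := p) ⟨χ, hχ⟩
  have h1 := H17.le_nu_of_val_lt hM ψ Z fun z hz h1 => by
    have h2 := H19.mli_val_lt_one hM.2.1 (hψ z)
    rw [centralChar, h0 z hz h1, mul_zero, zero_div, zero_sub, Valuation.map_neg, centralChar,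
      mul_div_assoc, map_mul, (H19.val_natCast_eq_one_iff hM _).2 (hidx z hz), one_mul] at h2
    exact h2
  rw [hZc, Nat.factorization_pow_self hp] at h1
  have h2 := H21.minNu_add_defect hM ⟨χ, hχ⟩
  refine ⟨by omega, fun hP => ?_⟩
  have : p ^ b = p ^ a := by
    rw [← ha, ← hb, Subgroup.center_eq_top_iff.2 hP, Subgroup.card_top]
  have := Nat.pow_right_injective hp.two_le this
  omega

end Cfsg.Agent.S4730
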