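import Cfsg.Statements.S4955
import Cfsg.Agent.H23.Codegree
import Cfsg.Agent.H2.SchurZassenhaus

set_option autoImplicit false
open Cfsg

namespace Cfsg.Agent.S4955

/-- Let X be a finite group with an abelian normal Sylow p-subgroup V (a normal p-subgroup of index prime to p in which any two elements commute), and let G be a complement to V in X. Then for every v in V, writing C for the centralizer of v in G, the number k(X) of conjugacy classes of X satisfies k(X) ≤ (order of C)·(order of V) − ((order of G) − k(G)); the statement is written with the subtracted term moved to the left. In particular, if some v in V is centralized by no nonidentity element of G, then k(X) is at most the order of V. -/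
theorem result {X : Type*} [Group X] [Finite X] (p : ℕ) [Fact p.Prime] (V : Subgroup X) [V.Normal] (hVp : IsPGroup p V) (hidx : ¬ p ∣ V.index) (hab : ∀ a ∈ V, ∀ b ∈ V, a * b = b * a) (G : Subgroup X) (hGV : Subgroup.IsComplement' V G) (v : X) (hv : v ∈ V) : Nat.card (ConjClasses X) + Nat.card G ≤ Nat.card ↥(G ⊓ Subgroup.centralizer ({v} : Set X)) * Nat.card V + Nat.card (ConjClasses G) := by
  classical
  haveI := Fintype.ofFinite X
  haveI := Fintype.ofFinite (IrrCharacter X)
  have hp : p.Prime := Fact.out
  have hVC : V ≤ Subgroup.centralizer ({v} : Set X) := fun a ha =>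
    Subgroup.mem_centralizer_singleton_iff.2 (hab a ha v hv)
  have h1 : Nat.card (Subgroup.centralizer ({v} : Set X)) =
      Nat.card ↥(G ⊓ Subgroup.centralizer ({v} : Set X)) * Nat.card V := by
    rw [← (H2.isComplement'_subgroupOf_of_left_le hGV hVC).card_mul, H2.card_subgroupOf_of_le hVC,
      mul_comm, ← Subgroup.inf_subgroupOf_right, H2.card_subgroupOf_of_le inf_le_right]
  have h2 : Nat.card (ConjClasses G) =
      (Finset.univ.filter fun χ : IrrCharacter X => V ≤ H11.charKer χ.1).card := by
    rw [← H11.card_irr_eq_card_conjClasses,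
      Nat.card_congr (H11.irrEquivOfMulEquiv hGV.symm.QuotientMulEquiv),
      Nat.card_congr (H11.irrQuotientEquiv V), Nat.card_eq_fintype_card, Fintype.card_subtype]
  have h3 : Nat.card (ConjClasses X) =
      (Finset.univ.filter fun χ : IrrCharacter X => V ≤ H11.charKer χ.1).card +
        (Finset.univ.filter fun χ : IrrCharacter X => ¬ V ≤ H11.charKer χ.1).card := by
    rw [Finset.card_filter_add_card_filter_not, ← H11.card_irr_eq_card_conjClasses,
      Nat.card_eq_fintype_card, Finset.card_univ]
  have h4 := H24.sum_deg_sq_le_charKer (G := X) V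
  rw [hGV.symm.index_eq_card] at h4
  set s : Finset X := Finset.univ.filter fun y => Subgroup.zpowers y = Subgroup.zpowers v with hs
  have hsV : ∀ y ∈ s, y ∈ V := fun y hy => by
    have := Subgroup.mem_zpowers y
    rw [(Finset.mem_filter.1 hy).2] at this
    exact Subgroup.zpowers_le_of_mem hv this
  have hsC : ∀ y ∈ s, Subgroup.centralizer ({y} : Set X) = Subgroup.centralizer ({v} : Set X) :=
    fun y hy => by
      rw [← Subgroup.centralizer_closure, ← Subgroup.zpowers_eq_closure,
        (Finset.mem_filter.1 hy).2, Subgroup.zpowers_eq_closure, Subgroup.centralizer_closure]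
  have hs0 : 0 < s.card := Finset.card_pos.2 ⟨v, by simp [hs]⟩
  have h5 : ∀ χ : IrrCharacter X, (s.card : ℝ) ≤ ∑ y ∈ s, ‖χ.1 y‖ ^ 2 := fun χ => by
    have := H12.card_le_sum_normSq (H11.irr_isCharacter χ) s (fun m hm g hg => by
      simp only [hs, Finset.mem_filter, Finset.mem_univ, true_and] at hg ⊢
      rw [← hg]
      exact le_antisymm (Subgroup.zpowers_le_of_mem (Subgroup.pow_mem _ (Subgroup.mem_zpowers g) m))
        (Subgroup.zpowers_le_of_mem
          (H23.mem_of_pow_mem_of_coprime_card hm (Subgroup.mem_zpowers _)))) (fun y hy => by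
      obtain ⟨k, hk⟩ := hVp ⟨y, hsV y hy⟩
      exact H12.IsCharacter_ne_zero_of_pow_prime_pow (H11.irr_isCharacter χ) hp (H24.irr_deg χ.2)
        (fun hd => hidx (hd.trans (H24.deg_dvd_index_of_comm χ.2 V hab))) (n := k)
        (by simpa using congrArg Subtype.val hk))
    simpa only [Complex.normSq_eq_norm_sq] using this
  have h6 : ∑ χ : IrrCharacter X, ∑ y ∈ s, ‖χ.1 y‖ ^ 2 =
      s.card * (Nat.card (Subgroup.centralizer ({v} : Set X)) : ℝ) := by
    rw [Finset.sum_comm, Finset.sum_congr rfl (fun y hy => by rw [H11.sum_norm_sq_apply, hsC y hy]),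
      Finset.sum_const, nsmul_eq_mul]
  rw [← Finset.sum_filter_add_sum_filter_not _ (fun χ : IrrCharacter X => V ≤ H11.charKer χ.1)]
    at h6
  have h7 : ∑ χ ∈ Finset.univ.filter (fun χ : IrrCharacter X => V ≤ H11.charKer χ.1),
      ∑ y ∈ s, ‖χ.1 y‖ ^ 2 = s.card * (Nat.card G : ℝ) := by
    rw [← h4]
    push_cast
    rw [Finset.mul_sum]
    refine Finset.sum_congr rfl fun χ hχ => ?_
    rw [Finset.sum_congr rfl (g := fun _ => (charDegree χ.1 : ℝ) ^ 2) (fun y hy => by
      rw [H11.apply_eq_of_mem_charKer ((Finset.mem_filter.1 hχ).2 (hsV y hy)), H24.irr_deg χ.2,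
        Complex.norm_natCast]), Finset.sum_const, nsmul_eq_mul]
  have h8 : ((Finset.univ.filter fun χ : IrrCharacter X => ¬ V ≤ H11.charKer χ.1).card : ℝ) *
      s.card ≤ ∑ χ ∈ Finset.univ.filter (fun χ : IrrCharacter X => ¬ V ≤ H11.charKer χ.1),
      ∑ y ∈ s, ‖χ.1 y‖ ^ 2 := by
    rw [← nsmul_eq_mul]
    exact Finset.card_nsmul_le_sum _ _ _ fun χ _ => h5 χ
  have h9 : (0 : ℝ) < s.card := by exact_mod_cast hs0
  have h10 : ((Finset.univ.filter fun χ : IrrCharacter X => ¬ V ≤ H11.charKer χ.1).card : ℝ) +
      Nat.card G ≤ Nat.card (Subgroup.centralizer ({v} : Set X)) := by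
    apply le_of_mul_le_mul_left _ h9
    linarith
  have h11 : (Finset.univ.filter fun χ : IrrCharacter X => ¬ V ≤ H11.charKer χ.1).card +
      Nat.card G ≤ Nat.card (Subgroup.centralizer ({v} : Set X)) := by exact_mod_cast h10
  rw [h3, h2, ← h1]
  omega

end Cfsg.Agent.S4955
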