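import Cfsg.Statements.S4964
import Cfsg.Agent.H22.Quot
import Cfsg.Agent.H4.CoprimeAction
import Cfsg.Agent.H3.Frattini

set_option autoImplicit false
open Cfsg

namespace Cfsg.Agent.S4964

open Cfsg.Agent.H19 Cfsg.Agent.H22
open Cfsg.Agent.H17 hiding trunc cj_ZG cj_incl incl_trunc
open Cfsg.Agent.H18 hiding stab mem_stab stabilizesBlock_iff
open scoped commutatorElement

theorem exists_qZ_eq {G H : Type*} [Group G] [Group H] [Finite G] [Finite H] {p : ℕ}
    [Fact p.Prime] {f : G →* H} (hf : Function.Surjective f) {S : Type*} [CommRing S]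
    (hk : IsPGroup p f.ker) (w : ZG H S)
    (hc : ∀ y : G, ¬ p ∣ orderOf y → w.1.coeff (f y) ≠ 0 → y ∈ Cz f.ker)
    (hw : ∀ h, p ∣ orderOf h → w.1.coeff h = 0) : ∃ z : ZG G S, qZ hf z = w := by
  classical
  haveI := Fintype.ofFinite G
  refine ⟨zOfFun (fun g => if p ∣ orderOf g then 0 else w.1.coeff (f g)) fun g h => ?_, ?_⟩
  · simp only [map_mul, map_inv, ZG.coeff_conj, H21.orderOf_conj]
  · apply ZG.ext'
    intro h
    rw [coe_qZ, coeff_qG]
    by_cases hh : w.1.coeff h = 0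
    · rw [hh]
      refine Finset.sum_eq_zero fun g _ => ?_
      split_ifs with hg
      · rw [coeff_zOfFun, hg, hh, ite_self]
      · rfl
    · obtain ⟨y, rfl, hy⟩ := exists_preg_lift hf (fun h' => hh (hw h h'))
      rw [Finset.sum_eq_single y]
      · rw [if_pos rfl, coeff_zOfFun, if_neg hy]
      · intro g _ hg
        split_ifs with he
        · rw [coeff_zOfFun, if_pos]
          by_contra hg'
          exact hg (preg_lift_unique hk hg' hy (hc g hg' (he ▸ hh)) he)
        · rfl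
      · simp

theorem mem_Cz_of_map {G : Type*} [Group G] [Finite G] {p : ℕ} [Fact p.Prime] (D : Subgroup G)
    [D.Normal] (hD : IsPGroup p D) {y : G} (hy : ¬ p ∣ orderOf y)
    (h : (QuotientGroup.mk' ⁅D, D⁆ y) ∈ Cz (D.map (QuotientGroup.mk' ⁅D, D⁆))) : y ∈ Cz D := by
  have h1 : D ≤ Subgroup.centralizer ((Subgroup.zpowers y : Subgroup G) : Set G) := by
    refine H4.le_centralizer_of_commutator_le_frattini ?_ ?_ ?_
    · rw [Subgroup.normalizer_eq_top]; exact le_top
    · rw [Nat.card_zpowers]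
      obtain ⟨k, hk⟩ := IsPGroup.iff_card.1 (hD.to_subgroup (frattini D))
      rw [hk]
      exact Nat.Coprime.pow_right _ ((Nat.Prime.coprime_iff_not_dvd Fact.out).2 hy).symm
    · have h2 : ⁅D, D⁆ ≤ (frattini D).map D.subtype := by
        haveI := hD.isNilpotent
        rw [← Subgroup.map_subtype_commutator]
        exact Subgroup.map_mono H3.commutator_le_frattini_of_isNilpotent
      refine le_trans ?_ h2
      rw [Subgroup.commutator_le]
      intro d hd a ha
      have h3 : Subgroup.zpowers y ≤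
          (Cz (D.map (QuotientGroup.mk' ⁅D, D⁆))).comap (QuotientGroup.mk' ⁅D, D⁆) := by
        rw [Subgroup.zpowers_le]; exact h
      have h4 := mem_Cz.1 (h3 ha) _ (Subgroup.mem_map_of_mem _ hd)
      rw [← QuotientGroup.eq_one_iff, ← QuotientGroup.mk'_apply, map_commutatorElement,
        commutatorElement_eq_one_iff_mul_comm]
      exact h4
  exact (le_Cz_comm.1 h1) (Subgroup.mem_zpowers y)

/-- Let D be a normal p-subgroup of the finite group G, let D′ be its commutator subgroup (normal in G), and fix a maximal ideal M of the algebraic integers containing p. Then (i) two irreducible characters of G ⧸ D′ lie in the same p-block if and only if their inflations to G do, and (ii) every p-block of G contains the inflation of some irreducible character of G ⧸ D′; so inflation induces a bijection between the p-blocks of G ⧸ D′ and the p-blocks of G. -/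
theorem result {G : Type*} [Group G] [Finite G] (p : ℕ) [Fact p.Prime] (M : Ideal Cfsg.AlgInt) (hM : Cfsg.IsPModular p M) (D : Subgroup G) [D.Normal] (hD : IsPGroup p D) : (∀ χ ψ : Cfsg.IrrCharacter (G ⧸ ⁅D, D⁆), Cfsg.SameBlock M (χ : G ⧸ ⁅D, D⁆ → ℂ) (ψ : G ⧸ ⁅D, D⁆ → ℂ) ↔ Cfsg.SameBlock M ((χ : G ⧸ ⁅D, D⁆ → ℂ) ∘ QuotientGroup.mk) ((ψ : G ⧸ ⁅D, D⁆ → ℂ) ∘ QuotientGroup.mk)) ∧ ∀ B : Set (Cfsg.IrrCharacter G), Cfsg.IsPBlock M B → ∃ χ : Cfsg.IrrCharacter (G ⧸ ⁅D, D⁆), ∃ θ ∈ B, (θ : G → ℂ) = (χ : G ⧸ ⁅D, D⁆ → ℂ) ∘ QuotientGroup.mk := by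
  have hf := QuotientGroup.mk'_surjective ⁅D, D⁆
  have hle : ⁅D, D⁆ ≤ D := Subgroup.commutator_le_left D D
  have hk : IsPGroup p (QuotientGroup.mk' ⁅D, D⁆).ker := by
    rw [QuotientGroup.ker_mk']; exact hD.to_le hle
  refine ⟨fun χ ψ => ?_, fun B hB => ?_⟩
  · change _ ↔ SameBlock M (infl hf χ).1 (infl hf ψ).1
    rw [sameBlock_iff_lam_eq hM.2.1, sameBlock_iff_lam_eq hM.2.1]
    refine ⟨lam_infl_eq hf, fun h => ?_⟩
    have hb := lamClosed_of_isPBlock hM.2.1 (isPBlock_blockOf (M := M) χ)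
    obtain ⟨z, hz⟩ := exists_qZ_eq hf hk (eB M (blockOf M χ.1)) (fun y hy h => by
      rw [QuotientGroup.ker_mk']
      refine Cz_anti hle (mem_Cz_of_map D hD hy ?_)
      by_contra h'
      exact h (coeff_eB_eq_zero_of_normal hM (hD.map _) hb h'))
      fun h hh => coeff_gid_of_dvd hM hb hh
    rw [← mem_blockOf_iff hM.2.1, mem_iff_lam_eB hb, ← hz, ← lam_infl, ← h, lam_infl, hz]
    exact lam_eB_of_mem hb (mem_blockOf_self hM.2.1 χ)
  · obtain ⟨χ, hχ⟩ := preimage_infl_nonempty hf hM hk hB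
    exact ⟨χ, infl hf χ, hχ, rfl⟩

end Cfsg.Agent.S4964
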