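import Cfsg.Statements.S4965
import Mathlib

set_option autoImplicit false
open Cfsg

namespace Cfsg.Agent.S4965

/-- Let X be a finite group with an abelian normal subgroup V (any two elements of V commute), and let φ be the action of X ⧸ V on V induced by conjugation (well defined because V is abelian; the hypothesis hφ says that the class of x acts as conjugation by x). Then X has at most as many conjugacy classes as the semidirect product of V by X ⧸ V formed with this action: the split extension has the largest class number among extensions with the given action. -/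
theorem result {X : Type*} [Group X] [Finite X] (V : Subgroup X) [V.Normal] (hab : ∀ a ∈ V, ∀ b ∈ V, a * b = b * a) (φ : X ⧸ V →* MulAut ↥V) (hφ : ∀ (x : X) (v : ↥V), ((φ (QuotientGroup.mk x) v : ↥V) : X) = x * v * x⁻¹) : Nat.card (ConjClasses X) ≤ Nat.card (ConjClasses (SemidirectProduct ↥V (X ⧸ V) φ)) := by
  classical
  haveI : Nonempty {p : X × X // Commute p.1 p.2} := ⟨⟨(1, 1), Commute.refl 1⟩⟩
  let π : {p : X × X // Commute p.1 p.2} → (X ⧸ V) × (X ⧸ V) := fun p => (p.1.1, p.1.2)
  let σ : {p : X × X // Commute p.1 p.2} → {p : X × X // Commute p.1 p.2} :=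
    fun p => Function.invFunOn π Set.univ (π p)
  have hσ : ∀ p, π (σ p) = π p := fun p => Function.invFunOn_eq ⟨p, Set.mem_univ _, rfl⟩
  have h1 : ∀ p, ((σ p).1.1 : X ⧸ V) = p.1.1 := fun p => congrArg Prod.fst (hσ p)
  have h2 : ∀ p, ((σ p).1.2 : X ⧸ V) = p.1.2 := fun p => congrArg Prod.snd (hσ p)
  have hm : ∀ a b : X, (b : X ⧸ V) = a → a * b⁻¹ ∈ V := fun a b h => by
    rw [← QuotientGroup.eq_one_iff]
    simp [h]
  let F : {p : X × X // Commute p.1 p.2} →
      {p : SemidirectProduct ↥V (X ⧸ V) φ × SemidirectProduct ↥V (X ⧸ V) φ // Commute p.1 p.2} :=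
    fun p => ⟨(⟨⟨p.1.1 * ((σ p).1.1)⁻¹, hm _ _ (h1 p)⟩, p.1.1⟩,
      ⟨⟨p.1.2 * ((σ p).1.2)⁻¹, hm _ _ (h2 p)⟩, p.1.2⟩), by
        refine SemidirectProduct.ext (Subtype.ext ?_) ?_
        · simp only [SemidirectProduct.mul_left, Subgroup.coe_mul]
          rw [← h1 p, ← h2 p, hφ, hφ]
          have e1 := p.2.eq
          have e2 := (σ p).2.eq
          simp only
          calc p.1.1 * ((σ p).1.1)⁻¹ * ((σ p).1.1 * (p.1.2 * ((σ p).1.2)⁻¹) * ((σ p).1.1)⁻¹)
              = (p.1.1 * p.1.2) * ((σ p).1.1 * (σ p).1.2)⁻¹ := by group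
            _ = (p.1.2 * p.1.1) * ((σ p).1.2 * (σ p).1.1)⁻¹ := by rw [e1, e2]
            _ = _ := by group
        · simp only [SemidirectProduct.mul_right]
          rw [← QuotientGroup.mk_mul, ← QuotientGroup.mk_mul, p.2.eq]⟩
  have hF : Function.Injective F := fun p q h => by
    have e := congrArg Subtype.val h
    have e1 : (p.1.1 : X ⧸ V) = q.1.1 := congrArg (fun t => t.1.right) e
    have e2 : (p.1.2 : X ⧸ V) = q.1.2 := congrArg (fun t => t.2.right) e
    have e3 : σ p = σ q := by simp only [σ, π, e1, e2]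
    have e4 : p.1.1 * ((σ p).1.1)⁻¹ = q.1.1 * ((σ q).1.1)⁻¹ := congrArg (fun t => (t.1.left : X)) e
    have e5 : p.1.2 * ((σ p).1.2)⁻¹ = q.1.2 * ((σ q).1.2)⁻¹ := congrArg (fun t => (t.2.left : X)) e
    rw [e3] at e4 e5
    exact Subtype.ext (Prod.ext (mul_right_cancel e4) (mul_right_cancel e5))
  haveI : Finite (SemidirectProduct ↥V (X ⧸ V) φ) :=
    Finite.of_equiv _ SemidirectProduct.equivProd.symm
  have h3 := Nat.card_le_card_of_injective F hF
  rw [card_comm_eq_card_conjClasses_mul_card, card_comm_eq_card_conjClasses_mul_card,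
    SemidirectProduct.card, ← Subgroup.index_eq_card, V.card_mul_index] at h3
  exact Nat.le_of_mul_le_mul_right h3 Nat.card_pos

end Cfsg.Agent.S4965
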