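import Cfsg.Statements.S4967
import Mathlib
import Cfsg.Agent.H22.AbField

set_option autoImplicit false
open Cfsg

namespace Cfsg.Agent.S4967


/-- Let F be a finite field with r elements and of characteristic p, H a finite abelian group of order prime to p, and V a faithful irreducible representation of H over F of dimension n (faithful: distinct elements act differently; irreducible: the only H-invariant subspaces are 0 and V). Call V self-dual when it carries a nondegenerate H-invariant bilinear form. If n = 1 and V is self-dual then H has order at most 2. If n ≥ 2 then V is self-dual if and only if n is even and the order of H divides r^(n/2) + 1. -/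
theorem result {F : Type*} [Field F] [Fintype F] (p : ℕ) [Fact p.Prime] [CharP F p] {H : Type*} [CommGroup H] [Finite H] (hcop : ¬ p ∣ Nat.card H) {V : Type*} [AddCommGroup V] [Module F V] [FiniteDimensional F V] (ρ : Representation F H V) (hfaith : Function.Injective ρ) (hirr : ∀ U : Submodule F V, (∀ h : H, ∀ u ∈ U, ρ h u ∈ U) → U = ⊥ ∨ U = ⊤) : (Module.finrank F V = 1 → (∃ B : LinearMap.BilinForm F V, B.Nondegenerate ∧ ∀ h : H, ∀ x y : V, B (ρ h x) (ρ h y) = B x y) → Nat.card H ≤ 2) ∧ (2 ≤ Module.finrank F V → ((∃ B : LinearMap.BilinForm F V, B.Nondegenerate ∧ ∀ h : H, ∀ x y : V, B (ρ h x) (ρ h y) = B x y) ↔ (Even (Module.finrank F V) ∧ Nat.card H ∣ Fintype.card F ^ (Module.finrank F V / 2) + 1))) := by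
  classical
  constructor
  · rintro h1 ⟨B, hB, hinv⟩
    obtain ⟨v, hv, hall⟩ := finrank_eq_one_iff'.1 h1
    have hvv : B v v ≠ 0 := by
      intro h0
      refine hv (hB.1 v fun y => ?_)
      obtain ⟨c, rfl⟩ := hall y
      simp [h0]
    have hmem : ∀ h : H, ρ h v ∈ ({v, -v} : Finset V) := by
      intro h
      obtain ⟨c, hc⟩ := hall (ρ h v)
      have h2 := hinv h v v
      rw [← hc] at h2 ⊢
      simp only [map_smul, LinearMap.smul_apply, smul_eq_mul] at h2
      have h3 : c * c = 1 := mul_right_cancel₀ hvv (by linear_combination h2)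
      rcases mul_self_eq_one_iff.1 h3 with rfl | rfl <;> simp
    refine le_trans (Nat.card_le_card_of_injective
      (fun h : H => (⟨_, hmem h⟩ : ({v, -v} : Finset V))) ?_) ?_
    · intro a b hab
      apply hfaith
      ext y
      obtain ⟨c, rfl⟩ := hall y
      have : ρ a v = ρ b v := congrArg Subtype.val hab
      rw [map_smul, map_smul, this]
    · rw [Nat.card_eq_fintype_card, Fintype.card_coe]
      exact Finset.card_le_two
  intro h2
  haveI : Finite V := Module.finite_of_finite F
  haveI : Nontrivial V := Module.nontrivial_of_finrank_pos (R := F) (by omega)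
  obtain ⟨K, _, _, ι, e, he, hgen⟩ := H22.exists_field_of_irreducible ρ hirr
  haveI : Finite K := Finite.of_equiv _ e.symm.toEquiv
  have hιinj : Function.Injective ι := by
    intro a b hab
    apply hfaith
    ext y
    obtain ⟨x, rfl⟩ := e.surjective y
    rw [he, he, hab]
  have hn : Module.finrank F K = Module.finrank F V := e.finrank_eq
  have hφ : ∀ (i : ℕ) (x : K), (FiniteField.frobeniusAlgHom F K ^ i) x = x ^ Fintype.card F ^ i := by
    intro i x
    rw [AlgHom.coe_pow, FiniteField.coe_frobeniusAlgHom, pow_iterate]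
  have hall : ∀ (P : K → Prop), (∀ h, P (ι h)) → (∀ c, P (algebraMap F K c)) →
      (∀ x y, P x → P y → P (x + y)) → (∀ x y, P x → P y → P (x * y)) → ∀ x, P x := by
    intro P h1 h2 h3 h4 x
    have hx : x ∈ Algebra.adjoin F (Set.range ι) := hgen ▸ Algebra.mem_top
    induction hx using Algebra.adjoin_induction with
    | mem x hx => obtain ⟨h, rfl⟩ := hx; exact h1 h
    | algebraMap r => exact h2 r
    | add x y _ _ hx hy => exact h3 x y hx hy
    | mul x y _ _ hx hy => exact h4 x y hx hy
  constructor
  · rintro ⟨B, hB, hinv⟩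
    have hex : ∀ k : K, ∃ k' : K, ∀ x y, B (e (k * x)) (e y) = B (e x) (e (k' * y)) := by
      refine hall _ (fun h => ⟨ι h⁻¹, fun x y => ?_⟩) (fun c => ⟨algebraMap F K c, fun x y => ?_⟩)
        ?_ ?_
      · rw [← he, ← he, ← hinv h (e x), ρ.self_inv_apply]
      · rw [← Algebra.smul_def, ← Algebra.smul_def]; simp
      · rintro a b ⟨a', ha⟩ ⟨b', hb⟩
        exact ⟨a' + b', fun x y => by simp [add_mul, ha, hb]⟩
      · rintro a b ⟨a', ha⟩ ⟨b', hb⟩
        exact ⟨b' * a', fun x y => by rw [mul_assoc, ha, hb, mul_assoc]⟩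
    choose t ht using hex
    have huniq : ∀ k k' : K, (∀ x y, B (e (k * x)) (e y) = B (e x) (e (k' * y))) → t k = k' := by
      intro k k' H
      rw [← sub_eq_zero, ← e.map_eq_zero_iff]
      refine hB.2 _ fun z => ?_
      obtain ⟨x, rfl⟩ := e.surjective z
      have := (ht k x 1).symm.trans (H x 1)
      simp only [mul_one] at this
      simp [this]
    let τ : K →ₐ[F] K :=
      { toFun := t
        map_one' := huniq _ _ (by simp)
        map_mul' := fun a b => huniq _ _ fun x y => by
          rw [mul_assoc, ht, ht, ← mul_assoc, mul_comm (t b)]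
        map_zero' := huniq _ _ (by simp)
        map_add' := fun a b => huniq _ _ fun x y => by simp [add_mul, ht]
        commutes' := fun c => huniq _ _ fun x y => by
          rw [← Algebra.smul_def, ← Algebra.smul_def]; simp }
    have hτ : ∀ h, τ (ι h) = ι h⁻¹ := fun h => huniq _ _ fun x y => by
      rw [← he, ← he, ← hinv h (e x), ρ.self_inv_apply]
    obtain ⟨⟨i, hi⟩, hiτ⟩ := (FiniteField.bijective_frobeniusAlgHom_pow F K).2 τ
    replace hiτ : FiniteField.frobeniusAlgHom F K ^ i = τ := hiτ
    have hsq : τ * τ = 1 := by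
      ext x
      refine hall (fun x => (τ * τ) x = (1 : K →ₐ[F] K) x) (fun h => ?_) (fun c => by simp)
        (fun x y hx hy => by rw [map_add, map_add, hx, hy])
        (fun x y hx hy => by rw [map_mul, map_mul, hx, hy]) x
      rw [AlgHom.mul_apply, hτ, hτ, inv_inv, AlgHom.one_apply]
    have hi0 : i ≠ 0 := by
      rintro rfl
      rw [pow_zero] at hiτ
      have h1 : ∀ x : K, x ∈ (⊥ : Subalgebra F K) := by
        refine hall _ (fun h => ?_) (fun c => Subalgebra.algebraMap_mem _ c)
          (fun x y => add_mem) (fun x y => mul_mem)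
        have h3 := hτ h
        rw [← hiτ, AlgHom.one_apply] at h3
        have h4 : ι h * ι h = 1 := by
          conv_lhs => rw [h3]; congr; rfl; rw [← h3]
          rw [← map_mul, inv_mul_cancel, map_one]
        rcases mul_self_eq_one_iff.1 h4 with h5 | h5 <;> rw [h5]
        · exact one_mem _
        · exact neg_mem (one_mem _)
      have h3 := Subalgebra.bot_eq_top_iff_finrank_eq_one.1 (eq_top_iff.2 fun x _ => h1 x)
      omega
    have hdvd : Module.finrank F K ∣ i + i := by
      rw [← FiniteField.orderOf_frobeniusAlgHom, orderOf_dvd_iff_pow_eq_one, pow_add, hiτ, hsq]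
    have heq : Module.finrank F K = i + i := by
      obtain ⟨c, hc⟩ := hdvd
      have hc1 : c = 1 := by
        rcases c with _ | _ | c
        · omega
        · rfl
        · exfalso; nlinarith
      rw [hc, hc1, mul_one]
    rw [← hn, heq]
    refine ⟨⟨i, rfl⟩, ?_⟩
    rw [show (i + i) / 2 = i by omega]
    haveI : IsCyclic H := isCyclic_of_injective_ringHom ι hιinj
    rw [← IsCyclic.exponent_eq_card]
    refine Monoid.exponent_dvd_of_forall_pow_eq_one fun h => hιinj ?_
    rw [map_pow, pow_succ, ← hφ, hiτ, hτ, ← map_mul, inv_mul_cancel]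
  · rintro ⟨-, hdvd⟩
    set m := Module.finrank F V / 2
    obtain ⟨l, hl⟩ := Module.Projective.exists_dual_ne_zero F (one_ne_zero : (1 : K) ≠ 0)
    set φ := FiniteField.frobeniusAlgHom F K ^ m with hφm
    have hφs : Function.Surjective φ := Finite.surjective_of_injective φ.toRingHom.injective
    let b : LinearMap.BilinForm F K := ((LinearMap.mul F K).compl₂ φ.toLinearMap).compr₂ l
    have hb : ∀ x y, b x y = l (x * φ y) := fun _ _ => rfl
    refine ⟨b.compl₁₂ e.symm.toLinearMap e.symm.toLinearMap, ⟨fun x hx => ?_, fun y hy => ?_⟩,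
      fun h x y => ?_⟩
    · obtain ⟨x, rfl⟩ := e.surjective x
      by_contra hne
      have hx0 : x ≠ 0 := fun h => hne (by rw [h, map_zero])
      obtain ⟨y, hy⟩ := hφs x⁻¹
      have := hx (e y)
      simp [hb, hy, hx0, hl] at this
    · obtain ⟨y, rfl⟩ := e.surjective y
      by_contra hne
      have hy0 : φ y ≠ 0 := fun h => hne (by
        rw [φ.toRingHom.injective (a₁ := y) (a₂ := 0) (by simpa using h), map_zero])
      have := hy (e (φ y)⁻¹)
      simp [hb, hy0, hl] at this
    · obtain ⟨x, rfl⟩ := e.surjective x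
      obtain ⟨y, rfl⟩ := e.surjective y
      rw [he, he]
      simp only [LinearMap.compl₁₂_apply, LinearEquiv.coe_coe, LinearEquiv.symm_apply_apply, hb,
        map_mul]
      congr 1
      have h3 : φ (ι h) * ι h = 1 := by
        rw [hφm, hφ, ← pow_succ, ← map_pow,
          orderOf_dvd_iff_pow_eq_one.1 ((orderOf_dvd_natCard h).trans hdvd), map_one]
      linear_combination x * φ y * h3

end Cfsg.Agent.S4967
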