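import Cfsg.Statements.S5005
import Cfsg.Agent.H22.OneBlock
import Cfsg.Agent.H22.M22Cls

set_option autoImplicit false
open Cfsg

namespace Cfsg.Agent.S5005


open Cfsg.Agent.H22 Cfsg.Agent.H17 Cfsg.Agent.H43

theorem exists_normal_of_card {H : Type*} [Group H] [Finite H] (h : Nat.card H = 384) :
    ∃ Q : Subgroup H, Q.Normal ∧ IsPGroup 2 Q ∧ 2 ^ 2 < Nat.card Q := by
  haveI : Fact (Nat.Prime 2) := ⟨Nat.prime_two⟩
  obtain ⟨P⟩ : Nonempty (Sylow 2 H) := inferInstance
  have hP : Nat.card P = 128 := by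
    rw [P.card_eq_multiplicity, h]
    have : (384 : ℕ) = 2 ^ 7 * 3 := by norm_num
    rw [this, Nat.factorization_mul (by norm_num) (by norm_num), Nat.Prime.factorization_pow Nat.prime_two,
      Nat.prime_three.factorization]
    simp
  have hi : (P : Subgroup H).index = 3 := by
    have := (P : Subgroup H).card_mul_index
    rw [h, hP] at this
    omega
  refine ⟨(P : Subgroup H).normalCore, inferInstance,
    P.isPGroup'.to_le (P : Subgroup H).normalCore_le, ?_⟩
  have h1 : (P : Subgroup H).normalCore.index ≤ 6 := by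
    rw [Subgroup.normalCore_eq_ker, Subgroup.index_ker]
    refine (Nat.card_le_card_of_injective _ Subtype.val_injective).trans ?_
    rw [Nat.card_perm, ← Subgroup.index_eq_card, hi]
    decide
  have h2 := (P : Subgroup H).normalCore.card_mul_index
  rw [h] at h2
  by_contra h3
  have : Nat.card (P : Subgroup H).normalCore * (P : Subgroup H).normalCore.index ≤ 2 ^ 2 * 6 :=
    Nat.mul_le_mul (not_lt.1 h3) h1
  omega

theorem spec {q c : ℕ} (I : Finset ℕ)
    (h : ∀ i ∈ I, i < 12 ∧ nthN m22t_os i = q ∧ nthN m22t_cs i = c) :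
    (∀ i ∈ I, orderOf (m22rep i) = q ∧ Nat.card (Cg (m22rep i)) = c) ∧
      ∀ i ∈ I, ∀ j ∈ I, IsConj (m22rep i) (m22rep j) → i = j := by
  refine ⟨fun i hi => ?_, fun i hi j hj hc => m22_nc (h i hi).1 (h j hj).1 hc⟩
  obtain ⟨h1, h2, h3⟩ := h i hi
  rw [← h2, ← h3]
  exact m22_rep_spec h1

theorem no_defect_zero {M : Ideal Cfsg.AlgInt} (hM : Cfsg.IsPModular 2 M)
    (χ : IrrCharacter Spor.M22) : ¬ ∀ x, 2 ∣ orderOf x → χ.1 x = 0 := by
  intro h0
  haveI : Fact (Nat.Prime 2) := ⟨Nat.prime_two⟩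
  have hG := H74.card_M22
  haveI : Finite Spor.M22 := Nat.finite_of_card_ne_zero (by rw [hG]; norm_num)
  haveI := Fintype.ofFinite Spor.M22
  obtain ⟨m, hm0, hm⟩ := exists_deg_eq hM χ h0 (k := 7) (by rw [hG]; norm_num)
  have s3 := spec (q := 3) (c := 36) {2} (by decide +kernel)
  have s5 := spec (q := 5) (c := 5) {5} (by decide +kernel)
  have s7 := spec (q := 7) (c := 7) {7, 8} (by decide +kernel)
  have s11 := spec (q := 11) (c := 11) {10, 11} (by decide +kernel)
  have b3 := oc_bound' hM χ h0 (k := 2) Nat.prime_three (by norm_num) (by norm_num) (32 * m)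
    (by rw [hm]; ring) _ _ s3.1 s3.2
  have b5 := oc_bound' hM χ h0 (k := 0) Nat.prime_five (by norm_num) (by norm_num) (128 * m)
    (by rw [hm]; ring) _ _ s5.1 s5.2
  have b7 := oc_bound' hM χ h0 (k := 0) (by norm_num : Nat.Prime 7) (by norm_num) (by norm_num)
    (128 * m) (by rw [hm]; ring) _ _ s7.1 s7.2
  have b11 := oc_bound' hM χ h0 (k := 0) (by norm_num : Nat.Prime 11) (by norm_num) (by norm_num)
    (128 * m) (by rw [hm]; ring) _ _ s11.1 s11.2
  have ht := sum_oc_le χ {(3, 36), (5, 5), (7, 7), (11, 11)} (by decide)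
  rw [Finset.sum_insert (by decide), Finset.sum_insert (by decide), Finset.sum_insert (by decide),
    Finset.sum_singleton, hm, hG] at ht
  rw [hG] at b3 b5 b7 b11
  dsimp only at ht
  have h3 : (∑ g ∈ oc Spor.M22 3 36, ‖χ.1 g‖ ^ 2 ≤ 0) → 9 ∣ charDegree χ.1 := by
    intro h
    haveI : Fact (Nat.Prime 3) := ⟨Nat.prime_three⟩
    obtain ⟨P, hP⟩ := Sylow.exists_subgroup_card_pow_prime (G := Spor.M22) 3 (n := 2)
      (by rw [hG]; norm_num)
    rw [show (9 : ℕ) = Nat.card P by rw [hP]; norm_num]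
    refine H24.card_dvd_deg_of_vanish (H11.irr_isCharacter χ) P fun x hx hx1 => ?_
    have hz := (Finset.sum_eq_zero_iff_of_nonneg (fun _ _ => sq_nonneg _)).1
      (le_antisymm h (Finset.sum_nonneg fun _ _ => sq_nonneg _)) x (mem_oc.2 (by
        have ho : orderOf x ∣ 9 := by
          have := orderOf_dvd_natCard (⟨x, hx⟩ : P)
          rwa [hP, Subgroup.orderOf_mk] at this
        have h1 : orderOf x ≠ 1 := by rwa [Ne, orderOf_eq_one_iff]
        have h2 := m22_oc x
        simp only [List.mem_cons, Prod.mk.injEq, List.not_mem_nil, or_false] at h2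
        rcases h2 with h | h | h | h | h | h | h | h | h | h
        all_goals first | exact h | (rw [h.1] at ho h1; omega)))
    simpa using hz
  rw [hm] at h3
  have p3 : 0 ≤ ∑ g ∈ oc Spor.M22 3 36, ‖χ.1 g‖ ^ 2 := Finset.sum_nonneg fun _ _ => sq_nonneg _
  have p5 : 0 ≤ ∑ g ∈ oc Spor.M22 5 5, ‖χ.1 g‖ ^ 2 := Finset.sum_nonneg fun _ _ => sq_nonneg _
  have p7 : 0 ≤ ∑ g ∈ oc Spor.M22 7 7, ‖χ.1 g‖ ^ 2 := Finset.sum_nonneg fun _ _ => sq_nonneg _
  have p11 : 0 ≤ ∑ g ∈ oc Spor.M22 11 11, ‖χ.1 g‖ ^ 2 := Finset.sum_nonneg fun _ _ => sq_nonneg _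
  generalize ∑ g ∈ oc Spor.M22 3 36, ‖χ.1 g‖ ^ 2 = T3 at *
  generalize ∑ g ∈ oc Spor.M22 5 5, ‖χ.1 g‖ ^ 2 = T5 at *
  generalize ∑ g ∈ oc Spor.M22 7 7, ‖χ.1 g‖ ^ 2 = T7 at *
  generalize ∑ g ∈ oc Spor.M22 11 11, ‖χ.1 g‖ ^ 2 = T11 at *
  have hm5 : m ≤ 5 := by
    by_contra h
    have : (6 : ℝ) ≤ m := by exact_mod_cast not_le.1 h
    push_cast at ht
    nlinarith
  interval_cases m
  all_goals norm_num at ht b3 b5 b7 b11 h3
  all_goals linarith

/-- All irreducible complex characters of the Mathieu group `M₂₂` lie in a single 2-block: any two of them lie in the same block relative to every maximal ideal of the algebraic integers containing 2. -/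
theorem result (M : Ideal Cfsg.AlgInt) (hM : Cfsg.IsPModular 2 M)
    (χ ψ : Cfsg.IrrCharacter ↥Cfsg.Spor.M22) : Cfsg.SameBlock M (χ : ↥Cfsg.Spor.M22 → ℂ) (ψ : ↥Cfsg.Spor.M22 → ℂ) := by
  haveI : Fact (Nat.Prime 2) := ⟨Nat.prime_two⟩
  haveI : Finite Spor.M22 := Nat.finite_of_card_ne_zero (by rw [H74.card_M22]; norm_num)
  refine sameBlock_of_local hM 2 (fun z hz => exists_normal_of_card ?_) (fun x hx1 hx => ?_)
    (no_defect_zero hM) χ ψ
  · have h2 := m22_oc z
    rw [hz] at h2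
    simpa using h2
  · have h2 := m22_oc x
    have h1 : orderOf x ≠ 1 := by rwa [Ne, orderOf_eq_one_iff]
    have h3 : ¬ 2 ^ 3 ∣ Nat.card (Cg x) := by
      generalize orderOf x = a at *
      generalize Nat.card (Subgroup.centralizer {x}) = b at *
      simp only [List.mem_cons, Prod.mk.injEq, List.not_mem_nil, or_false] at h2
      omega
    rw [Nat.prime_two.pow_dvd_iff_le_factorization Nat.card_pos.ne'] at h3
    omega

end Cfsg.Agent.S5005
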