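import Cfsg.Statements.S5006
import Cfsg.Agent.H22.OneBlock
import Cfsg.Agent.H49.M24Cls
import Cfsg.Agent.H42.Tools

set_option autoImplicit false
open Cfsg

namespace Cfsg.Agent.S5006


open Cfsg.Agent.H22 Cfsg.Agent.H17 Cfsg.Agent.H42 Cfsg.Agent.H49
open Cfsg.Agent.H43 (nthN)

set_option maxRecDepth 200000

/-- The group has a normal `2`-subgroup of order greater than `8`. -/
def Big (H : Type*) [Group H] : Prop := ∃ Q : Subgroup H, Q.Normal ∧ IsPGroup 2 Q ∧ 2 ^ 3 < Nat.card Q

theorem Big.of_equiv {H K : Type*} [Group H] [Group K] (h : Big H) (e : H ≃* K) : Big K := by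
  obtain ⟨Q, h1, h2, h3⟩ := h
  refine ⟨Q.map e.toMonoidHom, h1.map _ e.surjective, h2.map _, ?_⟩
  rwa [Subgroup.card_map_of_injective e.injective]

theorem big_of_isConj {G : Type*} [Group G] {x y : G} (h : IsConj x y) (hx : Big (Cg x)) :
    Big (Cg y) := by
  obtain ⟨g, rfl⟩ := isConj_iff.1 h
  refine hx.of_equiv (conjEquiv g _ _ fun a => ?_)
  rw [mem_Cg, mem_Cg]
  constructor
  · intro h
    calc _ = g * (a * x) * g⁻¹ := by group
      _ = g * (x * a) * g⁻¹ := by rw [h]
      _ = _ := by group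
  · intro h
    calc a * x = g⁻¹ * (g * a * g⁻¹ * (g * x * g⁻¹)) * g := by group
      _ = g⁻¹ * (g * x * g⁻¹ * (g * a * g⁻¹)) * g := by rw [h]
      _ = _ := by group

theorem big_of_set {G : Type*} [Group G] [Finite G] (H : Subgroup G) (S T : Set G)
    (hT : H = Subgroup.closure T) (hS : ∀ s ∈ S, s ∈ H) (hinv : ∀ t ∈ T, ∀ s ∈ S, t * s * t⁻¹ ∈ S)
    (h2 : ∀ s ∈ S, s * s = 1) (hc : ∀ s ∈ S, ∀ r ∈ S, s * r = r * s) (hcard : 8 < S.ncard) :
    Big H := by
  have hle : Subgroup.closure S ≤ H := (Subgroup.closure_le _).2 hS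
  have hH : ∀ t ∈ H, ∀ s ∈ S, t * s * t⁻¹ ∈ S := by
    intro t ht
    rw [hT, ← Subgroup.mem_toSubmonoid, Subgroup.closure_toSubmonoid_of_finite] at ht
    induction ht using Submonoid.closure_induction with
    | mem x hx => exact hinv x hx
    | one => simp
    | mul x y _ _ hx hy =>
      intro s hs
      have := hx _ (hy s hs)
      rwa [show x * (y * s * y⁻¹) * x⁻¹ = x * y * s * (x * y)⁻¹ by group] at this
  have hcomm : ∀ a ∈ Subgroup.closure S, ∀ b ∈ Subgroup.closure S, a * b = b * a := by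
    have h1 : Subgroup.closure S ≤ Subgroup.centralizer S :=
      (Subgroup.closure_le _).2 fun s hs r hr => hc r hr s hs
    intro a ha b hb
    have : Subgroup.closure S ≤ Subgroup.centralizer {a} :=
      (Subgroup.closure_le _).2 fun s hs => Subgroup.mem_centralizer_singleton_iff.2 (h1 ha s hs)
    exact (Subgroup.mem_centralizer_singleton_iff.1 (this hb)).symm
  refine ⟨(Subgroup.closure S).subgroupOf H, ⟨fun n hn g => ?_⟩, ?_, ?_⟩
  · rw [Subgroup.mem_subgroupOf] at hn ⊢
    change (g : G) * n * (g : G)⁻¹ ∈ _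
    generalize (n : G) = x at hn
    induction hn using Subgroup.closure_induction with
    | mem x hx => exact Subgroup.subset_closure (hH g g.2 x hx)
    | one => simp
    | mul x y _ _ hx hy =>
      have := mul_mem hx hy
      rwa [show (g : G) * x * (g : G)⁻¹ * (g * y * (g : G)⁻¹) = g * (x * y) * (g : G)⁻¹ by group] at this
    | inv x _ hx =>
      have := inv_mem hx
      rwa [show ((g : G) * x * (g : G)⁻¹)⁻¹ = g * x⁻¹ * (g : G)⁻¹ by group] at this
  · refine isPGroup_subgroupOf (fun x => ⟨1, Subtype.ext ?_⟩) H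
    obtain ⟨x, hx⟩ := x
    change x ^ 2 ^ 1 = 1
    rw [pow_one, sq]
    induction hx using Subgroup.closure_induction with
    | mem x hx => exact h2 x hx
    | one => simp
    | mul x y hx' hy' hx hy =>
      calc x * y * (x * y) = x * (y * x) * y := by group
        _ = x * (x * y) * y := by rw [hcomm y hy' x hx']
        _ = (x * x) * (y * y) := by group
        _ = 1 := by rw [hx, hy, one_mul]
    | inv x _ hx => rw [← mul_inv_rev, hx, inv_one]
  · rw [card_subgroupOf_eq hle]
    exact hcard.trans_le (Set.ncard_le_ncard Subgroup.subset_closure)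

/-- The kernel check for a centraliser with a big normal `2`-subgroup. -/
noncomputable def bigChk (z : ℕ) (L : List (ℕ × List ℕ)) (n : ℕ) (S : List ℕ) : Bool :=
  inM z && chainChk (fun g => Nat.beq (pmul g z) (pmul z g)) L n &&
    allL (fun s => inM s && Nat.beq (pmul s z) (pmul z s) && Nat.beq (pmul s s) pid &&
      allL (fun r => Nat.beq (pmul s r) (pmul r s)) S &&
      allL (fun t => force (pmul (pmul t s) (pinv t)) (fun x => memL x S)) (chainGens L)) S

theorem big_of_chk {z : ℕ} {L : List (ℕ × List ℕ)} {n : ℕ} {S : List ℕ} (h : bigChk z L n S = true)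
    (hn : Nat.card (Cg (toM z)) = n) (hS : S.Nodup) (h8 : 8 < S.length) : Big (Cg (toM z)) := by
  haveI : Finite M24 := Nat.finite_of_card_ne_zero (by rw [card_M24]; norm_num)
  simp only [bigChk, Bool.and_eq_true, allL_iff, beq_iff, force_eq, memL_iff] at h
  obtain ⟨⟨hz, hL⟩, hs⟩ := h
  have hP : ∀ g, inM g = true → Nat.beq (pmul g z) (pmul z g) = true → toM g ∈ Cg (toM z) := by
    intro g hg h
    rw [mem_Cg, ← toM_pmul hg hz, ← toM_pmul hz hg, beq_iff.1 h]
  have hT := (eq_gen_of_chainChk hL _ hP hn.le).1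
  refine big_of_set _ (toM '' {s | s ∈ S}) _ hT ?_ ?_ ?_ ?_ ?_
  · rintro _ ⟨s, h, rfl⟩
    exact hP s (hs s h).1.1.1.1 (beq_iff.2 (hs s h).1.1.1.2)
  · rintro _ ⟨t, ht, rfl⟩ _ ⟨s, h, rfl⟩
    have ht' := inM_of_chainChk hL t ht
    refine ⟨_, (hs s h).2 t ht, ?_⟩
    rw [toM_pmul (inM_pmul ht' (hs s h).1.1.1.1) (inM_pinv ht'), toM_pmul ht' (hs s h).1.1.1.1,
      toM_pinv ht']
  · rintro _ ⟨s, h, rfl⟩
    rw [← toM_pmul (hs s h).1.1.1.1 (hs s h).1.1.1.1, (hs s h).1.1.2, toM_pid]
  · rintro _ ⟨s, h, rfl⟩ _ ⟨r, h', rfl⟩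
    rw [← toM_pmul (hs s h).1.1.1.1 (hs r h').1.1.1.1, (hs s h).1.2 r h',
      toM_pmul (hs r h').1.1.1.1 (hs s h).1.1.1.1]
  · rw [Set.InjOn.ncard_image (s := {s | s ∈ S}) (fun a ha b hb e => toM_inj (hs a ha).1.1.1.1 (hs b hb).1.1.1.1 e),
      show {s | s ∈ S} = (S.toFinset : Set ℕ) by ext; simp, Set.ncard_coe_finset,
      List.toFinset_card_of_nodup hS]
    exact h8

theorem big1 : Big (Cg (toM (nthN m24reps 1))) :=
  big_of_chk (L := [(1, [463471054783020412003569890988113581]), (5, [12467821681035116085140392228997155]), (6, [348278982520127231224626435607445549]), (9, [763643620535082551496234202878192682, 111247247931166826456653545750639666]), (0, [154043128849143638492955263634224175, 777101022788109396232648440098866228, 569421816525019503725272917461765163, 486352665498780609646073342459100205])]) (n := 21504)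
    (S := [29433089229398666248285093065366583, 112492088683217808345183705004170279, 154043128849143638492955263634224175, 195566290051488251726297105930997809, 320200426473901260827904701209346082, 361736264517978529561915178775822382, 444810488931698165849266236117104688, 486352665498780609646073342459100205, 569421816525019503725272917461765163, 652496028545562902698298898034732067, 694038204879141996352871938152505386, 735571496277444307308904142084786212, 777101022788109396232648440098866228, 860206900206620201667618878781853746])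
    (by decide +kernel) ((m24_rep_spec (i := 1) (by norm_num)).2.trans (by decide +kernel))
    (by decide +kernel) (by decide +kernel)

theorem big2 : Big (Cg (toM (nthN m24reps 2))) :=
  big_of_chk (L := [(0, [647311004931118238524089903951120777]), (10, [304117624343295332264514944390842400]), (2, [278094778579886890947520281637700640]), (3, [527875710915683639869343656623704096, 320182175175391537759190301214902304, 486349973926430203268823274221996064])]) (n := 7680)
    (S := [290853726708663892024861635297039702, 290989448251501820262260100289798486, 292166185773751976263634827151431370, 292411748531669549585422907826706122, 304078297239449748673119912546931713, 457129361191803109924506000054427990, 457267098121140878637388407881798998, 458440938842600537246023081468109514, 470004883393799069315220799903716353, 470245385411773139748715612712997889, 706254039500566121179033011020584278, 707674163462179375324598757025587914, 707778943937315517520695104842110666, 719232165859143747588247097154491393,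 719339991687723552197152770002395137])
    (by decide +kernel) ((m24_rep_spec (i := 2) (by norm_num)).2.trans (by decide +kernel))
    (by decide +kernel) (by decide +kernel)

theorem spec {q c : ℕ} (I : Finset ℕ)
    (h : ∀ i ∈ I, i < 26 ∧ nthN m24t_os i = q ∧ nthN m24t_cs i = c) :
    (∀ i ∈ I, orderOf (toM (nthN m24reps i)) = q ∧ Nat.card (Cg (toM (nthN m24reps i))) = c) ∧
      ∀ i ∈ I, ∀ j ∈ I, IsConj (toM (nthN m24reps i)) (toM (nthN m24reps j)) → i = j := by
  refine ⟨fun i hi => ?_, fun i hi j hj hc => m24_nc (h i hi).1 (h j hj).1 hc⟩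
  obtain ⟨h1, h2, h3⟩ := h i hi
  rw [← h2, ← h3]
  exact m24_rep_spec h1

theorem no_defect_zero {M : Ideal Cfsg.AlgInt} (hM : Cfsg.IsPModular 2 M)
    (χ : IrrCharacter M24) : ¬ ∀ x, 2 ∣ orderOf x → χ.1 x = 0 := by
  intro h0
  haveI : Fact (Nat.Prime 2) := ⟨Nat.prime_two⟩
  have hG := card_M24
  haveI : Finite M24 := Nat.finite_of_card_ne_zero (by rw [hG]; norm_num)
  haveI := Fintype.ofFinite M24
  obtain ⟨m, hm0, hm⟩ := exists_deg_eq hM χ h0 (k := 10) (by rw [hG]; norm_num)
  have s3 := spec (q := 3) (c := 1080) {3} (by decide +kernel)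
  have s3' := spec (q := 3) (c := 504) {4} (by decide +kernel)
  have s5 := spec (q := 5) (c := 60) {8} (by decide +kernel)
  have s7 := spec (q := 7) (c := 42) {11, 12} (by decide +kernel)
  have s11 := spec (q := 11) (c := 11) {15} (by decide +kernel)
  have s23 := spec (q := 23) (c := 23) {24, 25} (by decide +kernel)
  have b3 := oc_bound' hM χ h0 (k := 3) Nat.prime_three (by norm_num) (by norm_num) (128 * m)
    (by rw [hm]; ring) _ _ s3.1 s3.2
  have b3' := oc_bound' hM χ h0 (k := 3) Nat.prime_three (by norm_num) (by norm_num) (128 * m)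
    (by rw [hm]; ring) _ _ s3'.1 s3'.2
  have b5 := oc_bound' hM χ h0 (k := 2) Nat.prime_five (by norm_num) (by norm_num) (256 * m)
    (by rw [hm]; ring) _ _ s5.1 s5.2
  have b7 := oc_bound' hM χ h0 (k := 1) (by norm_num : Nat.Prime 7) (by norm_num) (by norm_num)
    (512 * m) (by rw [hm]; ring) _ _ s7.1 s7.2
  have b11 := oc_bound' hM χ h0 (k := 0) (by norm_num : Nat.Prime 11) (by norm_num) (by norm_num)
    (1024 * m) (by rw [hm]; ring) _ _ s11.1 s11.2
  have b23 := oc_bound' hM χ h0 (k := 0) (by norm_num : Nat.Prime 23) (by norm_num) (by norm_num)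
    (1024 * m) (by rw [hm]; ring) _ _ s23.1 s23.2
  have ht := sum_oc_le χ {(3, 1080), (3, 504), (5, 60), (7, 42), (11, 11), (23, 23)} (by decide)
  rw [Finset.sum_insert (by decide), Finset.sum_insert (by decide), Finset.sum_insert (by decide),
    Finset.sum_insert (by decide), Finset.sum_insert (by decide),
    Finset.sum_singleton, hm, hG] at ht
  rw [hG] at b3 b3' b5 b7 b11 b23
  dsimp only at ht
  have p3 : 0 ≤ ∑ g ∈ oc M24 3 1080, ‖χ.1 g‖ ^ 2 := Finset.sum_nonneg fun _ _ => sq_nonneg _
  have p3' : 0 ≤ ∑ g ∈ oc M24 3 504, ‖χ.1 g‖ ^ 2 := Finset.sum_nonneg fun _ _ => sq_nonneg _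
  have p5 : 0 ≤ ∑ g ∈ oc M24 5 60, ‖χ.1 g‖ ^ 2 := Finset.sum_nonneg fun _ _ => sq_nonneg _
  have p7 : 0 ≤ ∑ g ∈ oc M24 7 42, ‖χ.1 g‖ ^ 2 := Finset.sum_nonneg fun _ _ => sq_nonneg _
  have p11 : 0 ≤ ∑ g ∈ oc M24 11 11, ‖χ.1 g‖ ^ 2 := Finset.sum_nonneg fun _ _ => sq_nonneg _
  have p23 : 0 ≤ ∑ g ∈ oc M24 23 23, ‖χ.1 g‖ ^ 2 := Finset.sum_nonneg fun _ _ => sq_nonneg _
  generalize ∑ g ∈ oc M24 3 1080, ‖χ.1 g‖ ^ 2 = T3 at *
  generalize ∑ g ∈ oc M24 3 504, ‖χ.1 g‖ ^ 2 = T3' at *
  generalize ∑ g ∈ oc M24 5 60, ‖χ.1 g‖ ^ 2 = T5 at *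
  generalize ∑ g ∈ oc M24 7 42, ‖χ.1 g‖ ^ 2 = T7 at *
  generalize ∑ g ∈ oc M24 11 11, ‖χ.1 g‖ ^ 2 = T11 at *
  generalize ∑ g ∈ oc M24 23 23, ‖χ.1 g‖ ^ 2 = T23 at *
  have hm5 : m ≤ 15 := by
    by_contra h
    have : (16 : ℝ) ≤ m := by exact_mod_cast not_le.1 h
    push_cast at ht
    nlinarith
  interval_cases m
  all_goals norm_num at ht b3 b3' b5 b7 b11 b23
  all_goals linarith

/-- All irreducible complex characters of the Mathieu group `M₂₄` lie in a single 2-block: any two of them lie in the same block relative to every maximal ideal of the algebraic integers containing 2. -/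
theorem result (M : Ideal Cfsg.AlgInt) (hM : Cfsg.IsPModular 2 M)
    (χ ψ : Cfsg.IrrCharacter ↥Cfsg.M24) : Cfsg.SameBlock M (χ : ↥Cfsg.M24 → ℂ) (ψ : ↥Cfsg.M24 → ℂ) := by
  haveI : Fact (Nat.Prime 2) := ⟨Nat.prime_two⟩
  haveI : Finite M24 := Nat.finite_of_card_ne_zero (by rw [card_M24]; norm_num)
  refine sameBlock_of_local hM 3 (fun z hz => ?_) (fun x hx1 hx => ?_) (no_defect_zero hM) χ ψ
  · obtain ⟨i, hi, -, h⟩ := m24_class_of_order hz [1, 2] (by decide +kernel)
    simp only [List.mem_cons, List.not_mem_nil, or_false] at hi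
    rcases hi with rfl | rfl
    · exact big_of_isConj h big1
    · exact big_of_isConj h big2
  · obtain ⟨i, hi, -, h2, h3⟩ := m24_class x
    have h1 : orderOf x ≠ 1 := by rwa [Ne, orderOf_eq_one_iff]
    have h4 : ¬ 2 ^ 4 ∣ Nat.card (Cg x) := by
      rw [h3]
      rw [h2] at h1 hx
      exact (show ∀ i < 26, ¬2 ∣ nthN m24t_os i → nthN m24t_os i ≠ 1 → ¬2 ^ 4 ∣ nthN m24t_cs i by
        decide +kernel) i hi hx h1
    rw [Nat.prime_two.pow_dvd_iff_le_factorization Nat.card_pos.ne'] at h4
    omega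

end Cfsg.Agent.S5006
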