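import Cfsg.Statements.S5015
import Cfsg.Agent.H36.RankOne

set_option autoImplicit false
open Cfsg

namespace Cfsg.Agent.S5015

open Cfsg.Agent.H36

/-- Let a group Y act doubly transitively on a set Ω with at least three points, and suppose that the stabilizer of a point α contains a nilpotent subgroup A, normalized by that stabilizer, which acts regularly on the points other than α. Then for any y in Y moving α, the subgroups A and y A y⁻¹ are the unipotent subgroups of a rank one group, and the normal closure of A in Y (the subgroup generated by all conjugates of A) is generated by A and y A y⁻¹ alone. -/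
theorem result {Y Ω : Type*} [Group Y] [MulAction Y Ω]
    (h2 : MulAction.IsMultiplyPretransitive Y Ω 2) (hΩ : 3 ≤ ENat.card Ω) (α : Ω) (A : Subgroup Y)
    (hA : A ≤ MulAction.stabilizer Y α) (hAn : ∀ y ∈ MulAction.stabilizer Y α, Cfsg.conjBy A y = A)
    (hnil : Group.IsNilpotent A) (hreg : ∀ β γ : Ω, β ≠ α → γ ≠ α → ∃! a : Y, a ∈ A ∧ a • β = γ)
    (y : Y) (hy : y ∉ MulAction.stabilizer Y α) :
    Cfsg.IsRankOnePair A (Cfsg.conjBy A y) ∧ Subgroup.normalClosure (A : Set Y) = A ⊔ Cfsg.conjBy A y := by
  classical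
  have hyα : y • α ≠ α := hy
  set B := Cfsg.conjBy A y with hB
  -- conjugates depend only on the image point
  have hpt : ∀ g g' : Y, g • α = g' • α → Cfsg.conjBy A g = Cfsg.conjBy A g' := by
    intro g g' e
    have : g'⁻¹ * g ∈ MulAction.stabilizer Y α := by
      rw [MulAction.mem_stabilizer_iff, mul_smul, e, inv_smul_smul]
    rw [conjBy_eq_conjBy_iff, ← conjBy_eq_self_iff]
    exact hAn _ this
  have hfix : ∀ a ∈ A, a • α = α := fun a ha => hA ha
  have hne : ∀ a ∈ A, ∀ β, β ≠ α → a • β ≠ α := by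
    intro a ha β hβ e
    apply hβ
    rw [← hfix a ha] at e
    exact MulAction.injective a e
  have hfree : ∀ a ∈ A, ∀ β, β ≠ α → a • β = β → a = 1 := by
    intro a ha β hβ e
    exact (hreg β β hβ hβ).unique ⟨ha, e⟩ ⟨one_mem _, one_smul _ _⟩
  obtain ⟨γ, hγα, hγy⟩ : ∃ γ : Ω, γ ≠ α ∧ γ ≠ y • α := by
    by_contra hcon
    push Not at hcon
    have hsub : (Set.univ : Set Ω) ⊆ {α, y • α} := by
      intro γ _
      by_cases e : γ = α
      · exact Or.inl e
      · exact Or.inr (hcon γ e)
    have h1 := Set.encard_le_encard hsub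
    rw [Set.encard_univ, Set.encard_pair hyα.symm] at h1
    have := hΩ.trans h1
    norm_num at this
  have hpair : Cfsg.IsRankOnePair A B := by
    refine RO.mk' ?_ hnil (isNilpotent_conjBy hnil y) ?_ ?_
    · intro e
      obtain ⟨a, ⟨ha, ea⟩, -⟩ := hreg (y • α) γ hyα hγα
      rw [e] at ha
      obtain ⟨a', ha', rfl⟩ := exists_of_mem_conjBy ha
      rw [mul_smul, mul_smul, inv_smul_smul, hfix a' ha'] at ea
      exact hγy ea.symm
    · intro a ha ha1
      -- find b = y a' y⁻¹ with b • α = a • y • α
      have h1 : y⁻¹ • α ≠ α := by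
        intro e; apply hyα; conv_lhs => rw [← e, smul_inv_smul]
      have h3 : y⁻¹ • a • y • α ≠ α := by
        intro e
        have : a • y • α = y • α := by
          conv_rhs => rw [← e, smul_inv_smul]
        exact ha1 (hfree a ha _ hyα this)
      obtain ⟨a', ⟨ha', ea⟩, -⟩ := hreg _ _ h1 h3
      have e2 : (y * a' * y⁻¹) • α = (a * y) • α := by
        rw [mul_smul, mul_smul, ea, smul_inv_smul, mul_smul]
      refine ⟨y * a' * y⁻¹, conj_mem_conjBy y ha', ?_, ?_⟩
      · intro e
        rw [e, one_smul, mul_smul] at e2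
        exact hne a ha _ hyα e2.symm
      · rw [hB, conjBy_conjBy]; exact hpt _ _ e2
    · intro b hb hb1
      obtain ⟨a', ha', rfl⟩ := exists_of_mem_conjBy hb
      have h1 : y⁻¹ • α ≠ α := by
        intro e; apply hyα; conv_lhs => rw [← e, smul_inv_smul]
      have h3 : (y * a' * y⁻¹) • α ≠ α := by
        intro e
        have : a' • y⁻¹ • α = y⁻¹ • α := by
          conv_rhs => rw [← e, mul_smul, mul_smul, inv_smul_smul]
        apply hb1
        rw [hfree a' ha' _ h1 this]; simp
      obtain ⟨a, ⟨ha, ea⟩, -⟩ := hreg _ _ hyα h3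
      refine ⟨a, ha, ?_, ?_⟩
      · rintro rfl
        rw [one_smul, mul_smul, mul_smul] at ea
        exact hne a' ha' _ h1 (MulAction.injective y ea).symm
      · rw [hB, conjBy_conjBy]; exact hpt _ _ (by rw [mul_smul, ea])
  refine ⟨hpair, le_antisymm ?_ ?_⟩
  · rw [Subgroup.normalClosure, Subgroup.closure_le]
    intro x hx
    obtain ⟨a, ha, hc⟩ := Group.mem_conjugatesOfSet_iff.1 hx
    obtain ⟨g, rfl⟩ := isConj_iff.1 hc
    have h1 : g * a * g⁻¹ ∈ Cfsg.conjBy A g := conj_mem_conjBy g ha
    by_cases e : g • α = α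
    · rw [hAn g e] at h1
      exact Subgroup.mem_sup_left h1
    · obtain ⟨a', ⟨ha', ea⟩, -⟩ := hreg _ _ hyα e
      rw [hpt g (a' * y) (by rw [mul_smul, ea]), ← conjBy_conjBy] at h1
      exact conjBy_le le_sup_right (Subgroup.mem_sup_left ha') h1
  · refine sup_le Subgroup.le_normalClosure ?_
    have := conjBy_mono y (Subgroup.le_normalClosure (H := A))
    rwa [conjBy_normal (Subgroup.normalClosure (A : Set Y))] at this

end Cfsg.Agent.S5015
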