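import Cfsg.Statements.S5020
import Cfsg.Agent.H36.SL2Pair
import Cfsg.Agent.H52.Quasisimple

set_option autoImplicit false
open Cfsg

namespace Cfsg.Agent.S5020

open Cfsg.Agent.H36

theorem zpowers_eq {X : Type*} [Group X] {A : Subgroup X} {p : ℕ} (hp : p.Prime)
    (hA : Nat.card A = p) {a : X} (ha : a ∈ A) (ha1 : a ≠ 1) :
    Subgroup.zpowers a = A ∧ a ^ p = 1 := by
  have : Finite A := Nat.finite_of_card_ne_zero (hA ▸ hp.ne_zero)
  have hle : Subgroup.zpowers a ≤ A := (Subgroup.zpowers_le).2 ha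
  have hd := Subgroup.card_dvd_of_le hle
  rw [hA, Nat.card_zpowers] at hd
  have ho : orderOf a = p := ((Nat.dvd_prime hp).1 hd).resolve_left (by simpa using ha1)
  exact ⟨Subgroup.eq_of_le_of_card_ge hle (by rw [hA, Nat.card_zpowers, ho]),
    ho ▸ pow_orderOf_eq_one a⟩

theorem iso {X : Type*} [Group X] {A B : Subgroup X} (h : Cfsg.IsRankOneGroup X A B)
    (hs : Cfsg.IsSpecialRankOnePair A B) (hab : Cfsg.HasAbelianUnipotents A B)
    {p : ℕ} [hp : Fact p.Prime] (hA : Nat.card A = p) :
    Nonempty (X ≃* Matrix.SpecialLinearGroup (Fin 2) (ZMod p)) ∨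
    Nonempty (X ≃* Matrix.ProjectiveSpecialLinearGroup (Fin 2) (ZMod p)) := by
  obtain ⟨a, ha, ha1⟩ := RO.exists_ne_one h.2
  obtain ⟨b, m⟩ := Mt.exists_right h.2 ha ha1
  have hB : Nat.card B = p := by
    rw [← Sp.conjBy_nn_left hs m, ← hA]
    exact Nat.card_congr (Subgroup.equivMapOfInjective _ _ (MulAut.conj _).injective).symm.toEquiv
  have e1 := zpowers_eq hp.out hA ha ha1
  have e2 := zpowers_eq hp.out hB m.right (m.right_ne h.2)
  have := PSL2Pair_iso (Sp.isPSL2PairOver_zpowers hs (com_self_iff.2 hab.1) (com_self_iff.2 hab.2)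
    m e1.2)
  rw [e1.1, e2.1, h.1] at this
  exact this.imp (fun ⟨e⟩ => ⟨Subgroup.topEquiv.symm.trans e⟩)
    (fun ⟨e⟩ => ⟨Subgroup.topEquiv.symm.trans e⟩)

/-- Let X be a special rank one group with abelian unipotent subgroups A and B, and H = N(A) ∩ N(B) its diagonal subgroup. Then either A has at most three elements and X is isomorphic to SL₂(2), SL₂(3) or PSL₂(3); or X = X' A with the commutator subgroup X' quasisimple and the commutator subgroup ⁅A, H⁆ having more than three elements. -/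
theorem result {X : Type*} [Group X] {A B : Subgroup X} (h : Cfsg.IsRankOneGroup X A B)
    (hs : Cfsg.IsSpecialRankOnePair A B) (hab : Cfsg.HasAbelianUnipotents A B) :
    (ENat.card A ≤ 3 ∧ (Nonempty (X ≃* Matrix.SpecialLinearGroup (Fin 2) (ZMod 2)) ∨
        Nonempty (X ≃* Matrix.SpecialLinearGroup (Fin 2) (ZMod 3)) ∨
        Nonempty (X ≃* Matrix.ProjectiveSpecialLinearGroup (Fin 2) (ZMod 3)))) ∨
    (commutator X ⊔ A = ⊤ ∧ Cfsg.IsQuasisimple (commutator X) ∧
      3 < ENat.card ↥(⁅A, Cfsg.rankOneDiagonal A B⁆ : Subgroup X)) := by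
  rcases le_or_gt (ENat.card A) 3 with hc | hc
  · refine Or.inl ⟨hc, ?_⟩
    have hf : Finite A := ENat.card_lt_top.1 (hc.trans_lt (ENat.natCast_lt_top 3))
    have h3 : Nat.card A ≤ 3 := by
      rw [ENat.card_eq_coe_natCard] at hc
      exact_mod_cast hc
    have h1 : 1 < Nat.card A := (Subgroup.one_lt_card_iff_ne_bot A).2 (RO.left_ne_bot h.2)
    rcases (show Nat.card A = 2 ∨ Nat.card A = 3 by omega) with e | e
    · left
      rcases iso h hs hab e with h' | ⟨⟨f⟩⟩
      · exact h'
      · have : Subgroup.center (Matrix.SpecialLinearGroup (Fin 2) (ZMod 2)) = ⊥ := by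
          refine eq_bot_iff.2 fun g hg => ?_
          rcases center_SL2_eq g hg with rfl | rfl
          · exact one_mem _
          · exact Subgroup.mem_bot.2 (by decide)
        exact ⟨f.trans ((QuotientGroup.quotientMulEquivOfEq this).trans QuotientGroup.quotientBot)⟩
    · have : Fact (Nat.Prime 3) := ⟨Nat.prime_three⟩
      exact Or.inr (iso h hs hab e)
  · right
    have hA := com_self_iff.2 hab.1
    have hp : commutator X = ⊤ := by
      have := Sp.commutator_sup_eq hs hA hc
      rwa [h.1] at this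
    refine ⟨by rw [hp, top_sup_eq], ?_, ?_⟩
    · rw [hp]
      exact H52.IsQuasisimple.of_mulEquiv (RO.isQuasisimple h ⟨hp⟩) Subgroup.topEquiv.symm
    · refine hc.trans_le ?_
      exact Set.encard_le_encard (Sp.le_commutator hs hA hc)

end Cfsg.Agent.S5020
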