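import Cfsg.Statements.S5023
import Cfsg.Agent.H36.Special

set_option autoImplicit false
open Cfsg

namespace Cfsg.Agent.S5023

open Cfsg.Agent.H36

theorem com_of_quad {X : Type*} [Group X] {V : Type*} [AddCommGroup V] [DistribMulAction X V]
    (hf : ∀ x : X, (∀ v : V, x • v = v) → x = 1) {A : Subgroup X} (hq : Quad V A) : Com A A := by
  intro a ha a' ha'
  have key : ∀ v : V, (a * a') • v = (a' * a) • v := by
    intro v
    have h1 := hq a ha a' ha' v
    have h2 := hq a' ha' a ha v
    rw [smul_sub] at h1 h2
    rw [mul_smul, mul_smul, eq_add_of_sub_eq h1, eq_add_of_sub_eq h2]; abel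
  have := hf ((a' * a)⁻¹ * (a * a')) fun v => by rw [mul_smul, key, inv_smul_smul]
  exact (inv_mul_eq_one.1 this).symm

/-- Let X be a rank one group with unipotent subgroups A and B that acts faithfully on an abelian group V (written additively) with A acting quadratically: a' • (a • v − v) = a • v − v for all a, a' in A and v in V. Then A is either torsion-free or an elementary abelian p-group for some prime p. -/
theorem result {X : Type*} [Group X] {A B : Subgroup X} (h : Cfsg.IsRankOneGroup X A B)
    {V : Type*} [AddCommGroup V] [DistribMulAction X V] (hf : ∀ x : X, (∀ v : V, x • v = v) → x = 1)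
    (hq : ∀ a ∈ A, ∀ a' ∈ A, ∀ v : V, a' • (a • v - v) = a • v - v) :
    (∀ a ∈ A, a ≠ 1 → ¬ IsOfFinOrder a) ∨ ∃ p : ℕ, p.Prime ∧ Cfsg.IsElementaryAbelian p A := by
  have hA : Com A A := com_of_quad hf hq
  have hB : Com B B := by
    obtain ⟨x, -, e⟩ := RO.right_mem_unip h.2
    rw [e]; exact hA.conj x
  have hs : IsSpecialRankOnePair A B := by
    refine special_of_quadratic (V := V) h.2 hq ?_
    by_contra hcon
    push Not at hcon
    exact ((com_of_quad hf (A := A ⊔ B) fun x hx y hy v => hcon x hx y hy v).mono
      le_sup_left le_sup_right).not_RO h.2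
  rcases Sp.elementary_or_divisible hs hA hB with ⟨p, hp, h1⟩ | h1
  · exact Or.inr ⟨p, hp, com_self_iff.1 hA, h1⟩
  · exact Or.inl h1.1

end Cfsg.Agent.S5023
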