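import Cfsg.Statements.S5024
import Cfsg.Agent.H36.RootSub

set_option autoImplicit false
open Cfsg

namespace Cfsg.Agent.S5024

open Cfsg.Agent.H36

theorem mem_unip {G : Type*} [Group G] {S : Set (Subgroup G)} (hS : Cfsg.IsRootSubgroupSet S)
    {A B C D : Subgroup G} (hA : A ∈ S) (hC : C ∈ S) (hD : D ∈ S) (hAB : IsRankOnePair A B)
    (hCD : IsRankOnePair C D) (hle : A ⊔ B ≤ C ⊔ D) : A ∈ unipotentSubgroups C D := by
  have hAle : A ≤ C ⊔ D := le_sup_left.trans hle
  by_cases h : IsRankOnePair C A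
  · obtain ⟨x, hx, e⟩ := RO.right_mem_unip h
    exact ⟨x, (sup_le le_sup_left hAle : C ⊔ A ≤ C ⊔ D) hx, e⟩
  · obtain ⟨a, ha, ha1⟩ := RO.exists_ne_one hAB
    have h1 : Com C (conjBy C a) := RS.com_conj hS hA hC (fun h' => h (RO.symm h')) ha
    have h2 : conjBy C a = C := by
      by_contra hne
      exact h1.not_RO (RO.of_mem_unip hCD (mem_unip_self _ _)
        (conjBy_mem_unip (mem_unip_self _ _) (hAle ha)) (Ne.symm hne))
    have h3 : Com C A := RS.com_of_normalizes hS hC hA ha ha1 h2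
    obtain ⟨c, hc, hz⟩ := RO.mem_mul_center hCD (hAle ha) (h3.symm a ha) (hS.commutative C hC)
    have hc1 : c ≠ 1 := by
      rintro rfl
      apply ha1
      refine RO.eq_one_of_comm hAB ha fun b hb => ?_
      simpa using hz b (hle (Subgroup.mem_sup_right hb))
    have h4 : c⁻¹ * a * c ∈ A := by
      rw [mul_assoc, ← h3 c hc a ha]; simpa using ha
    have h5 := RS.eq_one_of_centralizes hS hD hCD hz hc hc1 hA h4
    have h6 : a ∈ C := by rw [← inv_mul_eq_one.1 h5]; exact hc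
    rw [← RS.eq_of_mem hS ⟨D, hD, hCD⟩ hA h6 ha ha1]
    exact mem_unip_self _ _

/-- Let S be a set of abstract root subgroups of G, A and C members of S, B a rank one partner of A in S and D a rank one partner of C in S. If the rank one group ⟨A, B⟩ is contained in ⟨C, D⟩ then the two coincide, and C and D are conjugates of A inside ⟨A, B⟩. -/
theorem result {G : Type*} [Group G] {S : Set (Subgroup G)} (hS : Cfsg.IsRootSubgroupSet S)
    {A B C D : Subgroup G} (hA : A ∈ S) (hC : C ∈ S) (hB : B ∈ Cfsg.rankOnePartners S A) (hD : D ∈ Cfsg.rankOnePartners S C)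
    (hle : A ⊔ B ≤ C ⊔ D) : A ⊔ B = C ⊔ D ∧ C ∈ Cfsg.unipotentSubgroups A B ∧ D ∈ Cfsg.unipotentSubgroups A B := by
  have h1 := mem_unip hS hA hC hD.1 hB.2 hD.2 hle
  have h2 := mem_unip hS hB.1 hC hD.1 (RO.symm hB.2) hD.2 (by rwa [sup_comm])
  refine ⟨RO.sup_eq_of_mem_unip hD.2 h1 h2 hB.2.ne, ?_, ?_⟩
  · rw [RO.unip_eq_of_mem_unip hD.2 h1 h2 hB.2.ne]; exact mem_unip_self _ _
  · rw [RO.unip_eq_of_mem_unip hD.2 h1 h2 hB.2.ne]; exact RO.right_mem_unip hD.2

end Cfsg.Agent.S5024
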