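import Cfsg.Statements.S5026
import Cfsg.Agent.H36.RootSub

set_option autoImplicit false
open Cfsg

namespace Cfsg.Agent.S5026

open Cfsg.Agent.H36

theorem mem_iff {G : Type*} [Group G] {S : Set (Subgroup G)} {C : Subgroup G} {x : G} :
    C ∈ Cfsg.centralizingMembers S (Subgroup.zpowers x) ↔ C ∈ S ∧ ∀ c ∈ C, x * c = c * x := by
  unfold Cfsg.centralizingMembers
  simp only [Set.mem_setOf_eq]
  refine and_congr_right fun _ => ?_
  rw [← com_iff_le_centralizer]
  constructor
  · intro h c hc; exact (h c hc x (Subgroup.mem_zpowers x)).symm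
  · intro h c hc y hy
    obtain ⟨n, rfl⟩ := Subgroup.mem_zpowers_iff.1 hy
    exact (Commute.zpow_left (h c hc) n).eq.symm

theorem key {G : Type*} [Group G] {S : Set (Subgroup G)} (hS : Cfsg.IsRootSubgroupSet S)
    (hdeg : Cfsg.IsDegenerateRootSet S) {a b : G} (ha : a ∈ Cfsg.rootElements S)
    (hb : b ∈ Cfsg.rootElements S) (hab : a * b = b * a) (hab1 : a * b ≠ 1) {C : Subgroup G}
    (hC : C ∈ S) (hc : ∀ c ∈ C, a * b * c = c * (a * b)) : ∀ c ∈ C, a * c = c * a := by
  obtain ⟨ha1, A, hA, ha⟩ := ha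
  obtain ⟨hb1, B, hB, hb⟩ := hb
  rcases RS.pair' hS hA hC with h | h | h
  · exact h a ha
  · exfalso
    have e : conjBy C b = conjBy C a⁻¹ := by
      have := conjBy_of_comm hc
      conv_rhs => rw [← this, conjBy_conjBy, inv_mul_cancel_left]
    obtain ⟨h1, -⟩ := RS.mem_unip_of_conj hS hC h hB (inv_mem ha) (inv_ne_one.2 ha1) hb e
    by_cases hne : B = A
    · subst hne
      exact hab1 (RO.eq_one_of_comm h (mul_mem ha hb) hc)
    · have h2 := RO.of_mem_unip h (mem_unip_self _ _) h1 (Ne.symm hne)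
      have h3 : b ∈ conjBy B a := by
        rw [mem_conjBy, mul_assoc, ← hab]; simpa using hb
      have h4 := RS.eq_of_mem hS ⟨A, hA, RO.symm h2⟩ (hS.conj_mem B hB a) hb h3 hb1
      exact ha1 (RO.eq_one_of_normalizes h2 ha h4.symm)
  · exact absurd h (hdeg A hA C hC)

/-- Let S be a degenerate set of abstract root subgroups of G (a set of abstract transvection groups) and let a, b be commuting non-identity elements of members of S with a b ≠ 1. Then the members of S centralizing a b are exactly those centralizing both a and b. -/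
theorem result {G : Type*} [Group G] {S : Set (Subgroup G)} (hS : Cfsg.IsRootSubgroupSet S) (hdeg : Cfsg.IsDegenerateRootSet S)
    {a b : G} (ha : a ∈ Cfsg.rootElements S) (hb : b ∈ Cfsg.rootElements S) (hab : a * b = b * a) (hab1 : a * b ≠ 1) :
    Cfsg.centralizingMembers S (Subgroup.zpowers (a * b)) =
      Cfsg.centralizingMembers S (Subgroup.zpowers a) ∩ Cfsg.centralizingMembers S (Subgroup.zpowers b) := by
  ext C
  simp only [Set.mem_inter_iff, mem_iff]
  constructor
  · rintro ⟨hC, hc⟩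
    exact ⟨⟨hC, key hS hdeg ha hb hab hab1 hC hc⟩,
      ⟨hC, key hS hdeg hb ha hab.symm (hab ▸ hab1) hC (hab ▸ hc)⟩⟩
  · rintro ⟨⟨hC, h1⟩, -, h2⟩
    refine ⟨hC, fun c hc => ?_⟩
    rw [mul_assoc, h2 c hc, ← mul_assoc, h1 c hc, mul_assoc]

end Cfsg.Agent.S5026
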