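import Cfsg.Statements.S5027
import Cfsg.Agent.H36.RootSub

set_option autoImplicit false
open Cfsg

namespace Cfsg.Agent.S5027

open Cfsg.Agent.H36

/-- Let S be a set of abstract root subgroups of G such that every member of S has a rank one partner in S (the graph of rank one pairs on S has no isolated vertex). Then the second centre of G equals its centre. -/
theorem result {G : Type*} [Group G] {S : Set (Subgroup G)} (hS : Cfsg.IsRootSubgroupSet S)
    (hF : ∀ A ∈ S, ¬ Cfsg.IsIsolatedIn (Cfsg.FAdj S) S A) : Subgroup.upperCentralSeries G 2 = Subgroup.center G := by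
  refine le_antisymm (fun z hz => ?_) ?_
  · rw [Subgroup.mem_upperCentralSeries_succ_iff, Subgroup.upperCentralSeries_one] at hz
    have h1 : (⨆ A ∈ S, A) ≤ Subgroup.centralizer {z} := by
      refine iSup₂_le fun A hA a ha => ?_
      obtain ⟨B, hB, h⟩ := (NI_iff hA).1 (hF A hA)
      rw [Subgroup.mem_centralizer_singleton_iff, eq_comm]
      by_cases ha1 : a = 1
      · simp [ha1]
      have h2 : z * a * z⁻¹ * a⁻¹ = 1 := by
        refine RS.eq_one_of_centralizes hS hB h
          (fun x _ => (Subgroup.mem_center_iff.1 (hz a) x).symm) ha ha1 (hS.conj_mem A hA z) ?_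
        simpa using conj_mem_conjBy z ha
      calc z * a = (z * a * z⁻¹ * a⁻¹) * (a * z) := by group
        _ = a * z := by rw [h2, one_mul]
    rw [hS.generates] at h1
    rw [Subgroup.mem_center_iff]
    intro g
    exact (Subgroup.mem_centralizer_iff.1 (h1 (Subgroup.mem_top g)) z rfl).symm
  · rw [← Subgroup.upperCentralSeries_one]
    exact Subgroup.upperCentralSeries_mono G (by norm_num)

end Cfsg.Agent.S5027
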