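import Cfsg.Statements.S5029
import Cfsg.Agent.H36.RootSub2

set_option autoImplicit false
open Cfsg

namespace Cfsg.Agent.S5029

open Cfsg.Agent.H36

/-- Let S be a set of abstract root subgroups of G, A ∈ S having a rank one partner in S, and B ∈ S with C = ⁅A, B⁆ ∈ S. Then the members of S contained in AC are the conjugates of A by elements of B together with C, they partition AC, the members of S inside AC partition AC so that A is a line partner of C, and for every non-identity a ∈ A the map b ↦ a⁻¹ b⁻¹ a b is an isomorphism from B onto C. -/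
theorem result {G : Type*} [Group G] {S : Set (Subgroup G)} (hS : Cfsg.IsRootSubgroupSet S)
    {A B : Subgroup G} (hA : ¬ Cfsg.IsIsolatedIn (Cfsg.FAdj S) S A) (hAS : A ∈ S) (hB : B ∈ S) (hC : ⁅A, B⁆ ∈ S) :
    Cfsg.membersIn S (A ⊔ ⁅A, B⁆) = (fun b : G => Cfsg.conjBy A b) '' (B : Set G) ∪ {⁅A, B⁆} ∧
    Cfsg.IsSubgroupPartition (A ⊔ ⁅A, B⁆) (Cfsg.membersIn S (A ⊔ ⁅A, B⁆)) ∧
    A ∈ Cfsg.linePartners S ⁅A, B⁆ ∧
    ∀ a ∈ A, a ≠ 1 → ∃ φ : ↥B ≃* ↥⁅A, B⁆, ∀ b : ↥B, (φ b : G) = a⁻¹ * (b : G)⁻¹ * a * b := by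
  have hN := (NI_iff hAS).1 hA
  have h := RS.RC_of_mem hS hAS hB hC
  refine ⟨RC.members_eq hS hAS hN h, RC.partition hS hAS hN h,
    line_symm hAS (RC.commutator_mem_line hS hAS hN h), fun a ha ha1 => ?_⟩
  have hmem : ∀ b ∈ B, a⁻¹ * b⁻¹ * a * b ∈ ⁅A, B⁆ := fun b hb => by
    simpa using cm_mem (inv_mem ha) (inv_mem hb)
  let f : ↥B →* ↥⁅A, B⁆ := MonoidHom.mk' (fun b => ⟨a⁻¹ * (b : G)⁻¹ * a * b, hmem b b.2⟩) (by
    intro b b'
    apply Subtype.ext
    have h1 := RC.com_right h _ (hmem b b.2) b' b'.2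
    have h2 := RS.com_self hS hC _ (hmem b b.2) _ (hmem b' b'.2)
    simp only [Subgroup.coe_mul]
    rw [h2]
    calc a⁻¹ * ((b : G) * b')⁻¹ * a * (b * b')
        = (a⁻¹ * (b' : G)⁻¹ * a * b') * (b' : G)⁻¹ * ((a⁻¹ * (b : G)⁻¹ * a * b) * b') := by group
      _ = _ := by rw [h1]; group)
  have hbij : Function.Bijective f := by
    constructor
    · rw [injective_iff_map_eq_one]
      intro b hb
      have e : a⁻¹ * (b : G)⁻¹ * a * b = 1 := congrArg Subtype.val hb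
      apply Subtype.ext
      refine RC.eq_one_of_comm hS hAS hB hN h ha ha1 b.2 ?_
      calc a * b = b * a * (a⁻¹ * (b : G)⁻¹ * a * b) := by group
        _ = _ := by rw [e, mul_one]
    · intro c
      obtain ⟨b, hb, e⟩ := RC.exists_right h (inv_mem ha) (inv_ne_one.2 ha1) c.2
      refine ⟨⟨b⁻¹, inv_mem hb⟩, Subtype.ext ?_⟩
      rw [e]
      simp [f]
  exact ⟨MulEquiv.ofBijective f hbij, fun b => rfl⟩

end Cfsg.Agent.S5029
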