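import Cfsg.Statements.S5030
import Cfsg.Agent.H36.RootSub2
import Cfsg.Agent.H36.CommLemmas

set_option autoImplicit false
open Cfsg

namespace Cfsg.Agent.S5030

open Cfsg.Agent.H36

theorem com_swap {G : Type*} [Group G] {S : Set (Subgroup G)} {A B C : Subgroup G}
    (h : RootCommutatorCase S C B) (hAC : Com A C) {b : G} (hb : b ∈ B) (hb1 : b ≠ 1)
    (h1 : Com A (conjBy C b)) : Com (conjBy A b) C := by
  have h2 : Com A ⁅C, B⁆ := by
    have := hAC.sup_right h1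
    rw [RC.sup_conj_eq h hb hb1] at this
    exact this.mono le_rfl le_sup_right
  have h3 := h2.conj b
  rw [conjBy_commutator_right hb] at h3
  have h4 := (hAC.conj b).sup_right h3
  rw [conj_sup_commutator_eq C hb] at h4
  exact h4.mono le_rfl le_sup_left

theorem cases2 {G : Type*} [Group G] {S : Set (Subgroup G)} (hS : Cfsg.IsRootSubgroupSet S)
    {A C : Subgroup G} (hA : A ∈ S) (hC : C ∈ S) (h : ¬ IsRankOnePair A C) :
    (IsMulCommutative ↥(A ⊔ C) ↔ Com A C) ∧ Com ⁅A ⊔ C, A ⊔ C⁆ (A ⊔ C) := by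
  refine ⟨⟨fun h1 => (com_self_iff.2 h1).mono le_sup_left le_sup_right, fun h1 => com_self_iff.1
    (((RS.com_self hS hA).sup_right h1).sup_left (h1.symm.sup_right (RS.com_self hS hC)))⟩, ?_⟩
  rw [commutator_sup_self (RS.com_self hS hA) (RS.com_self hS hC)]
  by_cases h1 : Com A C
  · rw [com_iff.1 h1, com_iff, Subgroup.commutator_bot_left]
  · exact RC.com_sup (RS.RC_of_not hS hA hC h1 h)

/-- Let S be a set of abstract root subgroups of G and A, B, C ∈ S with ⁅A, B⁆ ∈ S and ⁅B, C⁆ ∈ S, where A and C are different and commute. For a non-identity b ∈ B put X = ⟨A, b⁻¹ C b⟩ and Y = ⟨b⁻¹ A b, C⟩ and R = ⟨A, B, C⟩. Then X and Y are either both abelian or both nilpotent of class exactly two; X and Y commute elementwise; XY is normal in R with R = (XY) B; and R is nilpotent. -/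
theorem result {G : Type*} [Group G] {S : Set (Subgroup G)} (hS : Cfsg.IsRootSubgroupSet S)
    {A B C : Subgroup G} (hA : A ∈ S) (hB : B ∈ S) (hC : C ∈ S) (hAB : ⁅A, B⁆ ∈ S) (hBC : ⁅B, C⁆ ∈ S)
    (hAC : C ∈ Cfsg.commutingPartners S A)
    {b : G} (hb : b ∈ B) (hb1 : b ≠ 1) :
    ((IsMulCommutative ↥(A ⊔ Cfsg.conjBy C b⁻¹) ∧ IsMulCommutative ↥(Cfsg.conjBy A b⁻¹ ⊔ C)) ∨
      ((¬ IsMulCommutative ↥(A ⊔ Cfsg.conjBy C b⁻¹) ∧
          ⁅⁅A ⊔ Cfsg.conjBy C b⁻¹, A ⊔ Cfsg.conjBy C b⁻¹⁆, A ⊔ Cfsg.conjBy C b⁻¹⁆ = ⊥) ∧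
        (¬ IsMulCommutative ↥(Cfsg.conjBy A b⁻¹ ⊔ C) ∧
          ⁅⁅Cfsg.conjBy A b⁻¹ ⊔ C, Cfsg.conjBy A b⁻¹ ⊔ C⁆, Cfsg.conjBy A b⁻¹ ⊔ C⁆ = ⊥))) ∧
    ⁅A ⊔ Cfsg.conjBy C b⁻¹, Cfsg.conjBy A b⁻¹ ⊔ C⁆ = ⊥ ∧
    (∀ r ∈ A ⊔ B ⊔ C, Cfsg.conjBy ((A ⊔ Cfsg.conjBy C b⁻¹) ⊔ (Cfsg.conjBy A b⁻¹ ⊔ C)) r =
      (A ⊔ Cfsg.conjBy C b⁻¹) ⊔ (Cfsg.conjBy A b⁻¹ ⊔ C)) ∧
    ((A ⊔ Cfsg.conjBy C b⁻¹) ⊔ (Cfsg.conjBy A b⁻¹ ⊔ C)) ⊔ B = A ⊔ B ⊔ C ∧
    Group.IsNilpotent ↥(A ⊔ B ⊔ C) := by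
  have h1 := RS.RC_of_mem hS hA hB hAB
  have h2 := RC.symm (RS.RC_of_mem hS hB hC hBC)
  have h3 : Com A C := com_iff.2 hAC.2.2
  have hb' := inv_mem hb
  have hb1' := inv_ne_one.2 hb1
  generalize b⁻¹ = β at hb' hb1' ⊢
  have hA' := hS.conj_mem A hA β
  have hC' := hS.conj_mem C hC β
  obtain ⟨x1, x2⟩ := cases2 hS hA hC' (RS.not_RO_conj hS hA hB hC h3 (RC.not_RO hS hB h1) hb')
  obtain ⟨y1, y2⟩ := cases2 hS hA' hC
    (fun h => RS.not_RO_conj hS hC hB hA h3.symm (RC.not_RO hS hB h2) hb' (RO.symm h))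
  have hXY : Com (A ⊔ conjBy C β) (conjBy A β ⊔ C) :=
    ((RC.com_conj hS hA (RC.symm h1) hb').sup_right h3).sup_left
      ((h3.conj β).symm.sup_right (RC.com_conj hS hC (RC.symm h2) hb').symm)
  have hK : (A ⊔ conjBy C β) ⊔ (conjBy A β ⊔ C) = (A ⊔ ⁅A, B⁆) ⊔ (C ⊔ ⁅C, B⁆) := by
    rw [← RC.sup_conj_eq h1 hb' hb1', ← RC.sup_conj_eq h2 hb' hb1']
    ac_rfl
  have hcent : Com ⁅(A ⊔ conjBy C β) ⊔ (conjBy A β ⊔ C), (A ⊔ conjBy C β) ⊔ (conjBy A β ⊔ C)⁆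
      ((A ⊔ conjBy C β) ⊔ (conjBy A β ⊔ C)) := by
    rw [com_iff_le_centralizer]
    have n1 := le_sup_left.trans (le_normalizer_centralizer ((A ⊔ conjBy C β) ⊔ (conjBy A β ⊔ C)))
    have n2 := le_sup_right.trans (le_normalizer_centralizer ((A ⊔ conjBy C β) ⊔ (conjBy A β ⊔ C)))
    refine commutator_sup_left_le n1 n2 ?_ ?_ <;> refine commutator_sup_right_le n1 n2 ?_ ?_
    · exact com_iff_le_centralizer.1
        (x2.sup_right (hXY.mono (Subgroup.commutator_le_self _) le_rfl))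
    · rw [com_iff.1 hXY]; exact bot_le
    · rw [com_iff.1 hXY.symm]; exact bot_le
    · exact com_iff_le_centralizer.1
        ((hXY.symm.mono (Subgroup.commutator_le_self _) le_rfl).sup_right y2)
  refine ⟨?_, com_iff.1 hXY, ?_, ?_, ?_⟩
  · by_cases h4 : Com A (conjBy C β)
    · exact Or.inl ⟨x1.2 h4, y1.2 (com_swap h2 h3 hb' hb1' h4)⟩
    · exact Or.inr ⟨⟨fun h => h4 (x1.1 h), com_iff.1 x2⟩,
        ⟨fun h => h4 (com_swap h1 h3.symm hb' hb1' (y1.1 h).symm).symm, com_iff.1 y2⟩⟩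
  · intro r hr
    rw [conjBy_eq_self_iff]
    refine (sup_le (sup_le ?_ ?_) ?_ : A ⊔ B ⊔ C ≤ _) hr
    · exact (le_sup_left.trans le_sup_left).trans Subgroup.le_normalizer
    · intro b hb
      rw [← conjBy_eq_self_iff, hK, conjBy_sup, conjBy_sup, conjBy_sup, conjBy_commutator_right hb,
        conjBy_commutator_right hb, conj_sup_commutator_eq A hb, conj_sup_commutator_eq C hb]
    · exact (le_sup_right.trans le_sup_right).trans Subgroup.le_normalizer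
  · refine le_antisymm (sup_le (sup_le (sup_le ?_ ?_) (sup_le ?_ ?_)) ?_) (sup_le (sup_le ?_ ?_) ?_)
    · exact le_sup_left.trans le_sup_left
    · exact conjBy_le le_sup_right (Subgroup.mem_sup_left (Subgroup.mem_sup_right hb'))
    · exact conjBy_le (le_sup_left.trans le_sup_left)
        (Subgroup.mem_sup_left (Subgroup.mem_sup_right hb'))
    · exact le_sup_right
    · exact le_sup_right.trans le_sup_left
    · exact (le_sup_left.trans le_sup_left).trans le_sup_left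
    · exact le_sup_right
    · exact (le_sup_right.trans le_sup_right).trans le_sup_left
  · rw [hK] at hcent
    set K := (A ⊔ ⁅A, B⁆) ⊔ (C ⊔ ⁅C, B⁆) with hKdef
    set R := A ⊔ B ⊔ C with hR
    have hAR : A ≤ R := le_sup_left.trans le_sup_left
    have hBR : B ≤ R := le_sup_right.trans le_sup_left
    have hCR : C ≤ R := le_sup_right
    have hAK : A ≤ K := le_sup_left.trans le_sup_left
    have hDK : ⁅A, B⁆ ≤ K := le_sup_right.trans le_sup_left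
    have hCK : C ≤ K := le_sup_left.trans le_sup_right
    have hEK : ⁅C, B⁆ ≤ K := le_sup_right.trans le_sup_right
    have hKR : K ≤ R := sup_le (sup_le hAR ((Subgroup.commutator_le_sup _ _).trans (sup_le hAR hBR)))
      (sup_le hCR ((Subgroup.commutator_le_sup _ _).trans (sup_le hCR hBR)))
    have step : ∀ n, ∀ x ∈ R, (∀ r ∈ A, x * r * x⁻¹ * r⁻¹ ∈ ucs R n) →
        (∀ r ∈ B, x * r * x⁻¹ * r⁻¹ ∈ ucs R n) → (∀ r ∈ C, x * r * x⁻¹ * r⁻¹ ∈ ucs R n) →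
        x ∈ ucs R (n + 1) := by
      intro n x hx a1 a2 a3
      refine mem_ucs_succ_of_closure (T := (A : Set G) ∪ B ∪ C) ?_ hx ?_
      · rw [Subgroup.closure_union, Subgroup.closure_union]; simp [hR]
      · rintro r ((h | h) | h)
        exacts [a1 r h, a2 r h, a3 r h]
    have triv : ∀ n, ∀ x r : G, x * r = r * x → x * r * x⁻¹ * r⁻¹ ∈ ucs R n := by
      intro n x r h
      rw [h]; simp
    have cmK : ∀ x ∈ K, ∀ y ∈ K, x * y * x⁻¹ * y⁻¹ ∈ K := fun x hx y hy =>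
      mul_mem (mul_mem (mul_mem hx hy) (inv_mem hx)) (inv_mem hy)
    have s1 : ∀ x ∈ K, ∀ y ∈ K, (∀ b ∈ B, Commute x b) → (∀ b ∈ B, Commute y b) →
        x * y * x⁻¹ * y⁻¹ ∈ ucs R 1 := by
      intro x hx y hy c1 c2
      refine step 0 _ (hKR (cmK x hx y hy)) (fun r hr => triv _ _ _ ?_) (fun r hr => triv _ _ _ ?_)
        (fun r hr => triv _ _ _ ?_)
      · exact hcent _ (cm_mem hx hy) r (hAK hr)
      · exact ((((c1 r hr).mul_left (c2 r hr)).mul_left (c1 r hr).inv_left).mul_left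
          (c2 r hr).inv_left).eq
      · exact hcent _ (cm_mem hx hy) r (hCK hr)
    have s2 : ∀ x ∈ K, ∀ y ∈ K, (∀ b ∈ B, b * x * b⁻¹ * x⁻¹ ∈ K ∧
        ∀ b' ∈ B, Commute (b * x * b⁻¹ * x⁻¹) b') → (∀ b ∈ B, Commute y b) →
        x * y * x⁻¹ * y⁻¹ ∈ ucs R 2 := by
      intro x hx y hy c1 c2
      refine step 1 _ (hKR (cmK x hx y hy)) (fun r hr => triv _ _ _ ?_) (fun r hr => ?_)
        (fun r hr => triv _ _ _ ?_)
      · exact hcent _ (cm_mem hx hy) r (hAK hr)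
      · obtain ⟨hd, hd'⟩ := c1 r hr
        set d := r * x * r⁻¹ * x⁻¹ with hdd
        have e1 : r * (x * y * x⁻¹ * y⁻¹) * r⁻¹ = (x * y * x⁻¹ * y⁻¹) * (d * y * d⁻¹ * y⁻¹) := by
          have e2 : r * y * r⁻¹ = y := by rw [← (c2 r hr).eq]; group
          calc r * (x * y * x⁻¹ * y⁻¹) * r⁻¹
              = (r * x * r⁻¹) * (r * y * r⁻¹) * (r * x * r⁻¹)⁻¹ * (r * y * r⁻¹)⁻¹ := by group
            _ = d * (x * y * x⁻¹ * y⁻¹) * d⁻¹ * (d * y * d⁻¹ * y⁻¹) := by rw [e2, hdd]; group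
            _ = _ := by rw [← hcent _ (cm_mem hx hy) d hd]; group
        have e3 : x * y * x⁻¹ * y⁻¹ * r * (x * y * x⁻¹ * y⁻¹)⁻¹ * r⁻¹ = (d * y * d⁻¹ * y⁻¹)⁻¹ := by
          calc _ = (x * y * x⁻¹ * y⁻¹) * (r * (x * y * x⁻¹ * y⁻¹) * r⁻¹)⁻¹ := by group
            _ = _ := by
              rw [e1, hcent _ (cm_mem hx hy) _ (cmK d hd y hy)]; group
        rw [e3]
        exact inv_mem (s1 d hd y hy hd' c2)
      · exact hcent _ (cm_mem hx hy) r (hCK hr)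
    have hD : ∀ d ∈ ⁅A, B⁆, ∀ b ∈ B, Commute d b := RC.com_right h1
    have hE : ∀ d ∈ ⁅C, B⁆, ∀ b ∈ B, Commute d b := RC.com_right h2
    have inv' : ∀ n, ∀ x y : G, x * y * x⁻¹ * y⁻¹ ∈ ucs R n → y * x * y⁻¹ * x⁻¹ ∈ ucs R n := by
      intro n x y h
      simpa [mul_assoc] using inv_mem h
    have s3 : ⁅A, B⁆ ≤ ucs R 3 := fun d hd =>
      step 2 d (hKR (hDK hd)) (fun r hr => triv _ _ _ (RC.com_left h1 d hd r hr))
        (fun r hr => triv _ _ _ (hD d hd r hr)) (fun r hr => inv' _ _ _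
          (s2 r (hCK hr) d (hDK hd) (fun b hb => ⟨hEK (cm_mem' hr hb), hE _ (cm_mem' hr hb)⟩)
            (hD d hd)))
    have s4 : ⁅C, B⁆ ≤ ucs R 3 := fun d hd =>
      step 2 d (hKR (hEK hd)) (fun r hr => inv' _ _ _
          (s2 r (hAK hr) d (hEK hd) (fun b hb => ⟨hDK (cm_mem' hr hb), hD _ (cm_mem' hr hb)⟩)
            (hE d hd)))
        (fun r hr => triv _ _ _ (hE d hd r hr)) (fun r hr => triv _ _ _ (RC.com_left h2 d hd r hr))
    refine isNilpotent_of_le_ucs (n := 4) (sup_le (sup_le (fun x hx => ?_) (fun x hx => ?_))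
      (fun x hx => ?_))
    · exact step 3 x (hAR hx) (fun r hr => triv _ _ _ (RS.com_self hS hA x hx r hr))
        (fun r hr => s3 (cm_mem hx hr)) (fun r hr => triv _ _ _ (h3 x hx r hr))
    · exact step 3 x (hBR hx) (fun r hr => s3 (cm_mem' hr hx))
        (fun r hr => triv _ _ _ (RS.com_self hS hB x hx r hr)) (fun r hr => s4 (cm_mem' hr hx))
    · exact step 3 x (hCR hx) (fun r hr => triv _ _ _ (h3.symm x hx r hr))
        (fun r hr => s4 (cm_mem hx hr)) (fun r hr => triv _ _ _ (RS.com_self hS hC x hx r hr))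

end Cfsg.Agent.S5030
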