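import Cfsg.Statements.S5037
import Cfsg.Agent.H36.RootSub2

set_option autoImplicit false
open Cfsg

namespace Cfsg.Agent.S5037

open Cfsg.Agent.H36

/-- A conjugation invariant relation between two commuting subgroups with a common opposite is
symmetric. -/
theorem rel_symm {G : Type*} [Group G] {R : Subgroup G → Subgroup G → Prop}
    (hR : ∀ A C g, R A C → R (conjBy A g) (conjBy C g)) {A B C : Subgroup G} (hAC : Com A C)
    (hAB : IsRankOnePair A B) (hCB : IsRankOnePair C B) (h : R A C) : R C A := by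
  obtain ⟨a, ha, ha1⟩ := RO.exists_ne_one hAB
  obtain ⟨b, hb, hb1, c, hc, hc1, e1, e2, h1⟩ := RO.exists_match hAC hAB hCB ha ha1
  obtain ⟨b', hb', hb1', c', hc', hc1', e1', e2', h1'⟩ :=
    RO.exists_match hAC hAB hCB (inv_mem ha) (inv_ne_one.2 ha1)
  have hac := hAC a ha c hc
  have h2 : Com (conjBy B a⁻¹) (conjBy B c⁻¹) := by
    have := (h1.conj (a⁻¹ * c⁻¹)).symm
    rw [conjBy_conjBy, conjBy_conjBy, inv_mul_cancel_right] at this
    have e : a⁻¹ * c⁻¹ * a = c⁻¹ := by
      rw [← mul_inv_rev, ← hac]; group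
    rwa [e] at this
  have h3 : c' = c⁻¹ := by
    by_contra hne
    have h4 := RO.sup_eq_of_mem_unip hCB (RO.conj_mem_unip hCB hc') (RO.conj_mem_unip hCB (inv_mem hc))
      (fun e => hne (RO.eq_of_conjBy_eq hCB hc' (inv_mem hc) e))
    have h5 := h1'.sup_right h2
    rw [h4] at h5
    exact (h5.mono le_rfl le_sup_right).symm.not_RO
      (RO.pair_conj hAB (inv_mem ha) (inv_ne_one.2 ha1))
  have h6 := hR _ _ (a * c) (hR _ _ b' h)
  rw [e1', e2', h3, conjBy_conjBy, conjBy_conjBy, mul_inv_cancel_right, hac,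
    mul_inv_cancel_right, ← e1, ← e2] at h6
  have h7 := hR _ _ b⁻¹ h6
  rwa [conjBy_inv_cancel, conjBy_inv_cancel] at h7

theorem mem_cm {G : Type*} [Group G] {S : Set (Subgroup G)} {A D : Subgroup G} :
    D ∈ centralizingMembers S A ↔ D ∈ S ∧ Com D A := by
  rw [com_iff_le_centralizer]; rfl

/-- Let S be a class of abstract root subgroups of G that is either degenerate or non-degenerate (so either the commutator case never occurs, or all three cases occur), and A ≠ C members of S. If every member of S commuting with A commutes with C, then A and C have the same commuting members of S; and if every rank one partner of A is a rank one partner of C, then A and C commute and have the same rank one partners. -/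
theorem result {G : Type*} [Group G] {S : Set (Subgroup G)} (hS : Cfsg.IsRootSubgroupClass S)
    (hdn : Cfsg.IsDegenerateRootSet S ∨ Cfsg.IsNondegenerateRootSet S)
    {A C : Subgroup G} (hA : A ∈ S) (hC : C ∈ S) (hAC : A ≠ C) :
    (Cfsg.centralizingMembers S A ⊆ Cfsg.centralizingMembers S C →
      Cfsg.centralizingMembers S A = Cfsg.centralizingMembers S C) ∧
    (Cfsg.rankOnePartners S A ⊆ Cfsg.rankOnePartners S C →
      ⁅A, C⁆ = ⊥ ∧ Cfsg.rankOnePartners S A = Cfsg.rankOnePartners S C) := by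
  by_cases hN : NI S A
  swap
  · -- no rank one pairs at all: everything commutes
    have hno : ∀ D ∈ S, ¬ NI S D := fun D hD h => hN (NI_of_class hS hD h hA)
    have hdeg : IsDegenerateRootSet S := hdn.resolve_right fun h => hN (NI_of_nondeg hS h hA)
    have hcom : ∀ D ∈ S, ∀ E ∈ S, Com D E := fun D hD E hE => by
      rcases RS.pair' hS.1 hD hE with h | h | h
      · exact h
      · exact (hno D hD ⟨E, hE, h⟩).elim
      · exact (hdeg D hD E hE h).elim
    refine ⟨fun h => Set.Subset.antisymm h fun D hD => ?_, fun h => ⟨com_iff.1 (hcom A hA C hC),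
      Set.Subset.antisymm h fun D hD => (hno C hC ⟨D, hD.1, hD.2⟩).elim⟩⟩
    exact mem_cm.2 ⟨hD.1, hcom D hD.1 A hA⟩
  have hN' : ∀ D ∈ S, NI S D := fun D hD => NI_of_class hS hA hN hD
  constructor
  · intro h
    have hAC' : Com A C := (mem_cm.1 (h (mem_cm.2 ⟨hA, RS.com_self hS.1 hA⟩))).2
    obtain ⟨D, hD, hCD⟩ := hN' C hC
    have hAD : IsRankOnePair A D := by
      rcases RS.pair' hS.1 hA hD with h1 | h1 | h1
      · exact absurd (RO.symm hCD) (mem_cm.1 (h (mem_cm.2 ⟨hD, h1.symm⟩))).2.not_RO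
      · exact h1
      · exact absurd (mem_cm.1 (h (mem_cm.2 ⟨h1.1, RC.com_left h1⟩))).2
          (RC.not_com hS.1 (triangle_RC hS.1 hC hCD hAC'.symm h1))
    refine Set.Subset.antisymm h (rel_symm
      (R := fun A C => centralizingMembers S A ⊆ centralizingMembers S C) ?_ hAC' hAD hCD h)
    intro A C g h E hE
    rw [mem_cm] at hE ⊢
    refine ⟨hE.1, ?_⟩
    have h1 := hE.2.conj g⁻¹
    rw [conjBy_inv_cancel] at h1
    have h2 := (mem_cm.1 (h (mem_cm.2 ⟨hS.1.conj_mem E hE.1 _, h1⟩))).2.conj g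
    rwa [conjBy_cancel_inv] at h2
  · intro h
    have hR : ∀ A C g, rankOnePartners S A ⊆ rankOnePartners S C →
        rankOnePartners S (conjBy A g) ⊆ rankOnePartners S (conjBy C g) := by
      intro A C g h E hE
      refine ⟨hE.1, ?_⟩
      have h1 := RO.conj hE.2 g⁻¹
      rw [conjBy_inv_cancel] at h1
      have h2 := RO.conj (h ⟨hS.1.conj_mem E hE.1 _, h1⟩).2 g
      rwa [conjBy_cancel_inv] at h2
    have hAC' : Com A C := by
      rcases RS.pair' hS.1 hA hC with h1 | h1 | h1
      · exact h1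
      · exact absurd rfl (h ⟨hC, h1⟩).2.ne
      · exfalso
        -- there is `B` opposite to both `A` and `E = ⁅A, C⁆`
        obtain ⟨B, hB, hAB, hEB⟩ : ∃ B ∈ S, IsRankOnePair A B ∧ IsRankOnePair ⁅A, C⁆ B := by
          obtain ⟨D, hD, hED⟩ := hN' _ h1.1
          by_cases h2 : IsRankOnePair A D
          · exact ⟨D, hD, h2, hED⟩
          · obtain ⟨a, ha, ha1⟩ := RS.exists_ne_one hS.1 hA
            obtain ⟨e, he, he1⟩ := RS.exists_ne_one hS.1 h1.1
            obtain ⟨c, hc, e1⟩ := RC.mul_mem_conj h1 ha ha1 he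
            have h3 := RS.RO_of_mul hS.1 hA hD (hS.1.conj_mem A hA c) (RC.com_left h1) hED h2 he he1
              ha (by rw [RC.com_left h1 e he a ha, e1]; exact conj_mem_conjBy c ha)
            refine ⟨conjBy D c⁻¹, hS.1.conj_mem D hD _, ?_, ?_⟩
            · have := RO.conj h3 c⁻¹; rwa [conjBy_inv_cancel] at this
            · have := RO.conj hED c⁻¹; rwa [conjBy_commutator_right (inv_mem hc)] at this
        have hCB := (h ⟨hB, hAB⟩).2
        obtain ⟨e, he, he1⟩ := RS.exists_ne_one hS.1 h1.1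
        obtain ⟨b, hb, hb1, c, hc, hc1, e1, e2, h4⟩ :=
          RO.exists_match (RC.com_right h1) hEB hCB he he1
        have he' : e⁻¹ ∈ ⁅C, A⁆ := by rw [Subgroup.commutator_comm]; exact inv_mem he
        obtain ⟨a, ha, e3⟩ := RC.mul_mem_conj (RC.symm h1) hc hc1 he'
        have h5 := hR A C a h
        rw [conjBy_of_mem ha] at h5
        have h6 := RO.pair_conj (h5 ⟨hB, hAB⟩).2 (conj_mem_conjBy a hc) (by simpa using hc1)
        have h7 := h4.conj e⁻¹
        rw [conjBy_inv_cancel, conjBy_conjBy, RC.com_right h1 _ (inv_mem he) c hc, e3] at h7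
        exact h7.not_RO h6
    obtain ⟨B, hB, hAB⟩ := hN
    exact ⟨com_iff.1 hAC', Set.Subset.antisymm h (rel_symm
      (R := fun A C => rankOnePartners S A ⊆ rankOnePartners S C) hR hAC' hAB (h ⟨hB, hAB⟩).2 h)⟩

end Cfsg.Agent.S5037
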