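import Cfsg.Statements.S5033
import Cfsg.Agent.H36.Special
import Cfsg.Agent.S5037
import Cfsg.Agent.H52.Quasisimple

set_option autoImplicit false
open Cfsg

namespace Cfsg.Agent.S5033

open Cfsg.Agent.H36

theorem eq_top_of_le {G : Type*} [Group G] {S : Set (Subgroup G)} (hS : IsRootSubgroupClass S)
    {A : Subgroup G} (hA : A ∈ S) (N : Subgroup G) [N.Normal] (h : A ≤ N) : N = ⊤ := by
  refine RS.eq_top hS.1 fun B hB => ?_
  obtain ⟨g, rfl⟩ := hS.2.2 A hA B hB
  have := conjBy_mono g h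
  rwa [conjBy_normal N] at this

theorem com_map_iff {G : Type*} [Group G] {A B : Subgroup G} (N : Subgroup G) [N.Normal] :
    Com (A.map (QuotientGroup.mk' N)) (B.map (QuotientGroup.mk' N)) ↔ ⁅A, B⁆ ≤ N := by
  rw [com_iff, ← Subgroup.map_commutator, Subgroup.map_eq_bot_iff, QuotientGroup.ker_mk']

/-- Quasisimplicity criterion for groups generated by abstract root subgroups. Let S be a set of abstract root subgroups of G with more than one member such that: the graph of rank one pairs on S is connected; no two different members of S have the same set of commuting members of S; if S is degenerate then every member of S has more than three elements; and every rank one pair in S is special. Then for every A ∈ S one has G = G' A with A ∩ G' ≠ 1, and the commutator subgroup G' is quasisimple. Moreover G is perfect if S is non-degenerate, or if some rank one pair A, B in S generates a perfect group. -/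
theorem result {G : Type*} [Group G] {S : Set (Subgroup G)} (hS : Cfsg.IsRootSubgroupSet S) (h2 : ∃ A ∈ S, ∃ B ∈ S, A ≠ B)
    (h1 : Cfsg.IsConnectedFamily (Cfsg.FAdj S) S)
    (h2' : ∀ A ∈ S, ∀ C ∈ S, A ≠ C → Cfsg.centralizingMembers S A ≠ Cfsg.centralizingMembers S C)
    (h3 : Cfsg.IsDegenerateRootSet S → ∀ A ∈ S, 3 < ENat.card A)
    (h4 : ∀ A ∈ S, ∀ B ∈ Cfsg.rankOnePartners S A, Cfsg.IsSpecialRankOnePair A B) :
    (∀ A ∈ S, commutator G ⊔ A = ⊤ ∧ A ⊓ commutator G ≠ ⊥) ∧ Cfsg.IsQuasisimple ↥(commutator G) ∧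
    (Cfsg.IsNondegenerateRootSet S → commutator G = ⊤) ∧
    ((∃ A ∈ S, ∃ B ∈ Cfsg.rankOnePartners S A, Group.IsPerfect ↥(A ⊔ B)) → commutator G = ⊤) := by
  have hc : IsRootSubgroupClass S := class_of_connected hS (let ⟨A, hA, _⟩ := h2; ⟨A, hA⟩) h1
  have hN : ∀ C ∈ S, NI S C := fun C hC => NI_of_connected h2 h1 hC
  have hdn : IsDegenerateRootSet S ∨ IsNondegenerateRootSet S := by
    by_cases hd : IsDegenerateRootSet S
    · exact Or.inl hd
    · right
      unfold IsDegenerateRootSet at hd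
      push Not at hd
      obtain ⟨E, hE, F, hF, h⟩ := hd
      obtain ⟨D, hD, hED⟩ := hN E hE
      exact ⟨⟨_, h.1, E, hE, RC.commutator_ne_left hS h, com_iff.1 (RC.com_left h)⟩,
        ⟨E, hE, D, hD, hED⟩, E, hE, F, hF, h⟩
  have key : ∀ (N : Subgroup G) [N.Normal], ∀ C ∈ S, ∀ A ∈ S, ¬ Com C A → ⁅C, A⁆ ≤ N → N = ⊤ := by
    intro N _ C hC A hA hne hle
    rcases RS.pair' hS hC hA with h | h | h
    · exact absurd h hne
    · rcases hdn with hd | hd
      · refine eq_top_of_le hc hC N (le_trans ?_ hle)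
        rw [← commutator_sup_self (RS.com_self hS hC) (RS.com_self hS hA),
          Sp.commutator_sup_eq (h4 C hC A ⟨hA, h⟩) (RS.com_self hS hC) (h3 hd C hC)]
        exact le_sup_left
      · obtain ⟨E, hE, hl, -, -, e⟩ := exists_line_special hc hd hC hA h
        refine eq_top_of_le hc hE N ?_
        rw [← e, ← com_map_iff, Subgroup.map_commutator]
        refine Com.mono (Com.sup_right ((com_map_iff N).2 ?_) ((com_map_iff N).2 hle)) le_rfl
          (Subgroup.commutator_le_sup _ _)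
        rw [com_iff.1 (line_com hl)]; exact bot_le
    · exact eq_top_of_le hc h.1 N hle
  obtain ⟨A₀, hA₀, -⟩ := id h2
  obtain ⟨B₀, hB₀, h₀⟩ := hN A₀ hA₀
  have hp : commutator G = ⊤ :=
    key _ A₀ hA₀ B₀ hB₀ (fun h => h.not_RO h₀) (Subgroup.commutator_mono le_top le_top)
  refine ⟨fun A hA => ⟨by rw [hp, top_sup_eq], by rw [hp, inf_top_eq]; exact hS.ne_bot A hA⟩, ?_,
    fun _ => hp, fun _ => hp⟩
  rw [hp, H52.isQuasisimple_top_iff]
  refine isQuasisimple_of_normal ⟨hp⟩ (RO.center_ne_top h₀) fun N hNn => ?_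
  by_cases hz : N ≤ Subgroup.center G
  · exact Or.inr hz
  left
  obtain ⟨n, hn, hnz⟩ := Set.not_subset.1 hz
  obtain ⟨A, hA, hne⟩ : ∃ A ∈ S, conjBy A n ≠ A := by
    by_contra hcon
    push Not at hcon
    refine hnz (Subgroup.mem_center_iff.2 (RS.induction hS (P := fun g => g * n = n * g)
      (by simp) fun C hC c hc' g ih => ?_))
    obtain ⟨D, hD, hCD⟩ := hN C hC
    have := RO.comm_of_fixes_unip hCD (z := n)
      (fun E hE => hcon E (RS.mem_of_mem_unip hS hC hE)) c (Subgroup.mem_sup_left hc')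
    rw [mul_assoc, ih, ← mul_assoc, ← this, mul_assoc]
  have hA' := hS.conj_mem A hA n
  obtain ⟨C, hC, hC'⟩ := Set.not_subset.1 fun h =>
    h2' A hA _ hA' hne.symm ((S5037.result hc hdn hA hA' hne.symm).1 h)
  rw [S5037.mem_cm] at hC hC'
  refine key N C hC.1 _ hA' (fun h => hC' ⟨hC.1, h⟩) (commutator_le_of fun c hc' x hx => ?_)
  obtain ⟨a, ha, rfl⟩ := exists_of_mem_conjBy hx
  have e : c * (n * a * n⁻¹) * c⁻¹ * (n * a * n⁻¹)⁻¹ =
      (c * n * c⁻¹) * ((c * a) * n⁻¹ * (c * a)⁻¹) * (a * n * a⁻¹) * n⁻¹ := by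
    rw [hC.2 c hc' a ha]
    have := hC.2 c hc' a ha
    calc c * (n * a * n⁻¹) * c⁻¹ * (n * a * n⁻¹)⁻¹
        = c * n * c⁻¹ * (c * a) * n⁻¹ * c⁻¹ * n * a⁻¹ * n⁻¹ := by group
      _ = _ := by rw [this]; group
  rw [e]
  exact mul_mem (mul_mem (mul_mem (hNn.conj_mem n hn _) (hNn.conj_mem _ (inv_mem hn) _))
    (hNn.conj_mem n hn _)) (inv_mem hn)

end Cfsg.Agent.S5033
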