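import Cfsg.Statements.S5035
import Cfsg.Agent.H36.RootSub2

set_option autoImplicit false
open Cfsg

namespace Cfsg.Agent.S5035

open Cfsg.Agent.H36

theorem RO_map {G H : Type*} [Group G] [Group H] (f : G →* H) {A B : Subgroup G}
    (h : IsRankOnePair A B) : A.map f = B.map f ∨ IsRankOnePair (A.map f) (B.map f) := by
  have hn : ∀ x ∈ A ⊔ B, conjBy (f.ker ⊓ (A ⊔ B)) x = f.ker ⊓ (A ⊔ B) := fun x hx => by
    rw [conjBy_inf, conjBy_normal, conjBy_of_mem hx]
  have hle : ∀ {A B : Subgroup G}, (f.ker ⊓ (A ⊔ B)) ⊔ A = A ⊔ B → B.map f ≤ A.map f := by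
    intro A B e
    have h1 : B ≤ f.ker ⊔ A := by
      refine le_sup_right.trans (e.symm.le.trans (sup_le_sup_right inf_le_left _))
    have := Subgroup.map_mono (f := f) h1
    rwa [Subgroup.map_sup, (Subgroup.map_eq_bot_iff _).2 le_rfl, bot_sup_eq] at this
  have hcent : (∀ n ∈ f.ker ⊓ (A ⊔ B), ∀ x ∈ A ⊔ B, n * x = x * n) →
      IsRankOnePair (A.map f) (B.map f) := by
    intro hc
    have key : ∀ {A B : Subgroup G}, IsRankOnePair A B →
        (∀ n ∈ f.ker ⊓ (A ⊔ B), ∀ x ∈ A ⊔ B, n * x = x * n) → ∀ a ∈ A.map f, a ≠ 1 →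
        ∃ b ∈ B.map f, b ≠ 1 ∧ conjBy (A.map f) b = conjBy (B.map f) a := by
      rintro A B h hc _ ⟨a, ha, rfl⟩ ha1
      obtain ⟨b, hb, hb1, e⟩ := RO.exists_left h ha (by rintro rfl; simp at ha1)
      refine ⟨f b, Subgroup.mem_map_of_mem f hb, fun e' => hb1 ?_, ?_⟩
      · exact RO.eq_one_of_comm (RO.symm h) hb fun a ha =>
          hc b ⟨e', Subgroup.mem_sup_right hb⟩ a (Subgroup.mem_sup_left ha)
      · rw [← map_conjBy, ← map_conjBy, e]
    refine RO.mk' ?_ (isNilpotent_map f h.nilpotent_left) (isNilpotent_map f h.nilpotent_right)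
      (key h hc) (key (RO.symm h) (by rwa [sup_comm]))
    intro e
    obtain ⟨a, ha, ha1⟩ := RO.exists_ne_one h
    obtain ⟨b, hb, e1⟩ : f a ∈ B.map f := e ▸ Subgroup.mem_map_of_mem f ha
    have hn : a * b⁻¹ ∈ f.ker ⊓ (A ⊔ B) :=
      ⟨by simp [MonoidHom.mem_ker, e1],
        mul_mem (Subgroup.mem_sup_left ha) (Subgroup.mem_sup_right (inv_mem hb))⟩
    refine ha1 (RO.eq_one_of_normalizes h ha ?_)
    have e2 : a = (a * b⁻¹) * b := by group
    rw [e2, ← conjBy_conjBy, conjBy_of_mem hb]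
    exact conjBy_of_comm fun x hx => hc _ hn x (Subgroup.mem_sup_right hx)
  rcases RO.normal_dichotomy h inf_le_right hn with e | e
  · rcases RO.normal_dichotomy (RO.symm h) (N := f.ker ⊓ (B ⊔ A)) inf_le_right
      (by rwa [sup_comm]) with e' | e'
    · exact Or.inl (le_antisymm (hle e') (hle e))
    · exact Or.inr (hcent (by rwa [sup_comm]))
  · exact Or.inr (hcent e)

/-- Let S be a set of abstract root subgroups of G whose graph of rank one pairs is connected, and f a homomorphism from G onto a group H. Then either the images of the members of S form a set of abstract root subgroups of H whose graph of rank one pairs is again connected, or H equals the image of a member of S. -/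
theorem result {G H : Type*} [Group G] [Group H] {S : Set (Subgroup G)} (hS : Cfsg.IsRootSubgroupSet S)
    (hc : Cfsg.IsConnectedFamily (Cfsg.FAdj S) S) (f : G →* H) (hf : Function.Surjective f) :
    (Cfsg.IsRootSubgroupSet ((fun A : Subgroup G => A.map f) '' S) ∧
      Cfsg.IsConnectedFamily (Cfsg.FAdj ((fun A : Subgroup G => A.map f) '' S)) ((fun A : Subgroup G => A.map f) '' S)) ∨
    ∃ A ∈ S, A.map f = ⊤ := by
  by_cases hbot : ∃ A ∈ S, A.map f = ⊥
  · right
    obtain ⟨A, hA, e⟩ := hbot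
    refine ⟨A, hA, ?_⟩
    have : (⊤ : Subgroup G) ≤ f.ker := by
      rw [top_le_iff]
      refine RS.eq_top hS fun B hB => ?_
      obtain ⟨g, rfl⟩ := Reach.exists_conj (hc A hA B hB)
      rw [← Subgroup.map_eq_bot_iff, map_conjBy, e, conjBy_bot]
    rw [e, eq_comm, ← Subgroup.map_top_of_surjective f hf, Subgroup.map_eq_bot_iff]
    exact this
  left
  push Not at hbot
  refine ⟨⟨?_, ?_, ?_, ?_, ?_⟩, ?_⟩
  · rintro _ ⟨A, hA, rfl⟩
    have := hS.commutative A hA
    infer_instance
  · rintro _ ⟨A, hA, rfl⟩; exact hbot A hA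
  · rw [eq_top_iff, ← Subgroup.map_top_of_surjective f hf, Subgroup.map_le_iff_le_comap,
      ← hS.generates]
    refine iSup₂_le fun A hA => ?_
    rw [← Subgroup.map_le_iff_le_comap]
    exact le_biSup ⟨A, hA, rfl⟩
  · rintro _ ⟨A, hA, rfl⟩ g
    obtain ⟨g, rfl⟩ := hf g
    exact ⟨conjBy A g, hS.conj_mem A hA g, map_conjBy f A g⟩
  · rintro _ ⟨A, hA, rfl⟩ _ ⟨B, hB, rfl⟩
    have hcom : ∀ {A B : Subgroup G}, Com A B → Com (A.map f) (B.map f) := by
      intro A B h
      rw [com_iff, ← Subgroup.map_commutator, com_iff.1 h, Subgroup.map_bot]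
    rcases RS.pair' hS hA hB with h | h | h
    · exact Or.inl (com_iff.1 (hcom h))
    · rcases RO_map f h with e | e
      · left
        dsimp only
        rw [← e]; exact com_iff.1 (hcom (RS.com_self hS hA))
      · exact Or.inr (Or.inl e)
    · right; right
      dsimp only
      refine RC.mk' ⟨_, h.1, Subgroup.map_commutator _ _ _⟩ ?_ ?_ ?_ ?_
      · rw [← Subgroup.map_commutator]; exact hcom (RC.com_left h)
      · rw [← Subgroup.map_commutator]; exact hcom (RC.com_right h)
      · rintro _ ⟨a, ha, rfl⟩ ha1 c hc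
        rw [← Subgroup.map_commutator] at hc
        obtain ⟨c, hc, rfl⟩ := hc
        obtain ⟨b, hb, rfl⟩ := RC.exists_right h ha (by rintro rfl; simp at ha1) hc
        exact ⟨f b, Subgroup.mem_map_of_mem f hb, by simp⟩
      · rintro _ ⟨b, hb, rfl⟩ hb1 c hc
        rw [← Subgroup.map_commutator] at hc
        obtain ⟨c, hc, rfl⟩ := hc
        obtain ⟨a, ha, rfl⟩ := RC.exists_left h hb (by rintro rfl; simp at hb1) hc
        exact ⟨f a, Subgroup.mem_map_of_mem f ha, by simp⟩
  · rintro _ ⟨A, hA, rfl⟩ _ ⟨B, hB, rfl⟩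
    have := hc A hA B hB
    clear hB
    induction this with
    | refl => exact Relation.ReflTransGen.refl
    | @tail C D _ h2 ih =>
      rcases RO_map f h2.2.2 with e | e
      · dsimp only at ih ⊢
        rw [← e]; exact ih
      · exact ih.tail ⟨⟨C, h2.1, rfl⟩, ⟨D, h2.2.1, rfl⟩, e⟩

end Cfsg.Agent.S5035
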