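import Cfsg.Statements.S5036
import Cfsg.Agent.H36.RootSub2

set_option autoImplicit false
open Cfsg

namespace Cfsg.Agent.S5036

open Cfsg.Agent.H36

theorem le_of_com {G : Type*} [Group G] {S : Set (Subgroup G)} (hS : Cfsg.IsRootSubgroupSet S)
    {A B C : Subgroup G} (hA : A ∈ S) (hB : B ∈ S) (hC : C ∈ S) (e1 : ⁅A, B⁆ = C) (hN : NI S B)
    {E : Subgroup G} (hE : E ≤ A ⊔ C) (hc : Com E B) : E ≤ C := by
  subst e1
  have h := RS.RC_of_mem hS hA hB hC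
  intro x hx
  obtain ⟨a, ha, c, hcC, rfl⟩ := (RC.com_left h).symm.mem_sup (hE hx)
  obtain ⟨b, hb, hb1⟩ := RS.exists_ne_one hS hB
  have h1 : Commute b (a * c) := (hc _ hx b hb).symm
  have h2 : Commute b c := (RC.com_right h c hcC b hb).symm
  have h3 : Commute b a := by simpa using h1.mul_right h2.inv_right
  rw [RC.eq_one_of_comm hS hB hA hN (RC.symm h) hb hb1 ha h3.eq, one_mul]
  exact hcC

theorem normalizes {G : Type*} [Group G] {S : Set (Subgroup G)} (hS : Cfsg.IsRootSubgroupSet S)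
    {A B C D : Subgroup G} (hA : A ∈ S) (hB : B ∈ S) (hC : C ∈ S) (hD : D ∈ S) (e1 : ⁅A, B⁆ = C)
    (e2 : ⁅C, D⁆ = A) {x : G} (hx : x ∈ B ⊔ D) : conjBy (A ⊔ C) x = A ⊔ C := by
  have : B ⊔ D ≤ Subgroup.normalizer ((A ⊔ C : Subgroup G) : Set G) := by
    refine sup_le (fun b hb => ?_) (fun d hd => ?_) <;> rw [← conjBy_eq_self_iff, conjBy_sup]
    · rw [← e1, conjBy_commutator_right hb, conj_sup_commutator_eq A hb]
    · have := conj_sup_commutator_eq C hd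
      have h2 := conjBy_commutator_right (A := C) hd
      rw [e2] at this h2
      rw [h2, sup_comm, this, sup_comm]
  exact conjBy_eq_self_iff.2 (this hx)

theorem conj_le {G : Type*} [Group G] {S : Set (Subgroup G)} (hS : Cfsg.IsRootSubgroupSet S)
    {A B C D : Subgroup G} (hA : A ∈ S) (hB : B ∈ S) (hC : C ∈ S) (hD : D ∈ S) (e1 : ⁅A, B⁆ = C)
    (e2 : ⁅C, D⁆ = A) (hBD : IsRankOnePair B D) {b d : G} (hb : b ∈ B) (hd : d ∈ D)
    (e : conjBy B d = conjBy D b) : conjBy A b ≤ conjBy C d := by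
  have h' := RS.RC_of_mem hS hC hD (e2 ▸ hA)
  have hAD : Com A D := e2 ▸ RC.com_right h'
  rw [← conjBy_le_iff (g := d⁻¹), conjBy_inv_cancel]
  refine le_of_com hS hA hB hC e1 ⟨D, hD, hBD⟩ ?_ ?_
  · rw [conjBy_conjBy, ← normalizes hS hA hB hC hD e1 e2
      (mul_mem (Subgroup.mem_sup_right (inv_mem hd)) (Subgroup.mem_sup_left hb))]
    exact conjBy_mono _ le_sup_left
  · have := (hAD.conj b).conj d⁻¹
    rwa [← e, conjBy_inv_cancel] at this

theorem exists_eq {G : Type*} [Group G] {S : Set (Subgroup G)} (hS : Cfsg.IsRootSubgroupSet S)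
    {A B C D : Subgroup G} (hA : A ∈ S) (hB : B ∈ S) (hC : C ∈ S) (hD : D ∈ S) (e1 : ⁅A, B⁆ = C)
    (e2 : ⁅C, D⁆ = A) (hBD : IsRankOnePair B D) {b : G} (hb : b ∈ B) (hb1 : b ≠ 1) :
    ∃ d ∈ D, conjBy A b = conjBy C d := by
  obtain ⟨d, hd, -, e⟩ := RO.exists_left hBD hb hb1
  exact ⟨d, hd, le_antisymm (conj_le hS hA hB hC hD e1 e2 hBD hb hd e)
    (conj_le hS hC hD hA hB e2 e1 (RO.symm hBD) hd hb e.symm)⟩

theorem subset {G : Type*} [Group G] {S : Set (Subgroup G)} (hS : Cfsg.IsRootSubgroupSet S)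
    {A B C D : Subgroup G} (hA : A ∈ S) (hB : B ∈ S) (hC : C ∈ S) (hD : D ∈ S) (e1 : ⁅A, B⁆ = C)
    (e2 : ⁅C, D⁆ = A) (hBD : IsRankOnePair B D) :
    (fun b : G => conjBy A b) '' (B : Set G) ∪ {C} ⊆
      (fun d : G => conjBy C d) '' (D : Set G) ∪ {A} := by
  rintro E (⟨b, hb, rfl⟩ | rfl)
  · by_cases hb1 : b = 1
    · right; simp only [hb1, conjBy_one, Set.mem_singleton_iff]
    · obtain ⟨d, hd, e⟩ := exists_eq hS hA hB hC hD e1 e2 hBD hb hb1
      exact Or.inl ⟨d, hd, e.symm⟩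
  · exact Or.inl ⟨1, one_mem _, conjBy_one _⟩

theorem orbit {G : Type*} [Group G] {S : Set (Subgroup G)} (hS : Cfsg.IsRootSubgroupSet S)
    {A B C D : Subgroup G} (hA : A ∈ S) (hB : B ∈ S) (hC : C ∈ S) (hD : D ∈ S) (e1 : ⁅A, B⁆ = C)
    (e2 : ⁅C, D⁆ = A) (hBD : IsRankOnePair B D) :
    {E | ∃ x ∈ B ⊔ D, E = conjBy A x} = (fun b : G => conjBy A b) '' (B : Set G) ∪ {C} := by
  have h1 := subset hS hA hB hC hD e1 e2 hBD
  have h2 := subset hS hC hD hA hB e2 e1 (RO.symm hBD)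
  have step : ∀ {A B C : Subgroup G}, ⁅A, B⁆ = C → ∀ b ∈ B,
      ∀ E ∈ (fun b : G => conjBy A b) '' (B : Set G) ∪ {C},
        conjBy E b ∈ (fun b : G => conjBy A b) '' (B : Set G) ∪ {C} := by
    rintro A B C e1 b hb E (⟨b', hb', rfl⟩ | rfl)
    · exact Or.inl ⟨b * b', mul_mem hb hb', (conjBy_conjBy _ _ _).symm⟩
    · right; rw [← e1]; exact conjBy_commutator_right hb
  refine Set.Subset.antisymm ?_ ?_
  · rintro _ ⟨x, hx, rfl⟩
    have : x ∈ ⨆ E ∈ ({B, D} : Set (Subgroup G)), E := by rwa [iSup_pair]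
    refine biSup_induction (P := fun x => conjBy A x ∈ (fun b : G => conjBy A b) '' (B : Set G) ∪ {C})
      (Or.inl ⟨1, one_mem _, rfl⟩) ?_ this
    rintro E (rfl | rfl) c hc g ih
    · rw [← conjBy_conjBy]; exact step e1 c hc _ ih
    · rw [← conjBy_conjBy]; exact h2 (step e2 c hc _ (h1 ih))
  · rintro E (⟨b, hb, rfl⟩ | rfl)
    · exact ⟨b, Subgroup.mem_sup_left hb, rfl⟩
    · obtain ⟨b, hb, hb1⟩ := RS.exists_ne_one hS hB
      obtain ⟨d, hd, e⟩ := exists_eq hS hA hB hC hD e1 e2 hBD hb hb1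
      exact ⟨d⁻¹ * b, mul_mem (Subgroup.mem_sup_right (inv_mem hd)) (Subgroup.mem_sup_left hb),
        by rw [← conjBy_conjBy, e, conjBy_inv_cancel]⟩

/-- Let S be a set of abstract root subgroups of G, A, B ∈ S with C = ⁅A, B⁆ ∈ S, and D ∈ S with ⁅D, C⁆ = A. Put X = ⟨B, D⟩ and N = AC. Then B, D form a rank one pair; the conjugates of A under X are the conjugates of C under X, namely the conjugates of A by elements of B together with C, equally the conjugates of C by elements of D together with A, and they partition N; and the centralizer of N in X is central in X. -/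
theorem result {G : Type*} [Group G] {S : Set (Subgroup G)} (hS : Cfsg.IsRootSubgroupSet S)
    {A B D : Subgroup G} (hA : A ∈ S) (hB : B ∈ S) (hC : ⁅A, B⁆ ∈ S) (hD : D ∈ S) (hDC : ⁅D, ⁅A, B⁆⁆ = A) :
    Cfsg.IsRankOnePair B D ∧
    {E | ∃ x ∈ B ⊔ D, E = Cfsg.conjBy A x} = {E | ∃ x ∈ B ⊔ D, E = Cfsg.conjBy ⁅A, B⁆ x} ∧
    {E | ∃ x ∈ B ⊔ D, E = Cfsg.conjBy A x} = (fun b : G => Cfsg.conjBy A b) '' (B : Set G) ∪ {⁅A, B⁆} ∧
    {E | ∃ x ∈ B ⊔ D, E = Cfsg.conjBy A x} = (fun d : G => Cfsg.conjBy ⁅A, B⁆ d) '' (D : Set G) ∪ {A} ∧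
    Cfsg.IsSubgroupPartition (A ⊔ ⁅A, B⁆) {E | ∃ x ∈ B ⊔ D, E = Cfsg.conjBy A x} ∧
    ∀ x ∈ (B ⊔ D) ⊓ Subgroup.centralizer ((A ⊔ ⁅A, B⁆ : Subgroup G) : Set G), ∀ y ∈ B ⊔ D, x * y = y * x := by
  have h := RS.RC_of_mem hS hA hB hC
  have hBD := RC.RO_of_two hS hA hB hD h hDC
  have e2 : ⁅⁅A, B⁆, D⁆ = A := by rwa [Subgroup.commutator_comm]
  have o1 := orbit hS hA hB hC hD rfl e2 hBD
  have o2 := orbit hS hC hD hA hB e2 rfl (RO.symm hBD)
  rw [sup_comm] at o2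
  have o3 : (fun b : G => conjBy A b) '' (B : Set G) ∪ {⁅A, B⁆} =
      (fun d : G => conjBy ⁅A, B⁆ d) '' (D : Set G) ∪ {A} :=
    Set.Subset.antisymm (subset hS hA hB hC hD rfl e2 hBD)
      (subset hS hC hD hA hB e2 rfl (RO.symm hBD))
  refine ⟨hBD, by rw [o1, o2, o3], o1, by rw [o1, o3], ⟨?_, ?_, ?_⟩, ?_⟩
  · rintro _ ⟨x, hx, rfl⟩
    rw [← normalizes hS hA hB hC hD rfl e2 hx]
    exact conjBy_mono x le_sup_left
  · intro x hx _
    rw [o1]
    rcases RC.mem_or h hx with h1 | ⟨b, hb, h1⟩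
    · exact ⟨_, Or.inr rfl, h1⟩
    · exact ⟨_, Or.inl ⟨b, hb, rfl⟩, h1⟩
  · intro E hE E' hE' hne
    rw [o1, o3, ← o2] at hE
    obtain ⟨x, hx, rfl⟩ := hE
    obtain ⟨y, hy, rfl⟩ := hE'
    have h1 : conjBy A (x⁻¹ * y) ∈ {E | ∃ x ∈ B ⊔ D, E = conjBy A x} :=
      ⟨_, mul_mem (inv_mem hx) hy, rfl⟩
    rw [o1] at h1
    rcases h1 with ⟨b, hb, e⟩ | e
    · dsimp only at e
      have e3 : conjBy A y = conjBy (conjBy A b) x := by
        rw [e, conjBy_conjBy, mul_inv_cancel_left]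
      rw [e3, ← conjBy_inf, conjBy_eq_bot_iff, ← conjBy_commutator_right hb, ← conjBy_inf,
        conjBy_eq_bot_iff, eq_bot_iff]
      rintro z ⟨hz1, hz2⟩
      obtain ⟨b', hb', hb1⟩ := RS.exists_ne_one hS hB
      exact RC.eq_one_of_comm hS hB hA ⟨D, hD, hBD⟩ (RC.symm h) hb' hb1 hz2
        (RC.com_right h z hz1 b' hb').symm
    · exfalso
      apply hne
      rw [← Set.mem_singleton_iff.1 e, conjBy_conjBy, mul_inv_cancel_left]
  · have hn : ∀ x ∈ B ⊔ D, conjBy ((B ⊔ D) ⊓ Subgroup.centralizer ((A ⊔ ⁅A, B⁆ : Subgroup G) : Set G)) x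
        = (B ⊔ D) ⊓ Subgroup.centralizer ((A ⊔ ⁅A, B⁆ : Subgroup G) : Set G) := by
      intro x hx
      rw [conjBy_inf, conjBy_of_mem hx, conjBy_centralizer, normalizes hS hA hB hC hD rfl e2 hx]
    rcases RO.normal_dichotomy hBD inf_le_left hn with e | e
    · exfalso
      have h1 : Com (B ⊔ D) ⁅A, B⁆ := by
        rw [← e]
        refine Com.sup_left ?_ (RC.com_right h).symm
        exact (com_iff_le_centralizer.2 inf_le_right).mono le_rfl le_sup_right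
      have h2 := com_iff.1 (h1.mono le_sup_right le_rfl)
      rw [hDC] at h2
      exact hS.ne_bot A hA h2
    · exact e

end Cfsg.Agent.S5036
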