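import Cfsg.Statements.S5038
import Cfsg.Agent.H36.RootSub2

set_option autoImplicit false
open Cfsg

namespace Cfsg.Agent.S5038

open Cfsg.Agent.H36

/-- Let S be a set of abstract root subgroups of G in which every member has a rank one partner, A ∈ S and B a line partner of A. Then the subgroup generated by the members of S normalizing AB permutes the members of S inside AB doubly transitively by conjugation. -/
theorem result {G : Type*} [Group G] {S : Set (Subgroup G)} (hS : Cfsg.IsRootSubgroupSet S)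
    (hF : ∀ A ∈ S, ¬ Cfsg.IsIsolatedIn (Cfsg.FAdj S) S A) {A B : Subgroup G} (hA : A ∈ S) (hB : B ∈ Cfsg.linePartners S A) :
    ∀ C₁ ∈ Cfsg.membersIn S (A ⊔ B), ∀ C₂ ∈ Cfsg.membersIn S (A ⊔ B), ∀ D₁ ∈ Cfsg.membersIn S (A ⊔ B),
      ∀ D₂ ∈ Cfsg.membersIn S (A ⊔ B), C₁ ≠ C₂ → D₁ ≠ D₂ →
        ∃ x ∈ ⨆ E ∈ Cfsg.normalizingMembers S (A ⊔ B), E, Cfsg.conjBy C₁ x = D₁ ∧ Cfsg.conjBy C₂ x = D₂ := by
  have hN : ∀ E ∈ S, NI S E := fun E hE => (NI_iff hE).1 (hF E hE)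
  set K := ⨆ E ∈ Cfsg.normalizingMembers S (A ⊔ B), E with hK
  -- all pairs of distinct points span the line
  have hcom := line_com_sup hS hA hB
  have hspan : ∀ C ∈ membersIn S (A ⊔ B), ∀ D ∈ membersIn S (A ⊔ B), C ≠ D → C ⊔ D = A ⊔ B := by
    have key : ∀ {A B : Subgroup G}, A ∈ S → B ∈ linePartners S A → ∀ C ∈ S, C ≤ A ⊔ B → C ≠ A →
        A ⊔ C = A ⊔ B := by
      intro A B hA hB C hC hle hne
      obtain ⟨F, hF, h1, h2⟩ := line_exists_center hS (line_mem hB) (line_symm hA hB)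
        (hN B (line_mem hB)) (fun E hE _ => hN E hE)
      rcases RC.member_cases hS hA (hN A hA) h1 hC (by rwa [h2]) with e | ⟨f, hf, e⟩
      · rw [e, h2]
      · have hf1 : f ≠ 1 := by rintro rfl; rw [conjBy_one] at e; exact hne e
        rw [e, RC.sup_conj_eq h1 hf hf1, h2]
    intro C hC D hD hne
    by_cases e : C = A
    · subst e; exact key hA hB D hD.1 hD.2 hne.symm
    · have h1 : C ⊔ A = A ⊔ B := by rw [sup_comm]; exact key hA hB C hC.1 hC.2 e
      have h2 : A ∈ linePartners S C :=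
        line_of_sup_eq hB hA (Ne.symm e) (hcom.mono hC.2 le_sup_left) h1
      rw [key hC.1 h2 D hD.1 (h1 ▸ hD.2) hne.symm, h1]
  -- the stabilizer of a point `C` is transitive on the remaining points
  have hstab : ∀ C ∈ membersIn S (A ⊔ B), ∀ D ∈ membersIn S (A ⊔ B), ∀ D' ∈ membersIn S (A ⊔ B),
      D ≠ C → D' ≠ C → ∃ x ∈ K, conjBy C x = C ∧ conjBy D x = D' := by
    intro C hC D hD D' hD' h1 h2
    have e := hspan C hC D hD h1.symm
    have h3 : D ∈ linePartners S C := line_of_sup_eq hB hD.1 h1 (hcom.mono hC.2 hD.2) e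
    obtain ⟨F, hFS, h4, h5⟩ := line_exists_center hS hC.1 h3 (hN C hC.1) (fun E hE _ => hN E hE)
    obtain ⟨f, hf, e'⟩ := (RC.member_cases hS hD.1 (hN D hD.1) h4 hD'.1
      (by rw [h5, sup_comm, e]; exact hD'.2)).resolve_left (by rwa [h5])
    have hFC : ∀ f ∈ F, conjBy C f = C := fun f hf => by
      rw [← h5]; exact conjBy_commutator_right hf
    refine ⟨f, le_biSup (T := Cfsg.normalizingMembers S (A ⊔ B)) ⟨hFS, fun f hf => ?_⟩ hf,
      hFC f hf, e'.symm⟩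
    rw [← conjBy_eq_self_iff, ← e, sup_comm, conjBy_sup, hFC f hf]
    have := conj_sup_commutator_eq D hf
    rwa [h5] at this
  have hmem : ∀ x ∈ K, ∀ C ∈ membersIn S (A ⊔ B), conjBy C x ∈ membersIn S (A ⊔ B) := by
    intro x hx C hC
    have : K ≤ Subgroup.normalizer ((A ⊔ B : Subgroup G) : Set G) := iSup₂_le fun E hE => hE.2
    refine ⟨hS.conj_mem C hC.1 x, ?_⟩
    rw [← conjBy_eq_self_iff.2 (this hx)]
    exact conjBy_mono x hC.2
  intro C₁ hC₁ C₂ hC₂ D₁ hD₁ D₂ hD₂ hC hD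
  -- first move `C₁` to `D₁`
  obtain ⟨x, hx, e1⟩ : ∃ x ∈ K, conjBy C₁ x = D₁ := by
    by_cases e : D₁ = C₂
    · -- use a third point
      by_cases e' : C₁ = D₂
      · obtain ⟨F, hFS, h4, h5⟩ := line_exists_center hS hC₁.1
          (line_of_sup_eq hB hC₂.1 hC.symm (hcom.mono hC₁.2 hC₂.2) (hspan _ hC₁ _ hC₂ hC))
          (hN _ hC₁.1) (fun E hE _ => hN E hE)
        obtain ⟨f, hf, hf1⟩ := RS.exists_ne_one hS hFS
        have hT : conjBy C₂ f ∈ membersIn S (A ⊔ B) := ⟨hS.conj_mem _ hC₂.1 f, by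
          rw [← hspan _ hC₁ _ hC₂ hC, sup_comm, ← h5]; exact conjBy_le_sup_commutator _ hf⟩
        have hT1 : C₁ ≠ conjBy C₂ f := by
          intro e2
          have : conjBy C₁ f⁻¹ = C₁ := by rw [← h5]; exact conjBy_commutator_right (inv_mem hf)
          rw [e2, conjBy_inv_cancel, ← e2] at this
          exact hC this.symm
        obtain ⟨x, hx, -, h6⟩ := hstab _ hT _ hC₁ _ hD₁ hT1
          (e ▸ (RC.conj_ne hS hC₂.1 hFS h4 hf hf1).symm)
        exact ⟨x, hx, h6⟩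
      · obtain ⟨x, hx, -, h6⟩ := hstab _ hD₂ _ hC₁ _ hD₁ e' hD
        exact ⟨x, hx, h6⟩
    · obtain ⟨x, hx, -, h6⟩ := hstab _ hC₂ _ hC₁ _ hD₁ hC e
      exact ⟨x, hx, h6⟩
  obtain ⟨y, hy, e2, e3⟩ := hstab _ hD₁ _ (hmem x hx _ hC₂) _ hD₂
    (by rw [← e1]; exact fun e => hC (conjBy_inj.1 e).symm) hD.symm
  exact ⟨y * x, mul_mem hy hx, by rw [← conjBy_conjBy, e1, e2], by rw [← conjBy_conjBy, e3]⟩

end Cfsg.Agent.S5038
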