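import Cfsg.Statements.S5039
import Cfsg.Agent.H36.Transv

set_option autoImplicit false
universe u
open Cfsg

namespace Cfsg.Agent.S5039

open Cfsg.Agent.H36

theorem exists_sq_ne {k : Type*} [Field k] (h : 3 < ENat.card k) : ∃ a : k, a ≠ 0 ∧ a ^ 2 ≠ 1 := by
  classical
  by_contra hn
  push Not at hn
  have h1 : (Set.univ : Set k) ⊆ ({0, 1, -1} : Finset k) := by
    intro a _
    by_cases ha : a = 0
    · simp [ha]
    · rcases sq_eq_one_iff.mp (hn a ha) with h | h <;> simp [h]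
  have h2 := Set.encard_le_encard h1
  rw [Set.encard_univ, Set.encard_coe_eq_coe_finsetCard] at h2
  have h3 : (({0, 1, -1} : Finset k).card : ℕ∞) ≤ 3 := by exact_mod_cast Finset.card_le_three
  exact absurd (h2.trans h3) (not_le.mpr h)

theorem le_comm_of_PSL2 {G : Type*} [Group G] {k : Type*} [Field k] (h : 3 < ENat.card k)
    {A B : Subgroup G} (hp : IsPSL2PairOver k A B) : A ≤ ⁅A ⊔ B, A ⊔ B⁆ := by
  obtain ⟨φ, h1, -⟩ := hp
  obtain ⟨a, ha, ha2⟩ := exists_sq_ne h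
  refine (le_sup_left (b := B)).trans (le_of_eq ?_)
  rw [← h1, MonoidHom.range_eq_map, ← Subgroup.map_commutator]
  congr 1
  exact (Matrix.SL2.commutator_eq_top ha ha2).symm

/-- Let S be a class of abstract root subgroups of G containing two different commuting members. Suppose that, in case S is degenerate and every element of every member of S has order at most 3, the following holds: for every A ∈ S and every rank one partner B of A there are subgroups A₀ ≤ A and B₀ ≤ B generating an image of SL₂(k) with central kernel, k a field with at least four elements, A₀ and B₀ being the images of the unitriangular subgroups. Then every rank one pair A, B in S is special. -/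
theorem result {G : Type u} [Group G] {S : Set (Subgroup G)} (hS : Cfsg.IsRootSubgroupClass S)
    (hcomm : ∃ A ∈ S, ∃ C ∈ S, A ≠ C ∧ ⁅A, C⁆ = ⊥)
    (hH : Cfsg.IsDegenerateRootSet S → (∀ A ∈ S, ∀ a ∈ A, 0 < orderOf a ∧ orderOf a ≤ 3) →
      ∀ A ∈ S, ∀ B ∈ Cfsg.rankOnePartners S A, ∃ A₀ B₀ : Subgroup G, A₀ ≤ A ∧ B₀ ≤ B ∧
        ∃ (k : Type u) (_ : Field k), 3 < ENat.card k ∧ Cfsg.IsPSL2PairOver k A₀ B₀)
    {A B : Subgroup G} (hA : A ∈ S) (hB : B ∈ Cfsg.rankOnePartners S A) : Cfsg.IsSpecialRankOnePair A B := by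
  have hR := hS.1
  obtain ⟨hB, hAB⟩ := hB
  by_cases hd : IsDegenerateRootSet S
  swap
  · refine special_of_nondeg hS ⟨hcomm, ⟨A, hA, B, hB, hAB⟩, ?_⟩ hA hB hAB
    by_contra hn
    exact hd fun X hX Y hY h => hn ⟨X, hX, Y, hY, h⟩
  have hp : ∀ X ∈ S, ∀ Y ∈ S, Com X Y ∨ IsRankOnePair X Y := fun X hX Y hY => by
    rcases RS.pair' hR hX hY with h | h | h
    · exact Or.inl h
    · exact Or.inr h
    · exact absurd h (hd X hX Y hY)
  by_cases h1 : ∃ C ∈ S, C ≠ A ∧ Com A C ∧ IsRankOnePair C B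
  · obtain ⟨C, hC, hne, hc, hr⟩ := h1
    exact Cfg.special hR ⟨hA, hC, hB, hc, hne.symm, hAB, hr⟩
  by_cases h2 : ∃ C ∈ S, C ≠ B ∧ Com B C ∧ IsRankOnePair C A
  · obtain ⟨C, hC, hne, hc, hr⟩ := h2
    exact Sp.symm (Cfg.special hR ⟨hB, hC, hA, hc, hne.symm, RO.symm hAB, hr⟩)
  exfalso
  have he : Eqv S A B := by
    intro F hF
    constructor
    · rintro ⟨hne, hc⟩
      refine ⟨?_, (hp F hF B hB).resolve_right fun hr => h1 ⟨F, hF, hne, hc.symm, hr⟩⟩
      rintro rfl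
      exact hc.symm.not_RO hAB
    · rintro ⟨hne, hc⟩
      refine ⟨?_, (hp F hF A hA).resolve_right fun hr => h2 ⟨F, hF, hne, hc.symm, hr⟩⟩
      rintro rfl
      exact hc.not_RO hAB
  obtain ⟨C, E, hcf⟩ := exists_cfg hS hp hcomm hA ⟨B, hB, hAB⟩
  by_cases h3 : ∀ A ∈ S, ∀ a ∈ A, 0 < orderOf a ∧ orderOf a ≤ 3
  · obtain ⟨A₀, B₀, l1, l2, k, _, hk, hP⟩ := hH hd h3 A hA B ⟨hB, hAB⟩
    obtain ⟨a, ha, ha1⟩ := RO.exists_ne_one (special_of_PSL2Pair hP).1
    have hCB := (he C hcf.hC).mp ⟨hcf.ne.symm, hcf.com.symm⟩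
    have hBE : IsRankOnePair B E := by
      refine (hp B hB E hcf.hB).resolve_left fun hc => ?_
      have hne : E ≠ B := by
        rintro rfl
        exact hCB.2.not_RO hcf.ro2
      exact ((he E hcf.hB).mpr ⟨hne, hc.symm⟩).2.symm.not_RO hcf.ro1
    exact ha1 (commutator_inf_of_eqv hR hcf ⟨hB, hcf.hC, hcf.hB, hCB.2.symm, hCB.1.symm, hBE,
      hcf.ro2⟩ he (l1 ha) (Subgroup.commutator_mono (sup_le_sup l1 l2) (sup_le_sup l1 l2)
        (le_comm_of_PSL2 hk hP ha)))
  · push Not at h3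
    obtain ⟨A₁, hA₁, x, hx, ho⟩ := h3
    obtain ⟨g, hg⟩ := hS.2.2 A₁ hA₁ E hcf.hB
    have hpow : ∀ i : ℕ, 0 < i → i ≤ 3 → (g * x * g⁻¹) ^ i ≠ 1 := by
      intro i hi hi3 e
      rw [conj_pow, conj_eq_one_iff] at e
      have h5 := orderOf_le_of_pow_eq_one hi e
      have h6 : 0 < orderOf x := (isOfFinOrder_iff_pow_eq_one.mpr ⟨i, hi, e⟩).orderOf_pos
      have := ho h6
      omega
    obtain ⟨a, ha, ha1, haK⟩ := hcf.third_diff hR (hg ▸ conj_mem_conjBy g hx)
      (by simpa using hpow 1 (by omega) (by omega)) (hpow 2 (by omega) (by omega))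
      (hpow 3 (by omega) (by omega)) (K := Subgroup.centralizer (B : Set G))
      (fun F hF hne hc => com_iff_le_centralizer.mp ((he F hF).mp ⟨hne, hc.symm⟩).2)
    exact ha1 (RO.eq_one_of_comm hAB ha fun b hb => (Subgroup.mem_centralizer_iff.mp haK b hb).symm)

end Cfsg.Agent.S5039
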