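import Cfsg.Statements.S5040
import Cfsg.Agent.H36.RootSub2

set_option autoImplicit false
open Cfsg

namespace Cfsg.Agent.S5040

open Cfsg.Agent.H36

/-- Let S be a non-degenerate class of abstract root subgroups of G and Δ a weak TI-subset of S. Then the members of Δ commute with one another elementwise. -/
theorem result {G : Type*} [Group G] {S : Set (Subgroup G)} (hS : Cfsg.IsRootSubgroupClass S) (hnd : Cfsg.IsNondegenerateRootSet S)
    {Δ : Set (Subgroup G)} (hΔ : Cfsg.IsWeakTISubset S Δ) : Cfsg.IsAbelianFamily Δ := by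
  obtain ⟨hsub, -, hne, hti⟩ := hΔ
  -- the stabilizer of `Δ`
  let K : Subgroup G :=
    { carrier := {g | (fun A => conjBy A g) '' Δ = Δ}
      one_mem' := by simp only [Set.mem_setOf_eq, conjBy_one, Set.image_id']
      mul_mem' := by
        intro x y hx hy
        simp only [Set.mem_setOf_eq] at hx hy ⊢
        conv_rhs => rw [← hx, ← hy, Set.image_image]
        simp only [conjBy_conjBy]
      inv_mem' := by
        intro x hx
        simp only [Set.mem_setOf_eq] at hx ⊢
        conv_lhs => rw [← hx, Set.image_image]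
        simp only [conjBy_inv_cancel, Set.image_id'] }
  have hK : ∀ g ∈ K, ∀ A ∈ Δ, conjBy A g ∈ Δ := by
    intro g hg A hA
    have : (fun A => conjBy A g) '' Δ = Δ := hg
    rw [← this]; exact ⟨A, hA, rfl⟩
  have hcom : ∀ A ∈ Δ, ∀ C ∈ S, Com C A → C ≤ K := by
    intro A hA C hC h c hc
    by_cases hc1 : c = 1
    · rw [hc1]; exact one_mem _
    rcases hti c ⟨hc1, C, hC, hc⟩ with e | e
    · exact e
    · exact (Set.disjoint_left.1 e ⟨A, hA, h.conjBy_eq hc⟩ hA).elim
  have hRO : ∀ A ∈ Δ, ∀ B ∈ Δ, ¬ IsRankOnePair A B := by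
    intro A hA B hB h
    have h1 : K = ⊤ := by
      rw [eq_top_iff, ← line_sup_eq_top hS hnd (hsub hA) (hsub hB) h]
      exact sup_le (iSup₂_le fun C hC => hcom A hA C (line_mem hC) (line_com hC).symm)
        (hcom B hB B (hsub hB) (RS.com_self hS.1 (hsub hB)))
    refine hne (Set.Subset.antisymm hsub fun C hC => ?_)
    obtain ⟨g, rfl⟩ := hS.2.2 A (hsub hA) C hC
    exact hK g (h1 ▸ Subgroup.mem_top g) A hA
  intro A hA C hC
  rcases RS.pair' hS.1 (hsub hA) (hsub hC) with h | h | h
  · exact h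
  · exact absurd h (hRO A hA C hC)
  · exfalso
    have hN : ∀ E ∈ S, NI S E := fun E hE => NI_of_nondeg hS hnd hE
    obtain ⟨F, hF, h1, h2⟩ := line_exists_center hS.1 (hsub hA)
      (RC.commutator_mem_line hS.1 (hsub hA) (hN A (hsub hA)) h) (hN A (hsub hA))
      (fun E hE _ => hN E hE)
    have h3 := RC.RO_of_two hS.1 (hsub hA) (hsub hC) hF h (by rwa [Subgroup.commutator_comm])
    obtain ⟨f, hf, hf1⟩ := RS.exists_ne_one hS.1 hF
    have h4 : Com F A := by have := RC.com_right h1; rw [h2] at this; exact this.symm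
    exact hRO C hC _ (hK f (hcom A hA F hF h4 hf) C hC) (RO.pair_conj (RO.symm h3) hf hf1)

end Cfsg.Agent.S5040
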