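import Cfsg.Statements.S5043
import Cfsg.Agent.H36.SLRoot

set_option autoImplicit false
open Matrix
open Cfsg

namespace Cfsg.Agent.S5043

open Cfsg.Agent.H36 Matrix

/-- Let k be a field and n a natural number. In SL_{n+3}(k) (so in every dimension at least 3) the conjugates of the root subgroup of elementary transvections 1 + c E₁₂ (c ∈ k) — that is, the groups of transvections attached to an incident point–hyperplane pair — form a non-degenerate class of abstract k-root subgroups of SL_{n+3}(k) whose graph of rank one pairs is connected. -/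
theorem result (k : Type*) [Field k] (n : ℕ) :
    Cfsg.IsRootSubgroupClass {A : Subgroup (Matrix.SpecialLinearGroup (Fin (n + 3)) k) |
        ∃ g : Matrix.SpecialLinearGroup (Fin (n + 3)) k,
          A = Cfsg.conjBy (Subgroup.closure {t : Matrix.SpecialLinearGroup (Fin (n + 3)) k |
            ∃ c : k, (t : Matrix (Fin (n + 3)) (Fin (n + 3)) k) = Matrix.transvection 0 1 c}) g} ∧
    Cfsg.IsNondegenerateRootSet {A : Subgroup (Matrix.SpecialLinearGroup (Fin (n + 3)) k) |
        ∃ g : Matrix.SpecialLinearGroup (Fin (n + 3)) k,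
          A = Cfsg.conjBy (Subgroup.closure {t : Matrix.SpecialLinearGroup (Fin (n + 3)) k |
            ∃ c : k, (t : Matrix (Fin (n + 3)) (Fin (n + 3)) k) = Matrix.transvection 0 1 c}) g} ∧
    Cfsg.IsKRootSubgroupSet k {A : Subgroup (Matrix.SpecialLinearGroup (Fin (n + 3)) k) |
        ∃ g : Matrix.SpecialLinearGroup (Fin (n + 3)) k,
          A = Cfsg.conjBy (Subgroup.closure {t : Matrix.SpecialLinearGroup (Fin (n + 3)) k |
            ∃ c : k, (t : Matrix (Fin (n + 3)) (Fin (n + 3)) k) = Matrix.transvection 0 1 c}) g} ∧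
    Cfsg.IsConnectedFamily (Cfsg.FAdj {A : Subgroup (Matrix.SpecialLinearGroup (Fin (n + 3)) k) |
        ∃ g : Matrix.SpecialLinearGroup (Fin (n + 3)) k,
          A = Cfsg.conjBy (Subgroup.closure {t : Matrix.SpecialLinearGroup (Fin (n + 3)) k |
            ∃ c : k, (t : Matrix (Fin (n + 3)) (Fin (n + 3)) k) = Matrix.transvection 0 1 c}) g})
      {A : Subgroup (Matrix.SpecialLinearGroup (Fin (n + 3)) k) |
        ∃ g : Matrix.SpecialLinearGroup (Fin (n + 3)) k,
          A = Cfsg.conjBy (Subgroup.closure {t : Matrix.SpecialLinearGroup (Fin (n + 3)) k |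
            ∃ c : k, (t : Matrix (Fin (n + 3)) (Fin (n + 3)) k) = Matrix.transvection 0 1 c}) g} := by
  have hn : 2 < Fintype.card (Fin (n + 3)) := by simp
  rw [RS_DSL_eq hn (zero_ne_one' _)]
  have hK := (rootFam_SL (k := k) (n := Fin (n + 3))).kRootSet DSL_gen
  have h01 := single_mem_DSL (k := k) (n := Fin (n + 3)) (i := 0) (j := 1) (by simp)
  have h02 := single_mem_DSL (k := k) (n := Fin (n + 3)) (i := 0) (j := 2) (by simp [Fin.ext_iff, Nat.mod_eq_of_lt (show 2 < n + 3 by omega)])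
  have h12 := single_mem_DSL (k := k) (n := Fin (n + 3)) (i := 1) (j := 2) (by simp [Fin.ext_iff, Nat.mod_eq_of_lt (show 2 < n + 3 by omega)])
  have a12 : (1 : Fin (n + 3)) ≠ 2 := by simp [Fin.ext_iff, Nat.mod_eq_of_lt (show 2 < n + 3 by omega)]
  have a02 : (0 : Fin (n + 3)) ≠ 2 := by simp [Fin.ext_iff, Nat.mod_eq_of_lt (show 2 < n + 3 by omega)]
  refine ⟨class_of_connected hK.1 ⟨_, _, h01, rfl⟩ (DSL_connected hn), ⟨⟨_, ⟨_, h01, rfl⟩, _,
    ⟨_, h02, rfl⟩, fun e => ?_, com_iff.1 (rootFam_SL.com h01 h02 ?_)⟩, ?_, _, ⟨_, h01, rfl⟩, _,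
    ⟨_, h12, rfl⟩, rootFam_SL.RC h01 h12 ?_ ?_ ?_⟩, hK, DSL_connected hn⟩
  · obtain ⟨c, hc⟩ := rootFam_SL.exists_smul_of_eq h01 h02 e
    have := congrFun (congrFun hc 0) 1
    simp [vecMulVec_apply, a12] at this
  · simp [vmv_mul, a02]
  · obtain ⟨t, ht, h⟩ := DSL_opp _ h01
    exact ⟨_, ⟨_, h01, rfl⟩, _, ⟨_, ht, rfl⟩, rootFam_SL.RO h01 ht h⟩
  · simp [vmv_triple, a02]
  · simp [vmv_triple, a02]
  · simpa [vmv_mul, a02] using h02

end Cfsg.Agent.S5043
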