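import Cfsg.Statements.S5045
import Cfsg.Agent.H36.Invol

set_option autoImplicit false
open Cfsg

namespace Cfsg.Agent.S5045

open Cfsg.Agent.H36

/-- Let G be a finite group generated by a set D of root involutions, and W the set of members of D whose product with every other member of D has even order or is trivial (the isolated vertices of the odd-order-product graph on D). Then W is conjugation-invariant and generates a normal 2-subgroup of G meeting D in exactly W; the commutator of two members of D lying in different connected components of that graph, each with more than one member, lies in the subgroup generated by W; and for a in such a component, every member of D commuting with a, different from a and with product with a in D, lies in that component or in W. -/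
theorem result {G : Type*} [Group G] [Finite G] {D : Set G} (hD : Cfsg.IsRootInvolutionSet D) :
    (∀ w ∈ {w | Cfsg.IsIsolatedElem (Cfsg.OddAdj D) D w}, ∀ g : G, g * w * g⁻¹ ∈ {w | Cfsg.IsIsolatedElem (Cfsg.OddAdj D) D w}) ∧
    (Subgroup.closure {w | Cfsg.IsIsolatedElem (Cfsg.OddAdj D) D w}).Normal ∧
    IsPGroup 2 ↥(Subgroup.closure {w | Cfsg.IsIsolatedElem (Cfsg.OddAdj D) D w}) ∧
    (Subgroup.closure {w | Cfsg.IsIsolatedElem (Cfsg.OddAdj D) D w} : Set G) ∩ D = {w | Cfsg.IsIsolatedElem (Cfsg.OddAdj D) D w} ∧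
    (∀ a ∈ D, ∀ b ∈ D, (∃ a' ∈ Cfsg.elemComponentOf (Cfsg.OddAdj D) D a, a' ≠ a) →
      (∃ b' ∈ Cfsg.elemComponentOf (Cfsg.OddAdj D) D b, b' ≠ b) →
      Cfsg.elemComponentOf (Cfsg.OddAdj D) D a ≠ Cfsg.elemComponentOf (Cfsg.OddAdj D) D b →
        a * b * a⁻¹ * b⁻¹ ∈ Subgroup.closure {w | Cfsg.IsIsolatedElem (Cfsg.OddAdj D) D w}) ∧
    (∀ a ∈ D, (∃ a' ∈ Cfsg.elemComponentOf (Cfsg.OddAdj D) D a, a' ≠ a) →
      Cfsg.productPartners D a ⊆ Cfsg.elemComponentOf (Cfsg.OddAdj D) D a ∪ {w | Cfsg.IsIsolatedElem (Cfsg.OddAdj D) D w}) := by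
  have hR := RI.of hD
  have hW : ∀ w, w ∈ {w | Cfsg.IsIsolatedElem (Cfsg.OddAdj D) D w} ↔ w ∈ D ∧ w ∈ pCore 2 G :=
    fun w => isolated_iff_mem_pCore hD
  have h1 : ∀ w ∈ {w | Cfsg.IsIsolatedElem (Cfsg.OddAdj D) D w}, ∀ g : G,
      g * w * g⁻¹ ∈ {w | Cfsg.IsIsolatedElem (Cfsg.OddAdj D) D w} := by
    intro w hw g
    rw [hW] at hw ⊢
    exact ⟨hD.conj_mem w hw.1 g, Subgroup.Normal.conj_mem inferInstance w hw.2 g⟩
  have hle : Subgroup.closure {w | Cfsg.IsIsolatedElem (Cfsg.OddAdj D) D w} ≤ pCore 2 G := by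
    rw [Subgroup.closure_le]
    intro w hw
    exact ((hW w).mp hw).2
  have h6 : ∀ a ∈ D, (∃ a' ∈ Cfsg.elemComponentOf (Cfsg.OddAdj D) D a, a' ≠ a) →
      Cfsg.productPartners D a ⊆ Cfsg.elemComponentOf (Cfsg.OddAdj D) D a ∪
        {w | Cfsg.IsIsolatedElem (Cfsg.OddAdj D) D w} := by
    rintro a ha ⟨a', ha', hne⟩ c ⟨⟨hc, hca, -⟩, hm⟩
    obtain ⟨x, -, hx, hxo⟩ := rtg_exists_adj ha'.2 hne
    have hxa : Opp x a := Opp.symm hxo
    by_cases hw : ∀ y ∈ D, ¬ Opp y c
    · exact Or.inr (isolated_iff.mpr ⟨hc, hw⟩)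
    · left
      push Not at hw
      obtain ⟨y, hy, hyc⟩ := hw
      refine ⟨hc, ?_⟩
      have s1 : Relation.ReflTransGen (OddAdj D) a x := Relation.ReflTransGen.single ⟨ha, hx, hxo⟩
      rcases hR.opp_or ha hc hca.symm (hca ▸ hm) hx hxa with h | h
      · exact s1.tail ⟨hx, hc, h⟩
      · rcases hR.opp_or hc ha hca hm hy hyc with h' | h'
        · exact (Relation.ReflTransGen.single ⟨ha, hy, h'.symm⟩).tail ⟨hy, hc, hyc⟩
        · rw [hca] at h' hm
          exact ((s1.tail ⟨hx, hm, h⟩).tail ⟨hm, hy, h'.symm⟩).tail ⟨hy, hc, hyc⟩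
  refine ⟨h1, ?_, (H3.pCore_isPGroup 2 G).to_le hle, ?_, ?_, h6⟩
  · refine ⟨fun n hn g => ?_⟩
    induction hn using Subgroup.closure_induction with
    | mem x hx => exact Subgroup.subset_closure (h1 x hx g)
    | one => simp
    | mul x y _ _ ihx ihy =>
      have : g * (x * y) * g⁻¹ = g * x * g⁻¹ * (g * y * g⁻¹) := by group
      rw [this]; exact Subgroup.mul_mem _ ihx ihy
    | inv x _ ih =>
      have : g * x⁻¹ * g⁻¹ = (g * x * g⁻¹)⁻¹ := by group
      rw [this]; exact Subgroup.inv_mem _ ih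
  · ext w
    exact ⟨fun h => (hW w).mpr ⟨h.2, hle h.1⟩, fun h => ⟨Subgroup.subset_closure h, ((hW w).mp h).1⟩⟩
  · intro a ha b hb hna hnb hne
    have hsame : ∀ z, Relation.ReflTransGen (OddAdj D) a z → Relation.ReflTransGen (OddAdj D) b z →
        False := by
      intro z h1 h2
      apply hne
      have h3 := h1.trans (rtg_symm (fun _ _ => oddAdj_symm) h2)
      ext y
      exact ⟨fun h => ⟨h.1, (rtg_symm (fun _ _ => oddAdj_symm) h3).trans h.2⟩,
        fun h => ⟨h.1, h3.trans h.2⟩⟩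
    by_cases hc : a * b = b * a
    · have : a * b * a⁻¹ * b⁻¹ = 1 := by rw [hc]; group
      rw [this]; exact Subgroup.one_mem _
    have hn : ¬ Opp a b := fun ho =>
      hsame b (Relation.ReflTransGen.single ⟨ha, hb, ho⟩) Relation.ReflTransGen.refl
    obtain ⟨z1, z2, z3, z4, z5, z6, z7⟩ := hR.comm_facts ha hb hn hc
    have e : a * b * a⁻¹ * b⁻¹ = (a * b) ^ 2 := by
      rw [hR.inv ha, hR.inv hb]; simp only [pow_two, mul_assoc]
    rw [e]
    have za : (a * b) ^ 2 ∈ productPartners D a := by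
      refine ⟨⟨z1, z2, fun e1 => ?_⟩, z2 ▸ z6⟩
      rw [e1, hR.sq ha] at z6
      exact hR.ne_one z6 rfl
    have zb : (a * b) ^ 2 ∈ productPartners D b := by
      refine ⟨⟨z1, z3, fun e1 => ?_⟩, z3 ▸ z7⟩
      rw [e1, hR.sq hb] at z7
      exact hR.ne_one z7 rfl
    rcases h6 a ha hna za with h | h
    · rcases h6 b hb hnb zb with h' | h'
      · exact (hsame _ h.2 h'.2).elim
      · exact Subgroup.subset_closure h'
    · exact Subgroup.subset_closure h

end Cfsg.Agent.S5045
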