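import Cfsg.Statements.S5046
import Cfsg.Agent.H36.Invol

set_option autoImplicit false
open Cfsg

namespace Cfsg.Agent.S5046

open Cfsg.Agent.H36

/-- Let G be a finite group generated by a set D of root involutions whose odd-order-product graph is connected, and d ∈ D. Then the members e of D with the same commuting members as d are exactly those for which the union of the commuting members of d and the members whose product with d has order 4 equals the corresponding union for e. -/
theorem result {G : Type*} [Group G] [Finite G] {D : Set G} (hD : Cfsg.IsRootInvolutionSet D)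
    (hc : Cfsg.IsConnectedSet (Cfsg.OddAdj D) D) {d : G} (hd : d ∈ D) :
    Cfsg.sameCommutingClass D d =
      {e | e ∈ D ∧ Cfsg.commutingMembers D d ∪ Cfsg.fourPartners D d = Cfsg.commutingMembers D e ∪ Cfsg.fourPartners D e} := by
  have hR := RI.of hD
  have h1 := hR.oneClass_of_connected hc
  have key : ∀ f ∈ D, ∀ x, x ∈ Cfsg.commutingMembers D f ∪ Cfsg.fourPartners D f ↔ x ∈ D ∧ x ∉ AA D f := by
    intro f hf x
    constructor
    · rintro (h | h)
      · exact ⟨h.1, fun h' => hR.not_opp_of_comm h.1 hf h.2 h'.2⟩
      · exact ⟨h.1, fun h' => ((hR.order_four_iff hf h.1).mp h.2).1 h'.2.symm⟩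
    · rintro ⟨hx, h⟩
      by_cases hcm : x * f = f * x
      · exact Or.inl ⟨hx, hcm⟩
      · exact Or.inr ⟨hx, hR.order_four hf hx (fun ho => h ⟨hx, ho.symm⟩) (Ne.symm hcm)⟩
  ext e
  rw [hR.mem_E_iff h1 hd]
  refine and_congr_right fun he => ⟨fun h => ?_, fun h => ?_⟩
  · ext x
    rw [key d hd, key e he, h]
  · ext x
    have := congrArg (x ∈ ·) h
    simp only [key d hd, key e he, eq_iff_iff] at this
    constructor
    · intro hx
      by_contra hn
      exact (this.mpr ⟨hx.1, hn⟩).2 hx
    · intro hx
      by_contra hn
      exact (this.mp ⟨hx.1, hn⟩).2 hx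

end Cfsg.Agent.S5046
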