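import Cfsg.Statements.S5047
import Cfsg.Agent.H36.Invol

set_option autoImplicit false
open Cfsg

namespace Cfsg.Agent.S5047

open Cfsg.Agent.H36

/-- Let G be a finite group generated by a set D of root involutions whose odd-order-product graph is connected, a ∈ D, and b a member of D different from a, commuting with a, with ab ∈ D, but not having the same commuting members as a. Then some member x of D with bx of order 4 has ax of order 3. -/
theorem result {G : Type*} [Group G] [Finite G] {D : Set G} (hD : Cfsg.IsRootInvolutionSet D)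
    (hc : Cfsg.IsConnectedSet (Cfsg.OddAdj D) D) {a b : G} (ha : a ∈ D) (hb : b ∈ Cfsg.productPartners D a)
    (hbE : b ∉ Cfsg.sameCommutingClass D a) : ∃ x ∈ Cfsg.fourPartners D b, orderOf (a * x) = 3 := by
  have hR := RI.of hD
  have h1 := hR.oneClass_of_connected hc
  obtain ⟨⟨hbD, hba, hne⟩, hm⟩ := hb
  have hE : AA D a ≠ AA D b := fun e => hbE ((hR.mem_E_iff h1 ha).mpr ⟨hbD, e⟩)
  obtain ⟨z, hz, hza, ez⟩ := hR.exists_comm_of_not_E h1 ha hbD hba.symm (hba ▸ hm) hE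
  have haz : a * z ≠ z * a := fun e => hR.ne_one hbD (ez ▸ four_of_comm (hR.sq ha) (hR.sq hz) e)
  obtain ⟨-, -, z3, -, z5, -, z7⟩ := hR.comm_facts ha hz hza haz
  rw [ez] at z3 z5 z7
  have hE2 : AA D b ≠ AA D z := fun e =>
    haz (((hR.AA_eq_iff h1 hbD hz).mp e a ha).mp hba.symm)
  obtain ⟨y, hy, hyb, ey⟩ := hR.exists_comm_of_not_E h1 hbD hz z3 (z3 ▸ z7) hE2
  have hby : b * y ≠ y * b := fun e => hR.ne_one hz (ey ▸ four_of_comm (hR.sq hbD) (hR.sq hy) e)
  obtain ⟨-, -, y3, y4, -, -, -⟩ := hR.comm_facts hbD hy hyb hby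
  rw [ey] at y3 y4
  have sa := hR.sq ha
  have sb := hR.sq hbD
  have sy := hR.sq hy
  have sz := hR.sq hz
  have c1 : (a * y) * b * (a * y)⁻¹ = z := by
    rw [mul_inv_rev, hR.inv ha, hR.inv hy]
    calc a * y * b * (y * a) = a * (y * b * y) * a := by simp only [mul_assoc]
      _ = (a * z * a) * b := by rw [← y4]; simp only [mul_assoc, hba]
      _ = z := by rw [← z5, z3, mul_assoc, sb, mul_one]
  have c2 : (a * y) * z * (a * y)⁻¹ = b * z := by
    rw [mul_inv_rev, hR.inv ha, hR.inv hy, z5]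
    simp only [mul_assoc]
    rw [cm' y3, sq' sy]
  have c3 : (a * y) * (b * z) * (a * y)⁻¹ = b := by
    calc (a * y) * (b * z) * (a * y)⁻¹ = ((a * y) * b * (a * y)⁻¹) * ((a * y) * z * (a * y)⁻¹) := by
          group
      _ = b := by rw [c1, c2, z3, sq' sz]
  have hbz : z ≠ b := fun e => haz (by rw [e]; exact hba.symm)
  have hbz' : b * z ≠ b := fun e => hR.ne_one hz (by simpa using e)
  have hmod : ∀ k : ℕ, (k % 3 = 0 → (a * y) ^ k * b * ((a * y) ^ k)⁻¹ = b) ∧
      (k % 3 = 1 → (a * y) ^ k * b * ((a * y) ^ k)⁻¹ = z) ∧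
      (k % 3 = 2 → (a * y) ^ k * b * ((a * y) ^ k)⁻¹ = b * z) := by
    intro k
    induction k with
    | zero => simp
    | succ k ih =>
      have e : (a * y) ^ (k + 1) * b * ((a * y) ^ (k + 1))⁻¹ =
          (a * y) * ((a * y) ^ k * b * ((a * y) ^ k)⁻¹) * (a * y)⁻¹ := by
        rw [pow_succ', mul_inv_rev (a * y) ((a * y) ^ k)]; simp only [mul_assoc]
      rw [e]
      refine ⟨fun h => ?_, fun h => ?_, fun h => ?_⟩
      · rw [ih.2.2 (by omega), c3]
      · rw [ih.1 (by omega), c1]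
      · rw [ih.2.1 (by omega), c2]
  have h3 : ∀ k : ℕ, (a * y) ^ k = 1 → k % 3 = 0 := by
    intro k hk
    have := hmod k
    rw [hk, one_mul, inv_one, mul_one] at this
    by_contra hn
    rcases (by omega : k % 3 = 1 ∨ k % 3 = 2) with h | h
    · exact hbz (this.2.1 h).symm
    · exact hbz' (this.2.2 h).symm
  have hopp : Opp a y := by
    by_contra hn
    have := h3 4 (hR.four_of_not_opp ha hy hn)
    omega
  obtain ⟨m, hm3⟩ : 3 ∣ orderOf (a * y) := Nat.dvd_of_mod_eq_zero (h3 _ (pow_orderOf_eq_one _))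
  have hm0 : m ≠ 0 := by
    rintro rfl
    exact (orderOf_pos (a * y)).ne' (by simpa using hm3)
  have hr : orderOf ((a * y) ^ m) = 3 := by
    rw [orderOf_pow_of_dvd hm0 ⟨3, by rw [hm3, mul_comm]⟩, hm3, Nat.mul_div_cancel _ (Nat.pos_of_ne_zero hm0)]
  have hx : (a * y) ^ m * a ∈ D := hR.refl_mem ha hy hopp.2 m
  have hax : orderOf (a * ((a * y) ^ m * a)) = 3 := by
    rw [orderOf_mul_comm', mul_assoc, sa, mul_one, hr]
  refine ⟨_, ⟨hx, ?_⟩, hax⟩
  have hxa : Opp ((a * y) ^ m * a) a := by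
    refine Opp.symm ⟨fun e => ?_, by rw [hax]; decide⟩
    rw [← e, sa, orderOf_one] at hax
    omega
  have hnc := hR.not_comm_of_opp ha hbD hba.symm (hba ▸ hm) hx hxa
  refine hR.order_four hbD hx (hR.not_opp_of_four hx ?_) (Ne.symm hnc)
  have e1 : ((a * y) ^ m * a) * b * ((a * y) ^ m * a) = (a * y) ^ m * b * ((a * y) ^ m)⁻¹ := by
    nth_rewrite 2 [← hR.inv hx]
    rw [mul_inv_rev, hR.inv ha]
    simp only [mul_assoc]
    rw [cm' hba.symm, sq' sa]
  have e2 : b * ((a * y) ^ m * b * ((a * y) ^ m)⁻¹) = ((a * y) ^ m * b * ((a * y) ^ m)⁻¹) * b := by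
    rcases (by omega : m % 3 = 0 ∨ m % 3 = 1 ∨ m % 3 = 2) with h | h | h
    · rw [(hmod m).1 h]
    · rw [(hmod m).2.1 h, z3]
    · rw [(hmod m).2.2 h, mul_assoc, ← z3]
  rw [← e1] at e2
  rw [← four_of_comm sb (hR.sq (hR.conj b hbD _ hx)) e2]
  generalize (a * y) ^ m * a = x
  simp only [pow_succ, pow_zero, one_mul, mul_assoc]

end Cfsg.Agent.S5047
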