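import Cfsg.Statements.S5048
import Cfsg.Agent.H36.Invol2

set_option autoImplicit false
open Cfsg

namespace Cfsg.Agent.S5048

open Cfsg.Agent.H36

/-- Let G be a finite group generated by a set D of root involutions whose odd-order-product graph is connected, with some product of two different commuting members of D again in D. Then the largest solvable normal subgroup of G is the preimage of the centre of G/O₂(G), and the quotient of G by it is a simple group. -/
theorem result {G : Type*} [Group G] [Finite G] {D : Set G} (hD : Cfsg.IsRootInvolutionSet D)
    (hc : Cfsg.IsConnectedSet (Cfsg.OddAdj D) D) (hDD : (D ∩ Cfsg.commutingProducts D).Nonempty) :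
    Cfsg.solvableRadical G = Cfsg.twoZCore G ∧ IsSimpleGroup (G ⧸ Cfsg.twoZCore G) := by
  exact simple_quot_twoZCore hD ((RI.of hD).oneClass_of_connected hc) (hasProd_of hDD)

end Cfsg.Agent.S5048
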