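import Cfsg.Statements.S5049
import Cfsg.Agent.H36.Invol

set_option autoImplicit false
open Cfsg

namespace Cfsg.Agent.S5049

open Cfsg.Agent.H36
open scoped commutatorElement

/-- Let G be a finite group generated by a set D of odd transpositions (root involutions with no product of order 4), Q = O₂(G), and for a ∈ D let Q_a be the commutator subgroup of Q with a. Then every member of D commuting with a centralizes Q_a; and for b ∈ D with ab of odd order greater than 1, the centralizer of ab in Q is the intersection of the centralizers of a and b in Q. -/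
theorem result {G : Type*} [Group G] [Finite G] {D : Set G} (hD : Cfsg.IsOddTranspositionSet D) {a : G} (ha : a ∈ D) :
    (∀ e ∈ Cfsg.commutingMembers D a, ∀ q ∈ ⁅Cfsg.pCore 2 G, Subgroup.zpowers a⁆, e * q = q * e) ∧
    (∀ b ∈ Cfsg.oddPartners D a,
      Cfsg.pCore 2 G ⊓ Subgroup.centralizer {a * b} = Cfsg.pCore 2 G ⊓ Subgroup.centralizer {a} ⊓ Subgroup.centralizer {b}) := by
  have hR := RI.of hD.1
  have key : ∀ a ∈ D, ∀ e ∈ D, e * a = a * e → ∀ u ∈ pCore 2 G,
      e * (u * a * u⁻¹) = (u * a * u⁻¹) * e := by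
    intro a ha e he hea u hu
    have hau := hD.1.conj_mem a ha u
    by_contra hc
    refine hD.2 e he _ hau (hR.order_four he hau (fun ho => ?_) hc)
    have h1 : (e * (u * a * u⁻¹)) ^ 2 ∈ pCore 2 G := by
      rw [← QuotientGroup.eq_one_iff]
      have hu1 : (u : G ⧸ pCore 2 G) = 1 := (QuotientGroup.eq_one_iff u).mpr hu
      have h2 := four_of_comm (hR.sq he) (hR.sq ha) hea
      have h3 : ((e * a : G) : G ⧸ pCore 2 G) ^ 2 = 1 := by
        rw [← QuotientGroup.mk_pow, h2, QuotientGroup.mk_one]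
      rw [QuotientGroup.mk_pow, ← h3]
      simp [hu1]
    obtain ⟨k, hk⟩ := H3.pCore_isPGroup 2 G ⟨_, h1⟩
    have h2 : (e * (u * a * u⁻¹)) ^ 2 ^ (k + 1) = 1 := by
      have := congrArg Subtype.val hk
      simp only [SubgroupClass.coe_pow, OneMemClass.coe_one] at this
      rw [pow_succ', pow_mul, this]
    apply ho.four_ne (hR.sq hau)
    rw [eq_one_of_odd_pow ho.2 h2, one_pow]
  refine ⟨fun e he q hq => ?_, fun b hb => ?_⟩
  · have hle : ⁅Cfsg.pCore 2 G, Subgroup.zpowers a⁆ ≤ Subgroup.centralizer {e} := by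
      rw [Subgroup.commutator_le]
      intro u hu x hx
      rw [Subgroup.mem_centralizer_singleton_iff]
      obtain ⟨k, rfl⟩ := hx
      have c1 : Commute (u * a * u⁻¹) e := (key a ha e he.1 he.2 u hu).symm
      have c2 : Commute a e := he.2.symm
      have e1 : ⁅u, a ^ k⁆ = (u * a * u⁻¹) ^ k * (a ^ k)⁻¹ := by
        rw [commutatorElement_def, conj_zpow]
      simp only [e1]
      exact (c1.zpow_left k).mul_left (c2.zpow_left k).inv_left
    exact (Subgroup.mem_centralizer_singleton_iff.mp (hle hq)).symm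
  · obtain ⟨hbD, ho⟩ := mem_oddPartners.mp hb
    ext u
    simp only [Subgroup.mem_inf, Subgroup.mem_centralizer_singleton_iff]
    constructor
    · rintro ⟨hu, huab⟩
      have k1 := key a ha a ha rfl u hu
      have k2 := key b hbD b hbD rfl u hu
      have hau := hD.1.conj_mem a ha u
      have hbu := hD.1.conj_mem b hbD u
      obtain ⟨a', ha'⟩ : ∃ a', a' = u * a * u⁻¹ := ⟨_, rfl⟩
      obtain ⟨b', hb'⟩ : ∃ b', b' = u * b * u⁻¹ := ⟨_, rfl⟩
      have e0 : a' * b' = a * b := by
        rw [ha', hb']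
        calc u * a * u⁻¹ * (u * b * u⁻¹) = u * (a * b) * u⁻¹ := by group
          _ = a * b := by rw [huab]; group
      rw [← ha'] at k1 hau
      rw [← hb'] at k2 hbu
      have e1 : a * a' = b * b' := by
        calc a * a' = a * (a' * b') * b' := by simp only [mul_assoc, hR.sq hbu, mul_one]
          _ = b * b' := by rw [e0, sq' (hR.sq ha)]
      have hw : a * a' = 1 := by
        refine hR.lemB ha hbD ho.symm ?_ ?_ ?_ ?_
        · rw [← pow_two]; exact four_of_comm (hR.sq ha) (hR.sq hau) k1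
        · rw [mul_assoc, ← k1]
        · rw [e1, mul_assoc, ← k2]
        · rw [sq' (hR.sq ha)]; exact hau
      have hw' : b * b' = 1 := e1 ▸ hw
      have f1 : a' = a := by rw [eq_inv_of_mul_eq_one_right hw, hR.inv ha]
      have f2 : b' = b := by rw [eq_inv_of_mul_eq_one_right hw', hR.inv hbD]
      refine ⟨⟨hu, ?_⟩, ?_⟩
      · rw [ha'] at f1; rw [← mul_inv_eq_iff_eq_mul, f1]
      · rw [hb'] at f2; rw [← mul_inv_eq_iff_eq_mul, f2]
    · rintro ⟨⟨hu, h1⟩, h2⟩
      exact ⟨hu, by rw [← mul_assoc, h1, mul_assoc, h2, mul_assoc]⟩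

end Cfsg.Agent.S5049
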