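import Cfsg.Statements.S5058
import Cfsg.Agent.H36.FamInvol
import Cfsg.Agent.H36.SLRoot

set_option autoImplicit false
open Matrix
open Cfsg

namespace Cfsg.Agent.S5058

open Cfsg.Agent.H36

/-- Let F be a finite field of characteristic 2 and n a natural number. Then the transvections of SL_{n+3}(F) (so in every dimension at least 3) (the conjugates of the elementary matrices 1 + c E₁₂, c ≠ 0) form a class of root involutions of SL_{n+3}(F); when F has two elements they form a class of {3,4}⁺-transpositions (every product of odd order has order 1 or 3). -/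
theorem result (F : Type*) [Field F] [Fintype F] [CharP F 2] (n : ℕ) :
    Cfsg.IsRootInvolutionClass {t : Matrix.SpecialLinearGroup (Fin (n + 3)) F | ∃ c : F, c ≠ 0 ∧
        ∃ g : Matrix.SpecialLinearGroup (Fin (n + 3)) F, ((g⁻¹ * t * g : Matrix.SpecialLinearGroup (Fin (n + 3)) F) :
          Matrix (Fin (n + 3)) (Fin (n + 3)) F) = Matrix.transvection 0 1 c} ∧
    (Fintype.card F = 2 → Cfsg.IsThreeFourPlusTranspositionSet {t : Matrix.SpecialLinearGroup (Fin (n + 3)) F | ∃ c : F, c ≠ 0 ∧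
        ∃ g : Matrix.SpecialLinearGroup (Fin (n + 3)) F, ((g⁻¹ * t * g : Matrix.SpecialLinearGroup (Fin (n + 3)) F) :
          Matrix (Fin (n + 3)) (Fin (n + 3)) F) = Matrix.transvection 0 1 c}) := by
  have hcard : 2 < Fintype.card (Fin (n + 3)) := by simp
  have h01 : (0 : Fin (n + 3)) ≠ 1 := by simp [Fin.ext_iff]
  have h2 : (2 : F) = 0 := CharTwo.two_eq_zero
  have hF := rootFam_SL (k := F) (n := Fin (n + 3))
  have hsm : ∀ s ∈ DSL (Fin (n + 3)) F, ∀ c : F, c ≠ 0 → c • s ∈ DSL (Fin (n + 3)) F :=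
    fun s hs c hc => DSL_smul hs hc
  have e : {t : Matrix.SpecialLinearGroup (Fin (n + 3)) F | ∃ c : F, c ≠ 0 ∧
        ∃ g : Matrix.SpecialLinearGroup (Fin (n + 3)) F, ((g⁻¹ * t * g : Matrix.SpecialLinearGroup (Fin (n + 3)) F) :
          Matrix (Fin (n + 3)) (Fin (n + 3)) F) = Matrix.transvection 0 1 c} =
      RE SpecialLinearGroup.coeMonoidHom (DSL (Fin (n + 3)) F) := by
    ext t
    constructor
    · rintro ⟨c, hc, g, hg⟩
      have h1 : g⁻¹ * t * g ∈ RE SpecialLinearGroup.coeMonoidHom (DSL (Fin (n + 3)) F) :=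
        ⟨_, DSL_smul (single_mem_DSL h01) hc, by rw [← transvection_eq]; exact hg⟩
      have := (hF.rootInvolutionSet h2 hsm DSL_gen).conj_mem _ h1 g
      simpa [mul_assoc] using this
    · intro ht
      obtain ⟨y, -, hy, -⟩ := hF.exists_one (single_mem_DSL h01)
      obtain ⟨g, hg⟩ := hF.conj_RE h2 hsm DSL_opp (DSL_connected hcard)
        ⟨_, single_mem_DSL h01, hy⟩ ht
      refine ⟨1, one_ne_zero, g, ?_⟩
      rw [hg, transvection_eq, one_smul, ← hy]
      simp [mul_assoc]
  rw [e]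
  have hI := hF.rootInvolutionSet h2 hsm DSL_gen
  refine ⟨⟨hI, ?_, fun a ha b hb => hF.conj_RE h2 hsm DSL_opp (DSL_connected hcard) ha hb⟩,
    fun hq => ⟨hI, ?_⟩⟩
  · obtain ⟨y, -, hy, -⟩ := hF.exists_one (single_mem_DSL h01)
    exact ⟨y, _, single_mem_DSL h01, hy⟩
  · rintro a ⟨s, hs, ha⟩ b ⟨t, ht, hb⟩ ho
    obtain ⟨l, l1, l2, -⟩ := hF.tri s hs t ht
    by_cases hl : l = 0
    · left
      rw [orderOf_eq_one_iff]
      refine eq_one_of_odd_pow ho (k := 2) ?_
      rcases hF.four_RE h2 hs ht ha hb (by rw [l1, hl, zero_smul]) with h | h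
      · rw [pow_two 2, pow_mul, four_of_comm (hF.sq_RE h2 hs ha) (hF.sq_RE h2 ht hb) h, one_pow]
      · rw [show 2 ^ 2 = 4 from rfl, ← h.1, pow_orderOf_eq_one]
    · have hl1 : l = 1 := by
        have := FiniteField.pow_card_sub_one_eq_one l hl
        rwa [hq, show 2 - 1 = 1 from rfl, pow_one] at this
      rw [hl1, one_smul] at l1 l2
      exact (Nat.dvd_prime Nat.prime_three).mp
        (orderOf_dvd_of_pow_eq_one (hF.cube_RE h2 hs ht ha hb l1 l2))

end Cfsg.Agent.S5058
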