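import Cfsg.Statements.S5059
import Cfsg.Agent.H36.QuadRoot

set_option autoImplicit false
universe u
open Cfsg

namespace Cfsg.Agent.S5059

open Cfsg.Agent.H36

/-- Let k be a field of characteristic not 2 with k not of order 3, M a finite-dimensional k-vector space and G ≤ GL(M) such that (G, M) is a quadratic pair (M irreducible for G, and G generated by its quadratically acting elements σ whose scalar family 1 + c(σ − 1), c ∈ k, lies in G). Write 𝒬_d for the quadratic elements of G of minimal commutator rank, E(σ) for the subgroup generated by the members of 𝒬_d with the same fixed space and commutator space as σ, and Σ for the set of these subgroups. Then for σ ∈ 𝒬_d the subgroup E(σ) consists exactly of those members together with the identity, it is abelian, and if k has prime characteristic p every element of E(σ) has order dividing p. -/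
theorem result {k : Type u} [Field k] (hk2 : ringChar k ≠ 2) (hk3 : Nat.card k ≠ 3)
    {M : Type u} [AddCommGroup M] [Module k M] [FiniteDimensional k M]
    {G : Subgroup (LinearMap.GeneralLinearGroup k M)} (hG : Cfsg.IsQuadraticPair G)
    {σ : LinearMap.GeneralLinearGroup k M} (hσ : σ ∈ Cfsg.minimalQuadraticElements G) :
    (Cfsg.sameActionSubgroup G σ : Set (LinearMap.GeneralLinearGroup k M)) = Cfsg.sameActionClass G σ ∪ {1} ∧
    IsMulCommutative ↥(Cfsg.sameActionSubgroup G σ) ∧
    (∀ p : ℕ, p.Prime → ringChar k = p → ∀ x ∈ Cfsg.sameActionSubgroup G σ, x ^ p = 1) := by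
  have hs := qd_iff.1 hσ
  rw [sameActionSubgroup_eq hs]
  refine ⟨?_, com_self_iff.1 (com_EG _), fun p _ hp x hx => ?_⟩
  · ext τ
    rw [Set.mem_union, sameActionClass_iff hs, Set.mem_singleton_iff, SetLike.mem_coe]
    refine ⟨fun h => (em (τ = 1)).elim Or.inr fun e => Or.inl ⟨h, e⟩, ?_⟩
    rintro (h | rfl)
    · exact h.1
    · exact one_mem _
  · obtain ⟨y, hy, rfl⟩ := exists_of_mem_EG hx
    have key : ∀ n : ℕ, ((un y (aSp_qt hy).sq) ^ n).val = 1 + (n : k) • y := by
      intro n
      induction n with
      | zero => simp
      | succ n ih =>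
        rw [pow_succ, Units.val_mul, ih, val_un]
        simp only [add_mul, mul_add, smul_mul_assoc, (aSp_qt hy).sq, one_mul, mul_one, smul_zero,
          Nat.cast_succ, add_smul, one_smul]
        abel
    apply Units.ext
    rw [key, ← hp, ringChar.Nat.cast_ringChar, zero_smul, add_zero, Units.val_one]

end Cfsg.Agent.S5059
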