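import Cfsg.Statements.S5060
import Cfsg.Agent.H36.Dickson

set_option autoImplicit false
open Cfsg

namespace Cfsg.Agent.S5060

open Cfsg.Agent.H36

/-- Let k ⊆ K be fields with the characteristic of k not 2 and k not of order 3, and let α ∈ K be a non-zero element algebraic over k. Then the subgroup of SL₂(K) generated by the upper unitriangular matrices with entry c and the lower unitriangular matrices with entry cα, c ranging over k, is exactly the group of matrices of SL₂(K) with all entries in k(α). -/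
theorem result {k K : Type*} [Field k] [Field K] [Algebra k K] (hk2 : ringChar k ≠ 2) (hk3 : Nat.card k ≠ 3)
    (α : K) (hα : IsAlgebraic k α) (hα0 : α ≠ 0) :
    (Subgroup.closure ({g : Matrix.SpecialLinearGroup (Fin 2) K | ∃ c : k, (g : Matrix (Fin 2) (Fin 2) K) = !![1, algebraMap k K c; 0, 1]} ∪
        {g : Matrix.SpecialLinearGroup (Fin 2) K | ∃ c : k, (g : Matrix (Fin 2) (Fin 2) K) = !![1, 0; algebraMap k K c * α, 1]}) :
      Set (Matrix.SpecialLinearGroup (Fin 2) K)) =
    {g : Matrix.SpecialLinearGroup (Fin 2) K | ∀ i j : Fin 2, (g : Matrix (Fin 2) (Fin 2) K) i j ∈ IntermediateField.adjoin k ({α} : Set K)} := by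
  have h2 := two_ne_zero_of_ringChar hk2
  set F := IntermediateField.adjoin k ({α} : Set K) with hF
  have hfin : FiniteDimensional k F := IntermediateField.adjoin.finiteDimensional hα.isIntegral
  let x : F := ⟨α, IntermediateField.mem_adjoin_simple_self k α⟩
  have hx : IsUnit x := isUnit_iff_ne_zero.2 fun e => hα0 (congrArg Subtype.val e)
  have hgen : Algebra.adjoin k {x} = ⊤ := (IntermediateField.adjoin.powerBasis hα.isIntegral).adjoin_gen_eq_top
  let φ := Matrix.SpecialLinearGroup.map (n := Fin 2) (algebraMap F K)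
  apply Set.Subset.antisymm
  · intro g hg
    have : g ∈ φ.range := by
      refine (Subgroup.closure_le _).2 ?_ hg
      rintro g (⟨c, hc⟩ | ⟨c, hc⟩)
      · exact ⟨eU (algebraMap k F c), (map_eU _ _).trans (Subtype.ext hc.symm)⟩
      · exact ⟨eL (algebraMap k F c * x), (map_eL _ _).trans (Subtype.ext hc.symm)⟩
    obtain ⟨g, rfl⟩ := this
    intro i j
    exact (g i j).2
  · intro g hg
    set H := Subgroup.closure ({g : Matrix.SpecialLinearGroup (Fin 2) K | ∃ c : k, (g : Matrix (Fin 2) (Fin 2) K) = !![1, algebraMap k K c; 0, 1]} ∪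
        {g : Matrix.SpecialLinearGroup (Fin 2) K | ∃ c : k, (g : Matrix (Fin 2) (Fin 2) K) = !![1, 0; algebraMap k K c * α, 1]})
    have hL : ∀ c : k, eL (algebraMap k F c * x) ∈ H.comap φ := fun c => by
      rw [Subgroup.mem_comap, map_eL]
      exact Subgroup.subset_closure (Or.inr ⟨c, rfl⟩)
    have hU := dickson_all h2 hk3 F x hx hgen (H.comap φ) (fun c => by
      rw [Subgroup.mem_comap, map_eU]
      exact Subgroup.subset_closure (Or.inl ⟨c, rfl⟩)) hL
    have htop := eq_top_of_eU_eL hU (eL_mem_of hU hx (by simpa using hL 1))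
    obtain ⟨a, b, c, d, h, rfl⟩ := M2_cases g
    have : M2 (⟨a, hg 0 0⟩ : F) ⟨b, hg 0 1⟩ ⟨c, hg 1 0⟩ ⟨d, hg 1 1⟩ (Subtype.ext h) ∈ H.comap φ :=
      htop ▸ trivial
    rw [Subgroup.mem_comap, map_M2] at this
    exact this

end Cfsg.Agent.S5060
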