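import Cfsg.Statements.S5064
import Cfsg.Agent.H36.QuadRoot

set_option autoImplicit false
universe u
open Cfsg

namespace Cfsg.Agent.S5064

open Cfsg.Agent.H36

/-- Let k be a field of characteristic not 2 with k not of order 3, M a finite-dimensional k-vector space and G ≤ GL(M) such that (G, M) is a quadratic pair (M irreducible for G, and G generated by its quadratically acting elements σ whose scalar family 1 + c(σ − 1), c ∈ k, lies in G). Write 𝒬_d for the quadratic elements of G of minimal commutator rank, E(σ) for the subgroup generated by the members of 𝒬_d with the same fixed space and commutator space as σ, and Σ for the set of these subgroups. If σ, τ ∈ 𝒬_d and the subgroup H generated by their two scalar families does not act unipotently on M, then H is isomorphic to SL₂ over a simple algebraic extension k(λ) of k. -/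
theorem result {k : Type u} [Field k] (hk2 : ringChar k ≠ 2) (hk3 : Nat.card k ≠ 3)
    {M : Type u} [AddCommGroup M] [Module k M] [FiniteDimensional k M]
    {G : Subgroup (LinearMap.GeneralLinearGroup k M)} (hG : Cfsg.IsQuadraticPair G)
    {σ τ : LinearMap.GeneralLinearGroup k M} (hσ : σ ∈ Cfsg.minimalQuadraticElements G) (hτ : τ ∈ Cfsg.minimalQuadraticElements G)
    (hH : ¬ Cfsg.IsUnipotentOn (Subgroup.closure (Cfsg.scalarFamily σ ∪ Cfsg.scalarFamily τ))) :
    ∃ (K : Type u) (_ : Field K) (_ : Algebra k K) (lam : K), IsAlgebraic k lam ∧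
      IntermediateField.adjoin k ({lam} : Set K) = ⊤ ∧
      Nonempty (↥(Subgroup.closure (Cfsg.scalarFamily σ ∪ Cfsg.scalarFamily τ)) ≃* Matrix.SpecialLinearGroup (Fin 2) K) := by
  have hk := goodField hk2 hk3
  have hs := qd_iff.1 hσ
  have ht := qd_iff.1 hτ
  set H := Subgroup.closure (Cfsg.scalarFamily σ ∪ Cfsg.scalarFamily τ)
  have hsH : QT k H (σ.val - 1) := ⟨hs.qt.sq, fun c => ⟨un _ (smul_sq hs.qt.sq c),
    Subgroup.subset_closure (Or.inl ⟨c, rfl⟩), rfl⟩⟩
  have htH : QT k H (τ.val - 1) := ⟨ht.qt.sq, fun c => ⟨un _ (smul_sq ht.qt.sq c),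
    Subgroup.subset_closure (Or.inr ⟨c, rfl⟩), rfl⟩⟩
  have hle : H ≤ EG G (σ.val - 1) ⊔ EG G (τ.val - 1) := by
    refine (Subgroup.closure_le _).2 ?_
    rintro g (⟨c, hc⟩ | ⟨c, hc⟩)
    · refine Subgroup.mem_sup_left (mem_EG.2 ?_)
      rw [hc, add_sub_cancel_left]
      exact Submodule.smul_mem _ c hs.qt.mem_aSp
    · refine Subgroup.mem_sup_right (mem_EG.2 ?_)
      rw [hc, add_sub_cancel_left]
      exact Submodule.smul_mem _ c ht.qt.mem_aSp
  obtain ⟨K, _, _, _, lam, Φ, h1, h2, h3, -, -, h4, h5⟩ := hs.exists_SL2 hk ht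
    (fun e => hH (isUnipotentOn_iff.2 ((hs.unip_of_nil hk ht e).mono hle)))
    (hle.trans (sup_le (EG_le _) (EG_le _))) hsH htH
  have h6 : Φ.range = H := by
    refine le_antisymm h3 ((Subgroup.closure_le _).2 ?_)
    rintro g (⟨c, hc⟩ | ⟨c, hc⟩)
    · exact ⟨_, Units.ext ((h4 c).trans hc.symm)⟩
    · exact ⟨_, Units.ext ((h5 c).trans hc.symm)⟩
  exact ⟨K, inferInstance, inferInstance, lam, Algebra.IsAlgebraic.isAlgebraic lam,
    IntermediateField.adjoin_eq_top_of_algebra _ _ h1,
    ⟨(MulEquiv.subgroupCongr h6.symm).trans (MonoidHom.ofInjective h2).symm⟩⟩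

end Cfsg.Agent.S5064
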