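import Cfsg.Statements.S5065
import Cfsg.Agent.H36.QuadRoot

set_option autoImplicit false
universe u
open Cfsg

namespace Cfsg.Agent.S5065

open Cfsg.Agent.H36

/-- The units `g` with `g - 1 ∈ e A e`. -/
def corner {A : Type*} [Ring A] (e : A) : Subgroup Aˣ where
  carrier := {g | e * (g.val - 1) = g.val - 1 ∧ (g.val - 1) * e = g.val - 1}
  one_mem' := by simp
  mul_mem' := fun {a b} ha hb => by
    have h : (a * b).val - 1 = (a.val - 1) * (b.val - 1) + (a.val - 1) + (b.val - 1) := by
      rw [Units.val_mul]; noncomm_ring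
    constructor
    · rw [h, mul_add, mul_add, ← mul_assoc, ha.1, hb.1]
    · rw [h, add_mul, add_mul, mul_assoc, ha.2, hb.2]
  inv_mem' := fun {a} ha => by
    constructor
    · have h : (a⁻¹).val - 1 = -((a.val - 1) * (a⁻¹).val) := by simp [sub_mul]
      rw [h, mul_neg, ← mul_assoc, ha.1]
    · have h : (a⁻¹).val - 1 = -((a⁻¹).val * (a.val - 1)) := by simp [mul_sub]
      rw [h, neg_mul, mul_assoc, ha.2]

theorem eq_left {A : Type*} [Ring A] {e x : A} (h : (1 - e) * x = 0) : e * x = x := by
  rw [sub_mul, one_mul, sub_eq_zero] at h; exact h.symm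

theorem eq_right {A : Type*} [Ring A] {e x : A} (h : x * (1 - e) = 0) : x * e = x := by
  rw [mul_sub, mul_one, sub_eq_zero] at h; exact h.symm

/-- Let k be a field of characteristic not 2 with k not of order 3, M a finite-dimensional k-vector space and G ≤ GL(M) such that (G, M) is a quadratic pair (M irreducible for G, and G generated by its quadratically acting elements σ whose scalar family 1 + c(σ − 1), c ∈ k, lies in G). Write 𝒬_d for the quadratic elements of G of minimal commutator rank, E(σ) for the subgroup generated by the members of 𝒬_d with the same fixed space and commutator space as σ, and Σ for the set of these subgroups. For σ, τ ∈ 𝒬_d put A = E(σ), B = E(τ) and X = ⟨A, B⟩. Then either X acts unipotently on M, or A and B are the unipotent subgroups of a special rank one group X; in the latter case X contains exactly one central involution acting as −1 on the commutator space [M, X] and trivially on the fixed space C_M(X), and M is the direct sum of C_M(X) and [M, X]. -/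
theorem result {k : Type u} [Field k] (hk2 : ringChar k ≠ 2) (hk3 : Nat.card k ≠ 3)
    {M : Type u} [AddCommGroup M] [Module k M] [FiniteDimensional k M]
    {G : Subgroup (LinearMap.GeneralLinearGroup k M)} (hG : Cfsg.IsQuadraticPair G)
    {σ τ : LinearMap.GeneralLinearGroup k M} (hσ : σ ∈ Cfsg.minimalQuadraticElements G) (hτ : τ ∈ Cfsg.minimalQuadraticElements G) :
    Cfsg.IsUnipotentOn (Cfsg.sameActionSubgroup G σ ⊔ Cfsg.sameActionSubgroup G τ) ∨
    (Cfsg.IsSpecialRankOnePair (Cfsg.sameActionSubgroup G σ) (Cfsg.sameActionSubgroup G τ) ∧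
      (∃! i : LinearMap.GeneralLinearGroup k M, i ∈ Cfsg.sameActionSubgroup G σ ⊔ Cfsg.sameActionSubgroup G τ ∧ i ≠ 1 ∧ i * i = 1 ∧
        (∀ x ∈ Cfsg.sameActionSubgroup G σ ⊔ Cfsg.sameActionSubgroup G τ, i * x = x * i) ∧
        (∀ m ∈ Cfsg.commutatorSubmodule (Cfsg.sameActionSubgroup G σ ⊔ Cfsg.sameActionSubgroup G τ), (i : M →ₗ[k] M) m = -m) ∧
        (∀ m ∈ Cfsg.fixedSubmodule (Cfsg.sameActionSubgroup G σ ⊔ Cfsg.sameActionSubgroup G τ), (i : M →ₗ[k] M) m = m)) ∧
      IsCompl (Cfsg.fixedSubmodule (Cfsg.sameActionSubgroup G σ ⊔ Cfsg.sameActionSubgroup G τ))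
        (Cfsg.commutatorSubmodule (Cfsg.sameActionSubgroup G σ ⊔ Cfsg.sameActionSubgroup G τ))) := by
  have hk := goodField hk2 hk3
  have hs := qd_iff.1 hσ
  have ht := qd_iff.1 hτ
  rw [sameActionSubgroup_eq hs, sameActionSubgroup_eq ht]
  generalize σ.val - 1 = s at hs
  generalize τ.val - 1 = t' at ht
  by_cases h : s * t' * s = 0
  · exact Or.inl (isUnipotentOn_iff.2 (hs.unip_of_nil hk ht h))
  refine Or.inr ⟨hs.special hk ht h, ?_⟩
  obtain ⟨t, ht', h1, h2⟩ := hs.exists_match hk ht h
  have ht0 : t ≠ 0 := by rintro rfl; exact hs.ne (by simpa using h1.symm)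
  rw [← EG_congr (ht.aSp_eq ht' ht0)]
  replace ht := ht.of_mem ht' ht0
  have hss := hs.qt.sq
  have htt := ht.qt.sq
  set e := s * t + t * s with he
  have es : e * s = s := by rw [he, z_mul_left hss, h1]
  have se : s * e = s := by rw [he, mul_z_left hss, h1]
  have et : e * t = t := by rw [he, add_comm, z_mul_left htt, h2]
  have te : t * e = t := by rw [he, add_comm, mul_z_left htt, h2]
  have ee : e * e = e := by
    conv_lhs => rw [he, mul_add, ← mul_assoc, ← mul_assoc, ← he, es, et]
  have hle : EG G s ⊔ EG G t ≤ corner e := sup_le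
    (fun g hg => ⟨eq_left (aSp_left hg (by rw [sub_mul, es, one_mul, sub_self])),
      eq_right (aSp_right hg (by rw [mul_sub, se, mul_one, sub_self]))⟩)
    (fun g hg => ⟨eq_left (aSp_left hg (by rw [sub_mul, et, one_mul, sub_self])),
      eq_right (aSp_right hg (by rw [mul_sub, te, mul_one, sub_self]))⟩)
  set n := un s hss * (un t htt)⁻¹ * un s hss with hn
  have hnX : n ∈ EG G s ⊔ EG G t := mul_mem (mul_mem (Subgroup.mem_sup_left hs.un_mem)
    (Subgroup.mem_sup_right (inv_mem ht.un_mem))) (Subgroup.mem_sup_left hs.un_mem)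
  have hn1 : n.val = 1 - e + (s - t) := by
    simp only [hn, Units.val_mul, val_un, val_inv_un, add_mul, mul_add, sub_mul, mul_sub, one_mul,
      mul_one, hss, h1, he]
    abel
  have hi : (n * n).val = 1 - (2 : k) • e := by
    rw [Units.val_mul, hn1]
    simp only [add_mul, mul_add, sub_mul, mul_sub, one_mul, mul_one, hss, htt, es, se, et, te, ee,
      two_smul]
    rw [he]; abel
  have hi' : (n * n).val - 1 = (-2 : k) • e := by rw [hi, neg_smul]; abel
  have hn2 : (-2 : k) ≠ 0 := neg_ne_zero.2 hk.two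
  have hC : commutatorSubmodule (EG G s ⊔ EG G t) = LinearMap.range e := by
    refine le_antisymm (iSup₂_le fun g hg => (hle hg).1 ▸ range_mul_le _ _) ?_
    refine le_iSup₂_of_le (f := fun (g : (M →ₗ[k] M)ˣ) (_ : g ∈ EG G s ⊔ EG G t) =>
      LinearMap.range (g.val - 1)) _ (mul_mem hnX hnX) ?_
    rw [hi', LinearMap.range_smul _ _ hn2]
  have hF : fixedSubmodule (EG G s ⊔ EG G t) = LinearMap.ker e := by
    ext m
    rw [mem_fixedSubmodule]
    refine ⟨fun h => ?_, fun h g hg => ?_⟩
    · have := h _ (mul_mem hnX hnX)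
      rwa [hi', LinearMap.smul_apply, smul_eq_zero_iff_right hn2] at this
    · rw [← (hle hg).2, Module.End.mul_apply, h, map_zero]
  have hc : IsCompl (LinearMap.range e) (LinearMap.ker e) := LinearMap.IsIdempotentElem.isCompl ee
  rw [hC, hF]
  have k1 : ∀ m ∈ LinearMap.range e, (n * n).val m = -m := by
    rintro _ ⟨m, rfl⟩
    rw [hi, LinearMap.sub_apply, LinearMap.smul_apply, ← Module.End.mul_apply e, ee, two_smul]
    simp
  have k2 : ∀ m ∈ LinearMap.ker e, (n * n).val m = m := fun m hm => by
    rw [hi, LinearMap.sub_apply, LinearMap.smul_apply, hm]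
    simp
  refine ⟨⟨n * n, ⟨mul_mem hnX hnX, fun h => ?_, Units.ext ?_, fun x hx => Units.ext ?_, k1, k2⟩,
    fun i hi => Units.ext (LinearMap.ext fun m => ?_)⟩, hc.symm⟩
  · rw [h, Units.val_one, sub_self, eq_comm, smul_eq_zero_iff_right hn2] at hi'
    exact hs.ne (by rw [← es, hi', zero_mul])
  · rw [Units.val_mul, hi]
    simp only [sub_mul, mul_sub, one_mul, mul_one, smul_mul_assoc, mul_smul_comm, ee, Units.val_one]
    module
  · obtain ⟨a1, a2⟩ := hle hx
    have : e * x.val = x.val * e := by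
      rw [mul_sub, mul_one, sub_eq_iff_eq_add] at a1
      rw [sub_mul, one_mul, sub_eq_iff_eq_add] at a2
      rw [a1, a2]
    rw [Units.val_mul, Units.val_mul x, hi]
    simp only [sub_mul, mul_sub, one_mul, mul_one, smul_mul_assoc, mul_smul_comm, this]
  · obtain ⟨a, ha, b, hb, rfl⟩ := Submodule.mem_sup.1 (hc.sup_eq_top ▸ trivial : m ∈ LinearMap.range e ⊔ LinearMap.ker e)
    rw [map_add, map_add, k1 a ha, k2 b hb, hi.2.2.2.2.1 a ha, hi.2.2.2.2.2 b hb]

end Cfsg.Agent.S5065
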