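import Cfsg.Statements.S5066
import Cfsg.Agent.H36.QuadRoot
import Cfsg.Agent.H36.CommLemmas

set_option autoImplicit false
universe u
open Cfsg

namespace Cfsg.Agent.S5066

open Cfsg.Agent.H36

/-- Let k be a field of characteristic not 2 with k not of order 3, M a finite-dimensional k-vector space and G ≤ GL(M) such that (G, M) is a quadratic pair (M irreducible for G, and G generated by its quadratically acting elements σ whose scalar family 1 + c(σ − 1), c ∈ k, lies in G). Write 𝒬_d for the quadratic elements of G of minimal commutator rank, E(σ) for the subgroup generated by the members of 𝒬_d with the same fixed space and commutator space as σ, and Σ for the set of these subgroups. Let E, F ∈ Σ generate a subgroup that is nilpotent of class exactly two. Then D = ⁅E, F⁆ belongs to Σ, equals the subgroup generated by the commutators of e with F, and also of E with f, for every non-identity e ∈ E, f ∈ F, and ⟨E, F⟩ lies in U(D), the set of elements g of G normalizing D with (g − 1)M inside the fixed space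 of D, (g − 1) mapping that fixed space into the commutator space of D, and g acting trivially on the commutator space of D. -/
theorem result {k : Type u} [Field k] (hk2 : ringChar k ≠ 2) (hk3 : Nat.card k ≠ 3)
    {M : Type u} [AddCommGroup M] [Module k M] [FiniteDimensional k M]
    {G : Subgroup (LinearMap.GeneralLinearGroup k M)} (hG : Cfsg.IsQuadraticPair G)
    {E F : Subgroup (LinearMap.GeneralLinearGroup k M)} (hE : E ∈ Cfsg.quadraticRootSubgroups G) (hF : F ∈ Cfsg.quadraticRootSubgroups G)
    (h2 : ⁅E ⊔ F, E ⊔ F⁆ ≠ ⊥ ∧ ⁅⁅E ⊔ F, E ⊔ F⁆, E ⊔ F⁆ = ⊥) :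
    ⁅E, F⁆ ∈ Cfsg.quadraticRootSubgroups G ∧
    (∀ e ∈ E, e ≠ 1 → Subgroup.closure ((fun f : LinearMap.GeneralLinearGroup k M => e * f * e⁻¹ * f⁻¹) '' (F : Set (LinearMap.GeneralLinearGroup k M))) = ⁅E, F⁆) ∧
    (∀ f ∈ F, f ≠ 1 → Subgroup.closure ((fun e : LinearMap.GeneralLinearGroup k M => e * f * e⁻¹ * f⁻¹) '' (E : Set (LinearMap.GeneralLinearGroup k M))) = ⁅E, F⁆) ∧
    ((E ⊔ F : Subgroup (LinearMap.GeneralLinearGroup k M)) : Set (LinearMap.GeneralLinearGroup k M)) ⊆ Cfsg.quadraticUnipotentCore G ⁅E, F⁆ := by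
  have hk := goodField hk2 hk3
  have hH := hyp_of_irred hG.1
  rw [quadraticRootSubgroups_eq] at hE hF ⊢
  obtain ⟨s, hs, rfl⟩ := hE
  obtain ⟨t, ht, rfl⟩ := hF
  rw [commutator_sup_self (com_EG s) (com_EG t)] at h2
  have h0 : s * t - t * s ≠ 0 := fun e => h2.1 (com_iff.1 (hs.com hk ht e))
  have h1 : s * t * s = 0 := by
    by_contra h1
    have hRO := (hs.RO_iff hk ht).2 h1
    rw [← commutator_sup_self (com_EG s) (com_EG t)] at h2
    have := RO.comm_of_second_center hRO (Subgroup.mem_sup_left hs.un_mem) fun x hx y hy =>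
      com_iff.2 h2.2 _ (cm_mem (Subgroup.mem_sup_left hs.un_mem) hx) y hy
    exact hs.un_ne (RO.eq_one_of_comm hRO hs.un_mem fun b hb => this b (Subgroup.mem_sup_right hb))
  have hRC := hs.RC hk hH ht h1 h0 (hs.comm ht.qt h1 (hs.nil_symm hk ht h1) h0).mem_Sg
  exact ⟨hRC.1, hRC.2.2.1, hRC.2.2.2, hs.subset_core hk hH ht h1 h0⟩

end Cfsg.Agent.S5066
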