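import Cfsg.Statements.S5067

set_option autoImplicit false
open Cfsg

namespace Cfsg.Agent.S5067

open scoped commutatorElement

theorem aux {P : Type*} [Group P] [Group.IsNilpotent P] (hna : ¬ IsMulCommutative P)
    {E : Subgroup P} (hE : IsMulCommutative ↥E) :
    Group.nilpotencyClass ↥(Subgroup.normalClosure (E : Set P)) < Group.nilpotencyClass P := by
  set N := Subgroup.normalClosure (E : Set P) with hN
  set Z := (⊤ : Subgroup P).lowerCentralSeries 2 with hZ
  have hZn : Z.Normal := inferInstance
  let π := QuotientGroup.mk' Z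
  have h0 : ∀ g e x : P, Commute (π ⁅g, e⁆) (π x) := by
    intro g e x
    rw [← commutatorElement_eq_one_iff_commute, ← map_commutatorElement, QuotientGroup.mk'_apply,
      QuotientGroup.eq_one_iff]
    exact Subgroup.commutator_mem_commutator
      (Subgroup.commutator_mem_commutator (Subgroup.mem_top _) (Subgroup.mem_top _))
      (Subgroup.mem_top _)
  have h1 : ∀ n ∈ N, ∀ m : P, (∀ e ∈ E, Commute (π e) (π m)) → Commute (π n) (π m) := by
    intro n hn m hm
    induction hn using Subgroup.closure_induction with
    | mem x hx =>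
      obtain ⟨e, he, hc⟩ := Group.mem_conjugatesOfSet_iff.mp hx
      obtain ⟨g, rfl⟩ := isConj_iff.mp hc
      have : g * e * g⁻¹ = ⁅g, e⁆ * e := by rw [commutatorElement_def]; group
      rw [this, map_mul]
      exact (h0 g e m).mul_left (hm e he)
    | one => simp
    | mul x y _ _ ihx ihy => rw [map_mul]; exact ihx.mul_left ihy
    | inv x _ ih => rw [map_inv]; exact ih.inv_left
  have h2 : ⁅N, N⁆ ≤ Z := by
    rw [Subgroup.commutator_le]
    intro n hn m hm
    rw [← QuotientGroup.eq_one_iff, ← QuotientGroup.mk'_apply, map_commutatorElement,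
      commutatorElement_eq_one_iff_commute]
    refine h1 n hn m fun e he => (h1 m hm e fun e' he' => ?_).symm
    have : e' * e = e * e' := congrArg Subtype.val (hE.is_comm.comm (⟨e', he'⟩ : E) ⟨e, he⟩)
    exact (Commute.map this π)
  have h3 : ∀ k, N.lowerCentralSeries (k + 1) ≤ (⊤ : Subgroup P).lowerCentralSeries (k + 2) := by
    intro k
    induction k with
    | zero => exact h2
    | succ k ih => exact Subgroup.commutator_mono ih le_top
  have hc : ¬ Group.nilpotencyClass P ≤ 1 := fun h =>
    hna (Group.IsNilpotent.nilpotencyClass_le_one_iff.mp h)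
  obtain ⟨k, hk⟩ : ∃ k, Group.nilpotencyClass P = k + 2 := ⟨Group.nilpotencyClass P - 2, by omega⟩
  have h4 : N.lowerCentralSeries (k + 1) = ⊥ := by
    rw [eq_bot_iff, ← Subgroup.lowerCentralSeries_nilpotencyClass (G := P), hk]
    exact h3 k
  rw [← Subgroup.top_subtype_lowerCentralSeries, Subgroup.map_eq_bot_iff_of_injective _
    N.subtype_injective, Subgroup.lowerCentralSeries_eq_bot_iff_nilpotencyClass_le] at h4
  omega

/-- Let P be a non-abelian nilpotent p-group (every element of p-power order; P possibly infinite) generated by two abelian subgroups E and F. Then the normal closure of E in P, and likewise that of F, has nilpotency class strictly smaller than that of P. -/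
theorem result {P : Type*} [Group P] {p : ℕ} [Fact p.Prime] (hP : IsPGroup p P) [Group.IsNilpotent P]
    (hna : ¬ IsMulCommutative P) {E F : Subgroup P} (hE : IsMulCommutative ↥E) (hF : IsMulCommutative ↥F) (hgen : E ⊔ F = ⊤) :
    Group.nilpotencyClass ↥(Subgroup.normalClosure (E : Set P)) < Group.nilpotencyClass P ∧
    Group.nilpotencyClass ↥(Subgroup.normalClosure (F : Set P)) < Group.nilpotencyClass P := by
  exact ⟨aux hna hE, aux hna hF⟩

end Cfsg.Agent.S5067
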