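import Cfsg.Statements.S5068
import Cfsg.Agent.H36.QuadRoot
import Cfsg.Agent.H36.CommLemmas

set_option autoImplicit false
universe u
open Cfsg

namespace Cfsg.Agent.S5068

open Cfsg.Agent.H36

/-- Let k be a field of characteristic not 2 with k not of order 3, M a finite-dimensional k-vector space and G ≤ GL(M) such that (G, M) is a quadratic pair (M irreducible for G, and G generated by its quadratically acting elements σ whose scalar family 1 + c(σ − 1), c ∈ k, lies in G). Write 𝒬_d for the quadratic elements of G of minimal commutator rank, E(σ) for the subgroup generated by the members of 𝒬_d with the same fixed space and commutator space as σ, and Σ for the set of these subgroups. Let E, F ∈ Σ generate a subgroup acting unipotently on M. Then either E and F commute elementwise, or L = ⁅E, F⁆ belongs to Σ, equals the subgroup generated by the commutators of e with F, and of E with f, for all non-identity e ∈ E, f ∈ F, the group ⟨E, F⟩ is nilpotent of class two, and ⟨E, F⟩ lies in U(L), the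 set of elements g of G normalizing L with (g − 1)M inside the fixed space of L, (g − 1) mapping that fixed space into the commutator space of L, and g acting trivially on the commutator space of L. -/
theorem result {k : Type u} [Field k] (hk2 : ringChar k ≠ 2) (hk3 : Nat.card k ≠ 3)
    {M : Type u} [AddCommGroup M] [Module k M] [FiniteDimensional k M]
    {G : Subgroup (LinearMap.GeneralLinearGroup k M)} (hG : Cfsg.IsQuadraticPair G)
    {E F : Subgroup (LinearMap.GeneralLinearGroup k M)} (hE : E ∈ Cfsg.quadraticRootSubgroups G) (hF : F ∈ Cfsg.quadraticRootSubgroups G)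
    (hu : Cfsg.IsUnipotentOn (E ⊔ F)) :
    ⁅E, F⁆ = ⊥ ∨
    (⁅E, F⁆ ∈ Cfsg.quadraticRootSubgroups G ∧
      (∀ e ∈ E, e ≠ 1 → Subgroup.closure ((fun f : LinearMap.GeneralLinearGroup k M => e * f * e⁻¹ * f⁻¹) '' (F : Set (LinearMap.GeneralLinearGroup k M))) = ⁅E, F⁆) ∧
      (∀ f ∈ F, f ≠ 1 → Subgroup.closure ((fun e : LinearMap.GeneralLinearGroup k M => e * f * e⁻¹ * f⁻¹) '' (E : Set (LinearMap.GeneralLinearGroup k M))) = ⁅E, F⁆) ∧
      ⁅E ⊔ F, E ⊔ F⁆ ≠ ⊥ ∧ ⁅⁅E ⊔ F, E ⊔ F⁆, E ⊔ F⁆ = ⊥ ∧
      ((E ⊔ F : Subgroup (LinearMap.GeneralLinearGroup k M)) : Set (LinearMap.GeneralLinearGroup k M)) ⊆ Cfsg.quadraticUnipotentCore G ⁅E, F⁆) := by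
  have hk := goodField hk2 hk3
  have hH := hyp_of_irred hG.1
  rw [quadraticRootSubgroups_eq] at hE hF ⊢
  obtain ⟨s, hs, rfl⟩ := hE
  obtain ⟨t, ht, rfl⟩ := hF
  by_cases h0 : s * t - t * s = 0
  · exact Or.inl (com_iff.1 (hs.com hk ht h0))
  have h1 : s * t * s = 0 := by
    by_contra h1
    exact RO.not_isNilpotent ((hs.RO_iff hk ht).2 h1) (isUnipotentOn_iff.1 hu).isNilpotent
  have hRC := hs.RC hk hH ht h1 h0 (hs.comm ht.qt h1 (hs.nil_symm hk ht h1) h0).mem_Sg
  refine Or.inr ⟨hRC.1, hRC.2.2.1, hRC.2.2.2, ?_, ?_, hs.subset_core hk hH ht h1 h0⟩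
  · rw [commutator_sup_self (com_EG s) (com_EG t)]
    exact Sg_ne_bot hRC.1
  · rw [commutator_sup_self (com_EG s) (com_EG t)]
    exact com_iff.1 (RC.com_sup hRC)

end Cfsg.Agent.S5068
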