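import Cfsg.Statements.S5069
import Cfsg.Agent.H36.QuadSplit

set_option autoImplicit false
universe u
open Cfsg

namespace Cfsg.Agent.S5069

open Cfsg.Agent.H36

/-- Let k be a field of characteristic not 2 with k not of order 3, M a finite-dimensional k-vector space and G ≤ GL(M) such that (G, M) is a quadratic pair (M irreducible for G, and G generated by its quadratically acting elements σ whose scalar family 1 + c(σ − 1), c ∈ k, lies in G). Write 𝒬_d for the quadratic elements of G of minimal commutator rank, E(σ) for the subgroup generated by the members of 𝒬_d with the same fixed space and commutator space as σ, and Σ for the set of these subgroups. Then Σ is a disjoint union of finitely many parts Σ₁, …, Σ_r such that the subgroups G_i generated by the Σ_i commute pairwise, each G_i is quasisimple, and inside G_i the members of Σ_i form a class of abstract root subgroups in which every rank one pair A, B contains subgroups A₀ ≤ A, B₀ ≤ B generating an image of SL₂(k₁) with central kernel on unitriangular subgroups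 for some field k₁ with at least four elements. -/
theorem result {k : Type u} [Field k] (hk2 : ringChar k ≠ 2) (hk3 : Nat.card k ≠ 3)
    {M : Type u} [AddCommGroup M] [Module k M] [FiniteDimensional k M]
    {G : Subgroup (LinearMap.GeneralLinearGroup k M)} (hG : Cfsg.IsQuadraticPair G) :
    ∃ (r : ℕ) (part : Fin r → Set (Subgroup (LinearMap.GeneralLinearGroup k M))),
      (⋃ i, part i) = Cfsg.quadraticRootSubgroups G ∧ (∀ i j, i ≠ j → Disjoint (part i) (part j)) ∧ (∀ i, (part i).Nonempty) ∧
      (∀ i j, i ≠ j → ⁅(⨆ A ∈ part i, A), (⨆ A ∈ part j, A)⁆ = ⊥) ∧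
      (∀ i, Cfsg.IsQuasisimple ↥(⨆ A ∈ part i, A) ∧
        Cfsg.IsRootSubgroupClass ((fun A : Subgroup (LinearMap.GeneralLinearGroup k M) => A.subgroupOf (⨆ B ∈ part i, B)) '' (part i)) ∧
        ∀ A ∈ part i, ∀ B ∈ Cfsg.rankOnePartners (part i) A, ∃ A₀ B₀ : Subgroup (LinearMap.GeneralLinearGroup k M), A₀ ≤ A ∧ B₀ ≤ B ∧
          ∃ (k₁ : Type u) (_ : Field k₁), 3 < ENat.card k₁ ∧ Cfsg.IsPSL2PairOver k₁ A₀ B₀) := by
  have hk := goodField hk2 hk3
  have hH := hyp_of_irred hG.1
  rw [quadraticRootSubgroups_eq]
  obtain ⟨r, A, b1, b2, b3⟩ := exists_components hk hH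
  refine ⟨r, fun i => Cp G (A i), ?_, fun i j hij => ?_,
    fun i => ⟨A i, b1 i, Relation.ReflTransGen.refl⟩, fun i j hij => com_iff.1 (Cp_com hk hH (b2 i j hij)),
    fun i => ⟨Cp_quasisimple hk hH hG.2 (b1 i), Cp_rootClass hk hH (b1 i),
      fun B hB C hC => Sg_PSL2Pair hk hB.1 hC.1.1 hC.2⟩⟩
  · refine (Set.iUnion_subset fun i B hB => hB.1).antisymm fun B hB => ?_
    obtain ⟨i, hi⟩ := b3 B hB
    exact Set.mem_iUnion.2 ⟨i, hB, hi⟩
  · exact Set.disjoint_left.2 fun B h1 h2 => b2 i j hij (h1.2.trans (Reach.symm h2.2))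

end Cfsg.Agent.S5069
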