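import Cfsg.Statements.S5070
import Cfsg.Agent.H36.SLRoot
import Cfsg.Agent.H47.Transvections
import Cfsg.Agent.S0765

set_option autoImplicit false
open Matrix
open Cfsg

namespace Cfsg.Agent.S5070

open Cfsg.Agent.H36

theorem exists_dot_ne {F n : Type*} [Field F] [Fintype n] [DecidableEq n] {φ ψ : n → F} (hφ : φ ≠ 0)
    (hψ : ψ ≠ 0) : ∃ r, φ ⬝ᵥ r ≠ 0 ∧ ψ ⬝ᵥ r ≠ 0 := by
  obtain ⟨i, hi⟩ := Function.ne_iff.1 hφ
  obtain ⟨j, hj⟩ := Function.ne_iff.1 hψ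
  by_cases h1 : ψ i = 0
  · by_cases h2 : φ j = 0
    · exact ⟨Pi.single i 1 + Pi.single j 1, by simpa [h2] using hi, by simpa [h1] using hj⟩
    · exact ⟨Pi.single j 1, by simpa using h2, by simpa using hj⟩
  · exact ⟨Pi.single i 1, by simpa using hi, by simpa using h1⟩

theorem J_dot {F : Type*} [Field F] {m : ℕ} (p q : Fin m ⊕ Fin m → F) :
    (Matrix.J (Fin m) F *ᵥ p) ⬝ᵥ q = -((Matrix.J (Fin m) F *ᵥ q) ⬝ᵥ p) := by
  rw [dotProduct_comm, Matrix.dotProduct_mulVec, ← Matrix.mulVec_transpose, Matrix.J_transpose,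
    Matrix.neg_mulVec, neg_dotProduct]

theorem J_dot_self {F : Type*} [Field F] {m : ℕ} (p : Fin m ⊕ Fin m → F) :
    (Matrix.J (Fin m) F *ᵥ p) ⬝ᵥ p = 0 := by
  simp [Matrix.J, Matrix.fromBlocks_mulVec, dotProduct, Matrix.neg_mulVec, mul_comm]

theorem J_ne {F : Type*} [Field F] {m : ℕ} {p : Fin m ⊕ Fin m → F} (hp : p ≠ 0) :
    Matrix.J (Fin m) F *ᵥ p ≠ 0 := fun e => hp (by
  have := congrArg (Matrix.J (Fin m) F *ᵥ ·) e
  simpa [Matrix.J_squared, Matrix.neg_mulVec] using this)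

/-- The symplectic root elements. -/
def DSp (F : Type*) [Field F] (m : ℕ) : Set (Matrix (Fin m ⊕ Fin m) (Fin m ⊕ Fin m) F) :=
  {s | ∃ p, p ≠ 0 ∧ s = Matrix.vecMulVec p (Matrix.J (Fin m) F *ᵥ p)}

theorem rootFam_Sp (F : Type*) [Field F] (m : ℕ) : RootFam F (spToMat m F) (DSp F m) where
  inj := Subtype.val_injective
  ne := by
    rintro _ ⟨p, hp, rfl⟩
    exact Matrix.vecMulVec_ne_zero hp (J_ne hp)
  sq := by
    rintro _ ⟨p, hp, rfl⟩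
    rw [vmv_mul, J_dot_self, zero_smul]
  mem := by
    rintro _ ⟨p, hp, rfl⟩ c
    exact ⟨⟨_, H47.sympTransvection_mem p c⟩, rfl⟩
  conj := by
    rintro _ ⟨p, hp, rfl⟩ g
    refine ⟨_, mulVec_ne_zero_of (spToMat m F) g hp, ?_⟩
    have := H47.conj_sympTransvection g p 1
    rw [sympTransvection, sympTransvection, one_smul, one_smul, mul_add, add_mul, mul_one, ← map_mul,
      mul_inv_cancel, map_one] at this
    exact add_left_cancel this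
  tri := by
    rintro _ ⟨p, hp, rfl⟩ _ ⟨q, hq, rfl⟩
    refine ⟨_, vmv_triple _ _ _ _, by rw [vmv_triple, mul_comm], fun hl h0 => (h0 ?_).elim⟩
    rw [J_dot p q, neg_mul, neg_eq_zero, mul_self_eq_zero] at hl
    rw [vmv_mul, vmv_mul, J_dot p q, hl]; simp

theorem reach_Sp {F : Type*} [Field F] {m : ℕ} {p q : Fin m ⊕ Fin m → F} (hp : p ≠ 0) (hq : q ≠ 0)
    (h : (Matrix.J (Fin m) F *ᵥ p) ⬝ᵥ q ≠ 0) : Reach (RS F (spToMat m F) (DSp F m))
      (RG F (spToMat m F) (Matrix.vecMulVec p (Matrix.J (Fin m) F *ᵥ p)))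
      (RG F (spToMat m F) (Matrix.vecMulVec q (Matrix.J (Fin m) F *ᵥ q))) := by
  refine (rootFam_Sp F m).reach ⟨p, hp, rfl⟩ ⟨q, hq, rfl⟩ ?_
  rw [vmv_triple, J_dot q p]
  exact smul_ne_zero (mul_ne_zero h (neg_ne_zero.2 h)) (Matrix.vecMulVec_ne_zero hp (J_ne hp))

/-- Let F be a field, m a natural number and V = F^{2(m+1)} with the standard non-degenerate alternating form f(u, v) = uᵀ J v. For a non-zero vector p let T(p) be the group of symplectic transvections v ↦ v + c f(v, p) p, c ∈ F. Then the subgroups T(p), p ≠ 0, generate the symplectic group Sp_{2(m+1)}(F) and form a degenerate class of abstract F-root subgroups of it (any two of them either commute elementwise or are the unipotent subgroups of a rank one group that is an image of SL₂(F) with central kernel, never the commutator case), and their graph of rank one pairs is connected. -/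
theorem result (F : Type*) [Field F] (m : ℕ) :
    Cfsg.IsRootSubgroupClass {A : Subgroup ↥(Matrix.symplecticGroup (Fin (m + 1)) F) | ∃ p : Fin (m + 1) ⊕ Fin (m + 1) → F, p ≠ 0 ∧
        A = Subgroup.closure {g : ↥(Matrix.symplecticGroup (Fin (m + 1)) F) | ∃ c : F, ∀ v : Fin (m + 1) ⊕ Fin (m + 1) → F,
          (g : Matrix (Fin (m + 1) ⊕ Fin (m + 1)) (Fin (m + 1) ⊕ Fin (m + 1)) F) *ᵥ v =
            v + (c * (v ⬝ᵥ (Matrix.J (Fin (m + 1)) F *ᵥ p))) • p}} ∧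
    Cfsg.IsDegenerateRootSet {A : Subgroup ↥(Matrix.symplecticGroup (Fin (m + 1)) F) | ∃ p : Fin (m + 1) ⊕ Fin (m + 1) → F, p ≠ 0 ∧
        A = Subgroup.closure {g : ↥(Matrix.symplecticGroup (Fin (m + 1)) F) | ∃ c : F, ∀ v : Fin (m + 1) ⊕ Fin (m + 1) → F,
          (g : Matrix (Fin (m + 1) ⊕ Fin (m + 1)) (Fin (m + 1) ⊕ Fin (m + 1)) F) *ᵥ v =
            v + (c * (v ⬝ᵥ (Matrix.J (Fin (m + 1)) F *ᵥ p))) • p}} ∧
    Cfsg.IsKRootSubgroupSet F {A : Subgroup ↥(Matrix.symplecticGroup (Fin (m + 1)) F) | ∃ p : Fin (m + 1) ⊕ Fin (m + 1) → F, p ≠ 0 ∧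
        A = Subgroup.closure {g : ↥(Matrix.symplecticGroup (Fin (m + 1)) F) | ∃ c : F, ∀ v : Fin (m + 1) ⊕ Fin (m + 1) → F,
          (g : Matrix (Fin (m + 1) ⊕ Fin (m + 1)) (Fin (m + 1) ⊕ Fin (m + 1)) F) *ᵥ v =
            v + (c * (v ⬝ᵥ (Matrix.J (Fin (m + 1)) F *ᵥ p))) • p}} ∧
    Cfsg.IsConnectedFamily (Cfsg.FAdj {A : Subgroup ↥(Matrix.symplecticGroup (Fin (m + 1)) F) | ∃ p : Fin (m + 1) ⊕ Fin (m + 1) → F, p ≠ 0 ∧
        A = Subgroup.closure {g : ↥(Matrix.symplecticGroup (Fin (m + 1)) F) | ∃ c : F, ∀ v : Fin (m + 1) ⊕ Fin (m + 1) → F,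
          (g : Matrix (Fin (m + 1) ⊕ Fin (m + 1)) (Fin (m + 1) ⊕ Fin (m + 1)) F) *ᵥ v =
            v + (c * (v ⬝ᵥ (Matrix.J (Fin (m + 1)) F *ᵥ p))) • p}})
      {A : Subgroup ↥(Matrix.symplecticGroup (Fin (m + 1)) F) | ∃ p : Fin (m + 1) ⊕ Fin (m + 1) → F, p ≠ 0 ∧
        A = Subgroup.closure {g : ↥(Matrix.symplecticGroup (Fin (m + 1)) F) | ∃ c : F, ∀ v : Fin (m + 1) ⊕ Fin (m + 1) → F,
          (g : Matrix (Fin (m + 1) ⊕ Fin (m + 1)) (Fin (m + 1) ⊕ Fin (m + 1)) F) *ᵥ v =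
            v + (c * (v ⬝ᵥ (Matrix.J (Fin (m + 1)) F *ᵥ p))) • p}} := by
  have e : {A : Subgroup ↥(Matrix.symplecticGroup (Fin (m + 1)) F) | ∃ p : Fin (m + 1) ⊕ Fin (m + 1) → F, p ≠ 0 ∧
        A = Subgroup.closure {g : ↥(Matrix.symplecticGroup (Fin (m + 1)) F) | ∃ c : F, ∀ v : Fin (m + 1) ⊕ Fin (m + 1) → F,
          (g : Matrix (Fin (m + 1) ⊕ Fin (m + 1)) (Fin (m + 1) ⊕ Fin (m + 1)) F) *ᵥ v =
            v + (c * (v ⬝ᵥ (Matrix.J (Fin (m + 1)) F *ᵥ p))) • p}} =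
      RS F (spToMat (m + 1) F) (DSp F (m + 1)) := by
    have key : ∀ p : Fin (m + 1) ⊕ Fin (m + 1) → F,
        Subgroup.closure {g : ↥(Matrix.symplecticGroup (Fin (m + 1)) F) | ∃ c : F, ∀ v : Fin (m + 1) ⊕ Fin (m + 1) → F,
          (g : Matrix (Fin (m + 1) ⊕ Fin (m + 1)) (Fin (m + 1) ⊕ Fin (m + 1)) F) *ᵥ v =
            v + (c * (v ⬝ᵥ (Matrix.J (Fin (m + 1)) F *ᵥ p))) • p} =
        RG F (spToMat (m + 1) F) (Matrix.vecMulVec p (Matrix.J (Fin (m + 1)) F *ᵥ p)) := fun p => by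
      unfold RG
      congr 1
      ext g
      refine exists_congr fun c => ?_
      rw [Matrix.ext_iff_mulVec]
      refine forall_congr' fun v => ?_
      rw [Matrix.add_mulVec, Matrix.one_mulVec, Matrix.smul_mulVec, Matrix.vecMulVec_mulVec,
        op_smul_eq_smul, smul_smul, dotProduct_comm]
      rfl
    ext A
    simp only [key]
    exact ⟨fun ⟨p, hp, h⟩ => ⟨_, ⟨p, hp, rfl⟩, h⟩, fun ⟨_, ⟨p, hp, rfl⟩, h⟩ => ⟨p, hp, h⟩⟩
  rw [e]
  have hK := (rootFam_Sp F (m + 1)).kRootSet (by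
    rw [eq_top_iff, ← S0765.result (F := F) (m + 1), Subgroup.closure_le]
    rintro g ⟨w, c, h⟩
    by_cases hw : w = 0
    · have : g = 1 := Subtype.ext (by simpa [hw, sympTransvection] using h)
      exact this ▸ one_mem _
    · exact le_biSup (T := RS F (spToMat (m + 1) F) (DSp F (m + 1))) ⟨_, ⟨w, hw, rfl⟩, rfl⟩
        (Subgroup.subset_closure ⟨c, h⟩))
  have hc : IsConnectedFamily (FAdj (RS F (spToMat (m + 1) F) (DSp F (m + 1))))
      (RS F (spToMat (m + 1) F) (DSp F (m + 1))) := by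
    rintro _ ⟨_, ⟨p, hp, rfl⟩, rfl⟩ _ ⟨_, ⟨q, hq, rfl⟩, rfl⟩
    obtain ⟨r, h1, h2⟩ := exists_dot_ne (J_ne hp) (J_ne hq)
    have hr : r ≠ 0 := by rintro rfl; simp at h1
    exact (reach_Sp hp hr h1).trans (Reach.symm (reach_Sp hq hr h2))
  refine ⟨class_of_connected hK.1 ⟨_, _, ⟨fun _ => 1, fun e => one_ne_zero (congrFun e (Sum.inl 0)),
    rfl⟩, rfl⟩ hc, degenerate_of_pair hK.1 ?_, hK, hc⟩
  rintro _ ⟨_, ⟨p, hp, rfl⟩, rfl⟩ _ ⟨_, ⟨q, hq, rfl⟩, rfl⟩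
  by_cases h : (Matrix.J (Fin (m + 1)) F *ᵥ p) ⬝ᵥ q = 0
  · refine Or.inl ((rootFam_Sp F (m + 1)).com ⟨p, hp, rfl⟩ ⟨q, hq, rfl⟩ ?_)
    rw [vmv_mul, vmv_mul, J_dot q p, h]; simp
  · refine Or.inr ((rootFam_Sp F (m + 1)).RO ⟨p, hp, rfl⟩ ⟨q, hq, rfl⟩ ?_)
    rw [vmv_triple, J_dot q p]
    exact smul_ne_zero (mul_ne_zero h (neg_ne_zero.2 h)) (Matrix.vecMulVec_ne_zero hp (J_ne hp))

end Cfsg.Agent.S5070
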