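import Cfsg.Statements.S5071
import Cfsg.Agent.H36.SLRoot
import Cfsg.Agent.H31.HermStd

set_option autoImplicit false
open Matrix
open Cfsg

namespace Cfsg.Agent.S5071

open Cfsg.Agent.H36 Cfsg.Agent.H31

variable {F : Type*} [Field F] [Fintype F] {q n : ℕ}

theorem exists_dot_ne {F n : Type*} [Field F] [Fintype n] [DecidableEq n] {φ ψ : n → F} (hφ : φ ≠ 0)
    (hψ : ψ ≠ 0) : ∃ r, φ ⬝ᵥ r ≠ 0 ∧ ψ ⬝ᵥ r ≠ 0 := by
  obtain ⟨i, hi⟩ := Function.ne_iff.1 hφ
  obtain ⟨j, hj⟩ := Function.ne_iff.1 hψ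
  by_cases h1 : ψ i = 0
  · by_cases h2 : φ j = 0
    · exact ⟨Pi.single i 1 + Pi.single j 1, by simpa [h2] using hi, by simpa [h1] using hj⟩
    · exact ⟨Pi.single j 1, by simpa using h2, by simpa using hj⟩
  · exact ⟨Pi.single i 1, by simpa using hi, by simpa using h1⟩

/-- the conjugate vector -/
def cv (hF : Fintype.card F = q ^ 2) (p : Fin n → F) : Fin n → F := fun i => frobQ hF (p i)

theorem cv_dot (hF : Fintype.card F = q ^ 2) (p v : Fin n → F) : cv hF p ⬝ᵥ v = hermB hF n p v := rfl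

theorem cv_ne (hF : Fintype.card F = q ^ 2) {p : Fin n → F} (hp : p ≠ 0) : cv hF p ≠ 0 := fun e =>
  hp (funext fun i => (map_eq_zero (frobQ hF)).mp (congrFun e i))

/-- the inclusion -/
def io (n : ℕ) (F : Type*) [Field F] (q : ℕ) : SU n F q →* Matrix (Fin n) (Fin n) F :=
  (SpecialLinearGroup.coeMonoidHom).comp (SU n F q).subtype

/-- the unitary root elements -/
def DU (hF : Fintype.card F = q ^ 2) (n : ℕ) (ε : F) : Set (Matrix (Fin n) (Fin n) F) :=
  {s | ∃ p, p ≠ 0 ∧ hermB hF n p p = 0 ∧ s = ε • vecMulVec p (cv hF p)}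

theorem smul_vmv_mulVec (hF : Fintype.card F = q ^ 2) (a : F) (p v : Fin n → F) :
    (1 + a • vecMulVec p (cv hF p)) *ᵥ v = v + (a * hermB hF n p v) • p := by
  rw [add_mulVec, one_mulVec, smul_mulVec, vecMulVec_mulVec, op_smul_eq_smul, smul_smul, cv_dot]

theorem io_herm (hF : Fintype.card F = q ^ 2) (g : SU n F q) (u v : Fin n → F) :
    hermB hF n (io n F q g *ᵥ u) (io n F q g *ᵥ v) = hermB hF n u v := (mem_SU_iff hF).mp g.2 u v

theorem triple (hF : Fintype.card F = q ^ 2) (ε : F) (p r : Fin n → F) :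
    ε • vecMulVec p (cv hF p) * ε • vecMulVec r (cv hF r) * ε • vecMulVec p (cv hF p) =
      (ε * ε * (hermB hF n p r * hermB hF n r p)) • (ε • vecMulVec p (cv hF p)) := by
  simp only [smul_mul_assoc, mul_smul_comm, vmv_triple, smul_smul, cv_dot]
  congr 1; ring

theorem rootFam_SU (hF : Fintype.card F = q ^ 2) {L : Type*} [Field L] [Algebra L F]
    (hL1 : ∀ c : L, frobQ hF (algebraMap L F c) = algebraMap L F c)
    (hL2 : ∀ x, frobQ hF x = x → ∃ c, algebraMap L F c = x) {ε : F} (hε : ε ≠ 0)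
    (hε' : frobQ hF ε = -ε) : RootFam L (io n F q) (DU hF n ε) where
  inj := Subtype.val_injective.comp Subtype.val_injective
  ne := by
    rintro _ ⟨p, hp, -, rfl⟩
    exact smul_ne_zero hε (vecMulVec_ne_zero hp (cv_ne hF hp))
  sq := by
    rintro _ ⟨p, -, hp, rfl⟩
    rw [smul_mul_assoc, mul_smul_comm, vmv_mul, cv_dot, hp]; simp
  mem := by
    rintro _ ⟨p, -, hp, rfl⟩ c
    have hs := (isHerm_hermB hF n).symm
    rw [← algebraMap_smul F c, smul_smul]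
    refine ⟨⟨⟨1 + (algebraMap L F c * ε) • vecMulVec p (cv hF p), ?_⟩, ?_⟩, rfl⟩
    · rw [← smul_vecMulVec, det_one_add_vmv, dotProduct_smul, cv_dot, hp]; simp
    · refine (mem_SU_iff hF).mpr fun u v => ?_
      simp only [smul_vmv_mulVec, map_add, LinearMap.add_apply, map_smul, map_smulₛₗ,
        LinearMap.smul_apply, smul_eq_mul, hp, map_mul, hL1, hε', hs, RingHom.id_apply]
      ring
  conj := by
    rintro _ ⟨p, hp0, hp, rfl⟩ g
    refine ⟨io n F q g *ᵥ p, mulVec_ne_zero_of _ g hp0, by rw [io_herm, hp], ?_⟩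
    rw [mul_smul_comm, smul_mul_assoc, mul_vecMulVec, vecMulVec_mul]
    congr 2
    rw [← sub_eq_zero, ← dotProduct_eq_zero_iff]
    intro v
    rw [sub_dotProduct, ← dotProduct_mulVec, cv_dot, cv_dot, ← io_herm hF g, mulVec_mulVec,
      ← map_mul, mul_inv_cancel, map_one, one_mulVec, sub_self]
  tri := by
    rintro _ ⟨p, -, -, rfl⟩ _ ⟨r, -, -, rfl⟩
    have hs := (isHerm_hermB hF n).symm
    obtain ⟨l, hl⟩ := hL2 (ε * ε * (hermB hF n p r * hermB hF n r p)) (by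
      simp only [map_mul, hε', hs]; ring)
    refine ⟨l, ?_, ?_, fun h0 h1 => (h1 ?_).elim⟩
    · rw [triple, ← hl, algebraMap_smul]
    · rw [triple, mul_comm (hermB hF n r p), ← hl, algebraMap_smul]
    · rw [h0, map_zero] at hl
      have h2 : hermB hF n p r = 0 := by
        rcases mul_eq_zero.mp ((mul_eq_zero.mp hl.symm).resolve_left (mul_ne_zero hε hε)) with h | h
        · exact h
        · rw [← hs, h, map_zero]
      have h3 : hermB hF n r p = 0 := by rw [← hs, h2, map_zero]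
      simp only [smul_mul_assoc, mul_smul_comm, vmv_mul, cv_dot, h2, h3]; simp

theorem triple_ne (hF : Fintype.card F = q ^ 2) {ε : F} (hε : ε ≠ 0) {p r : Fin n → F} (hp : p ≠ 0)
    (h : hermB hF n p r ≠ 0) :
    ε • vecMulVec p (cv hF p) * ε • vecMulVec r (cv hF r) * ε • vecMulVec p (cv hF p) ≠ 0 := by
  rw [triple]
  refine smul_ne_zero (mul_ne_zero (mul_ne_zero hε hε) (mul_ne_zero h ?_))
    (smul_ne_zero hε (vecMulVec_ne_zero hp (cv_ne hF hp)))
  rw [← (isHerm_hermB hF n).symm]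
  exact (map_ne_zero _).mpr h

theorem set_eq (hF : Fintype.card F = q ^ 2) {L : Type*} [Field L] [Algebra L F]
    (hL2 : ∀ x, frobQ hF x = x → ∃ c, algebraMap L F c = x) {ε : F} (hε : ε ≠ 0)
    (hε' : frobQ hF ε = -ε) {p : Fin n → F} (hp0 : p ≠ 0) (hp : hermB hF n p p = 0) :
    Subgroup.closure {g : ↥(Cfsg.SU n F q) |
      (∀ v : Fin n → F, ∃ c : F, ((g : Matrix.SpecialLinearGroup (Fin n) F) : Matrix (Fin n) (Fin n) F) *ᵥ v = v + c • p) ∧
      ∀ v : Fin n → F, Cfsg.hermForm n F q v p = 0 →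
        ((g : Matrix.SpecialLinearGroup (Fin n) F) : Matrix (Fin n) (Fin n) F) *ᵥ v = v} =
      RG L (io n F q) (ε • vecMulVec p (cv hF p)) := by
  unfold RG
  congr 1
  ext g
  have hs := (isHerm_hermB hF n).symm
  constructor
  · rintro ⟨h1, h2⟩
    obtain ⟨w0, hw0, -⟩ := exists_dot_ne (cv_ne hF hp0) (cv_ne hF hp0)
    rw [cv_dot] at hw0
    obtain ⟨w, hw⟩ : ∃ w, hermB hF n p w = 1 :=
      ⟨(hermB hF n p w0)⁻¹ • w0, by rw [map_smul, smul_eq_mul, inv_mul_cancel₀ hw0]⟩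
    obtain ⟨a, ha⟩ := h1 w
    have hw' : hermB hF n w p = 1 := by rw [← hs, hw, map_one]
    have h3 := io_herm hF g w w
    change io n F q g *ᵥ w = _ at ha
    rw [ha] at h3
    simp only [map_add, LinearMap.add_apply, map_smul, map_smulₛₗ, LinearMap.smul_apply,
      smul_eq_mul, hp, hw, hw', RingHom.id_apply] at h3
    obtain ⟨c, hc⟩ := hL2 (a / ε) (by
      rw [map_div₀, hε', show frobQ hF a = -a by linear_combination h3, neg_div_neg_eq])
    refine ⟨c, ?_⟩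
    rw [← algebraMap_smul F c, smul_smul, hc, div_mul_cancel₀ _ hε, Matrix.ext_iff_mulVec]
    intro v
    have h4 := h2 (v - hermB hF n p v • w) (by
      rw [hermForm_eq hF, map_sub, map_smul, hw, smul_eq_mul, mul_one, sub_self])
    change io n F q g *ᵥ _ = _ at h4
    rw [mulVec_sub, mulVec_smul, ha, sub_eq_iff_eq_add] at h4
    rw [smul_vmv_mulVec, h4]
    module
  · rintro ⟨c, hc⟩
    rw [← algebraMap_smul F c, smul_smul] at hc
    have : ∀ v, ((g : Matrix.SpecialLinearGroup (Fin n) F) : Matrix (Fin n) (Fin n) F) *ᵥ v =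
        v + (algebraMap L F c * ε * hermB hF n p v) • p := fun v => by
      rw [← smul_vmv_mulVec, ← hc]; rfl
    refine ⟨fun v => ⟨_, this v⟩, fun v hv => ?_⟩
    rw [hermForm_eq hF] at hv
    rw [this, hv]; simp

theorem exists_L (hF : Fintype.card F = q ^ 2) : ∃ (L : Type) (_ : Field L) (_ : Fintype L)
    (_ : Algebra L F), Fintype.card L = q ∧ (∀ c : L, frobQ hF (algebraMap L F c) = algebraMap L F c) ∧
    ∀ x, frobQ hF x = x → ∃ c, algebraMap L F c = x := by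
  classical
  let K := fixedField (frobQ hF)
  let e : Shrink.{0} K ≃+* K := (equivShrink.{0} K).symm.ringEquiv
  letI : Fintype (Shrink.{0} K) := Fintype.ofFinite _
  letI : Algebra (Shrink.{0} K) F := (K.subtype.comp e.toRingHom).toAlgebra
  refine ⟨Shrink.{0} K, inferInstance, inferInstance, inferInstance, ?_, fun c => (e c).2,
    fun x hx => ⟨e.symm ⟨x, hx⟩, ?_⟩⟩
  · rw [← Nat.card_eq_fintype_card, Nat.card_congr e.toEquiv]
    exact card_fixed hF (fun _ => rfl)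
  · change ((e (e.symm ⟨x, hx⟩) : K) : F) = x
    rw [RingEquiv.apply_symm_apply]

/-- Let F be a finite field with q² elements, n a natural number, and h the Hermitian form Σ uᵢ vᵢ^q on F^{n+2}. For a non-zero isotropic vector p let T(p) be the group of unitary transvections with centre ⟨p⟩: the elements of SU_{n+2}(q) moving every vector by a multiple of p and fixing every vector perpendicular to p. Let Σ be the set of these T(p) and G₀ the subgroup they generate. Then, viewed inside G₀, the members of Σ form a degenerate class of abstract k-root subgroups of G₀ for some field k with q elements (any two commute or are the unipotent subgroups of a rank one group that is an image of SL₂(k) with central kernel, never the commutator case), and their graph of rank one pairs is connected. -/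
theorem result (F : Type*) [Field F] [Fintype F] (q n : ℕ) (hF : Fintype.card F = q ^ 2) :
    Cfsg.IsRootSubgroupClass ((fun A : Subgroup ↥(Cfsg.SU (n + 2) F q) => A.subgroupOf (⨆ B ∈ {A : Subgroup ↥(Cfsg.SU (n + 2) F q) | ∃ p : Fin (n + 2) → F, p ≠ 0 ∧ Cfsg.hermForm (n + 2) F q p p = 0 ∧
          A = Subgroup.closure {g : ↥(Cfsg.SU (n + 2) F q) |
            (∀ v : Fin (n + 2) → F, ∃ c : F, ((g : Matrix.SpecialLinearGroup (Fin (n + 2)) F) : Matrix (Fin (n + 2)) (Fin (n + 2)) F) *ᵥ v = v + c • p) ∧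
            ∀ v : Fin (n + 2) → F, Cfsg.hermForm (n + 2) F q v p = 0 →
              ((g : Matrix.SpecialLinearGroup (Fin (n + 2)) F) : Matrix (Fin (n + 2)) (Fin (n + 2)) F) *ᵥ v = v}}, B)) ''
      {A : Subgroup ↥(Cfsg.SU (n + 2) F q) | ∃ p : Fin (n + 2) → F, p ≠ 0 ∧ Cfsg.hermForm (n + 2) F q p p = 0 ∧
          A = Subgroup.closure {g : ↥(Cfsg.SU (n + 2) F q) |
            (∀ v : Fin (n + 2) → F, ∃ c : F, ((g : Matrix.SpecialLinearGroup (Fin (n + 2)) F) : Matrix (Fin (n + 2)) (Fin (n + 2)) F) *ᵥ v = v + c • p) ∧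
            ∀ v : Fin (n + 2) → F, Cfsg.hermForm (n + 2) F q v p = 0 →
              ((g : Matrix.SpecialLinearGroup (Fin (n + 2)) F) : Matrix (Fin (n + 2)) (Fin (n + 2)) F) *ᵥ v = v}}) ∧
    Cfsg.IsDegenerateRootSet ((fun A : Subgroup ↥(Cfsg.SU (n + 2) F q) => A.subgroupOf (⨆ B ∈ {A : Subgroup ↥(Cfsg.SU (n + 2) F q) | ∃ p : Fin (n + 2) → F, p ≠ 0 ∧ Cfsg.hermForm (n + 2) F q p p = 0 ∧
          A = Subgroup.closure {g : ↥(Cfsg.SU (n + 2) F q) |
            (∀ v : Fin (n + 2) → F, ∃ c : F, ((g : Matrix.SpecialLinearGroup (Fin (n + 2)) F) : Matrix (Fin (n + 2)) (Fin (n + 2)) F) *ᵥ v = v + c • p) ∧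
            ∀ v : Fin (n + 2) → F, Cfsg.hermForm (n + 2) F q v p = 0 →
              ((g : Matrix.SpecialLinearGroup (Fin (n + 2)) F) : Matrix (Fin (n + 2)) (Fin (n + 2)) F) *ᵥ v = v}}, B)) ''
      {A : Subgroup ↥(Cfsg.SU (n + 2) F q) | ∃ p : Fin (n + 2) → F, p ≠ 0 ∧ Cfsg.hermForm (n + 2) F q p p = 0 ∧
          A = Subgroup.closure {g : ↥(Cfsg.SU (n + 2) F q) |
            (∀ v : Fin (n + 2) → F, ∃ c : F, ((g : Matrix.SpecialLinearGroup (Fin (n + 2)) F) : Matrix (Fin (n + 2)) (Fin (n + 2)) F) *ᵥ v = v + c • p) ∧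
            ∀ v : Fin (n + 2) → F, Cfsg.hermForm (n + 2) F q v p = 0 →
              ((g : Matrix.SpecialLinearGroup (Fin (n + 2)) F) : Matrix (Fin (n + 2)) (Fin (n + 2)) F) *ᵥ v = v}}) ∧
    (∃ (L : Type) (_ : Field L) (_ : Fintype L), Fintype.card L = q ∧ Cfsg.IsKRootSubgroupSet L ((fun A : Subgroup ↥(Cfsg.SU (n + 2) F q) => A.subgroupOf (⨆ B ∈ {A : Subgroup ↥(Cfsg.SU (n + 2) F q) | ∃ p : Fin (n + 2) → F, p ≠ 0 ∧ Cfsg.hermForm (n + 2) F q p p = 0 ∧
          A = Subgroup.closure {g : ↥(Cfsg.SU (n + 2) F q) |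
            (∀ v : Fin (n + 2) → F, ∃ c : F, ((g : Matrix.SpecialLinearGroup (Fin (n + 2)) F) : Matrix (Fin (n + 2)) (Fin (n + 2)) F) *ᵥ v = v + c • p) ∧
            ∀ v : Fin (n + 2) → F, Cfsg.hermForm (n + 2) F q v p = 0 →
              ((g : Matrix.SpecialLinearGroup (Fin (n + 2)) F) : Matrix (Fin (n + 2)) (Fin (n + 2)) F) *ᵥ v = v}}, B)) ''
      {A : Subgroup ↥(Cfsg.SU (n + 2) F q) | ∃ p : Fin (n + 2) → F, p ≠ 0 ∧ Cfsg.hermForm (n + 2) F q p p = 0 ∧
          A = Subgroup.closure {g : ↥(Cfsg.SU (n + 2) F q) |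
            (∀ v : Fin (n + 2) → F, ∃ c : F, ((g : Matrix.SpecialLinearGroup (Fin (n + 2)) F) : Matrix (Fin (n + 2)) (Fin (n + 2)) F) *ᵥ v = v + c • p) ∧
            ∀ v : Fin (n + 2) → F, Cfsg.hermForm (n + 2) F q v p = 0 →
              ((g : Matrix.SpecialLinearGroup (Fin (n + 2)) F) : Matrix (Fin (n + 2)) (Fin (n + 2)) F) *ᵥ v = v}})) ∧
    Cfsg.IsConnectedFamily (Cfsg.FAdj ((fun A : Subgroup ↥(Cfsg.SU (n + 2) F q) => A.subgroupOf (⨆ B ∈ {A : Subgroup ↥(Cfsg.SU (n + 2) F q) | ∃ p : Fin (n + 2) → F, p ≠ 0 ∧ Cfsg.hermForm (n + 2) F q p p = 0 ∧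
          A = Subgroup.closure {g : ↥(Cfsg.SU (n + 2) F q) |
            (∀ v : Fin (n + 2) → F, ∃ c : F, ((g : Matrix.SpecialLinearGroup (Fin (n + 2)) F) : Matrix (Fin (n + 2)) (Fin (n + 2)) F) *ᵥ v = v + c • p) ∧
            ∀ v : Fin (n + 2) → F, Cfsg.hermForm (n + 2) F q v p = 0 →
              ((g : Matrix.SpecialLinearGroup (Fin (n + 2)) F) : Matrix (Fin (n + 2)) (Fin (n + 2)) F) *ᵥ v = v}}, B)) ''
      {A : Subgroup ↥(Cfsg.SU (n + 2) F q) | ∃ p : Fin (n + 2) → F, p ≠ 0 ∧ Cfsg.hermForm (n + 2) F q p p = 0 ∧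
          A = Subgroup.closure {g : ↥(Cfsg.SU (n + 2) F q) |
            (∀ v : Fin (n + 2) → F, ∃ c : F, ((g : Matrix.SpecialLinearGroup (Fin (n + 2)) F) : Matrix (Fin (n + 2)) (Fin (n + 2)) F) *ᵥ v = v + c • p) ∧
            ∀ v : Fin (n + 2) → F, Cfsg.hermForm (n + 2) F q v p = 0 →
              ((g : Matrix.SpecialLinearGroup (Fin (n + 2)) F) : Matrix (Fin (n + 2)) (Fin (n + 2)) F) *ᵥ v = v}})) ((fun A : Subgroup ↥(Cfsg.SU (n + 2) F q) => A.subgroupOf (⨆ B ∈ {A : Subgroup ↥(Cfsg.SU (n + 2) F q) | ∃ p : Fin (n + 2) → F, p ≠ 0 ∧ Cfsg.hermForm (n + 2) F q p p = 0 ∧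
          A = Subgroup.closure {g : ↥(Cfsg.SU (n + 2) F q) |
            (∀ v : Fin (n + 2) → F, ∃ c : F, ((g : Matrix.SpecialLinearGroup (Fin (n + 2)) F) : Matrix (Fin (n + 2)) (Fin (n + 2)) F) *ᵥ v = v + c • p) ∧
            ∀ v : Fin (n + 2) → F, Cfsg.hermForm (n + 2) F q v p = 0 →
              ((g : Matrix.SpecialLinearGroup (Fin (n + 2)) F) : Matrix (Fin (n + 2)) (Fin (n + 2)) F) *ᵥ v = v}}, B)) ''
      {A : Subgroup ↥(Cfsg.SU (n + 2) F q) | ∃ p : Fin (n + 2) → F, p ≠ 0 ∧ Cfsg.hermForm (n + 2) F q p p = 0 ∧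
          A = Subgroup.closure {g : ↥(Cfsg.SU (n + 2) F q) |
            (∀ v : Fin (n + 2) → F, ∃ c : F, ((g : Matrix.SpecialLinearGroup (Fin (n + 2)) F) : Matrix (Fin (n + 2)) (Fin (n + 2)) F) *ᵥ v = v + c • p) ∧
            ∀ v : Fin (n + 2) → F, Cfsg.hermForm (n + 2) F q v p = 0 →
              ((g : Matrix.SpecialLinearGroup (Fin (n + 2)) F) : Matrix (Fin (n + 2)) (Fin (n + 2)) F) *ᵥ v = v}}) := by
  obtain ⟨L, iL, fL, aL, hcard, hL1, hL2⟩ := exists_L hF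
  obtain ⟨ε, hε, hε'⟩ := (isInvol_frobQ hF).exists_skew
  have hs := (isHerm_hermB hF (n + 2)).symm
  have e : {A : Subgroup ↥(Cfsg.SU (n + 2) F q) | ∃ p : Fin (n + 2) → F, p ≠ 0 ∧ Cfsg.hermForm (n + 2) F q p p = 0 ∧
          A = Subgroup.closure {g : ↥(Cfsg.SU (n + 2) F q) |
            (∀ v : Fin (n + 2) → F, ∃ c : F, ((g : Matrix.SpecialLinearGroup (Fin (n + 2)) F) : Matrix (Fin (n + 2)) (Fin (n + 2)) F) *ᵥ v = v + c • p) ∧
            ∀ v : Fin (n + 2) → F, Cfsg.hermForm (n + 2) F q v p = 0 →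
              ((g : Matrix.SpecialLinearGroup (Fin (n + 2)) F) : Matrix (Fin (n + 2)) (Fin (n + 2)) F) *ᵥ v = v}} =
      RS L (io (n + 2) F q) (DU hF (n + 2) ε) := by
    ext A
    constructor
    · rintro ⟨p, hp0, hp, rfl⟩
      rw [hermForm_eq hF] at hp
      exact ⟨_, ⟨p, hp0, hp, rfl⟩, set_eq hF hL2 hε hε' hp0 hp⟩
    · rintro ⟨_, ⟨p, hp0, hp, rfl⟩, rfl⟩
      exact ⟨p, hp0, by rw [hermForm_eq hF]; exact hp, (set_eq hF hL2 hε hε' hp0 hp).symm⟩
  rw [e]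
  have hR := rootFam_SU (n := n + 2) hF hL1 hL2 hε hε'
  have hK := hR.kRootSet_subgroupOf
  have hc : IsConnectedFamily (FAdj (RS L (io (n + 2) F q) (DU hF (n + 2) ε)))
      (RS L (io (n + 2) F q) (DU hF (n + 2) ε)) := by
    rintro _ ⟨_, ⟨p, hp0, hp, rfl⟩, rfl⟩ _ ⟨_, ⟨r, hr0, hr, rfl⟩, rfl⟩
    by_cases h : hermB hF (n + 2) r p = 0
    · obtain ⟨w, h1, h2⟩ := exists_dot_ne (cv_ne hF hp0) (cv_ne hF hr0)
      rw [cv_dot] at h1 h2
      have h1' : hermB hF (n + 2) w p ≠ 0 := by rw [← hs]; exact (map_ne_zero _).mpr h1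
      obtain ⟨b, hb⟩ := (isInvol_frobQ hF).exists_trace_eq (a := -hermB hF (n + 2) w w)
        (by rw [map_neg, hs])
      have k1 : hermB hF (n + 2) p (w + (b / hermB hF (n + 2) w p) • p) ≠ 0 := by
        simpa [hp] using h1
      have k2 : hermB hF (n + 2) r (w + (b / hermB hF (n + 2) w p) • p) ≠ 0 := by
        simpa [h] using h2
      have k3 : hermB hF (n + 2) (w + (b / hermB hF (n + 2) w p) • p)
          (w + (b / hermB hF (n + 2) w p) • p) = 0 := by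
        simp only [map_add, LinearMap.add_apply, map_smul, map_smulₛₗ, LinearMap.smul_apply,
          smul_eq_mul, hp, RingHom.id_apply, map_div₀, hs]
        rw [mul_zero, add_zero, div_mul_cancel₀ _ h1', div_mul_cancel₀ _ h1]
        linear_combination hb
      have k0 : w + (b / hermB hF (n + 2) w p) • p ≠ 0 := fun e0 => k1 (by rw [e0, map_zero])
      exact (hR.reach ⟨p, hp0, hp, rfl⟩ ⟨_, k0, k3, rfl⟩ (triple_ne hF hε hp0 k1)).trans
        (Reach.symm (hR.reach ⟨r, hr0, hr, rfl⟩ ⟨_, k0, k3, rfl⟩ (triple_ne hF hε hr0 k2)))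
    · exact Reach.symm (hR.reach ⟨r, hr0, hr, rfl⟩ ⟨p, hp0, hp, rfl⟩ (triple_ne hF hε hr0 h))
  have hc' := isConnected_subgroupOf (H := ⨆ B ∈ RS L (io (n + 2) F q) (DU hF (n + 2) ε), B)
    (fun A hA => le_biSup hA) hc
  refine ⟨class_of_connected hK.1 ?_ hc', degenerate_of_pair hK.1 ?_, ⟨L, iL, fL, hcard, hK⟩, hc'⟩
  · obtain ⟨b, hb⟩ := (isInvol_frobQ hF).exists_norm_eq (a := -1) (by rw [map_neg, map_one])
    refine ⟨_, _, ⟨_, ⟨Pi.single 0 1 + Pi.single 1 b, fun e0 => ?_, ?_, rfl⟩, rfl⟩, rfl⟩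
    · simpa using congrFun e0 0
    · simp only [map_add, LinearMap.add_apply, stdB_single_left]
      rw [frobQ_apply] at hb
      simp
      linear_combination hb
  · rintro _ ⟨_, ⟨_, ⟨p, hp0, hp, rfl⟩, rfl⟩, rfl⟩ _ ⟨_, ⟨_, ⟨r, hr0, hr, rfl⟩, rfl⟩, rfl⟩
    by_cases h : hermB hF (n + 2) p r = 0
    · refine Or.inl (Com.subgroupOf (hR.com ⟨p, hp0, hp, rfl⟩ ⟨r, hr0, hr, rfl⟩ ?_) _)
      have h3 : hermB hF (n + 2) r p = 0 := by rw [← hs, h, map_zero]
      simp only [smul_mul_assoc, mul_smul_comm, vmv_mul, cv_dot, h, h3]; simp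
    · exact Or.inr (special_of_PSL2Pair (PSL2Pair_subgroupOf
        (H36.le_biSup (T := RS L (io (n + 2) F q) (DU hF (n + 2) ε)) ⟨_, ⟨p, hp0, hp, rfl⟩, rfl⟩)
        (H36.le_biSup (T := RS L (io (n + 2) F q) (DU hF (n + 2) ε)) ⟨_, ⟨r, hr0, hr, rfl⟩, rfl⟩)
        (hR.PSL2 ⟨p, hp0, hp, rfl⟩ ⟨r, hr0, hr, rfl⟩ (triple_ne hF hε hp0 h)))).1

end Cfsg.Agent.S5071
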