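import Cfsg.Statements.S5072
import Cfsg.Agent.H36.SLRoot

set_option autoImplicit false
open Matrix
open Cfsg

namespace Cfsg.Agent.S5072

open Cfsg.Agent.H36

variable {F : Type*} [Field F] {m : ℕ}

/-- polar form -/
def BB (u v : Fin m ⊕ Fin m → F) : F := (u ∘ Sum.swap) ⬝ᵥ v

theorem BB_comm (u v : Fin m ⊕ Fin m → F) : BB u v = BB v u := by
  simp [BB, dotProduct, Fintype.sum_sum_type, add_comm, mul_comm]

theorem Q_add (u v : Fin m ⊕ Fin m → F) :
    quadFormPlus m F (u + v) = quadFormPlus m F u + quadFormPlus m F v + BB u v := by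
  simp only [quadFormPlus, BB, dotProduct, Fintype.sum_sum_type, ← Finset.sum_add_distrib]
  exact Finset.sum_congr rfl fun i _ => by simp; ring

theorem Q_smul (c : F) (u : Fin m ⊕ Fin m → F) :
    quadFormPlus m F (c • u) = c * c * quadFormPlus m F u := by
  simp only [quadFormPlus, Finset.mul_sum]
  exact Finset.sum_congr rfl fun i _ => by simp; ring

theorem BB_self (u : Fin m ⊕ Fin m → F) : BB u u = 2 * quadFormPlus m F u := by
  simp [BB, quadFormPlus, dotProduct, Fintype.sum_sum_type, mul_comm, two_mul]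

theorem BB_add (u v w : Fin m ⊕ Fin m → F) : BB u (v + w) = BB u v + BB u w := dotProduct_add _ _ _
theorem BB_sub (u v w : Fin m ⊕ Fin m → F) : BB u (v - w) = BB u v - BB u w := dotProduct_sub _ _ _
theorem BB_smul (c : F) (u v : Fin m ⊕ Fin m → F) : BB u (c • v) = c * BB u v :=
  dotProduct_smul _ _ _
theorem add_BB (u v w : Fin m ⊕ Fin m → F) : BB (v + w) u = BB v u + BB w u := by
  rw [BB_comm, BB_add, BB_comm u, BB_comm u]
theorem sub_BB (u v w : Fin m ⊕ Fin m → F) : BB (v - w) u = BB v u - BB w u := by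
  rw [BB_comm, BB_sub, BB_comm u, BB_comm u]
theorem smul_BB (c : F) (u v : Fin m ⊕ Fin m → F) : BB (c • v) u = c * BB v u := by
  rw [BB_comm, BB_smul, BB_comm u]

theorem Q_sub (u v : Fin m ⊕ Fin m → F) :
    quadFormPlus m F (u - v) = quadFormPlus m F u + quadFormPlus m F v - BB u v := by
  rw [sub_eq_add_neg, ← neg_one_smul F v, Q_add, Q_smul, BB_smul]; ring

theorem BB_nondeg {u : Fin m ⊕ Fin m → F} (h : ∀ v, BB u v = 0) : u = 0 := by
  have := dotProduct_eq_zero_iff.mp h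
  ext i
  simpa using congrFun this i.swap

/-- the Siegel element -/
def sg (p r : Fin m ⊕ Fin m → F) : Matrix (Fin m ⊕ Fin m) (Fin m ⊕ Fin m) F :=
  vecMulVec r (p ∘ Sum.swap) - vecMulVec p (r ∘ Sum.swap)

theorem sg_mulVec (p r v : Fin m ⊕ Fin m → F) : sg p r *ᵥ v = BB p v • r - BB r v • p := by
  rw [sg, sub_mulVec, vecMulVec_mulVec, vecMulVec_mulVec, op_smul_eq_smul, op_smul_eq_smul]; rfl

theorem sg_swap (p r : Fin m ⊕ Fin m → F) : sg r p = -sg p r := by simp [sg]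

theorem sg_add (p r z : Fin m ⊕ Fin m → F) : sg p (r + z) = sg p r + sg p z := by
  rw [Matrix.ext_iff_mulVec]
  intro v
  simp only [add_mulVec, sg_mulVec, add_BB]; module

theorem exists_BB_ne {u : Fin m ⊕ Fin m → F} (h : u ≠ 0) : ∃ v, BB u v ≠ 0 := by
  by_contra hn
  push Not at hn
  exact h (BB_nondeg hn)

theorem li_iff {p r : Fin m ⊕ Fin m → F} : LinearIndependent F ![p, r] ↔ sg p r ≠ 0 := by
  rw [LinearIndependent.pair_iff]
  constructor
  · intro h e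
    have hp : p ≠ 0 := fun e0 => one_ne_zero (h 1 0 (by simp [e0])).1
    obtain ⟨v, hv⟩ := exists_BB_ne hp
    have := sg_mulVec p r v
    rw [e, zero_mulVec] at this
    exact hv (h (-BB r v) (BB p v) (by rw [this]; module)).2
  · intro h a b e
    by_contra hn
    apply h
    rw [Matrix.ext_iff_mulVec]
    intro v
    have e2 : a * BB p v + b * BB r v = 0 := by
      rw [← smul_BB, ← smul_BB, ← add_BB, e]; simp [BB]
    rw [sg_mulVec, zero_mulVec]
    by_cases ha : a = 0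
    · have hb : b ≠ 0 := fun hb => hn ⟨ha, hb⟩
      have : r = 0 := by simpa [ha, hb] using e
      simp [this, BB]
    · apply smul_right_injective _ ha
      have e3 : a • p = -(b • r) := eq_neg_of_add_eq_zero_left e
      calc a • (BB p v • r - BB r v • p) = (a * BB p v) • r - BB r v • (a • p) := by module
        _ = (a * BB p v + b * BB r v) • r := by rw [e3]; module
        _ = a • 0 := by rw [e2]; simp

theorem exists_dual {p r : Fin m ⊕ Fin m → F} (h : sg p r ≠ 0) :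
    ∃ x y, BB p x = 1 ∧ BB r x = 0 ∧ BB p y = 0 ∧ BB r y = 1 := by
  obtain ⟨v, hv⟩ : ∃ v, sg p r *ᵥ v ≠ 0 := by
    by_contra hn
    push Not at hn
    exact h (Matrix.ext_iff_mulVec.mpr fun v => by rw [hn, zero_mulVec])
  obtain ⟨u, hu⟩ := exists_BB_ne hv
  rw [sg_mulVec, sub_BB, smul_BB, smul_BB] at hu
  refine ⟨(BB p v * BB r u - BB r v * BB p u)⁻¹ • (BB r u • v - BB r v • u),
    (BB p v * BB r u - BB r v * BB p u)⁻¹ • (BB p v • u - BB p u • v), ?_, ?_, ?_, ?_⟩ <;>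
  · simp only [BB_smul, BB_sub]
    field_simp
    try ring

/-- the inclusion -/
def io (m : ℕ) (F : Type*) [Field F] :
    isometryGroup F (quadFormPlus m F) →* Matrix (Fin m ⊕ Fin m) (Fin m ⊕ Fin m) F :=
  (Units.coeHom _).comp (isometryGroup F (quadFormPlus m F)).subtype

theorem io_Q (g : isometryGroup F (quadFormPlus m F)) (v : Fin m ⊕ Fin m → F) :
    quadFormPlus m F (io m F g *ᵥ v) = quadFormPlus m F v := g.2 v v

theorem io_BB (g : isometryGroup F (quadFormPlus m F)) (u v : Fin m ⊕ Fin m → F) :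
    BB (io m F g *ᵥ u) (io m F g *ᵥ v) = BB u v := by
  have := io_Q g (u + v)
  rw [mulVec_add, Q_add, Q_add, io_Q, io_Q] at this
  exact add_left_cancel this

/-- totally singular pairs -/
structure TS (p r : Fin m ⊕ Fin m → F) : Prop where
  q1 : quadFormPlus m F p = 0
  q2 : quadFormPlus m F r = 0
  b : BB p r = 0

theorem TS.symm {p r : Fin m ⊕ Fin m → F} (h : TS p r) : TS r p := ⟨h.q2, h.q1, BB_comm p r ▸ h.b⟩
theorem TS.pp {p r : Fin m ⊕ Fin m → F} (h : TS p r) : BB p p = 0 := by rw [BB_self, h.q1, mul_zero]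
theorem TS.comb {p r : Fin m ⊕ Fin m → F} (h : TS p r) (a b : F) :
    quadFormPlus m F (a • r - b • p) = 0 := by
  rw [Q_sub, Q_smul, Q_smul, smul_BB, BB_smul, h.q1, h.q2, h.symm.b]; ring

/-- the Siegel elements -/
def DS (m : ℕ) (F : Type*) [Field F] : Set (Matrix (Fin m ⊕ Fin m) (Fin m ⊕ Fin m) F) :=
  {s | ∃ p r, sg p r ≠ 0 ∧ TS p r ∧ s = sg p r}

theorem sg_sq {p r : Fin m ⊕ Fin m → F} (h : TS p r) : sg p r * sg p r = 0 := by
  rw [Matrix.ext_iff_mulVec]
  intro v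
  simp only [← mulVec_mulVec, sg_mulVec, BB_sub, BB_smul, h.pp, h.symm.pp, h.b, h.symm.b,
    zero_mulVec]
  simp

theorem sg_triple (p r x y : Fin m ⊕ Fin m → F) :
    sg p r * sg x y * sg p r = (BB p y * BB r x - BB p x * BB r y) • sg p r := by
  rw [Matrix.ext_iff_mulVec]
  intro v
  simp only [← mulVec_mulVec, sg_mulVec, BB_sub, BB_smul, smul_mulVec, BB_comm x p, BB_comm x r,
    BB_comm y p, BB_comm y r]
  module

theorem rank_one {a b c d : F} (h : b * c - a * d = 0) :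
    ∃ u1 u2 w1 w2 : F, a = u1 * w1 ∧ b = u1 * w2 ∧ c = u2 * w1 ∧ d = u2 * w2 := by
  by_cases ha : a = 0
  · by_cases hb : b = 0
    · exact ⟨0, 1, c, d, by simp [ha], by simp [hb], by simp, by simp⟩
    · have hc : c = 0 := by simpa [ha, hb] using h
      exact ⟨b, d, 0, 1, by simp [ha], by simp, by simp [hc], by simp⟩
  · refine ⟨a, c, 1, b / a, by simp, by field_simp, by simp, ?_⟩
    field_simp
    linear_combination -h

theorem Q_sg {p r : Fin m ⊕ Fin m → F} (h : TS p r) (c : F) (v : Fin m ⊕ Fin m → F) :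
    quadFormPlus m F ((1 + c • sg p r) *ᵥ v) = quadFormPlus m F v := by
  rw [add_mulVec, one_mulVec, smul_mulVec, sg_mulVec, Q_add, Q_smul, h.comb, BB_smul, BB_sub,
    BB_smul, BB_smul, BB_comm v r, BB_comm v p]
  ring

theorem exists_io {p r : Fin m ⊕ Fin m → F} (h : TS p r) (c : F) :
    ∃ g, io m F g = 1 + c • sg p r := by
  have h1 : (1 + c • sg p r) * (1 - c • sg p r) = 1 := by simp [mul_sub, add_mul, sg_sq h]
  have h2 : (1 - c • sg p r) * (1 + c • sg p r) = 1 := by simp [sub_mul, mul_add, sg_sq h]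
  exact ⟨⟨⟨1 + c • sg p r, 1 - c • sg p r, h1, h2⟩, fun v _ => Q_sg h c v⟩, rfl⟩

theorem rootFam_DS : RootFam F (io m F) (DS m F) where
  inj := Units.val_injective.comp Subtype.val_injective
  ne := by rintro _ ⟨p, r, h, -, rfl⟩; exact h
  sq := by rintro _ ⟨p, r, -, h, rfl⟩; exact sg_sq h
  mem := by
    rintro _ ⟨p, r, -, h, rfl⟩ c
    exact exists_io h c
  conj := by
    rintro _ ⟨p, r, h0, h, rfl⟩ g
    have e : io m F g * sg p r * io m F g⁻¹ = sg (io m F g *ᵥ p) (io m F g *ᵥ r) := by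
      rw [Matrix.ext_iff_mulVec]
      intro v
      have : ∀ u, BB (io m F g *ᵥ u) v = BB u (io m F g⁻¹ *ᵥ v) := fun u => by
        rw [← io_BB g u, mulVec_mulVec, ← map_mul, mul_inv_cancel, map_one, one_mulVec]
      simp only [← mulVec_mulVec, sg_mulVec, this, mulVec_sub, mulVec_smul]
    refine ⟨_, _, fun e0 => h0 ?_, ⟨by rw [io_Q, h.q1], by rw [io_Q, h.q2], by rw [io_BB, h.b]⟩, e⟩
    have : sg p r = io m F g⁻¹ * (io m F g * sg p r * io m F g⁻¹) * io m F g := by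
      simp only [← mul_assoc]
      rw [← map_mul, inv_mul_cancel, map_one, one_mul, mul_assoc, ← map_mul, inv_mul_cancel,
        map_one, mul_one]
    rw [this, e, e0]; simp
  tri := by
    rintro _ ⟨p, r, -, h, rfl⟩ _ ⟨x, y, -, h', rfl⟩
    refine ⟨_, sg_triple p r x y, ?_, fun hl h0 => ?_⟩
    · rw [sg_triple, BB_comm x r, BB_comm y p, BB_comm x p, BB_comm y r, mul_comm (BB r x)]
    · obtain ⟨u1, u2, w1, w2, e1, e2, e3, e4⟩ := rank_one hl
      have e : sg p r * sg x y - sg x y * sg p r = sg (w2 • x - w1 • y) (u1 • r - u2 • p) := by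
        rw [Matrix.ext_iff_mulVec]
        intro v
        simp only [sub_mulVec, ← mulVec_mulVec, sg_mulVec, BB_sub, BB_smul, sub_BB, smul_BB,
          BB_comm x p, BB_comm x r, BB_comm y p, BB_comm y r, e1, e2, e3, e4]
        module
      refine ⟨_, _, e ▸ h0, ⟨h'.symm.comb _ _, h.comb _ _, ?_⟩, e⟩
      simp only [BB_sub, BB_smul, sub_BB, smul_BB,
          BB_comm x p, BB_comm x r, BB_comm y p, BB_comm y r, e1, e2, e3, e4]
      ring

theorem DS_opp : ∀ s ∈ DS m F, ∃ t ∈ DS m F, s * t * s ≠ 0 := by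
  rintro _ ⟨p, r, h0, h, rfl⟩
  obtain ⟨x, y, h1, h2, h3, h4⟩ := exists_dual h0
  obtain ⟨x', hx⟩ : ∃ x', x' = x - quadFormPlus m F x • p := ⟨_, rfl⟩
  have k1 : BB p x' = 1 := by rw [hx, BB_sub, BB_smul, h.pp, h1]; ring
  have k2 : BB r x' = 0 := by rw [hx, BB_sub, BB_smul, h.symm.b, h2]; ring
  have k0 : quadFormPlus m F x' = 0 := by
    rw [hx, Q_sub, Q_smul, BB_smul, h.q1, BB_comm x p, h1]; ring
  obtain ⟨y', hy⟩ : ∃ y', y' = y - (quadFormPlus m F y • r - (-BB x' y) • p) := ⟨_, rfl⟩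
  have k3 : BB p y' = 0 := by simp only [hy, BB_sub, BB_smul, h.pp, h.b, h3]; ring
  have k4 : BB r y' = 1 := by simp only [hy, BB_sub, BB_smul, h.symm.pp, h.symm.b, h4]; ring
  have k5 : quadFormPlus m F y' = 0 := by
    rw [hy, Q_sub, h.comb, BB_sub, BB_smul, BB_smul, BB_comm y r, BB_comm y p, h3, h4]; ring
  have k6 : BB x' y' = 0 := by
    rw [hy, BB_sub, BB_sub, BB_smul, BB_smul, BB_comm x' r, BB_comm x' p, k1, k2]; ring
  have e : sg p r * sg x' y' * sg p r ≠ 0 := by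
    rw [sg_triple, k1, k2, k3, k4]
    simpa using h0
  exact ⟨_, ⟨x', y', fun e0 => e (by rw [e0]; simp), ⟨k0, k5, k6⟩, rfl⟩, e⟩

theorem set_eq {p r : Fin m ⊕ Fin m → F} (h0 : sg p r ≠ 0) (h : TS p r) :
    Subgroup.closure {σ : ↥(Cfsg.isometryGroup F (Cfsg.quadFormPlus m F)) | ∀ v : Fin m ⊕ Fin m → F,
      Cfsg.quadFormPlus m F (v + p) - Cfsg.quadFormPlus m F v - Cfsg.quadFormPlus m F p = 0 →
      Cfsg.quadFormPlus m F (v + r) - Cfsg.quadFormPlus m F v - Cfsg.quadFormPlus m F r = 0 →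
        ((σ : Matrix.GeneralLinearGroup (Fin m ⊕ Fin m) F) : Matrix (Fin m ⊕ Fin m) (Fin m ⊕ Fin m) F) *ᵥ v = v} =
      RG F (io m F) (sg p r) := by
  unfold RG
  congr 1
  ext g
  have hB : ∀ v u : Fin m ⊕ Fin m → F,
      quadFormPlus m F (v + u) - quadFormPlus m F v - quadFormPlus m F u = BB u v := fun v u => by
    rw [Q_add, BB_comm]; ring
  simp only [hB]
  change (∀ v, BB p v = 0 → BB r v = 0 → io m F g *ᵥ v = v) ↔ _
  constructor
  · intro hg
    obtain ⟨x, y, h1, h2, h3, h4⟩ := exists_dual h0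
    have hw : ∀ v, io m F g *ᵥ (v - BB p v • x - BB r v • y) = v - BB p v • x - BB r v • y :=
      fun v => hg _ (by simp only [BB_sub, BB_smul, h1, h3]; ring)
        (by simp only [BB_sub, BB_smul, h2, h4]; ring)
    have hd : ∀ u, io m F g *ᵥ u =
        u + (BB (io m F g *ᵥ u - u) y • r - (-BB (io m F g *ᵥ u - u) x) • p) := by
      intro u
      rw [← sub_eq_zero]
      apply BB_nondeg
      intro v
      have e1 := io_BB g u (v - BB p v • x - BB r v • y)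
      rw [hw] at e1
      simp only [BB_sub, BB_smul, sub_BB, add_BB, smul_BB] at e1 ⊢
      linear_combination e1
    obtain ⟨α, β, ex⟩ : ∃ α β : F, io m F g *ᵥ x = x + (β • r - α • p) := ⟨_, _, hd x⟩
    obtain ⟨γ, δ, ey⟩ : ∃ γ δ : F, io m F g *ᵥ y = y + (δ • r - γ • p) := ⟨_, _, hd y⟩
    have hα : α = 0 := by
      have := io_Q g x
      rw [ex, Q_add, h.comb, BB_sub, BB_smul, BB_smul, BB_comm x r, BB_comm x p, h1, h2] at this
      linear_combination -this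
    have hδ : δ = 0 := by
      have := io_Q g y
      rw [ey, Q_add, h.comb, BB_sub, BB_smul, BB_smul, BB_comm y r, BB_comm y p, h3, h4] at this
      linear_combination this
    have hγ : γ = β := by
      have := io_BB g x y
      rw [ex, ey] at this
      simp only [BB_sub, BB_smul, sub_BB, add_BB, smul_BB, BB_add, h.pp, h.symm.pp, h.b, h.symm.b,
        BB_comm x r, BB_comm x p, h1, h2, h3, h4, hα, hδ] at this
      linear_combination -this
    refine ⟨β, ?_⟩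
    rw [Matrix.ext_iff_mulVec]
    intro v
    have := hw v
    rw [mulVec_sub, mulVec_sub, mulVec_smul, mulVec_smul, ex, ey, sub_eq_iff_eq_add,
      sub_eq_iff_eq_add] at this
    rw [this, add_mulVec, one_mulVec, smul_mulVec, sg_mulVec, hα, hδ, hγ]
    module
  · rintro ⟨c, hc⟩ v h1 h2
    rw [hc, add_mulVec, one_mulVec, smul_mulVec, sg_mulVec, h1, h2]; simp

theorem R1 {p r z : Fin m ⊕ Fin m → F} (h1 : TS p r) (h2 : TS p z) (h3 : TS r z) (n1 : sg p r ≠ 0)
    (n2 : sg p z ≠ 0) : Reach (RS F (io m F) (DS m F)) (RG F (io m F) (sg p r))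
      (RG F (io m F) (sg p z)) := by
  by_cases h : sg p (r + z) = 0
  · rw [sg_add] at h
    rw [eq_neg_of_add_eq_zero_left h, RG_neg]
  · refine rootFam_DS.reach_of_add DS_opp ⟨p, r, n1, h1, rfl⟩ ⟨p, z, n2, h2, rfl⟩
      ⟨p, r + z, h, ⟨h1.q1, ?_, ?_⟩, (sg_add p r z).symm⟩
    · rw [Q_add, h1.q2, h2.q2, h3.b]; simp
    · rw [BB_add, h1.b, h2.b, add_zero]

theorem R2 {p r z : Fin m ⊕ Fin m → F} (h1 : TS p r) (h2 : TS p z) (h3 : TS r z) (n1 : sg p r ≠ 0)
    (hz : z ≠ 0) : ∃ u, (u = p ∨ u = r) ∧ sg z u ≠ 0 ∧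
      Reach (RS F (io m F) (DS m F)) (RG F (io m F) (sg p r)) (RG F (io m F) (sg z u)) := by
  by_cases n2 : sg p z = 0
  · have n3 : sg r z ≠ 0 := by
      intro n3
      obtain ⟨x, y, k1, k2, k3, k4⟩ := exists_dual n1
      have e1 := sg_mulVec p z x
      have e2 := sg_mulVec r z y
      rw [n2, zero_mulVec, k1, one_smul, eq_comm, sub_eq_zero] at e1
      rw [n3, zero_mulVec, k4, one_smul, eq_comm, sub_eq_zero] at e2
      have e3 : BB z x = 0 := by rw [e2, smul_BB, k2, mul_zero]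
      rw [e3, zero_smul] at e1
      exact hz e1
    refine ⟨r, Or.inr rfl, by rw [sg_swap]; exact neg_ne_zero.mpr n3, ?_⟩
    rw [sg_swap r p, sg_swap r z, RG_neg, RG_neg]
    exact R1 h1.symm h3 h2 (by rw [sg_swap]; exact neg_ne_zero.mpr n1) n3
  · refine ⟨p, Or.inl rfl, by rw [sg_swap]; exact neg_ne_zero.mpr n2, ?_⟩
    rw [sg_swap p z, RG_neg]
    exact R1 h1 h2 h3 n1 n2

theorem TS_W (a b : Fin m → F) : TS (Sum.elim a (0 : Fin m → F)) (Sum.elim b 0) :=
  ⟨by simp [quadFormPlus], by simp [quadFormPlus], by simp [BB, dotProduct, Fintype.sum_sum_type]⟩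

theorem BB_W (p : Fin m ⊕ Fin m → F) (a : Fin m → F) :
    BB p (Sum.elim a (0 : Fin m → F)) = (p ∘ Sum.inr) ⬝ᵥ a := by
  simp [BB, dotProduct, Fintype.sum_sum_type]

theorem R3 (hm : 2 < Fintype.card (Fin m)) {p r : Fin m ⊕ Fin m → F} (h1 : TS p r) (n1 : sg p r ≠ 0) :
    ∃ a b : Fin m → F, sg (Sum.elim a (0 : Fin m → F)) (Sum.elim b 0) ≠ 0 ∧
      Reach (RS F (io m F) (DS m F)) (RG F (io m F) (sg p r))
        (RG F (io m F) (sg (Sum.elim a (0 : Fin m → F)) (Sum.elim b 0))) := by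
  obtain ⟨a, ha, a1, a2⟩ := exists_dot_eq_zero hm (p ∘ Sum.inr) (r ∘ Sum.inr)
  obtain ⟨j, hj⟩ := Function.ne_iff.mp ha
  have t1 : TS p (Sum.elim a (0 : Fin m → F)) := ⟨h1.q1, (TS_W a a).q1, by rw [BB_W, a1]⟩
  have t2 : TS r (Sum.elim a (0 : Fin m → F)) := ⟨h1.q2, (TS_W a a).q1, by rw [BB_W, a2]⟩
  obtain ⟨u, hu, n2, hr⟩ := R2 h1 t1 t2 n1 (fun e => hj (congrFun e (Sum.inl j)))
  have t3 : TS u (Sum.elim a (0 : Fin m → F)) := by rcases hu with rfl | rfl <;> assumption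
  obtain ⟨b, hb, b1, b2⟩ := exists_dot_eq_zero hm (u ∘ Sum.inr) (Pi.single j 1)
  have n3 : sg (Sum.elim a (0 : Fin m → F)) (Sum.elim b 0) ≠ 0 := by
    rw [← li_iff, LinearIndependent.pair_iff]
    intro s t e
    have hbj : b j = 0 := by simpa using b2
    have hs : s = 0 := by simpa [hbj, show a j ≠ 0 from hj] using congrFun e (Sum.inl j)
    obtain ⟨i, hi⟩ := Function.ne_iff.mp hb
    exact ⟨hs, by simpa [hs, show b i ≠ 0 from hi] using congrFun e (Sum.inl i)⟩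
  exact ⟨a, b, n3, hr.trans (R1 t3.symm (TS_W a b) ⟨t3.q1, (TS_W b b).q1, by rw [BB_W, b1]⟩ n2 n3)⟩

theorem DS_connected (hm : 2 < Fintype.card (Fin m)) :
    IsConnectedFamily (FAdj (RS F (io m F) (DS m F))) (RS F (io m F) (DS m F)) := by
  rintro _ ⟨_, ⟨p, r, n1, h1, rfl⟩, rfl⟩ _ ⟨_, ⟨x, y, n2, h2, rfl⟩, rfl⟩
  obtain ⟨a, b, n3, r1⟩ := R3 hm h1 n1
  obtain ⟨c, d, n4, r2⟩ := R3 hm h2 n2
  obtain ⟨u, hu, n5, r3⟩ := R2 (TS_W a b) (TS_W a c) (TS_W b c) n3
    (fun e => n4 (by rw [e]; simp [sg]))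
  refine r1.trans (r3.trans (Reach.symm (r2.trans ?_)))
  rcases hu with rfl | rfl
  · exact R1 (TS_W _ _) (TS_W _ _) (TS_W _ _) n4 n5
  · exact R1 (TS_W _ _) (TS_W _ _) (TS_W _ _) n4 n5

/-- Let F be a field, m a natural number and V = F^{2(m+3)} with the hyperbolic quadratic form q(x, y) = Σ xᵢ yᵢ (non-degenerate, Witt index m + 3 ≥ 3). For a singular line ℓ (a 2-dimensional subspace on which q vanishes) let T(ℓ) be the group of isometries of q fixing every vector of ℓ^⊥ (the Siegel transvection group of ℓ), let Σ be the set of these groups and G₀ the subgroup they generate. Then, viewed inside G₀, the members of Σ form a set of abstract F-root subgroups of G₀ (any two commute, or are the unipotent subgroups of a rank one group that is an image of SL₂(F) with central kernel, or satisfy the commutator case), and their graph of rank one pairs is connected. -/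
theorem result (F : Type*) [Field F] (m : ℕ) :
    Cfsg.IsKRootSubgroupSet F ((fun A : Subgroup ↥(Cfsg.isometryGroup F (Cfsg.quadFormPlus (m + 3) F)) => A.subgroupOf (⨆ B ∈ {A : Subgroup ↥(Cfsg.isometryGroup F (Cfsg.quadFormPlus (m + 3) F)) | ∃ p r : Fin (m + 3) ⊕ Fin (m + 3) → F, LinearIndependent F ![p, r] ∧
          Cfsg.quadFormPlus (m + 3) F p = 0 ∧ Cfsg.quadFormPlus (m + 3) F r = 0 ∧
          Cfsg.quadFormPlus (m + 3) F (p + r) = 0 ∧
          A = Subgroup.closure {σ : ↥(Cfsg.isometryGroup F (Cfsg.quadFormPlus (m + 3) F)) | ∀ v : Fin (m + 3) ⊕ Fin (m + 3) → F,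
            Cfsg.quadFormPlus (m + 3) F (v + p) - Cfsg.quadFormPlus (m + 3) F v - Cfsg.quadFormPlus (m + 3) F p = 0 →
            Cfsg.quadFormPlus (m + 3) F (v + r) - Cfsg.quadFormPlus (m + 3) F v - Cfsg.quadFormPlus (m + 3) F r = 0 →
              ((σ : Matrix.GeneralLinearGroup (Fin (m + 3) ⊕ Fin (m + 3)) F) : Matrix (Fin (m + 3) ⊕ Fin (m + 3)) (Fin (m + 3) ⊕ Fin (m + 3)) F) *ᵥ v = v}}, B)) ''
      {A : Subgroup ↥(Cfsg.isometryGroup F (Cfsg.quadFormPlus (m + 3) F)) | ∃ p r : Fin (m + 3) ⊕ Fin (m + 3) → F, LinearIndependent F ![p, r] ∧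
          Cfsg.quadFormPlus (m + 3) F p = 0 ∧ Cfsg.quadFormPlus (m + 3) F r = 0 ∧
          Cfsg.quadFormPlus (m + 3) F (p + r) = 0 ∧
          A = Subgroup.closure {σ : ↥(Cfsg.isometryGroup F (Cfsg.quadFormPlus (m + 3) F)) | ∀ v : Fin (m + 3) ⊕ Fin (m + 3) → F,
            Cfsg.quadFormPlus (m + 3) F (v + p) - Cfsg.quadFormPlus (m + 3) F v - Cfsg.quadFormPlus (m + 3) F p = 0 →
            Cfsg.quadFormPlus (m + 3) F (v + r) - Cfsg.quadFormPlus (m + 3) F v - Cfsg.quadFormPlus (m + 3) F r = 0 →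
              ((σ : Matrix.GeneralLinearGroup (Fin (m + 3) ⊕ Fin (m + 3)) F) : Matrix (Fin (m + 3) ⊕ Fin (m + 3)) (Fin (m + 3) ⊕ Fin (m + 3)) F) *ᵥ v = v}}) ∧
    Cfsg.IsConnectedFamily (Cfsg.FAdj {A : Subgroup ↥(Cfsg.isometryGroup F (Cfsg.quadFormPlus (m + 3) F)) | ∃ p r : Fin (m + 3) ⊕ Fin (m + 3) → F, LinearIndependent F ![p, r] ∧
          Cfsg.quadFormPlus (m + 3) F p = 0 ∧ Cfsg.quadFormPlus (m + 3) F r = 0 ∧
          Cfsg.quadFormPlus (m + 3) F (p + r) = 0 ∧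
          A = Subgroup.closure {σ : ↥(Cfsg.isometryGroup F (Cfsg.quadFormPlus (m + 3) F)) | ∀ v : Fin (m + 3) ⊕ Fin (m + 3) → F,
            Cfsg.quadFormPlus (m + 3) F (v + p) - Cfsg.quadFormPlus (m + 3) F v - Cfsg.quadFormPlus (m + 3) F p = 0 →
            Cfsg.quadFormPlus (m + 3) F (v + r) - Cfsg.quadFormPlus (m + 3) F v - Cfsg.quadFormPlus (m + 3) F r = 0 →
              ((σ : Matrix.GeneralLinearGroup (Fin (m + 3) ⊕ Fin (m + 3)) F) : Matrix (Fin (m + 3) ⊕ Fin (m + 3)) (Fin (m + 3) ⊕ Fin (m + 3)) F) *ᵥ v = v}})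
      {A : Subgroup ↥(Cfsg.isometryGroup F (Cfsg.quadFormPlus (m + 3) F)) | ∃ p r : Fin (m + 3) ⊕ Fin (m + 3) → F, LinearIndependent F ![p, r] ∧
          Cfsg.quadFormPlus (m + 3) F p = 0 ∧ Cfsg.quadFormPlus (m + 3) F r = 0 ∧
          Cfsg.quadFormPlus (m + 3) F (p + r) = 0 ∧
          A = Subgroup.closure {σ : ↥(Cfsg.isometryGroup F (Cfsg.quadFormPlus (m + 3) F)) | ∀ v : Fin (m + 3) ⊕ Fin (m + 3) → F,
            Cfsg.quadFormPlus (m + 3) F (v + p) - Cfsg.quadFormPlus (m + 3) F v - Cfsg.quadFormPlus (m + 3) F p = 0 →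
            Cfsg.quadFormPlus (m + 3) F (v + r) - Cfsg.quadFormPlus (m + 3) F v - Cfsg.quadFormPlus (m + 3) F r = 0 →
              ((σ : Matrix.GeneralLinearGroup (Fin (m + 3) ⊕ Fin (m + 3)) F) : Matrix (Fin (m + 3) ⊕ Fin (m + 3)) (Fin (m + 3) ⊕ Fin (m + 3)) F) *ᵥ v = v}} := by
  have e : {A : Subgroup ↥(Cfsg.isometryGroup F (Cfsg.quadFormPlus (m + 3) F)) | ∃ p r : Fin (m + 3) ⊕ Fin (m + 3) → F, LinearIndependent F ![p, r] ∧
          Cfsg.quadFormPlus (m + 3) F p = 0 ∧ Cfsg.quadFormPlus (m + 3) F r = 0 ∧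
          Cfsg.quadFormPlus (m + 3) F (p + r) = 0 ∧
          A = Subgroup.closure {σ : ↥(Cfsg.isometryGroup F (Cfsg.quadFormPlus (m + 3) F)) | ∀ v : Fin (m + 3) ⊕ Fin (m + 3) → F,
            Cfsg.quadFormPlus (m + 3) F (v + p) - Cfsg.quadFormPlus (m + 3) F v - Cfsg.quadFormPlus (m + 3) F p = 0 →
            Cfsg.quadFormPlus (m + 3) F (v + r) - Cfsg.quadFormPlus (m + 3) F v - Cfsg.quadFormPlus (m + 3) F r = 0 →
              ((σ : Matrix.GeneralLinearGroup (Fin (m + 3) ⊕ Fin (m + 3)) F) : Matrix (Fin (m + 3) ⊕ Fin (m + 3)) (Fin (m + 3) ⊕ Fin (m + 3)) F) *ᵥ v = v}} =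
      RS F (io (m + 3) F) (DS (m + 3) F) := by
    ext A
    constructor
    · rintro ⟨p, r, h0, h1, h2, h3, rfl⟩
      have h : TS p r := ⟨h1, h2, by rw [Q_add, h1, h2] at h3; simpa using h3⟩
      exact ⟨_, ⟨p, r, li_iff.mp h0, h, rfl⟩, set_eq (li_iff.mp h0) h⟩
    · rintro ⟨_, ⟨p, r, h0, h, rfl⟩, rfl⟩
      exact ⟨p, r, li_iff.mpr h0, h.q1, h.q2, by rw [Q_add, h.q1, h.q2, h.b]; simp,
        (set_eq h0 h).symm⟩
  rw [e]
  exact ⟨rootFam_DS.kRootSet_subgroupOf, DS_connected (by simp)⟩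

end Cfsg.Agent.S5072
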