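import Cfsg.Statements.S5073
import Cfsg.Agent.H36.QuadRoot

set_option autoImplicit false
universe u
open Cfsg

namespace Cfsg.Agent.S5073

open Cfsg.Agent.H36

/-- Let k be a field of characteristic not 2 with k not of order 3, M a finite-dimensional k-vector space and G ≤ GL(M) such that (G, M) is a quadratic pair (M irreducible for G, and G generated by its quadratically acting elements σ whose scalar family 1 + c(σ − 1), c ∈ k, lies in G). Write 𝒬_d for the quadratic elements of G of minimal commutator rank, E(σ) for the subgroup generated by the members of 𝒬_d with the same fixed space and commutator space as σ, and Σ for the set of these subgroups. Let E, F ∈ Σ. If some non-identity element of E commutes with some non-identity element of F, or some non-identity element of E normalizes F, then E and F commute elementwise. -/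
theorem result {k : Type u} [Field k] (hk2 : ringChar k ≠ 2) (hk3 : Nat.card k ≠ 3)
    {M : Type u} [AddCommGroup M] [Module k M] [FiniteDimensional k M]
    {G : Subgroup (LinearMap.GeneralLinearGroup k M)} (hG : Cfsg.IsQuadraticPair G)
    {E F : Subgroup (LinearMap.GeneralLinearGroup k M)} (hE : E ∈ Cfsg.quadraticRootSubgroups G) (hF : F ∈ Cfsg.quadraticRootSubgroups G)
    (h : (∃ e ∈ E, e ≠ 1 ∧ ∃ f ∈ F, f ≠ 1 ∧ e * f = f * e) ∨ E ⊓ Subgroup.normalizer (F : Set (LinearMap.GeneralLinearGroup k M)) ≠ ⊥) :
    ⁅E, F⁆ = ⊥ := by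
  have hk := goodField hk2 hk3
  rw [quadraticRootSubgroups_eq] at hE hF
  obtain ⟨s, hs, rfl⟩ := hE
  obtain ⟨t, ht, rfl⟩ := hF
  refine com_iff.1 (hs.com hk ht ?_)
  by_contra h0
  by_cases h1 : s * t * s = 0
  · rcases h with ⟨e, he, he1, f, hf, hf1, h⟩ | h
    · obtain ⟨x, hx, rfl⟩ := exists_of_mem_EG he
      obtain ⟨y, hy, rfl⟩ := exists_of_mem_EG hf
      exact hs.comm_ne hk ht h1 h0 hx hy (fun e => he1 ((un_eq_one_iff _).2 e))
        (fun e => hf1 ((un_eq_one_iff _).2 e)) ((un_comm_iff _ _).1 h)
    · obtain ⟨e, ⟨he, hn⟩, he1⟩ := exists_mem_ne_one h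
      obtain ⟨x, hx, rfl⟩ := exists_of_mem_EG he
      have h2 := hs.comm_ne hk ht h1 h0 hx ht.qt.mem_aSp (fun e => he1 ((un_eq_one_iff _).2 e)) ht.ne
      have h3 := hs.nil_mem hk ht h1 hx hx ht.qt.mem_aSp
      have h4 := (Subgroup.mem_normalizer_iff.1 hn _).1 ht.un_mem
      have h5 : x * t - t * x ∈ aSp G t := by
        have := sub_mem (mem_EG.1 h4) ht.qt.mem_aSp
        convert this using 1
        rw [Units.val_mul, Units.val_mul, val_un t, mul_add, add_mul, mul_one, Units.mul_inv,
          conj_un, h3]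
        abel
      have h6 := ht.mem_symm h5 h2
      apply h2
      rw [aSp_left h6 (w := x) (by rw [mul_sub, hx.1.sq', ← mul_assoc, h3]; simp),
        aSp_right h6 (w := x) (by rw [sub_mul, h3, mul_assoc, hx.1.sq]; simp), sub_self]
  · have hRO := (hs.RO_iff hk ht).2 h1
    rcases h with ⟨e, he, he1, f, hf, hf1, h⟩ | h
    · refine RO.conj_ne hRO he he1 (RO.eq_of_mem_unip hRO (RO.conj_mem_unip hRO he)
        (RO.right_mem_unip hRO) (x := f) ?_ hf hf1)
      rw [mem_conjBy, mul_assoc, ← h, inv_mul_cancel_left]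
      exact hf
    · exact h (RO.inf_normalizer hRO)

end Cfsg.Agent.S5073
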