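import Cfsg.Statements.S5085
import Cfsg.Agent.H97.Factor

set_option autoImplicit false
open Cfsg

namespace Cfsg.Agent.S5085

open Cfsg.FusionSystem Cfsg.Agent.H97

/-- In any fusion system, a characteristic subgroup of a subgroup that is normal in the system is itself normal in the system. -/
theorem result {Ω : Type*} [Group Ω] {S : Subgroup Ω} (F : Cfsg.FusionSystem S) (Q U : Subgroup Ω) (hQ : F.IsNormal Q) (hUQ : U ≤ Q) (hU : (U.subgroupOf Q).Characteristic) : F.IsNormal U := by
  exact isNormal_of_characteristic hQ hUQ hU

end Cfsg.Agent.S5085
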