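import Cfsg.Statements.S5087
import Cfsg.Agent.H96.NormalCrit

set_option autoImplicit false
open Cfsg

namespace Cfsg.Agent.S5087

open Cfsg.FusionSystem Cfsg.Agent.H97 Cfsg.Agent.H98 Cfsg.Agent.H96


/-- In a saturated fusion system over a finite p-group S, a subgroup Q is normal in the system if and only if every subgroup P that equals S or is essential contains Q and every element of Aut_F(P) maps Q onto itself. -/
theorem result {Ω : Type*} [Group Ω] {S : Subgroup Ω} [Finite S] (p : ℕ) [Fact p.Prime] (hS : IsPGroup p S) (F : Cfsg.FusionSystem S) (hF : F.IsSaturated p) (Q : Subgroup Ω) : F.IsNormal Q ↔ ∀ P : Subgroup Ω, (P = S ∨ F.IsEssential p P) → (Q ≤ P ∧ ∀ α ∈ F.autGroup P, (Q.subgroupOf P).map α.toMonoidHom = Q.subgroupOf P) := by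
  constructor
  · intro h P hP
    have hQP : Q ≤ P := by
      rcases hP with rfl | hP
      · exact h.1
      · exact le_of_isNormal_of_essential hS h hP
    have hPS : P ≤ S := by
      rcases hP with rfl | hP
      · exact le_rfl
      · exact hP.1.1
    refine ⟨hQP, fun α hα => ?_⟩
    haveI := finite_of_le_S hPS
    apply Subgroup.eq_of_le_of_card_ge
    · rintro _ ⟨x, hx, rfl⟩
      have := ext_mem_of_stronglyClosed (stronglyClosed_of_isNormal h) hPS hα x.2 hx
      rw [ext_coe] at this
      exact this
    · exact (Subgroup.card_map_of_injective α.injective).ge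
  · intro h
    refine sat_isNormal_of_aut hS hF fun P hP => ⟨(h P hP).1, fun g hg x hx => ?_⟩
    obtain ⟨α, hα, e⟩ := hg.exists_aut
    have hxP := (h P hP).1 hx
    have h1 : α ⟨x, hxP⟩ ∈ Q.subgroupOf P := by
      rw [← (h P hP).2 α hα]
      exact ⟨⟨x, hxP⟩, hx, rfl⟩
    rw [← e x hxP, ext_apply α hxP]
    exact h1

end Cfsg.Agent.S5087
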