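import Cfsg.Statements.S5094
import Cfsg.Agent.H81.ZCor

set_option autoImplicit false
open Cfsg

namespace Cfsg.Agent.S5094

open Subgroup Cfsg.Agent.H85 Cfsg.Agent.H81

/-- Glauberman's Z*-Theorem in fusion language: for a finite group G with Sylow 2-subgroup S, the centre of the fusion system of G on S is the set of elements of S whose image in G/O(G) is central, O(G) being the largest normal subgroup of odd order. -/
theorem result {G : Type*} [Group G] [Finite G] (S : Sylow 2 G) : (Cfsg.groupFusionSystem (S : Subgroup G)).center = (S : Subgroup G) ⊓ (Subgroup.center (G ⧸ Cfsg.oddCore G)).comap (QuotientGroup.mk' (Cfsg.oddCore G)) := by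
  set O := Cfsg.oddCore G with hO
  have hcop : (Nat.card O).Coprime 2 := H3.pPrimeCore_coprime 2 G
  apply le_antisymm
  · refine sSup_le fun Q hQ => ?_
    obtain ⟨hQS, hext⟩ := hQ
    intro x hx
    refine ⟨hQS hx, ?_⟩
    refine zstar_of_wc S (hQS hx) fun g hg => ?_
    obtain ⟨ψ, -, h1, h2⟩ := hext (zpowers x) (Cfsg.conjHom _ g) ⟨zpowers_le.mpr (hQS hx), by
      rintro ⟨_, k, rfl⟩
      show g * x ^ k * g⁻¹ ∈ _
      rw [← conj_zpow]; exact zpow_mem hg k, g, fun _ => rfl⟩
    have h3 := h1 ⟨x, mem_zpowers x⟩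
    have h4 := h2 ⟨x, hx⟩
    exact h3.symm.trans h4
  · refine le_sSup ⟨inf_le_left, ?_⟩
    set Q := (S : Subgroup G) ⊓ (center (G ⧸ O)).comap (QuotientGroup.mk' O) with hQ
    rintro P φ ⟨hPS, hφS, g, hg⟩
    have hq : ∀ q ∈ Q, ∀ a : G, a * q * a⁻¹ * q⁻¹ ∈ O := by
      intro q hq a
      have := mem_center_iff.mp hq.2 (QuotientGroup.mk' O a)
      rw [← QuotientGroup.ker_mk' O, MonoidHom.mem_ker, map_mul, map_mul, map_mul, this, map_inv,
        map_inv]
      group
    have hgP : cj g P ≤ (S : Subgroup G) := by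
      rintro _ ⟨y, hy, rfl⟩
      have := hφS ⟨y, hy⟩
      rwa [hg] at this
    have hR' : cj g P ⊔ Q ≤ (S : Subgroup G) := sup_le hgP inf_le_left
    have hPQ : P ⊔ Q ≤ (S : Subgroup G) := sup_le hPS inf_le_left
    have hQO : cj g Q ⊔ O = Q ⊔ O := by
      apply le_antisymm
      · refine sup_le ?_ le_sup_right
        rintro _ ⟨q, hq', rfl⟩
        have := mul_mem (mem_sup_right (hq q hq' g) : _ ∈ Q ⊔ O) (mem_sup_left hq')
        simpa using this
      · refine sup_le ?_ le_sup_right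
        intro q hq'
        have := mul_mem (mem_sup_right (inv_mem (hq q hq' g)) : _ ∈ cj g Q ⊔ O)
          (mem_sup_left (conj_mem_cj hq'))
        simpa [mul_assoc] using this
    obtain ⟨o, ho, hoR⟩ := exists_cj_eq_of_sup_eq (isPGroup_cj g (S.isPGroup'.to_le hPQ))
      (S.isPGroup'.to_le hR') hcop (by rw [cj_sup, sup_assoc, hQO, sup_assoc])
    have hmem : ∀ y ∈ P ⊔ Q, o * (g * y * g⁻¹) * o⁻¹ ∈ cj g P ⊔ Q := fun y hy =>
      hoR ▸ conj_mem_cj (conj_mem_cj hy)
    have hoc : ∀ a : G, o * a * o⁻¹ * a⁻¹ ∈ O := fun a => by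
      have := mul_mem ho ((inferInstance : O.Normal).conj_mem _ (inv_mem ho) a)
      simpa [mul_assoc] using this
    refine ⟨Cfsg.conjHom _ (o * g), ⟨hPQ, fun y => ?_, o * g, fun _ => rfl⟩, fun y => ?_, fun y => ?_⟩
    · have := hR' (hmem y y.2)
      show o * g * y * (o * g)⁻¹ ∈ _
      simpa [mul_assoc] using this
    · show o * g * y * (o * g)⁻¹ = _
      rw [hg]
      refine eq_of_mem_pgroup_of_mem_coprime S.isPGroup' hcop ?_ (hgP (conj_mem_cj y.2)) ?_
      · have := hR' (hmem y (mem_sup_left y.2))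
        simpa [mul_assoc] using this
      · have := hoc (g * y * g⁻¹)
        simpa [mul_assoc] using this
    · show o * g * y * (o * g)⁻¹ = _
      refine eq_of_mem_pgroup_of_mem_coprime S.isPGroup' hcop ?_ y.2.1 (hq y y.2 _)
      have := hR' (hmem y (mem_sup_right y.2))
      simpa [mul_assoc] using this

end Cfsg.Agent.S5094
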