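import Cfsg.Statements.S5103
import Cfsg.Agent.H98.Transport
import Cfsg.Agent.S5102

set_option autoImplicit false
open Cfsg

namespace Cfsg.Agent.S5103

/-- A fusion system over a finite p-group that has a model (a finite group realizing it on a Sylow p-subgroup with self-centralizing largest normal p-subgroup) is constrained. -/
theorem result {Ω : Type*} [Group Ω] {S : Subgroup Ω} [Finite S] (p : ℕ) [Fact p.Prime] (hS : IsPGroup p S) (F : Cfsg.FusionSystem S) {G : Type*} [Group G] (ι : S →* G) (hG : F.IsModel p G ι) : F.IsConstrained p := by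
  obtain ⟨hfin, hre, ⟨T, hT⟩, hc⟩ := hG
  obtain ⟨θ', hθ⟩ := H98.fsIso_of_isRealizedBy hre
  refine hθ.symm.isConstrained ?_
  rw [← hT]
  have hp : IsPGroup p (pCore p G) := Sylow.sSup_of_normal _ (fun _ h => h.2) (fun _ h => h.1)
  refine ⟨H98.group_isSaturated T, pCore p G, S5102.result p T _ hp, hp.le_sylow_of_normal T, ?_⟩
  rintro _ ⟨φ, ⟨-, -, g, hg⟩, rfl⟩
  rw [H98.range_eq_map_conj hg, H98.map_conj_eq_iff_mem_normalizer.mpr
    (Subgroup.le_normalizer_of_normal (Subgroup.mem_top g))]
  exact inf_le_right.trans hc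

end Cfsg.Agent.S5103
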