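import Cfsg.Statements.S5105
import Cfsg.Agent.H99.Model

set_option autoImplicit false
open Cfsg

namespace Cfsg.Agent.S5105

/-- Model Theorem, rigidity: if G is a model of a constrained fusion system over a finite p-group S (through ι : S → G), then every automorphism of G fixing ι(S) elementwise is conjugation by ι(z) for some z in the centre of S. -/
theorem result {Ω : Type*} [Group Ω] {S : Subgroup Ω} [Finite S] (p : ℕ) [Fact p.Prime] (hS : IsPGroup p S) (F : Cfsg.FusionSystem S) (hF : F.IsConstrained p) {G : Type*} [Group G] (ι : S →* G) (hG : F.IsModel p G ι) (ψ : G ≃* G) (hψ : ∀ x : S, ψ (ι x) = ι x) : ∃ z : S, z ∈ Subgroup.center S ∧ ∀ g : G, ψ g = ι z * g * (ι z)⁻¹ := by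
  obtain ⟨hfin, hreal, ⟨T, hT⟩, hC⟩ := hG
  obtain ⟨z, hz, hzc, e⟩ := H99.exists_conj_of_fix_sylow T hC ψ.toMonoidHom (by
    intro t ht
    rw [hT] at ht
    obtain ⟨x, rfl⟩ := ht
    exact hψ x)
  rw [hT] at hz hzc
  obtain ⟨z, rfl⟩ := hz
  refine ⟨z, Subgroup.mem_center_iff.2 fun s => hreal.1 ?_, e⟩
  rw [map_mul, map_mul]
  exact hzc _ ⟨s, rfl⟩

end Cfsg.Agent.S5105
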