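import Cfsg.Statements.S5106
import Cfsg.Agent.H96.NormalCrit

set_option autoImplicit false
open Cfsg

namespace Cfsg.Agent.S5106

open Cfsg.FusionSystem Cfsg.Agent.H97 Cfsg.Agent.H98 Cfsg.Agent.H96


/-- In a saturated fusion system over a finite p-group S, a subgroup R ≤ S is normal in the system if and only if every map of the system whose source is a subgroup of R is the restriction of an element of Aut_F(R). -/
theorem result {Ω : Type*} [Group Ω] {S : Subgroup Ω} [Finite S] (p : ℕ) [Fact p.Prime] (hS : IsPGroup p S) (F : Cfsg.FusionSystem S) (hF : F.IsSaturated p) (R : Subgroup Ω) (hRS : R ≤ S) : F.IsNormal R ↔ ∀ (P : Subgroup Ω) (hPR : P ≤ R) (φ : P →* Ω), φ ∈ F.Hom P → ∃ α ∈ F.autGroup R, ∀ x : P, ((α (Subgroup.inclusion hPR x) : R) : Ω) = φ x := by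
  rw [sat_isNormal_iff_ext hS hF hRS]
  constructor
  · intro h P hPR φ hφ
    obtain ⟨g, hg, e⟩ := h P _ hPR (mor_of_mem hφ)
    obtain ⟨α, hα, e'⟩ := hg.exists_aut
    refine ⟨α, hα, fun x => ?_⟩
    rw [← ext_coe, Subgroup.coe_inclusion, e' x (hPR x.2), e x x.2, fn_coe]
  · rintro h P f hP ⟨φ, hφ, e⟩
    obtain ⟨α, hα, e'⟩ := h P hP φ hφ
    refine ⟨_, iso_of_mem_autGroup hRS hα, fun x hx => ?_⟩
    rw [ext_apply α (hP hx), ← e ⟨x, hx⟩, ← e' ⟨x, hx⟩]
    rfl

end Cfsg.Agent.S5106
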