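import Cfsg.Statements.S5107
import Cfsg.Agent.H96.NormalCrit
import Cfsg.Agent.H98.GroupFusion
import Cfsg.Agent.H97.NormalSub

set_option autoImplicit false
open Cfsg

open scoped commutatorElement
namespace Cfsg.Agent.S5107

open Cfsg.FusionSystem Cfsg.Agent.H97 Cfsg.Agent.H98 Cfsg.Agent.H96

/-- If a Sylow p-subgroup S of a finite group G has nilpotency class at most two and its centre is strongly closed in S with respect to G, then every map of the fusion system of G on S is conjugation by an element of N_G(S), and S is the largest subgroup normal in that fusion system. -/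
theorem result {G : Type*} [Group G] [Finite G] (p : ℕ) [Fact p.Prime] (S : Sylow p G) (hcl : ⁅(S : Subgroup G), (S : Subgroup G)⁆ ≤ (S : Subgroup G) ⊓ Subgroup.centralizer ((S : Subgroup G) : Set G)) (hZ : Cfsg.IsStronglyClosed ((S : Subgroup G) ⊓ Subgroup.centralizer ((S : Subgroup G) : Set G)) (S : Subgroup G)) : (∀ (P : Subgroup G) (φ : P →* G), φ ∈ (Cfsg.groupFusionSystem (S : Subgroup G)).Hom P → ∃ g ∈ Subgroup.normalizer ((S : Subgroup G) : Set G), ∀ x : P, φ x = g * (x : G) * g⁻¹) ∧ (Cfsg.groupFusionSystem (S : Subgroup G)).core = S := by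
  have hF := group_isSaturated S
  have hS : IsPGroup p (S : Subgroup G) := S.isPGroup'
  set F := groupFusionSystem (S : Subgroup G) with hFdef
  set Z := (S : Subgroup G) ⊓ Subgroup.centralizer ((S : Subgroup G) : Set G) with hZdef
  have hZs : F.StronglyClosed Z := by
    rw [stronglyClosed_iff]
    refine ⟨hZ.1, fun P f hf x hx hxZ => ?_⟩
    obtain ⟨-, h2, g, hg⟩ := mor_group_iff.1 hf
    rw [hg x hx]
    exact hZ.2 x hxZ g (hg x hx ▸ h2 x hx)
  have hn : F.IsNormal (S : Subgroup G) := by
    refine sat_isNormal_of_chain hS hF (fun i => if i = 0 then ⊥ else if i = 1 then Z else S) 2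
      (by simp) (by simp) ?_ ?_ ?_
    · intro i hi
      interval_cases i
      · simp
      · simpa using hZ.1
    · intro i hi
      interval_cases i
      · simp only [if_true]
        rw [stronglyClosed_iff]
        refine ⟨bot_le, fun P f hf x hx hx1 => ?_⟩
        rw [Subgroup.mem_bot] at hx1 ⊢
        rw [hx1, hf.map_one]
      · simpa using hZs
      · simp only [OfNat.ofNat_ne_zero, OfNat.ofNat_ne_one, if_false]
        rw [stronglyClosed_iff]
        exact ⟨le_rfl, fun P f hf x hx _ => hf.mem hx⟩
    · intro s hs i hi x hx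
      interval_cases i
      · simp only [zero_add, one_ne_zero, if_false, if_true] at hx ⊢
        rw [Subgroup.mem_bot]
        have := (Subgroup.mem_centralizer_iff.1 hx.2) s hs
        rw [this]; group
      · simp only [Nat.reduceAdd, OfNat.ofNat_ne_zero, OfNat.ofNat_ne_one, if_false, one_ne_zero,
          if_true] at hx ⊢
        have h1 : ⁅x⁻¹, s⁆ ∈ Z :=
          hcl (Subgroup.commutator_mem_commutator (Subgroup.inv_mem _ hx) hs)
        have h2 : x⁻¹ * (s * x * s⁻¹) = ⁅x⁻¹, s⁆ := by rw [commutatorElement_def]; group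
        rw [h2]; exact h1
  refine ⟨fun P φ hφ => ?_, le_antisymm ?_ (le_sSup hn)⟩
  · have hm := mor_of_mem hφ
    obtain ⟨g, hg, hgf⟩ := exists_aut_ext_of_isNormal hn hm hm.le
    obtain ⟨-, h2, t, ht⟩ := mor_group_iff.1 hg.1
    refine ⟨t, ?_, fun x => ?_⟩
    · rw [← img_conj_eq_self_iff, ← img_congr ht]
      exact hg.img_eq
    · rw [← ht x (hm.le x.2), hgf x x.2, fn_coe]
  · exact sSup_le fun Q hQ => hQ.1

end Cfsg.Agent.S5107
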