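import Cfsg.Statements.S5112
import Cfsg.Agent.H5.Ess2
import Cfsg.Agent.H9.Taussky

set_option autoImplicit false
open Cfsg

namespace Cfsg.Agent.S5112

open Cfsg.Agent.H5 Cfsg.Agent.H96 Cfsg.Agent.H97 Cfsg.Agent.H9 in
theorem isPGroup_mulAut_of_MC {Ω : Type*} [Group Ω] {S : Subgroup Ω} [Finite S] {a b : Ω} {n : ℕ}
    (h : MC S a b n) (hn : 2 ≤ n) : IsPGroup 2 (⊤ : Subgroup (MulAut S)) := by
  have hS := h.isPGroup
  have hA : Inv (Set.univ : Set (MulAut S)) (Subgroup.zpowers a) := by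
    intro α _ x hx
    have h1 : ext α a ∈ Subgroup.zpowers a := by
      by_contra hc
      have h2 := (h.of_mem (ext_mem α h.a_mem) hc).b_pow_four
      rw [← (homOn_ext α).map_pow h.a_mem, ← (homOn_ext α).map_one, (ext_injective α).eq_iff,
        ← orderOf_dvd_iff_pow_eq_one, h.ord] at h2
      rw [show 4 = 2 ^ 2 from rfl] at h2
      have := (Nat.pow_dvd_pow_iff_le_right (by norm_num : 1 < 2)).1 h2
      omega
    obtain ⟨k, rfl⟩ := hx
    simp only
    rw [(homOn_ext α).map_zpow h.a_mem]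
    exact Subgroup.zpow_mem _ h1 k
  have hP : Inv (Set.univ : Set (MulAut S)) (Phi S) := inv_Phi le_rfl inv_self
  have hi : (Phi S).relIndex (Phi S ⊔ Subgroup.zpowers a) ∣ 2 :=
    relIndex_sup_zpowers_dvd (Subgroup.mem_normalizer_iff.2 fun _ =>
      ⟨conj_mem_Phi (Subgroup.le_normalizer h.a_mem), fun h' => by
        simpa [mul_assoc] using conj_mem_Phi (Subgroup.le_normalizer (S.inv_mem h.a_mem)) h'⟩)
      (pow_mem_Phi hS h.a_mem)
  have hle : Phi S ⊔ Subgroup.zpowers a ≤ S := sup_le (Phi_le S) h.zpowers_le'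
  have hB : Inv (Set.univ : Set (MulAut S)) (Phi S ⊔ Subgroup.zpowers a) := fun α hα =>
    ((homOn_ext α).mono hle).mem_of_sup (fun x hx => Subgroup.mem_sup_left (hP α hα x hx))
      fun x hx => Subgroup.mem_sup_right (hA α hα x hx)
  have hj : (Phi S ⊔ Subgroup.zpowers a).relIndex S ∣ 2 :=
    h.relIndex_zpowers ▸ Subgroup.relIndex_dvd_of_le_left S le_sup_right
  have := (((PT.of_relIndex_dvd_two (p := 2) le_sup_left hP hB hi).phi_trans hS
    (PT.of_relIndex_dvd_two hle hB inv_self hj) le_sup_left hle le_rfl le_rfl inv_self).frat hS le_rfl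
    inv_self).isPGroup
  rwa [Subgroup.closure_univ] at this

/-- If S is a dihedral or generalized quaternion 2-group of order at least 16, then in every saturated fusion system over S (at the prime 2) the automorphism group Aut_F(S) consists of the inner automorphisms of S. -/
theorem result {Ω : Type*} [Group Ω] {S : Subgroup Ω} [Finite S] (n : ℕ) (hn : 4 ≤ n) (hshape : Nonempty (S ≃* DihedralGroup (2 ^ (n - 1))) ∨ Nonempty (S ≃* QuaternionGroup (2 ^ (n - 2)))) (F : Cfsg.FusionSystem S) (hF : F.IsSaturated 2) : F.autGroup S = Cfsg.Inn S := by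
  have : ∃ (a b : Ω) (m : ℕ), Cfsg.Agent.H9.MC S a b m ∧ 2 ≤ m := by
    rcases hshape with ⟨⟨e⟩⟩ | ⟨⟨e⟩⟩
    · have h2 : IsPGroup 2 S := IsPGroup.of_card (n := n) (by
        rw [Nat.card_congr e.toEquiv, DihedralGroup.nat_card, ← pow_succ']; congr 1; omega)
      obtain ⟨a, b, m, h, -, -, hm⟩ := Cfsg.Agent.H9.exists_MC_of_dihedral' e h2
        ((by norm_num : 3 ≤ 2 ^ 3).trans (Nat.pow_le_pow_right (by norm_num) (by omega)))
      have := Nat.pow_right_injective (le_refl 2) hm
      exact ⟨a, b, m, h, by omega⟩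
    · have h2 : IsPGroup 2 S := IsPGroup.of_card (n := n) (by
        rw [Nat.card_congr e.toEquiv, Cfsg.Agent.H9.nat_card_quaternion, show 4 = 2 ^ 2 from rfl,
          ← pow_add]; congr 1; omega)
      obtain ⟨a, b, m, h, -, -, hm⟩ := Cfsg.Agent.H9.exists_MC_of_quaternion' e h2
        ((by norm_num : 2 ≤ 2 ^ 2).trans (Nat.pow_le_pow_right (by norm_num) (by omega)))
      have := Nat.pow_right_injective (le_refl 2) hm
      exact ⟨a, b, m, h, by omega⟩
  obtain ⟨a, b, m, h, hm⟩ := this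
  exact Cfsg.Agent.H96.sat_autGroup_top_eq_inn h.isPGroup hF
    ((isPGroup_mulAut_of_MC h hm).to_le le_top)

end Cfsg.Agent.S5112
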