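import Cfsg.Statements.S5119
import Cfsg.Agent.H97.NormalSub

set_option autoImplicit false
open Cfsg

namespace Cfsg.Agent.S5119

open Cfsg.FusionSystem Cfsg.Agent.H97

/-- Let F be a saturated fusion system over a finite p-group S and E a subsystem of F over a subgroup T that is strongly closed in F. Then E is invariant in F (invariance under Aut_F(T) plus the Frattini condition) if and only if the strong invariance condition holds: for P ≤ Q ≤ T, every map φ of E from P into Q and every map ψ of F with source Q, the transported map ψ φ ψ⁻¹ on ψ(P) is a map of E. -/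
theorem result {Ω : Type*} [Group Ω] {S : Subgroup Ω} [Finite S] (p : ℕ) [Fact p.Prime] (hS : IsPGroup p S) (F : Cfsg.FusionSystem S) (hF : F.IsSaturated p) {T : Subgroup Ω} (E : Cfsg.FusionSystem T) (hE : E.IsSubsystemOf F) (hT : F.StronglyClosed T) : E.IsInvariantIn F ↔ ∀ (P Q : Subgroup Ω) (hPQ : P ≤ Q) (_ : Q ≤ T) (φ : P →* Ω) (_ : φ ∈ E.Hom P) (hφQ : ∀ x : P, φ x ∈ Q) (ψ : Q →* Ω) (_ : ψ ∈ F.Hom Q), ∃ χ ∈ E.Hom ((P.subgroupOf Q).map ψ), ∀ (x : P) (hx : ψ (Subgroup.inclusion hPQ x) ∈ (P.subgroupOf Q).map ψ), χ ⟨ψ (Subgroup.inclusion hPQ x), hx⟩ = ψ ⟨φ x, hφQ x⟩ := by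
  rw [isInvariantIn_iff_strongInv hS hF hE hT]
  constructor
  · intro h P Q hPQ hQ φ hφ hφQ ψ hψ
    obtain ⟨k, hk, i1, -⟩ := ((mor_of_mem hψ).mono hPQ).inv
    have := h P Q (fn φ) (fun y => fn ψ (fn φ (k y))) (fn ψ) (mor_of_mem hφ) (mor_of_mem hψ) hQ hPQ
      (fun x hx => by rw [fn_apply _ hx]; exact hφQ _) (fun x hx => by rw [i1 x hx])
    rw [← map_subgroupOf_eq_img ψ (fun x => (fn_coe ψ x).symm) hPQ] at this
    refine ⟨_, this.toHom_mem, fun x hx => ?_⟩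
    show fn ψ (fn φ (k (ψ (Subgroup.inclusion hPQ x)))) = _
    rw [← fn_coe ψ, Subgroup.coe_inclusion, i1 x x.2, fn_coe, fn_apply _ (hφQ x)]
  · intro h P Q f g ψ hf hψ hQ hPQ hm e
    obtain ⟨χ, hχ, e'⟩ := h P Q hPQ hQ _ hf.toHom_mem (fun x => hm x x.2) _ hψ.toHom_mem
    have hi := map_subgroupOf_eq_img hψ.homOn.toHom (f := ψ) (fun _ => rfl) hPQ
    have h1 : Mor E (img P ψ) (fn χ) := by rw [← hi]; exact mor_of_mem hχ
    refine h1.congr fun y hy => ?_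
    obtain ⟨x, hx, rfl⟩ := (hψ.mem_img' hPQ).1 hy
    have hy' : ψ x ∈ (P.subgroupOf Q).map hψ.homOn.toHom := ⟨⟨x, hPQ hx⟩, hx, rfl⟩
    rw [fn_apply _ hy', e x hx]
    exact e' ⟨x, hx⟩ hy'

end Cfsg.Agent.S5119
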