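import Cfsg.Statements.S5123
import Cfsg.Agent.H98.GroupFusion

set_option autoImplicit false
open Cfsg

namespace Cfsg.Agent.S5123

/-- Let G be a finite group with Sylow p-subgroup S, P, Q ≤ S and g ∈ G with gPg⁻¹ = Q, and suppose N_S(Q) is a Sylow p-subgroup of N_G(Q). Let N be the set of x ∈ N_S(P) with gxg⁻¹ ∈ N_S(Q)C_G(Q). Then some h ∈ C_G(Q) satisfies (hg)N(hg)⁻¹ ≤ S. -/
theorem result {G : Type*} [Group G] [Finite G] (p : ℕ) [Fact p.Prime] (S : Sylow p G) (P Q : Subgroup G) (hP : P ≤ S) (hQ : Q ≤ S) (g : G) (hg : P.map (MulAut.conj g).toMonoidHom = Q) (hN : (∃ R : Sylow p ↥(Subgroup.normalizer (Q : Set G)), (R : Subgroup ↥(Subgroup.normalizer (Q : Set G))) = (Cfsg.FusionSystem.normalizerIn (S : Subgroup G) Q).subgroupOf (Subgroup.normalizer (Q : Set G)))) : ∃ h ∈ Subgroup.centralizer (Q : Set G), ((Cfsg.FusionSystem.normalizerIn (S : Subgroup G) P) ⊓ (Cfsg.FusionSystem.normalizerIn (S : Subgroup G) Q ⊔ Subgroup.centralizer (Q : Set G)).comap (MulAut.conj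 g).toMonoidHom).map (MulAut.conj (h * g)).toMonoidHom ≤ S := by
  rw [← H98.sylIn_iff (H98.normalizerIn_le _ _), ← H98.normalizerIn_top] at hN
  have h1 := H98.sylIn_centralizer_of_sylIn_normalizer le_top hN
  obtain ⟨h, hh, hle⟩ := H98.exists_centralizer_conj_le (H98.sylIn_top S) h1
    (U := ((Cfsg.FusionSystem.normalizerIn (S : Subgroup G) P) ⊓
      (Cfsg.FusionSystem.normalizerIn (S : Subgroup G) Q ⊔
        Subgroup.centralizer (Q : Set G)).comap (MulAut.conj g).toMonoidHom).map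
          (MulAut.conj g).toMonoidHom)
    ((S.isPGroup'.to_inf_left.to_inf_left).map _) (by
      rintro _ ⟨x, ⟨-, hx⟩, rfl⟩
      have hNC : Cfsg.FusionSystem.normalizerIn (S : Subgroup G) Q ≤
          Subgroup.normalizer ((Subgroup.centralizer (Q : Set G) : Subgroup G) : Set G) := by
        intro y hy
        rw [← H98.map_conj_eq_iff_mem_normalizer, H98.map_conj_centralizer,
          H98.map_conj_eq_iff_mem_normalizer.mpr hy.2]
      have h2 := Subgroup.coe_mul_of_left_le_normalizer_right _ _ hNC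
      have hx' : (MulAut.conj g).toMonoidHom x ∈
          ((Cfsg.FusionSystem.normalizerIn (S : Subgroup G) Q ⊔
            Subgroup.centralizer (Q : Set G) : Subgroup G) : Set G) := hx
      rw [h2, Set.mem_mul] at hx'
      obtain ⟨n, hn, c, hc, e⟩ := hx'
      exact ⟨n, hn, c, ⟨Subgroup.mem_top c, hc⟩, e.symm⟩)
  rw [H98.map_conj_map_conj] at hle
  exact ⟨h, hh.2, hle⟩

end Cfsg.Agent.S5123
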