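import Cfsg.Statements.S5130
import Cfsg.Agent.H97.Product

set_option autoImplicit false
open Cfsg

namespace Cfsg.Agent.S5130

open Cfsg.FusionSystem Cfsg.Agent.H97

/-- Let F be a saturated fusion system over a finite p-group S that is the direct product of two subgroups S₁ and S₂, each strongly closed in F. Let R be the full subsystem of F over S₁ (all maps of F between subgroups of S₁) and R′ the subsystem over S₁ of those maps that extend to the subgroup generated with S₂ fixing S₂ elementwise. Then R and R′ are saturated, R′ is normal in F and in R, and R is weakly normal in F. -/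
theorem result {Ω : Type*} [Group Ω] {S : Subgroup Ω} [Finite S] (p : ℕ) [Fact p.Prime] (hS : IsPGroup p S) (F : Cfsg.FusionSystem S) (hF : F.IsSaturated p) (S₁ S₂ : Subgroup Ω) (hprod : Cfsg.IsInternalDirectProduct S₁ S₂ S) (h₁ : F.StronglyClosed S₁) (h₂ : F.StronglyClosed S₂) (R R' : Cfsg.FusionSystem S₁) (hR : ∀ P : Subgroup Ω, P ≤ S₁ → R.Hom P = F.Hom P) (hR' : ∀ P : Subgroup Ω, P ≤ S₁ → R'.Hom P = F.centralizerHom S₂ P) : R.IsSaturated p ∧ R'.IsSaturated p ∧ R'.IsNormalIn F p ∧ R'.IsNormalIn R p ∧ R.IsWeaklyNormalIn F p := by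
  refine direct_factors hS hF hprod h₁ h₂ (fun P f hP => mor_iff_of_hom_eq (hR P hP) f)
    fun P f hP => ?_
  constructor
  · rintro ⟨φ, hφ, e⟩
    rw [hR' P hP, mem_centralizerHom_iff] at hφ
    obtain ⟨-, g, hg, e', hQ⟩ := hφ
    exact ⟨g, hg, fun x hx => by rw [e' x hx, fn_apply _ hx, e], hQ⟩
  · rintro ⟨g, hg, e, hQ⟩
    have hf : Mor F P f := (hg.mono le_sup_left).congr e
    refine ⟨hf.homOn.toHom, ?_, fun _ => rfl⟩
    rw [hR' P hP, mem_centralizerHom_iff]
    exact ⟨fun a ha => ⟨hprod.1 (hP ha), fun b hb => (hprod.2.2.1 a (hP ha) b hb).symm⟩, g, hg,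
      fun x hx => by rw [e x hx, fn_apply _ hx]; rfl, hQ⟩

end Cfsg.Agent.S5130
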