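import Cfsg.Statements.S5139
import Cfsg.Agent.H98.GroupNormal

set_option autoImplicit false
open Cfsg

namespace Cfsg.Agent.S5139

/-- Let G be a finite group with Sylow p-subgroup S and O^p(G) the subgroup generated by the elements of order prime to p. Then the p-residual subsystem of the fusion system of G on S — the saturated subsystem of p-power index over the hyperfocal subgroup — is the fusion system of O^p(G) on S ∩ O^p(G): its maps are exactly the conjugation maps by elements of O^p(G) between subgroups of S ∩ O^p(G). -/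
theorem result {G : Type*} [Group G] [Finite G] (p : ℕ) [Fact p.Prime] (S : Sylow p G) (E : Cfsg.FusionSystem ((Cfsg.groupFusionSystem (S : Subgroup G)).hyperfocalSubgroup p)) (hE : (Cfsg.groupFusionSystem (S : Subgroup G)).IsPResidual p E) : ∃ h : (S : Subgroup G) ⊓ Cfsg.pResidual p G ≤ Cfsg.pResidual p G, ∀ P : Subgroup G, E.Hom P = (Cfsg.fusionSystemOfSubgroup (Cfsg.pResidual p G) ((S : Subgroup G) ⊓ Cfsg.pResidual p G) h).Hom P := by
  refine ⟨inf_le_right, ?_⟩
  unfold Cfsg.FusionSystem.IsPResidual at hE
  have key : ∀ (T : Subgroup G) (_ : T = (S : Subgroup G) ⊓ Cfsg.pResidual p G)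
      (E : Cfsg.FusionSystem T) (_ : E.IsSaturated p ∧
        E.HasPPowerIndexIn (Cfsg.groupFusionSystem (S : Subgroup G)) p) (P : Subgroup G),
      E.Hom P = (Cfsg.fusionSystemOfSubgroup (Cfsg.pResidual p G)
        ((S : Subgroup G) ⊓ Cfsg.pResidual p G) inf_le_right).Hom P := by
    intro T hT E hE P
    subst hT
    have hsyl : H98.SylIn p ((S : Subgroup G) ⊓ Cfsg.pResidual p G) (Cfsg.pResidual p G) :=
      (H98.sylIn_top S).inf_of_normal le_top Subgroup.le_normalizer_of_normal
    have h2 := H98.sub_pIndex (p := p) (M := ⊤) (S := (S : Subgroup G)) (N := Cfsg.pResidual p G)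
      le_top le_top Subgroup.le_normalizer_of_normal fun g _ hg => H8.mem_pResidual_of_coprime hg
    rw [← H98.groupFusionSystem_eq] at h2
    rw [H98.pIndex_unique S.isPGroup' hE.1 hE.2 (H98.sub_isSaturated hsyl) h2]
  exact key _ (H98.group_hyp_eq S) E hE

end Cfsg.Agent.S5139
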