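import Cfsg.Statements.S5143
import Cfsg.Agent.H95.ES

set_option autoImplicit false
open Cfsg
open Cfsg.Agent.H95 Cfsg.Agent.H96 Cfsg.Agent.H97 Cfsg.Agent.H98

namespace Cfsg.Agent.S5143

/-- Let F be a saturated fusion system over a finite p-group S, E a normal subsystem over T, and R a subgroup with T ≤ R ≤ S. Then there is exactly one saturated subsystem D of F over R (exactly one family of map sets) whose p-residual subsystem is that of E: the hyperfocal subgroups of D and E coincide and the p-residual subsystems of D and of E have the same maps. -/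
theorem result {Ω : Type*} [Group Ω] {S : Subgroup Ω} [Finite S] (p : ℕ) [Fact p.Prime] (hS : IsPGroup p S) (F : Cfsg.FusionSystem S) (hF : F.IsSaturated p) {T : Subgroup Ω} (E : Cfsg.FusionSystem T) (hE : E.IsNormalIn F p) (R : Subgroup Ω) (hTR : T ≤ R) (hRS : R ≤ S) : ∃ D : Cfsg.FusionSystem R, (D.IsSaturated p ∧ D.IsSubsystemOf F ∧ D.hyperfocalSubgroup p = E.hyperfocalSubgroup p ∧ ∀ (D₁ : Cfsg.FusionSystem (D.hyperfocalSubgroup p)) (E₁ : Cfsg.FusionSystem (E.hyperfocalSubgroup p)), D.IsPResidual p D₁ → E.IsPResidual p E₁ → ∀ P : Subgroup Ω, D₁.Hom P = E₁.Hom P) ∧ ∀ D' : Cfsg.FusionSystem R, D'.IsSaturated p → D'.IsSubsystemOf F → D'.hyperfocalSubgroup p = E.hyperfocalSubgroup p → (∀ (D₁ : Cfsg.FusionSystem (D'.hyperfocalSubgroup p)) (E₁ : Cfsg.FusionSystem (E.hyperfocalSubgroup p)), D'.IsPResidual p D₁ → E.IsPResidual p E₁ → ∀ P : Subgroup Ω, D₁.Hom P = E₁.Hom P) → ∀ P : Subgroup Ω, D'.Hom P = D.Hom P := by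
  have hI := normalIn_inv hE
  have hEs := normalIn_sat hE
  have := finite_of_le_S (inv_le hI)
  have := finite_of_le_S hRS
  have hES := saturated_ES hS hE
  have hEi := pIndex_ES hS hI hEs
  obtain ⟨D, hD, hDi⟩ := exists_pIndex hS hES hRS ((hyp_ES_le hS hI).trans hTR)
  have e1 := pIndex_hyp_eq hS hES hEi
  have e2 := pIndex_hyp_eq hS hES hDi
  have hDF : D.IsSubsystemOf F := fun P => (pIndex_sub hDi P).trans (ES_sub hI P)
  have hres : ∀ (D₁ : FusionSystem (D.hyperfocalSubgroup p)) (E₁ : FusionSystem (E.hyperfocalSubgroup p)),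
      D.IsPResidual p D₁ → E.IsPResidual p E₁ → ∀ P : Subgroup Ω, D₁.Hom P = E₁.Hom P := by
    intro D₁ E₁ h1 h2 P
    have k1 := pIndex_trans h1.2 hDi e2.ge
    have k2 := pIndex_trans h2.2 hEi e1.ge
    exact Set.Subset.antisymm (sub_of_pIndex hS h1.1 (pIndex_sub k1) k2 (e2.trans e1.symm).le P)
      (sub_of_pIndex hS h2.1 (pIndex_sub k2) k1 (e1.trans e2.symm).le P)
  refine ⟨D, ⟨hD, hDF, e2.trans e1.symm, hres⟩, fun D' h1 h2 h3 h4 P => ?_⟩
  obtain ⟨E₁, hE₁, hE₁i⟩ := exists_pIndex (hS.to_le (inv_le hI)) hEs (hyperfocalSubgroup_le E p) le_rfl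
  have hn := isNormalIn_of_pIndex hS hE hE₁ hE₁i (stronglyClosed_hyp_of_inv hS hI hEs)
  have key : ∀ D' : FusionSystem R, D'.IsSaturated p →
      D'.hyperfocalSubgroup p = E.hyperfocalSubgroup p →
      (∀ (D₁ : FusionSystem (D'.hyperfocalSubgroup p)) (E₁ : FusionSystem (E.hyperfocalSubgroup p)),
        D'.IsPResidual p D₁ → E.IsPResidual p E₁ → ∀ P : Subgroup Ω, D₁.Hom P = E₁.Hom P) →
      E₁.HasPPowerIndexIn D' p := by
    intro D' h1 h3 h4
    obtain ⟨D₁, hD₁, hD₁i⟩ := exists_pIndex (hS.to_le hRS) h1 (hyperfocalSubgroup_le D' p) le_rfl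
    have e := h4 D₁ E₁ ⟨hD₁, hD₁i⟩ ⟨hE₁, hE₁i⟩
    exact H98.hasPPowerIndexIn_iff.2 ⟨fun P => e P ▸ pIndex_sub hD₁i P, h3.le, fun P hP α hα c =>
      autGroup_eq_of_hom_eq (e P) ▸ pIndex_mem hD₁i (hP.trans h3.ge) hα c⟩
  have k1 := key D' h1 h3 h4
  have k2 := key D hD (e2.trans e1.symm) hres
  exact Set.Subset.antisymm (sub_of_pIndex_of_normal hS hn h2 h1 k1 hDF hD k2 P)
    (sub_of_pIndex_of_normal hS hn hDF hD k2 h2 h1 k1 P)

end Cfsg.Agent.S5143
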