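import Cfsg.Statements.S5156
import Cfsg.Agent.H99.ResSeries

set_option autoImplicit false
universe u
open Cfsg

namespace Cfsg.Agent.S5156

/-- A saturated fusion system over a finite p-group has a terminating alternating chain of p'-residual and p-residual subsystems (the chain reaches the trivial system — the notion of solvability adapted to fusion systems of p-solvable groups) if and only if it is constrained and its models are p-solvable (a model is a finite group realizing the system on a Sylow p-subgroup with self-centralizing largest normal p-subgroup; it exists and is unique up to isomorphism for constrained systems). -/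
theorem result {Ω : Type u} [Group Ω] {S : Subgroup Ω} [Finite S] (p : ℕ) [Fact p.Prime] (hS : IsPGroup p S) (F : Cfsg.FusionSystem S) (hF : F.IsSaturated p) : F.HasTerminatingResidualSeries p ↔ (F.IsConstrained p ∧ ∀ (G : Type u) [Group G] (ι : S →* G), F.IsModel p G ι → Cfsg.IsPSolvable p G) := by
  rw [← H99.pSolvCon_iff hS]
  exact ⟨fun h => H99.pSolvCon_of_series h rfl inferInstance hS hF, H99.series_of_pSolvCon hS⟩

end Cfsg.Agent.S5156
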