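import Cfsg.Statements.S5160
import Cfsg.Agent.H96.SubEq

set_option autoImplicit false
open Cfsg

namespace Cfsg.Agent.S5160

open Cfsg.FusionSystem Cfsg.Agent.H97 Cfsg.Agent.H98 Cfsg.Agent.H96


/-- Let G be a finite group with nontrivial Sylow p-subgroup S and F its fusion system on S. Suppose (a) no nontrivial proper subgroup of S is strongly closed in F, and (b) the automorphisms of S induced by G are generated by those induced, for R running over the fully normalized radical centric subgroups of F, by the subgroup of N_G(R) generated by its elements of p-power order. Then F is simple. -/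
theorem result {G : Type*} [Group G] [Finite G] (p : ℕ) [Fact p.Prime] (S : Sylow p G) (hS1 : (S : Subgroup G) ≠ ⊥) (ha : ∀ T : Subgroup G, (Cfsg.groupFusionSystem (S : Subgroup G)).StronglyClosed T → T = ⊥ ∨ T = (S : Subgroup G)) (hb : Cfsg.autInducedBy ⊤ (S : Subgroup G) = ⨆ (R : Subgroup G) (_ : (Cfsg.groupFusionSystem (S : Subgroup G)).IsFullyNormalized R ∧ (Cfsg.groupFusionSystem (S : Subgroup G)).IsRadical p R ∧ (Cfsg.groupFusionSystem (S : Subgroup G)).IsCentric R), Cfsg.autInducedBy (Subgroup.closure {g : G | g ∈ Subgroup.normalizer (R : Set G) ∧ ∃ k : ℕ, orderOf g = p ^ k}) (S : Subgroup G)) : (Cfsg.groupFusionSystem (S : Subgroup G)).IsSimple p := by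
  have hS := S.isPGroup'
  have hF := group_isSaturated S
  refine sat_isSimple_of_top hS hF hS1 ha fun E hE => ?_
  have h1 : ∀ R : Subgroup G, R ≤ S →
      (groupFusionSystem (S : Subgroup G)).autGroup R = autInducedBy ⊤ R := fun R hR => by
    rw [groupFusionSystem_eq, sub_autGroup _ hR]
  rw [h1 _ le_rfl, hb]
  refine iSup_le fun R => iSup_le fun hR => fun α hα => ?_
  obtain ⟨g, hg, e⟩ := mem_autInducedBy_iff.1 hα
  have hα' : α ∈ (groupFusionSystem (S : Subgroup G)).autGroup S := by
    rw [h1 _ le_rfl]; exact H97.autInducedBy_mono le_top hα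
  have hRS := hR.1.1
  have key : ∀ g ∈ Subgroup.closure
      {g : G | g ∈ Subgroup.normalizer (R : Set G) ∧ ∃ k : ℕ, orderOf g = p ^ k},
      g ∈ Subgroup.normalizer (R : Set G) ∧ Mor E R (fun x => g * x * g⁻¹) := by
    intro g hg
    induction hg using Subgroup.closure_induction with
    | mem g hg =>
      obtain ⟨hg, k, hk⟩ := hg
      refine ⟨hg, ?_⟩
      have h2 : conjAut R hg ∈ (groupFusionSystem (S : Subgroup G)).autGroup R := by
        rw [h1 _ hRS]; exact conjAut_mem_autInducedBy (Subgroup.mem_top g) hg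
      have h3 : conjAut R hg ^ p ^ k = 1 := by
        rw [conjAut, ← map_pow]
        have : (⟨g, hg⟩ : Subgroup.normalizer (R : Set G)) ^ p ^ k = 1 :=
          Subtype.ext (by rw [Subgroup.coe_pow, ← hk]; exact pow_orderOf_eq_one g)
        rw [this, map_one]
      exact (mor_of_mem_autGroup hRS
        (sat_mem_autGroup_of_pElement hS hF (normalIn_inv hE) hR.1 h2 h3)).congr
        fun x hx => ext_conjAut hg hx
    | one => exact ⟨Subgroup.one_mem _, mor_conj E hRS (Subgroup.one_mem _)⟩
    | mul a b _ _ iha ihb =>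
      refine ⟨Subgroup.mul_mem _ iha.1 ihb.1, (ihb.2.comp iha.2 fun x hx =>
        H96.conj_mem_of_mem_normalizer ihb.1 hx).congr fun x _ => by group⟩
    | inv a _ ih =>
      refine ⟨Subgroup.inv_mem _ ih.1, ?_⟩
      exact ((iso_self ih.2 fun x hx => H96.conj_mem_of_mem_normalizer ih.1 hx).of_leftInv
        (g := fun x => a⁻¹ * x * a⁻¹⁻¹) fun x _ => by group).mor
  exact mem_autGroup_of_mor (sat_mor_of_restrict_centric hS hF (normalIn_sat hE)
    (le_of_isSubsystemOf' (normalIn_sub hE)) (mor_of_mem_autGroup le_rfl hα') R hRS hRS hR.2.2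
    ((key g hg).2.congr fun x hx => (e x (hRS hx)).symm))

end Cfsg.Agent.S5160
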