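import Cfsg.Statements.S5311
import Cfsg.Agent.H97.Comp

set_option autoImplicit false
open Cfsg

namespace Cfsg.Agent.S5311

open Cfsg.FusionSystem Cfsg.Agent.H97

/-- The layer of a saturated fusion system F over a finite p-group S is characteristic in F: for every automorphism α of S that is an automorphism of F (α and its inverse are morphisms from F to F) and every layer E of F over T, α carries T onto T and, for every map φ of E with source P, the map induced by α on α(P) (that is, α ∘ φ ∘ α⁻¹) is a map of E. -/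
theorem result {Ω : Type*} [Group Ω] {S : Subgroup Ω} [Finite S] (p : ℕ) [Fact p.Prime] (hS : IsPGroup p S) (F : Cfsg.FusionSystem S) (hF : F.IsSaturated p)
    (α : ↥S ≃* ↥S) (hα : F.IsMorphism F (S.subtype.comp α.toMonoidHom))
    (hα' : F.IsMorphism F (S.subtype.comp α.symm.toMonoidHom))
    {T : Subgroup Ω} (E : Cfsg.FusionSystem T) (hE : E.IsLayerOf F p) :
    Cfsg.FusionSystem.imageAlong (S.subtype.comp α.toMonoidHom) T = T ∧
      ∀ (P : Subgroup Ω) (φ : ↥P →* Ω), φ ∈ E.Hom P →
        ∀ φ' : ↥(Cfsg.FusionSystem.imageAlong (S.subtype.comp α.toMonoidHom) P) →* Ω,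
          Cfsg.FusionSystem.InducedAlong (S.subtype.comp α.toMonoidHom) φ φ' →
            φ' ∈ E.Hom (Cfsg.FusionSystem.imageAlong (S.subtype.comp α.toMonoidHom) P) := by
  set θ := fn (S.subtype.comp α.toMonoidHom) with hθ
  set θ' := fn (S.subtype.comp α.symm.toMonoidHom) with hθ'
  have m := isMorphism_iff.1 hα
  have m' := isMorphism_iff.1 hα'
  have l : ∀ x ∈ S, θ' (θ x) = x := fun x hx => by
    rw [hθ, hθ', fn_apply _ hx]
    exact (fn_coe _ (α ⟨x, hx⟩)).trans (by simp)
  have r : ∀ x ∈ S, θ (θ' x) = x := fun x hx => by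
    rw [hθ, hθ', fn_apply _ hx]
    exact (fn_coe _ (α.symm ⟨x, hx⟩)).trans (by simp)
  have g : H98.GIso S S θ θ' := ⟨homOn_fn _, m.1, m'.1, l, r⟩
  have h : H98.FsIso F F θ θ' := by
    refine ⟨g, fun P f hf => ?_, fun P f hf => ?_⟩
    · obtain ⟨f', hf', e⟩ := m.2 P f hf
      refine hf'.congr fun y hy => ?_
      obtain ⟨x, hx, rfl⟩ := (g.mem_img hf.le).1 hy
      rw [l x (hf.le hx)]
      exact e x hx
    · obtain ⟨f', hf', e⟩ := m'.2 P f hf
      refine hf'.congr fun y hy => ?_
      obtain ⟨x, hx, rfl⟩ := (g.symm.mem_img hf.le).1 hy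
      rw [r x (hf.le hx)]
      exact e x hx
  have hT := normalIn_le hE.1
  have k := (g.restrict hT).fsIso_push E
  have k' := (g.symm.restrict hT).fsIso_push E
  have s := layer_unique hE (fsIso_isLayerOf h k hE)
  have s' := layer_unique hE (fsIso_isLayerOf h.symm k' hE)
  refine ⟨?_, fun P φ hφ φ' hφ' => ?_⟩
  · rw [imageAlong_eq_img hT]
    refine le_antisymm ?_ (le_of_isSubsystemOf s)
    exact (img_mono θ (le_of_isSubsystemOf s')).trans (g.symm.img_img hT).le
  · obtain ⟨hP, h1, -, e⟩ := inducedAlong_iff.1 hφ'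
    have := k'.mor' _ _ ((mor_of_mem hφ).of_sub s')
    rw [mem_hom_iff]
    have e' : imageAlong (S.subtype.comp α.toMonoidHom) P = img P θ := imageAlong_eq_img hP
    have h2 : Mor E (img P θ) (fn φ') := this.congr fun y hy => by
      obtain ⟨x, hx, rfl⟩ := (g.mem_img hP).1 hy
      rw [l x (hP hx)]
      exact (e x hx).symm
    generalize fn φ' = f' at h2
    rwa [e']

end Cfsg.Agent.S5311
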