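import Cfsg.Statements.S5345
import Cfsg.Agent.H50.Width

set_option autoImplicit false
open Cfsg

namespace Cfsg.Agent.S5345

/-- Let D be a conjugation-invariant generating set of 3-transpositions of a finite group G and T a Sylow 2-subgroup of G. Then the members of D lying in T generate an abelian subgroup, and their number is the width of D (the largest number of pairwise commuting members of D). -/
theorem result {G : Type*} [Group G] [Finite G] {D : Set G} (hD : Cfsg.IsThreeTranspositionGroup D) (T : Sylow 2 G) : IsMulCommutative (Subgroup.closure {d : G | d ∈ D ∧ d ∈ T}) ∧ {d : G | d ∈ D ∧ d ∈ T}.ncard = Cfsg.commutingWidth D := by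
  have hc : ∀ (S : Sylow 2 G), ∀ a ∈ {d : G | d ∈ D ∧ d ∈ S}, ∀ b ∈ {d : G | d ∈ D ∧ d ∈ S}, Commute a b :=
    fun S a ha b hb => H50.tt_commute_of_mul_mem hD.1 (by norm_num) S.isPGroup' ha.1 hb.1
      (mul_mem ha.2 hb.2)
  refine ⟨⟨⟨fun x y => Subtype.ext ?_⟩⟩, le_antisymm (H50.ncard_le_width (fun _ h => h.1) (hc T)) ?_⟩
  · exact (H50.commute_closure (fun b hb =>
      (H50.commute_closure (fun a ha => hc T b hb a ha) x.2).symm) y.2).eq
  · obtain ⟨E, h1, h2, h3⟩ := H50.exists_ncard_eq_width D
    obtain ⟨S, hS⟩ := (H50.isPGroup_closure_of_commute (fun a ha => H50.tt_mul_self hD.1 (h1 ha)) h2).exists_le_sylow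
    obtain ⟨g, rfl⟩ := MulAction.exists_smul_eq G T S
    rw [← h3]
    refine Set.ncard_le_ncard_of_injOn (fun x => g⁻¹ * x * g⁻¹⁻¹) (fun x hx => ⟨hD.2.1 _ _ (h1 hx), ?_⟩)
      (fun x _ y _ h => by simpa using h) (Set.toFinite _)
    have := hS (Subgroup.subset_closure hx)
    rw [Sylow.coe_subgroup_smul, Subgroup.mem_pointwise_smul_iff_inv_smul_mem] at this
    show _ ∈ (T : Subgroup G)
    simpa using this

end Cfsg.Agent.S5345
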