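import Cfsg.Statements.S5346
import Cfsg.Agent.H50.Width

set_option autoImplicit false
open Cfsg

namespace Cfsg.Agent.S5346

/-- Let D be a conjugation-invariant generating set of 3-transpositions of a finite group G and d a member of D. Then D has width 1 (no two different members of D commute) if and only if G is the product of the subgroup generated by d with the largest normal 3-subgroup of G. -/
theorem result {G : Type*} [Group G] [Finite G] {D : Set G} (hD : Cfsg.IsThreeTranspositionGroup D) {d : G} (hd : d ∈ D) : Cfsg.commutingWidth D = 1 ↔ Subgroup.zpowers d ⊔ Cfsg.pCore 3 G = ⊤ := by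
  have hF := H50.FS.of_group hD
  rw [H50.width_eq_one_iff hd]
  constructor
  · intro h
    exact H50.zpowers_sup_eq_top hF hD.2.2 hd fun a ha =>
      H50.width_one_mul_mem_pCore hF hD.2.1 (H50.braid_of_width_one hF h) hd ha
  · intro h a ha b hb hab
    have key : ∀ x ∈ D, d * x ∈ pCore 3 G := fun x hx =>
      (H50.mem_or_mul_mem_of_sup (hF.sq _ hd) h x).resolve_left fun hx3 =>
        hF.ne_one x hx (H50.eq_one_of_isPGroup_of_pow (q := 2) (by norm_num) (H3.pCore_isPGroup 3 G) hx3
          (by rw [pow_two, hF.sq x hx]))
    refine H50.tt_eq_of_mul_mem hD.1 (by norm_num) (H3.pCore_isPGroup 3 G) ha hb ?_ hab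
    have := mul_mem (inv_mem (key a ha)) (key b hb)
    rwa [mul_inv_rev, H50.tt_inv hD.1 ha, mul_assoc, inv_mul_cancel_left] at this

end Cfsg.Agent.S5346
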