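import Cfsg.Statements.S5349
import Cfsg.Agent.H50.Cores

set_option autoImplicit false
open Cfsg

namespace Cfsg.Agent.S5349

/-- Let D be a conjugacy class of 3-transpositions generating the finite group G, with at least two members, and d a member of D. Then the set of members of D commuting with exactly the same members of D as d coincides with the set of members of D lying in the coset of d modulo the largest normal 2-subgroup of G, and also with the orbit of d under conjugation by that normal 2-subgroup. -/
theorem result {G : Type*} [Group G] [Finite G] {D : Set G} (hD : Cfsg.IsThreeTranspositionClass D) (hD2 : ∃ a ∈ D, ∃ b ∈ D, a ≠ b) {d : G} (hd : d ∈ D) : {v : G | v ∈ D ∧ ∀ e ∈ D, Commute v e ↔ Commute d e} = {v : G | v ∈ D ∧ d⁻¹ * v ∈ Cfsg.pCore 2 G} ∧ {v : G | v ∈ D ∧ ∀ e ∈ D, Commute v e ↔ Commute d e} = {v : G | ∃ g ∈ Cfsg.pCore 2 G, v = g * d * g⁻¹} := by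
  have hF := H50.FS.of_class hD
  constructor
  · ext v
    refine and_congr_right fun hv => ?_
    rw [H50.inv_eq_of_mul_self (hF.sq _ hd), ← H50.th_iff_mul_mem hF (H50.class_conj hD) hd hv]
    exact ⟨H50.Th.symm, H50.Th.symm⟩
  · ext v
    constructor
    · rintro ⟨hv, h⟩
      exact (H50.th_iff_conj hD hD2 hd hv).1 (H50.Th.symm h)
    · rintro ⟨g, hg, rfl⟩
      exact ⟨H50.class_conj hD g d hd,
        ((H50.th_iff_conj hD hD2 hd (H50.class_conj hD g d hd)).2 ⟨g, hg, rfl⟩).symm⟩

end Cfsg.Agent.S5349
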