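import Cfsg.Statements.S5352
import Cfsg.Agent.H50.FStar

set_option autoImplicit false
open Cfsg

namespace Cfsg.Agent.S5352

/-- Let D be a conjugacy class of 3-transpositions generating the finite group G, with at least two members, and suppose the largest normal 2-subgroup and the largest normal 3-subgroup of G are both central. Then G has a quasisimple normal subgroup L such that the generalized Fitting subgroup of G is the product of L and the centre; and either L = G or the image of D in G/L has width 1, in the sense that two members of D whose commutator lies in L have the same image modulo L. -/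
theorem result {G : Type*} [Group G] [Finite G] {D : Set G} (hD : Cfsg.IsThreeTranspositionClass D) (hD2 : ∃ a ∈ D, ∃ b ∈ D, a ≠ b) (h2 : Cfsg.pCore 2 G ≤ Subgroup.center G) (h3 : Cfsg.pCore 3 G ≤ Subgroup.center G) : ∃ L : Subgroup G, L.Normal ∧ Cfsg.IsQuasisimple L ∧ Cfsg.generalizedFittingSubgroup G = L ⊔ Subgroup.center G ∧ (L = ⊤ ∨ ∀ a ∈ D, ∀ b ∈ D, a * b * a⁻¹ * b⁻¹ ∈ L → a⁻¹ * b ∈ L) := by
  obtain ⟨L, hL⟩ := H50.exists_component hD hD2 h2 h3
  haveI := H50.component_normal (H50.class_group hD) hL
  refine ⟨L, inferInstance, hL.2, H50.fstar_eq_component_sup hD h2 h3 hL, Or.inr fun a ha b hb h => ?_⟩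
  rw [H50.tt_inv hD.1 ha]
  refine H50.mul_mem_component_of_quot hD hL ha hb ?_
  have := (QuotientGroup.eq_one_iff _).2 h
  rw [mul_assoc, ← mul_inv_rev, QuotientGroup.mk_mul, QuotientGroup.mk_inv, mul_inv_eq_one] at this
  exact this

end Cfsg.Agent.S5352
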