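import Cfsg.Statements.S5354
import Cfsg.Agent.H50.Rank3

set_option autoImplicit false
open Cfsg

namespace Cfsg.Agent.S5354

/-- Let D be a conjugation-invariant generating set of 3-transpositions of the finite group G on which G acts primitively by conjugation, and suppose two different members of D commute (width at least 2). Then G has a quasisimple normal subgroup L of index at most 2 with the generalized Fitting subgroup of G equal to L times the centre, the commuting graph of D is connected, and for d in D the subgroup generated by the members of D commuting with d is a maximal D-subgroup: it is proper, and every subgroup generated by members of D that contains it is either it or G. -/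
theorem result {G : Type*} [Group G] [Finite G] {D : Set G} (hD : Cfsg.IsThreeTranspositionGroup D) (hprim : Cfsg.IsPrimitiveUnderConj D) (hw : ∃ a ∈ D, ∃ b ∈ D, a ≠ b ∧ Commute a b) : (∃ L : Subgroup G, L.Normal ∧ Cfsg.IsQuasisimple L ∧ L.index ≤ 2 ∧ Cfsg.generalizedFittingSubgroup G = L ⊔ Subgroup.center G) ∧ (Cfsg.commutingGraph D).Connected ∧ ∀ d ∈ D, Subgroup.closure {y : G | y ∈ D ∧ Commute d y} ≠ ⊤ ∧ ∀ H : Subgroup G, Cfsg.IsDSubgroup D H → Subgroup.closure {y : G | y ∈ D ∧ Commute d y} ≤ H → H = Subgroup.closure {y : G | y ∈ D ∧ Commute d y} ∨ H = ⊤ := by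
  have h := H50.Prim.of_group hD hprim hw
  refine ⟨?_, h.connected, fun d hd => ⟨fun e => ?_, fun H hH hle => ?_⟩⟩
  · obtain ⟨L, h1, h2, -, h3, -, h4⟩ := h.exists_component
    exact ⟨L, h2, h1.2, h3, h4⟩
  · obtain ⟨a, ha, hda⟩ := h.exists_not_commute hd
    exact hda (H50.commute_of_mem_closure_perp (D := D) (by rw [e]; trivial))
  · by_cases h1 : ∀ a ∈ D, a ∈ H → Commute d a
    · left
      refine le_antisymm ?_ hle
      rw [← hH]
      exact Subgroup.closure_mono fun a ha => ⟨ha.1, h1 a ha.1 ha.2⟩
    · right
      push Not at h1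
      obtain ⟨a, ha, haH, hda⟩ := h1
      rw [eq_top_iff, ← hD.2.2, Subgroup.closure_le]
      intro b hb
      by_cases hdb : Commute d b
      · exact hle (Subgroup.subset_closure ⟨hb, hdb⟩)
      · obtain ⟨g, hg, rfl⟩ := h.trans_Ad hd ha hb hda hdb
        exact mul_mem (mul_mem (hle hg) haH) (inv_mem (hle hg))

end Cfsg.Agent.S5354
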