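import Cfsg.Statements.S5355
import Cfsg.Agent.H50.CTrans

set_option autoImplicit false
open Cfsg

namespace Cfsg.Agent.S5355

/-- Let D be a conjugacy class of 3-transpositions generating the finite group G, with at least two members, and d a member of D. Suppose that every member of D commuting with d commutes with exactly the same members of D as d does, and that exactly one member of D other than d commutes with d. Then G is isomorphic to the symmetric group of degree 4. -/
theorem result {G : Type*} [Group G] [Finite G] {D : Set G} (hD : Cfsg.IsThreeTranspositionClass D) (hD2 : ∃ a ∈ D, ∃ b ∈ D, a ≠ b) {d : G} (hd : d ∈ D) (hV : {y : G | y ∈ D ∧ Commute d y} = {v : G | v ∈ D ∧ ∀ e ∈ D, Commute v e ↔ Commute d e}) (hm : {y : G | y ∈ D ∧ Commute d y}.ncard = 2) : Nonempty (G ≃* Equiv.Perm (Fin 4)) := by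
  have hF := H50.FS.of_class hD
  have hT : ∀ a ∈ D, ∀ b ∈ D, ∀ c ∈ D, Commute a b → Commute b c → Commute a c := by
    intro a ha b hb c hc h1 h2
    obtain ⟨g, rfl⟩ := H50.class_trans hD hd hb
    have h3 : g⁻¹ * a * g ∈ {y : G | y ∈ D ∧ Commute d y} :=
      ⟨H50.conj_inv_mem (H50.class_conj hD) g a ha, (H50.commute_conj_iff' g).1 h1.symm⟩
    rw [hV] at h3
    have := (h3.2 _ (H50.conj_inv_mem (H50.class_conj hD) g c hc)).2 ((H50.commute_conj_iff' g).1 h2)
    have := (H50.commute_conj_iff g).2 this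
    simpa [mul_assoc] using this
  obtain ⟨e, he, hed, hde, hall⟩ : ∃ e ∈ D, e ≠ d ∧ Commute d e ∧
      ∀ y ∈ D, Commute d y → y = d ∨ y = e := by
    obtain ⟨x, y, hxy, h⟩ := Set.ncard_eq_two.1 hm
    have hx : x ∈ {y : G | y ∈ D ∧ Commute d y} := h ▸ (by simp)
    have hy : y ∈ {y : G | y ∈ D ∧ Commute d y} := h ▸ (by simp)
    have hd' : d ∈ ({x, y} : Set G) := h ▸ ⟨hd, Commute.refl d⟩
    have hz : ∀ z ∈ D, Commute d z → z ∈ ({x, y} : Set G) := fun z h1 h2 => h ▸ ⟨h1, h2⟩
    rcases hd' with rfl | rfl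
    · exact ⟨y, hy.1, hxy.symm, hy.2, hz⟩
    · exact ⟨x, hx.1, hxy, hx.2, fun z h1 h2 => (hz z h1 h2).symm⟩
  rcases H50.ct_struct hD hD2 hT hd with h | ⟨a, ha, hda, h⟩ | ⟨Q, hQ, inj, hop, q0, h⟩
  · exact absurd (h e he d hd hde.symm) hed
  · have hae : ¬ Commute a e := fun c => hda (hT _ hd _ he _ ha hde c.symm)
    obtain ⟨φ, e1, e2, e3⟩ := H50.exists_perm_four_hom (hF.sq _ hd) (hF.sq _ ha) (hF.sq _ he) hde
      (hF.br _ hd _ ha hda) (hF.br _ ha _ he hae)
    have inj := H50.perm_four_hom_injective φ (by rw [e1, e3]; exact hed.symm)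
    have key : ∀ g ∈ φ.range, ∀ x ∈ D, Commute x (g * d * g⁻¹) → x ∈ φ.range := by
      intro g hg x hx hc
      have m1 : d ∈ φ.range := ⟨_, e1⟩
      have m3 : e ∈ φ.range := ⟨_, e3⟩
      have : g⁻¹ * x * g ∈ φ.range := by
        rcases hall _ (H50.conj_inv_mem (H50.class_conj hD) g x hx)
          ((H50.commute_conj_iff' g).1 hc.symm) with h | h <;> rwa [h]
      have := mul_mem (mul_mem hg this) (inv_mem hg)
      simpa [mul_assoc] using this
    refine ⟨(MulEquiv.ofBijective φ ⟨inj, ?_⟩).symm⟩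
    rw [← MonoidHom.range_eq_top, eq_top_iff, ← hD.2.2, Subgroup.closure_le]
    intro x hx
    have m1 : d ∈ φ.range := ⟨_, e1⟩
    have m2 : a ∈ φ.range := ⟨_, e2⟩
    have hbr := hF.br _ hd _ ha hda
    rcases h x hx with h | h | h
    · exact key 1 (one_mem _) x hx (by simpa using h)
    · exact key _ (mul_mem m1 m2) x hx (by
        rwa [H50.conj_mul_of_braid (hF.sq _ hd) (hF.sq _ ha) hbr])
    · exact key _ m2 x hx (by rwa [H50.inv_eq_of_mul_self (hF.sq _ ha), ← hbr])
  · exfalso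
    have nq : ∀ x y, x ≠ y → ¬ Commute (Q x) (Q y) := fun x y hxy h => by
      rw [H50.commute_iff_conj_eq (hF.sq _ (hQ x)), hop, inj.eq_iff] at h
      revert x y; decide
    subst q0
    have h1 := H50.ct_z hF hT hd he (hQ ![1, 0]) (hQ ![0, 1]) hde hed.symm (nq _ _ (by decide))
      (nq _ _ (by decide)) (nq _ _ (by decide)) (by rw [hop]; exact nq _ _ (by decide))
    have h2 := H50.ag_central (fun y => hF.sq _ (hQ y)) hop 0 ![1, 0] ![0, 1] 0
    set z := Q 0 * Q ![1, 0] * Q ![0, 1] * (Q 0 * Q ![1, 0] * Q ![0, 1]) with hz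
    have h3 : z * e * z⁻¹ ≠ e := by
      convert h1 using 1
      simp only [hz, mul_inv_rev, H50.inv_eq_of_mul_self (hF.sq _ (hQ _)), mul_assoc]
    have h4 : z * Q 0 * z⁻¹ = Q 0 := H50.conj_eq_iff_commute.2 h2
    rcases hall _ (H50.class_conj hD z e he) (by rw [← h4]; exact (H50.commute_conj_iff z).2 hde)
      with h | h
    · rw [← h4] at h; exact hed (by simpa using h)
    · exact h3 h

end Cfsg.Agent.S5355
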