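import Cfsg.Statements.S5356
import Cfsg.Agent.H50.CTrans

set_option autoImplicit false
open Cfsg

namespace Cfsg.Agent.S5356

/-- Let D be a conjugacy class of 3-transpositions generating the finite group G, with at least two members, and d a member of D such that every member of D commuting with d commutes with exactly the same members of D as d. Then there is a Sylow 3-subgroup P of G normalized by d such that G is generated by d, P and the largest normal 2-subgroup of G. -/
theorem result {G : Type*} [Group G] [Finite G] {D : Set G} (hD : Cfsg.IsThreeTranspositionClass D) (hD2 : ∃ a ∈ D, ∃ b ∈ D, a ≠ b) {d : G} (hd : d ∈ D) (hV : {y : G | y ∈ D ∧ Commute d y} = {v : G | v ∈ D ∧ ∀ e ∈ D, Commute v e ↔ Commute d e}) : ∃ P : Sylow 3 G, d ∈ Subgroup.normalizer (P : Set G) ∧ Subgroup.zpowers d ⊔ (P : Subgroup G) ⊔ Cfsg.pCore 2 G = ⊤ := by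
  have hF := H50.FS.of_class hD
  have hT : ∀ a ∈ D, ∀ b ∈ D, ∀ c ∈ D, Commute a b → Commute b c → Commute a c := by
    intro a ha b hb c hc h1 h2
    obtain ⟨g, rfl⟩ := H50.class_trans hD hd hb
    have h3 : g⁻¹ * a * g ∈ {y : G | y ∈ D ∧ Commute d y} :=
      ⟨H50.conj_inv_mem (H50.class_conj hD) g a ha, (H50.commute_conj_iff' g).1 h1.symm⟩
    rw [hV] at h3
    have := (h3.2 _ (H50.conj_inv_mem (H50.class_conj hD) g c hc)).2 ((H50.commute_conj_iff' g).1 h2)
    have := (H50.commute_conj_iff g).2 this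
    simpa [mul_assoc] using this
  obtain ⟨P, hP, hn, htop⟩ := H50.ct_reps hD hD2 hT hd
  haveI : Fact (Nat.Prime 3) := ⟨Nat.prime_three⟩
  haveI : Fact (Nat.Prime 2) := ⟨Nat.prime_two⟩
  have hd2 := hF.sq _ hd
  have hidx : ¬ 3 ∣ P.index := by
    set O := pCore 2 G
    haveI : O.Normal := inferInstance
    obtain ⟨k, hk⟩ := IsPGroup.iff_card.1 (H3.pCore_isPGroup 2 G)
    have h1 : Nat.card G ∣ 2 * Nat.card P * 2 ^ k := by
      rw [Subgroup.card_eq_card_quotient_mul_card_subgroup O, ← hk]
      refine Nat.mul_dvd_mul_right ?_ _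
      have h2 : O.index = O.relIndex (Subgroup.zpowers d ⊔ P) := by
        rw [← Subgroup.relIndex_sup_right, htop, Subgroup.relIndex_top_right]
      change O.index ∣ _
      rw [h2]
      refine (Subgroup.relIndex_dvd_card _ _).trans ?_
      rw [← (P.subgroupOf (Subgroup.zpowers d ⊔ P)).index_mul_card, Nat.card_congr
        (Subgroup.subgroupOfEquivOfLe (le_sup_right : P ≤ Subgroup.zpowers d ⊔ P)).toEquiv]
      refine Nat.mul_dvd_mul_right (Subgroup.relIindex_dvd_two_iff'.2
        ⟨d, Subgroup.mem_sup_left (Subgroup.mem_zpowers d), fun b hb => ?_⟩) _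
      exact (H50.mem_or_of_mem_sup hd2 hn hb).symm
    intro h3
    rw [← P.index_mul_card, mul_right_comm] at h1
    have := h3.trans (Nat.dvd_of_mul_dvd_mul_right Nat.card_pos h1)
    rw [← pow_succ'] at this
    have := Nat.prime_three.dvd_of_dvd_pow this
    omega
  refine ⟨hP.toSylow hidx, ?_, htop⟩
  exact Subgroup.mem_normalizer_fintype (fun x hx => by
    rw [H50.inv_eq_of_mul_self hd2]; exact hn x hx)

end Cfsg.Agent.S5356
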