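import Cfsg.Statements.S5359
import Cfsg.Agent.H47.Orth3
import Cfsg.Agent.H47.OrthGen
import Cfsg.Agent.S0788

set_option autoImplicit false
open scoped MatrixGroups
open Cfsg

namespace Cfsg.Agent.S5359

open Matrix QuadraticMap Cfsg.Agent.H47
open scoped commutatorElement

theorem refl_mul_refl_mem_of_perp {n : ℕ} (Q : QuadraticForm (ZMod 3) (Fin n → ZMod 3))
    (c : ZMod 3) (hc : c ≠ 0) {u v : Fin n → ZMod 3} (hu : Q u = -c) (hv : Q v = -c)
    (huv : polar Q u v = 0) : reflIso Q u * reflIso Q v ∈ reflectionSubgroup Q c := by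
  have h3 : (3 : ZMod 3) = 0 := rfl
  have hw : Q (u - v) = c := by
    rw [sub_eq_add_neg, QuadraticMap.map_add Q, QuadraticMap.map_neg, polar_neg_right, hu, hv, huv]
    linear_combination (-c) * h3
  have h1 : reflectionMatrix Q (u - v) *ᵥ u = v := by
    rw [reflectionMatrix_mulVec, hw, polar_sub_left, polar_self3, hu, polar_comm Q v u, huv,
      neg_neg, sub_zero, inv_mul_cancel₀ hc, one_smul, sub_sub_cancel]
  have h2 : reflIso Q v = reflIso Q (u - v) * reflIso Q u * (reflIso Q (u - v))⁻¹ := by
    rw [conj_reflIso, reflIso_coe, h1]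
  have hm := reflIso_mem_reflectionSubgroup Q c hw
  have := (reflectionSubgroup_normal Q c).conj_mem _ hm (reflIso Q u)
  rw [h2, show reflIso Q u * (reflIso Q (u - v) * reflIso Q u * (reflIso Q (u - v))⁻¹) =
    (reflIso Q u * reflIso Q (u - v) * (reflIso Q u)⁻¹) * (reflIso Q (u - v))⁻¹ by
      rw [reflIso_inv Q u]; group]
  exact Subgroup.mul_mem _ this (Subgroup.inv_mem _ hm)

theorem refl_mul_refl_mem {n : ℕ} (hn : 5 ≤ n) (Q : QuadraticForm (ZMod 3) (Fin n → ZMod 3))
    (hQ : (QuadraticMap.polarBilin Q).Nondegenerate)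
    (c : ZMod 3) (hc : c ≠ 0) {u v : Fin n → ZMod 3} (hu : Q u = -c) (hv : Q v = -c) :
    reflIso Q u * reflIso Q v ∈ reflectionSubgroup Q c := by
  have hc' : -c ≠ 0 := neg_ne_zero.mpr hc
  obtain ⟨t, ht, h1, h2⟩ := exists_common_perp Q hQ (by simpa using hn) (hu ▸ hc')
    (hu.trans hv.symm) (-c) hc'
  have a := refl_mul_refl_mem_of_perp Q c hc hu ht h1
  have b := refl_mul_refl_mem_of_perp Q c hc ht hv ((polar_comm _ _ _).trans h2)
  have := Subgroup.mul_mem _ a b
  rwa [mul_assoc, ← mul_assoc (reflIso Q t), reflIso_mul_self, one_mul] at this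

/-- The reflection subgroup has index two for every `n ≥ 5`. -/
theorem index_eq_two {n : ℕ} (hn : 5 ≤ n) (Q : QuadraticForm (ZMod 3) (Fin n → ZMod 3))
    (hQ : (QuadraticMap.polarBilin Q).Nondegenerate) (c : ZMod 3) (hc : c ≠ 0) :
    (reflectionSubgroup Q c).index = 2 := by
  have hc' : -c ≠ 0 := neg_ne_zero.mpr hc
  have hN := reflectionSubgroup_normal Q c
  obtain ⟨u, hu⟩ := exists_norm Q hQ (by simp; omega) (-c) hc'
  obtain ⟨w, hw⟩ := exists_norm Q hQ (by simp; omega) c hc
  have hgen := closure_reflIso Q hQ (Or.inl (by simp))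
  -- every element is in `R` or in `R * r_u`
  have hcov : ∀ g : isometryGroup (ZMod 3) Q, g ∈ reflectionSubgroup Q c ∨
      g * reflIso Q u ∈ reflectionSubgroup Q c := by
    intro g
    have hg : g ∈ Subgroup.closure _ := hgen ▸ Subgroup.mem_top g
    induction hg using Subgroup.closure_induction with
    | mem x hx =>
      obtain ⟨v, hv, rfl⟩ := hx
      rcases zmod3_eq_or _ c hv hc with h | h
      · exact Or.inl (reflIso_mem_reflectionSubgroup Q c h)
      · exact Or.inr (refl_mul_refl_mem hn Q hQ c hc h hu)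
    | one => exact Or.inl (Subgroup.one_mem _)
    | mul x y _ _ hx hy =>
      rcases hx with hx | hx <;> rcases hy with hy | hy
      · exact Or.inl (Subgroup.mul_mem _ hx hy)
      · exact Or.inr (by rw [mul_assoc]; exact Subgroup.mul_mem _ hx hy)
      · right
        have := Subgroup.mul_mem _ hx (hN.conj_mem _ hy (reflIso Q u)⁻¹)
        rwa [show x * reflIso Q u * ((reflIso Q u)⁻¹ * y * (reflIso Q u)⁻¹⁻¹) =
          x * y * reflIso Q u by group] at this
      · left
        have := Subgroup.mul_mem _ hx (hN.conj_mem _ hy (reflIso Q u)⁻¹)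
        rwa [show x * reflIso Q u * ((reflIso Q u)⁻¹ * (y * reflIso Q u) * (reflIso Q u)⁻¹⁻¹) =
          x * y * (reflIso Q u * reflIso Q u) by group, reflIso_mul_self, mul_one] at this
    | inv x _ hx =>
      rcases hx with hx | hx
      · exact Or.inl (Subgroup.inv_mem _ hx)
      · right
        have := hN.conj_mem _ (Subgroup.inv_mem _ hx) (reflIso Q u)
        rwa [show reflIso Q u * (x * reflIso Q u)⁻¹ * (reflIso Q u)⁻¹ =
          x⁻¹ * (reflIso Q u)⁻¹ by group, reflIso_inv] at this
  -- `r_u` is not in `R`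
  have hnot : reflIso Q u ∉ reflectionSubgroup Q c := by
    intro hmem
    have htop : reflectionSubgroup Q c = ⊤ := by
      rw [eq_top_iff]
      intro g _
      rcases hcov g with h | h
      · exact h
      · exact (Subgroup.mul_mem_cancel_right _ hmem).1 h
    have h4 := Cfsg.Agent.S0788.result (F := ZMod 3) (by decide) (n := n) (by omega) Q hQ
    let π := QuotientGroup.mk' (commutator (isometryGroup (ZMod 3) Q))
    have hle : reflectionSubgroup Q c ≤ (Subgroup.zpowers (π (reflIso Q w))).comap π := by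
      rw [reflectionSubgroup, Subgroup.closure_le]
      intro g hg
      obtain ⟨v, hv, rfl⟩ := (mem_reflectionsOfNorm_iff Q c g).1 hg
      obtain ⟨k, hk⟩ := exists_iso_mulVec_eq Q hQ (u := w) (v := v)
        (by rintro rfl; simp at hw; exact hc hw.symm) (by rintro rfl; simp at hv; exact hc hv.symm)
        (hw.trans hv.symm)
      have : π (reflIso Q v) = π (reflIso Q w) := by
        rw [← hk, ← conj_reflIso]
        apply QuotientGroup.eq.2
        rw [show (k * reflIso Q w * k⁻¹)⁻¹ * reflIso Q w = ⁅k, (reflIso Q w)⁻¹⁆ by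
          rw [commutatorElement_def]; group]
        exact Subgroup.commutator_mem_commutator (Subgroup.mem_top _) (Subgroup.mem_top _)
      rw [SetLike.mem_coe, Subgroup.mem_comap, this]
      exact Subgroup.mem_zpowers _
    have hz : Subgroup.zpowers (π (reflIso Q w)) = ⊤ := by
      rw [eq_top_iff]
      intro x _
      obtain ⟨g, rfl⟩ := QuotientGroup.mk'_surjective _ x
      exact hle (htop ▸ Subgroup.mem_top g)
    have hcard : Nat.card (Subgroup.zpowers (π (reflIso Q w))) = 4 := by
      rw [hz, Subgroup.card_top]; exact h4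
    rw [Nat.card_zpowers] at hcard
    have : orderOf (π (reflIso Q w)) ∣ 2 := by
      apply orderOf_dvd_of_pow_eq_one
      rw [← map_pow, pow_two, reflIso_mul_self, map_one]
    rw [hcard] at this
    omega
  rw [Subgroup.index_eq_two_iff]
  refine ⟨reflIso Q u, fun b => ?_⟩
  by_cases hb : b ∈ reflectionSubgroup Q c
  · exact Or.inr ⟨hb, fun h => hnot ((Subgroup.mul_mem_cancel_left _ hb).1 h)⟩
  · exact Or.inl ⟨(hcov b).resolve_left hb, hb⟩

/-- Let Q be a non-degenerate quadratic form on the n-dimensional coordinate space over the field with three elements, n odd and at least 5, and c a non-zero scalar. Then the subgroup of the isometry group of Q generated by the reflections in vectors of norm c has index 2 in the isometry group. -/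
theorem result (n : ℕ) (hn : 5 ≤ n) (hodd : Odd n) (Q : QuadraticForm (ZMod 3) (Fin n → ZMod 3)) (hQ : (QuadraticMap.polarBilin Q).Nondegenerate) (c : ZMod 3) (hc : c ≠ 0) : (Cfsg.reflectionSubgroup (⇑Q) c).index = 2 := by
  exact index_eq_two hn Q hQ c hc

end Cfsg.Agent.S5359
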