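import Cfsg.Statements.S5360
import Cfsg.Agent.H47.Orth3
import Cfsg.Agent.S5349
import Cfsg.Agent.S5350
import Cfsg.Agent.S5352
import Cfsg.Agent.S5353

set_option autoImplicit false
open scoped MatrixGroups
open Cfsg

namespace Cfsg.Agent.S5360

open Matrix QuadraticMap Cfsg.Agent.H47

theorem le_center_of_fix {G : Type*} [Group G] {D : Set G} (hgen : Subgroup.closure D = ⊤)
    (N : Subgroup G) (h : ∀ d ∈ D, ∀ g ∈ N, g * d * g⁻¹ = d) : N ≤ Subgroup.center G := by
  intro g hg
  have : Subgroup.closure D ≤ Subgroup.centralizer {g} := by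
    rw [Subgroup.closure_le]
    intro d hd
    rw [SetLike.mem_coe, Subgroup.mem_centralizer_singleton_iff]
    have := h d hd g hg
    rw [mul_inv_eq_iff_eq_mul] at this
    exact this.symm
  rw [Subgroup.mem_center_iff]
  intro x
  exact Subgroup.mem_centralizer_singleton_iff.1 (this (hgen ▸ Subgroup.mem_top x))

theorem eq_commutator {G : Type*} [Group G] [Finite G] (L : Subgroup G) [L.Normal]
    (hL : Group.IsPerfect L) (hi : L.index ≤ 2) : L = commutator G := by
  apply le_antisymm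
  · have h := hL.commutator_eq_top
    have h2 : (commutator L).map L.subtype = L := by
      rw [h, ← MonoidHom.range_eq_map, Subgroup.range_subtype]
    rw [← h2, commutator_def, Subgroup.map_commutator, commutator_def]
    exact Subgroup.commutator_mono le_top le_top
  · have h0 : L.index ≠ 0 := Subgroup.index_ne_zero_of_finite
    have hc : IsCyclic (G ⧸ L) := by
      rcases (by omega : L.index = 1 ∨ L.index = 2) with h | h
      · have : Subsingleton (G ⧸ L) := (Nat.card_eq_one_iff_unique.mp h).1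
        exact isCyclic_of_subsingleton
      · exact isCyclic_of_prime_card (p := 2) h
    rw [← Subgroup.Normal.quotient_commutative_iff_commutator_le]
    exact ⟨⟨fun a b => hc.commGroup.mul_comm a b⟩⟩

variable {n : ℕ}

theorem exists_sep_perp (hn : 5 ≤ n) (Q : QuadraticForm (ZMod 3) (Fin n → ZMod 3))
    (hQ : (QuadraticMap.polarBilin Q).Nondegenerate) (c : ZMod 3) (hc : c ≠ 0)
    {u v : Fin n → ZMod 3} (hu : Q u = c) (hv : Q v = c) (h : polar Q u v = 0) :
    ∃ e, Q e = c ∧ polar Q u e = 0 ∧ polar Q v e ≠ 0 ∧ e ≠ v ∧ e ≠ -v := by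
  have hn' : 5 ≤ Module.finrank (ZMod 3) (Fin n → ZMod 3) := by simpa using hn
  obtain ⟨a, ha, ha1, ha2⟩ := exists_perp_norm2 Q hQ (by omega) (hu ▸ hc) (hv ▸ hc) h 1 one_ne_zero
  obtain ⟨b, hb, hb1, hb2, hb3⟩ := exists_perp_norm3 Q hQ hn' (hu ▸ hc) (hv ▸ hc)
    (ha ▸ one_ne_zero) h ha1 ha2 (-1) (by decide)
  have hva : polar Q a (v + (a + b)) = -1 := by
    rw [polar_add_right, polar_add_right, polar_comm Q a v, ha2, hb3, polar_self3, ha]; simp
  refine ⟨v + (a + b), ?_, ?_, ?_, ?_, ?_⟩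
  · rw [QuadraticMap.map_add Q, QuadraticMap.map_add Q, polar_add_right, ha, hb, hb3, ha2, hb2, hv]
    ring
  · rw [polar_add_right, polar_add_right, h, ha1, hb1]; simp
  · rw [polar_add_right, polar_add_right, ha2, hb2, polar_self3, hv]; simpa using hc
  · intro h'
    rw [h', polar_comm, ha2] at hva
    exact absurd hva (by decide)
  · intro h'
    rw [h', polar_neg_right, polar_comm, ha2] at hva
    exact absurd hva (by decide)

theorem exists_sep_nonperp (Q : QuadraticForm (ZMod 3) (Fin n → ZMod 3))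
    (hQ : (QuadraticMap.polarBilin Q).Nondegenerate) (c : ZMod 3) (hc : c ≠ 0)
    {u v : Fin n → ZMod 3} (hu : Q u = c) (hv : Q v = c) (h : polar Q u v ≠ 0)
    (h1 : v ≠ u) (h2 : v ≠ -u) :
    ∃ e, Q e = c ∧ polar Q u e = 0 ∧ polar Q v e ≠ 0 := by
  obtain ⟨s, hs, hus, hv'⟩ := exists_singular_diff Q (hu ▸ hc) (hu.trans hv.symm) h
  have hs0 : s ≠ 0 := by
    rintro rfl
    rcases hv' with h | h
    · exact h1 (by simpa using h)
    · exact h2 (by simpa using h)
  obtain ⟨s', hs', hus', hss'⟩ := exists_hyp_partner Q hQ (hu ▸ hc) hs hs0 hus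
  have e1 : polar Q u (s' + c • s) = 0 := by
    rw [polar_add_right, polar_smul_right, hus, hus']; simp
  have e2 : polar Q s (s' + c • s) = 1 := by
    rw [polar_add_right, polar_smul_right, hss', polar_self3, hs]; simp
  refine ⟨s' + c • s, ?_, e1, ?_⟩
  · rw [QuadraticMap.map_add Q, QuadraticMap.map_smul, polar_smul_right, polar_comm Q s' s, hss',
      hs, hs']; simp
  · rcases hv' with rfl | rfl
    · rw [polar_add_left, e1, e2]; decide
    · rw [polar_neg_left, polar_add_left, e1, e2]; decide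

/-- Let Q be a non-degenerate quadratic form on the n-dimensional coordinate space over the field with three elements, n ≥ 5, c a non-zero scalar, and R the subgroup of the isometry group generated by the reflections of norm c. Then the commutator subgroup of R is quasisimple of index at most 2, the generalized Fitting subgroup of R is the product of the centre and the commutator subgroup, and R acts primitively by conjugation on its reflections of norm c. -/
theorem result (n : ℕ) (hn : 5 ≤ n) (Q : QuadraticForm (ZMod 3) (Fin n → ZMod 3)) (hQ : (QuadraticMap.polarBilin Q).Nondegenerate) (c : ZMod 3) (hc : c ≠ 0) : Cfsg.IsQuasisimple (commutator ↥(Cfsg.reflectionSubgroup (⇑Q) c)) ∧ (commutator ↥(Cfsg.reflectionSubgroup (⇑Q) c)).index ≤ 2 ∧ Cfsg.generalizedFittingSubgroup ↥(Cfsg.reflectionSubgroup (⇑Q) c) = Subgroup.center ↥(Cfsg.reflectionSubgroup (⇑Q) c) ⊔ commutator ↥(Cfsg.reflectionSubgroup (⇑Q) c) ∧ Cfsg.IsPrimitiveUnderConj {g : ↥(Cfsg.reflectionSubgroup (⇑Q)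 c) | (g : ↥(Cfsg.isometryGroup (ZMod 3) (⇑Q))) ∈ Cfsg.reflectionsOfNorm (⇑Q) c} := by
  have hn' : 5 ≤ Module.finrank (ZMod 3) (Fin n → ZMod 3) := by simpa using hn
  have hD := refl3_threeTranspositionClass Q hQ (by rw [Fintype.card_fin]; omega) c hc
  set D := {g : reflectionSubgroup Q c | (g : isometryGroup (ZMod 3) Q) ∈ reflectionsOfNorm Q c}
    with hDdef
  have hmem : ∀ v (hv : Q v = c), reflR Q c v hv ∈ D := fun v hv =>
    (mem_reflClass_iff Q c _).2 ⟨v, hv, rfl⟩
  have hne : ∀ {u v} (hu : Q u = c) (hv : Q v = c), polar Q u v = 0 →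
      reflR Q c u hu ≠ reflR Q c v hv := by
    intro u v hu hv h h'
    rcases (reflR_eq_iff Q hc hu hv).1 h' with rfl | rfl
    · rw [polar_self3, hu] at h; exact hc (neg_eq_zero.mp h)
    · rw [polar_neg_right, polar_self3, hu, neg_neg] at h; exact hc h
  have hD2 : ∃ a ∈ D, ∃ b ∈ D, a ≠ b := by
    obtain ⟨u, hu⟩ := exists_norm Q hQ (by omega) c hc
    obtain ⟨v, hv, huv⟩ := exists_perp_norm1 Q hQ (by omega) (hu ▸ hc) c hc
    exact ⟨_, hmem u hu, _, hmem v hv, hne hu hv huv⟩
  have h2 : pCore 2 (reflectionSubgroup Q c) ≤ Subgroup.center _ := by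
    apply le_center_of_fix hD.2.2
    intro d hd g hg
    have h := Cfsg.Agent.S5349.result hD hD2 hd
    have hx : g * d * g⁻¹ ∈ {v | v ∈ D ∧ ∀ e ∈ D, Commute v e ↔ Commute d e} := by
      rw [h.2]; exact ⟨g, hg, rfl⟩
    obtain ⟨u, hu, rfl⟩ := (mem_reflClass_iff Q c d).1 hd
    obtain ⟨v, hv, hv'⟩ := (mem_reflClass_iff Q c _).1 hx.1
    have hx2 := hx.2
    rw [hv'] at hx2 ⊢
    by_cases huv : polar Q u v = 0
    · exfalso
      obtain ⟨e, he, h1, h2, h3, h4⟩ := exists_sep_perp hn Q hQ c hc hu hv huv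
      have := (hx2 _ (hmem e he)).2 ((commute_reflR_iff Q hc hu he).2 (Or.inl h1))
      rcases (commute_reflR_iff Q hc hv he).1 this with h | h | h
      exacts [h2 h, h3 h, h4 h]
    · have := (hx2 _ (hmem u hu)).2 (Commute.refl _)
      rcases (commute_reflR_iff Q hc hu hv).1 this.symm with h | h
      · exact absurd h huv
      · exact ((reflR_eq_iff Q hc hu hv).2 h).symm
  have h3 : pCore 3 (reflectionSubgroup Q c) ≤ Subgroup.center _ := by
    apply le_center_of_fix hD.2.2
    intro d hd g hg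
    have h := Cfsg.Agent.S5350.result hD hD2 hd
    have hx : g * d * g⁻¹ ∈ {w | w ∈ D ∧ {y | y ∈ D ∧ y ≠ d ∧ Commute d y} =
        {y | y ∈ D ∧ y ≠ w ∧ Commute w y}} := by
      rw [h.2]; exact ⟨g, hg, rfl⟩
    obtain ⟨u, hu, rfl⟩ := (mem_reflClass_iff Q c d).1 hd
    obtain ⟨v, hv, hv'⟩ := (mem_reflClass_iff Q c _).1 hx.1
    have hx2 := hx.2
    rw [hv'] at hx2 ⊢
    by_contra hcon
    by_cases huv : polar Q u v = 0
    · have : reflR Q c v hv ∈ {y | y ∈ D ∧ y ≠ reflR Q c u hu ∧ Commute (reflR Q c u hu) y} :=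
        ⟨hmem v hv, hcon, (commute_reflR_iff Q hc hu hv).2 (Or.inl huv)⟩
      rw [hx2] at this
      exact this.2.1 rfl
    · have hcon' : ¬ (v = u ∨ v = -u) := fun h => hcon ((reflR_eq_iff Q hc hu hv).2 h).symm
      push Not at hcon'
      obtain ⟨e, he, h1, h2⟩ := exists_sep_nonperp Q hQ c hc hu hv huv hcon'.1 hcon'.2
      have : reflR Q c e he ∈ {y | y ∈ D ∧ y ≠ reflR Q c u hu ∧ Commute (reflR Q c u hu) y} :=
        ⟨hmem e he, (hne hu he h1).symm, (commute_reflR_iff Q hc hu he).2 (Or.inl h1)⟩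
      rw [hx2] at this
      rcases (commute_reflR_iff Q hc hv he).1 this.2.2 with h | h
      · exact h2 h
      · exact this.2.1 ((reflR_eq_iff Q hc hv he).2 h).symm
  have hconn : (commutingGraph D).Connected := by
    have hadj : ∀ {u v} (hu : Q u = c) (hv : Q v = c), polar Q u v = 0 →
        (commutingGraph D).Adj ⟨_, hmem u hu⟩ ⟨_, hmem v hv⟩ := by
      intro u v hu hv h
      rw [commutingGraph, SimpleGraph.fromRel_adj]
      exact ⟨fun h' => hne hu hv h (congrArg Subtype.val h'),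
        Or.inl ((commute_reflR_iff Q hc hu hv).2 (Or.inl h))⟩
    obtain ⟨a, ha, -⟩ := hD2
    have : Nonempty D := ⟨⟨a, ha⟩⟩
    refine ⟨?_⟩
    rintro ⟨d, hd⟩ ⟨e, he⟩
    obtain ⟨u, hu, rfl⟩ := (mem_reflClass_iff Q c d).1 hd
    obtain ⟨v, hv, rfl⟩ := (mem_reflClass_iff Q c e).1 he
    obtain ⟨t, ht, h1, h2⟩ := exists_common_perp Q hQ hn' (hu ▸ hc) (hu.trans hv.symm) c hc
    exact (hadj hu ht h1).reachable.trans (hadj hv ht h2).reachable.symm
  obtain ⟨L, hLn, hL, hF, -⟩ := Cfsg.Agent.S5352.result hD hD2 h2 h3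
  obtain ⟨h4, h5⟩ := Cfsg.Agent.S5353.result hD hD2 h2 h3 L hL hF
  have hi := h5 hconn
  have hLe := eq_commutator L hL.1 hi
  subst hLe
  exact ⟨hL, hi, by rw [hF, sup_comm], h4 hi⟩

end Cfsg.Agent.S5360
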