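import Cfsg.Statements.S5361
import Cfsg.Agent.H50.Rank3

set_option autoImplicit false
open Cfsg

namespace Cfsg.Agent.S5361

/-- Let D be a conjugacy class of 3-transpositions generating the finite group G, and suppose the centre of G is trivial and some two different members of D commute. Then the following are equivalent: (1) the commutator subgroup of G is simple (possibly of prime order); (2) G acts primitively on D by conjugation; (3) the largest normal 2-subgroup and the largest normal 3-subgroup of G are trivial and the commuting graph of D is connected. -/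
theorem result {G : Type*} [Group G] [Finite G] {D : Set G} (hD : Cfsg.IsThreeTranspositionClass D) (hZ : Subgroup.center G = ⊥) (hw : ∃ a ∈ D, ∃ b ∈ D, a ≠ b ∧ Commute a b) : (IsSimpleGroup (commutator G) ↔ Cfsg.IsPrimitiveUnderConj D) ∧ (Cfsg.IsPrimitiveUnderConj D ↔ (Cfsg.pCore 2 G = ⊥ ∧ Cfsg.pCore 3 G = ⊥ ∧ (Cfsg.commutingGraph D).Connected)) := by
  have hD2 : ∃ a ∈ D, ∃ b ∈ D, a ≠ b := let ⟨a, ha, b, hb, h, _⟩ := hw; ⟨a, ha, b, hb, h⟩
  refine ⟨⟨fun h => (H50.Prim.of_simple hD h ?_).prim, fun h => ?_⟩, ⟨fun h => ?_, fun h => ?_⟩⟩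
  · by_contra hn
    push Not at hn
    obtain ⟨a, ha, b, hb, hab, hc⟩ := hw
    obtain ⟨e, he, hae⟩ := H50.class_exists_not_commute hD hD2 ha
    have h1 := congrArg Subtype.val (hn ⟨_, H50.mul_mem_commutator hD ha hb⟩
      ⟨_, H50.mul_mem_commutator hD ha he⟩)
    have h2 : Commute (a * b) (a * e) := h1
    have h3 : Commute (a * b) a := ((Commute.refl a).mul_left hc.symm)
    have h4 : Commute (a * b) (a * (a * e)) := h3.mul_right h2
    rw [H50.mul_mul_cancel_of_mul_self (H50.tt_mul_self hD.1 ha)] at h4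
    exact hae (H50.tt_commute_mul hD.1 ha hb he hab hc h4.symm).symm
  · have hP : H50.Prim D := ⟨hD, h, hw⟩
    obtain ⟨L, h1, h2, -, -, rfl, -⟩ := hP.exists_component
    refine H52.IsQuasisimple.isSimpleGroup_of_center_eq_bot h1.2 ?_
    have h3 := H52.IsComponent.center_le_fitting h1
    rw [H50.fitting_eq_center (H50.class_group hD) hP.pCore_two hP.pCore_three, hZ, le_bot_iff,
      ← H52.map_center_subtype, Subgroup.map_eq_bot_iff_of_injective _ (Subgroup.subtype_injective _)] at h3
    exact h3
  · have hP : H50.Prim D := ⟨hD, h, hw⟩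
    exact ⟨le_bot_iff.1 (hZ ▸ hP.pCore_two), le_bot_iff.1 (hZ ▸ hP.pCore_three), hP.connected⟩
  · obtain ⟨L, hL⟩ := H50.exists_component hD hD2 (by rw [h.1]; exact bot_le) (by rw [h.2.1]; exact bot_le)
    exact H50.prim_of_component_index hD hD2 hL
      (H50.index_le_two_of_cconn hD hL (H50.connected_iff_cconn.1 h.2.2).2).2

end Cfsg.Agent.S5361
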