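import Cfsg.Statements.S5363
import Cfsg.Agent.H50.Width

set_option autoImplicit false
open Cfsg

namespace Cfsg.Agent.S5363

/-- Let D be a conjugation-invariant set of involutions of a finite group G. Then every product of two members of D has odd order or order 2 if and only if, for every a in D and every b in D different from a and commuting with a, the members of D commuting with a b are exactly those commuting with both a and b. -/
theorem result {G : Type*} [Group G] [Finite G] {D : Set G} (hinv : ∀ d ∈ D, orderOf d = 2) (hconj : ∀ g : G, ∀ d ∈ D, g * d * g⁻¹ ∈ D) : (∀ a ∈ D, ∀ b ∈ D, Odd (orderOf (a * b)) ∨ orderOf (a * b) = 2) ↔ ∀ a ∈ D, ∀ b ∈ D, b ≠ a → Commute a b → {y : G | y ∈ D ∧ Commute (a * b) y} = {y : G | y ∈ D ∧ Commute a y} ∩ {y : G | y ∈ D ∧ Commute b y} := by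
  have sq : ∀ d ∈ D, d * d = 1 := fun d hd => H50.mul_self_of_orderOf_two (hinv d hd)
  constructor
  · intro h
    have key : ∀ a ∈ D, ∀ b ∈ D, b ≠ a → Commute a b → ∀ y ∈ D, Commute (a * b) y → Commute a y := by
      intro a ha b hb hba hab y hy hc
      by_contra hay
      have hz2 : (a * b) ^ 2 = 1 := (H50.commute_iff_sq (sq a ha) (sq b hb)).1 hab
      have hz1 : a * b ≠ 1 := fun h1 => hba (by
        rw [eq_inv_of_mul_eq_one_right h1, H50.inv_eq_of_mul_self (sq a ha)])
      have hodd : Odd (orderOf (y * a)) := (h y hy a ha).resolve_right fun h2 =>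
        hay ((H50.commute_iff_sq (sq y hy) (sq a ha)).2 (by rw [← h2, pow_orderOf_eq_one])).symm
      have e1 : y * b = (y * a) * (a * b) := by
        rw [mul_assoc, H50.mul_mul_cancel_of_mul_self (sq a ha)]
      have hcz : Commute (y * a) (a * b) := hc.symm.mul_left ((Commute.refl a).mul_right hab)
      rcases h y hy b hb with h2 | h2
      · have h3 := pow_orderOf_eq_one (y * b)
        have h4 : (y * b) ^ (orderOf (y * b) * orderOf (y * a)) = 1 := by rw [pow_mul, h3, one_pow]
        obtain ⟨k, hk⟩ := h2.mul hodd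
        rw [e1, hcz.mul_pow, ← e1, mul_comm (orderOf (y * b)), pow_mul, pow_orderOf_eq_one, one_pow,
          one_mul, mul_comm (orderOf (y * a)), hk, pow_succ, pow_mul, hz2, one_pow, one_mul] at h4
        exact hz1 h4
      · have h3 : (y * b) ^ 2 = 1 := by rw [← h2, pow_orderOf_eq_one]
        rw [e1, hcz.mul_pow, hz2, mul_one] at h3
        exact hay ((H50.commute_iff_sq (sq y hy) (sq a ha)).2 h3).symm
    intro a ha b hb hba hab
    ext y
    constructor
    · rintro ⟨hy, hc⟩
      exact ⟨⟨hy, key a ha b hb hba hab y hy hc⟩,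
        ⟨hy, key b hb a ha hba.symm hab.symm y hy (by rwa [← hab.eq])⟩⟩
    · rintro ⟨⟨hy, h1⟩, ⟨-, h2⟩⟩
      exact ⟨hy, h1.mul_left h2⟩
  · intro h a ha b hb
    rcases Nat.even_or_odd (orderOf (a * b)) with ⟨m, hm⟩ | hodd
    swap
    · exact Or.inl hodd
    right
    have ia := H50.inv_eq_of_mul_self (sq a ha)
    have ib := H50.inv_eq_of_mul_self (sq b hb)
    have hpos : 0 < orderOf (a * b) := orderOf_pos _
    have hinvert : ∀ k : ℕ, a * (a * b) ^ k * a = ((a * b) ^ k)⁻¹ := by
      intro k
      have : a * (a * b) * a⁻¹ = (a * b)⁻¹ := by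
        rw [mul_inv_rev, ia, ib, H50.mul_mul_cancel_of_mul_self (sq a ha)]
      rw [← inv_pow, ← this, conj_pow, ia]
    have hz : (a * b) ^ m * (a * b) ^ m = 1 := by rw [← pow_add, ← hm, pow_orderOf_eq_one]
    have hz1 : (a * b) ^ m ≠ 1 := pow_ne_one_of_lt_orderOf (by omega) (by omega)
    have haz : Commute a ((a * b) ^ m) := by
      rw [H50.commute_iff_conj_eq (sq a ha), hinvert, H50.inv_eq_of_mul_self hz]
    have hbz : Commute ((a * b) ^ m) b := by
      have : Commute ((a * b) ^ m) (a * (a * b)) := haz.symm.mul_right ((Commute.refl _).pow_left m)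
      rwa [H50.mul_mul_cancel_of_mul_self (sq a ha)] at this
    have hsw : ∀ k : ℕ, a * (a * b) ^ k = ((a * b) ^ k)⁻¹ * a := by
      intro k; rw [← hinvert, mul_assoc, sq a ha, mul_one]
    have hmem : a * (a * b) ^ m ∈ D := by
      rcases Nat.even_or_odd' m with ⟨k, rfl | rfl⟩
      · have := hconj ((a * b) ^ k)⁻¹ a ha
        rwa [inv_inv, ← hsw, mul_assoc, ← pow_add, ← two_mul] at this
      · have := hconj ((a * b) ^ k)⁻¹ b hb
        have e : b = a * (a * b) := (H50.mul_mul_cancel_of_mul_self (sq a ha) b).symm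
        have e2 : ((a * b) ^ k)⁻¹ * b * (a * b) ^ k = a * (a * b) ^ (2 * k + 1) := by
          conv_lhs => rw [show ((a * b) ^ k)⁻¹ * b = ((a * b) ^ k)⁻¹ * a * (a * b) by rw [mul_assoc, ← e]]
          rw [← hsw, mul_assoc, mul_assoc, ← pow_succ', ← pow_add]
          congr 2; ring
        rwa [inv_inv, e2] at this
    have h1 := h a ha _ hmem (by simpa using hz1) ((Commute.refl a).mul_right haz)
    have h2 : b ∈ {y : G | y ∈ D ∧ Commute (a * (a * (a * b) ^ m)) y} :=
      ⟨hb, by rwa [H50.mul_mul_cancel_of_mul_self (sq a ha)]⟩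
    rw [h1] at h2
    have h3 := (H50.commute_iff_sq (sq a ha) (sq b hb)).1 h2.1.2
    refine orderOf_eq_prime h3 fun h4 => ?_
    rw [h4, orderOf_one] at hm
    omega

end Cfsg.Agent.S5363
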