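import Cfsg.Statements.S5364
import Cfsg.Agent.H50.Width

set_option autoImplicit false
open Cfsg

namespace Cfsg.Agent.S5364

/-- Let D be a conjugation-invariant set of involutions of a finite group G and t an involution in the centre of G such that d t does not lie in D for any d in D. If the images of the members of D in G modulo the subgroup generated by t satisfy the 3-transposition order conditions (each has order 2 and any two have product of order at most 3), then so do the members of D. -/
theorem result {G : Type*} [Group G] [Finite G] {D : Set G} (hinv : ∀ d ∈ D, orderOf d = 2) (hconj : ∀ g : G, ∀ d ∈ D, g * d * g⁻¹ ∈ D) (t : G) (ht : orderOf t = 2) (htZ : t ∈ Subgroup.center G) (hDt : ∀ d ∈ D, d * t ∉ D) [(Subgroup.zpowers t).Normal] (himg : Cfsg.IsThreeTranspositionSet ((QuotientGroup.mk : G → G ⧸ Subgroup.zpowers t) '' D)) : Cfsg.IsThreeTranspositionSet D := by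
  have ht2 := H50.mul_self_of_orderOf_two ht
  have hc : ∀ g, g * t = t * g := Subgroup.mem_center_iff.1 htZ
  refine ⟨hinv, fun a ha b hb => ?_⟩
  have ha2 := H50.mul_self_of_orderOf_two (hinv a ha)
  have hb2 := H50.mul_self_of_orderOf_two (hinv b hb)
  have hab : a * b * a ∈ D := by have := hconj a b hb; rwa [H50.inv_eq_of_mul_self ha2] at this
  have hba : b * a * b ∈ D := by have := hconj b a ha; rwa [H50.inv_eq_of_mul_self hb2] at this
  rcases himg.2 _ ⟨a, ha, rfl⟩ _ ⟨b, hb, rfl⟩ with h | h
  · rw [← QuotientGroup.mk_mul, ← QuotientGroup.mk_pow, QuotientGroup.eq_one_iff] at h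
    rcases H50.mem_zpowers_invol ht2 h with h | h
    · exact Or.inl h
    · exfalso
      apply hDt b hb
      have : b * t = a * b * a := by
        rw [hc, ← h, pow_two]; simp only [mul_assoc, hb2, mul_one]
      rwa [this]
  · rw [← QuotientGroup.mk_mul, ← QuotientGroup.mk_pow, QuotientGroup.eq_one_iff] at h
    rcases H50.mem_zpowers_invol ht2 h with h | h
    · exact Or.inr h
    · exfalso
      apply hDt _ hba
      have : b * a * b * t = a * b * a := by
        rw [hc, ← h]
        simp only [pow_succ, pow_zero, one_mul, mul_assoc, H50.mul_mul_cancel_of_mul_self hb2,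
          H50.mul_mul_cancel_of_mul_self ha2, hb2, mul_one]
      rwa [this]

end Cfsg.Agent.S5364
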