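import Cfsg.Statements.S5365
import Cfsg.Agent.H50.SymFive

set_option autoImplicit false
open Cfsg

namespace Cfsg.Agent.S5365

/-- Let D be a non-empty conjugation-invariant set of involutions of a finite group G satisfying the 3-transposition order conditions, and suppose that for every d in D the members of D other than d commuting with d generate a subgroup isomorphic to the symmetric group of degree 3, and the largest normal 3-subgroup of the centralizer of d has order 3. Then the subgroup generated by D is isomorphic to the symmetric group of degree 5 or to the direct product of two symmetric groups of degree 3. -/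
theorem result {G : Type*} [Group G] [Finite G] {D : Set G} (hD : Cfsg.IsThreeTranspositionSet D) (hconj : ∀ g : G, ∀ d ∈ D, g * d * g⁻¹ ∈ D) (hne : D.Nonempty) (hloc : ∀ d ∈ D, Nonempty (↥(Subgroup.closure {y : G | y ∈ D ∧ y ≠ d ∧ Commute d y}) ≃* Equiv.Perm (Fin 3)) ∧ Nat.card (Cfsg.pCore 3 ↥(Subgroup.centralizer ({d} : Set G))) = 3) : Nonempty (↥(Subgroup.closure D) ≃* Equiv.Perm (Fin 5)) ∨ Nonempty (↥(Subgroup.closure D) ≃* Equiv.Perm (Fin 3) × Equiv.Perm (Fin 3)) := by
  have hF := H50.FS.of_conj hD hconj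
  have loc : ∀ d ∈ D, (∃ a ∈ H50.Dx D d, ∃ b ∈ H50.Dx D d, a ≠ b) ∧ ∀ x ∈ H50.Dx D d,
      ∀ y ∈ H50.Dx D d, x ≠ y → ¬ Commute x y ∧ ∀ z ∈ H50.Dx D d, z = x ∨ z = y ∨ z = x * y * x := by
    intro d hd
    obtain ⟨e⟩ : Nonempty (Subgroup.closure (H50.Dx D d) ≃* Equiv.Perm (Fin 3)) := (hloc d hd).1
    have hS := (hF.Dx d).sub
    constructor
    · by_contra hn
      push Not at hn
      have key : ∀ g k : Subgroup.closure (H50.Dx D d), Commute g k := fun g k =>
        H50.commute_closure (E := H50.sub (H50.Dx D d)) (fun y hy => (H50.commute_closure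
          (E := H50.sub (H50.Dx D d)) (fun z hz => by rw [Subtype.ext (hn _ hy _ hz)]; exact Commute.refl _)
          (by rw [H50.closure_sub]; trivial)).symm) (by rw [H50.closure_sub]; trivial)
      have := (key (e.symm (Equiv.swap 0 1)) (e.symm (Equiv.swap 1 2))).map e
      simp only [MulEquiv.apply_symm_apply] at this
      revert this; unfold Commute SemiconjBy; decide
    · intro x hx y hy hxy
      have k : ∀ x y : Equiv.Perm (Fin 3), x * x = 1 → x ≠ 1 → y * y = 1 → y ≠ 1 → x ≠ y →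
          x * y ≠ y * x ∧ ∀ z, z * z = 1 → z ≠ 1 → z = x ∨ z = y ∨ z = x * y * x := by decide
      have k1 : ∀ z (hz : z ∈ H50.Dx D d), e ⟨z, Subgroup.subset_closure hz⟩ *
          e ⟨z, Subgroup.subset_closure hz⟩ = 1 := fun z hz => by
        rw [← map_mul, hS.sq ⟨z, Subgroup.subset_closure hz⟩ hz, map_one]
      have k2 : ∀ z (hz : z ∈ H50.Dx D d), e ⟨z, Subgroup.subset_closure hz⟩ ≠ 1 := fun z hz h =>
        hS.ne_one _ hz ((map_eq_one_iff e e.injective).1 h)
      obtain ⟨k3, k4⟩ := k _ _ (k1 x hx) (k2 x hx) (k1 y hy) (k2 y hy)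
        (fun h => hxy (congrArg Subtype.val (e.injective h)))
      refine ⟨fun c => k3 (by rw [← map_mul, ← map_mul]; exact congrArg e (Subtype.ext c)),
        fun z hz => ?_⟩
      simpa only [← map_mul, e.injective.eq_iff, Subtype.ext_iff, Subgroup.coe_mul] using k4 _ (k1 z hz) (k2 z hz)
  have hT : ∀ a ∈ D, ∀ b ∈ D, ∀ c ∈ D, Commute a b → Commute a c → a ≠ b → a ≠ c →
      b * c * b = c * b * c := fun a ha b hb c hc h1 h2 h3 h4 => by
    by_cases e : b = c
    · rw [e]
    · exact hF.br _ hb _ hc ((loc a ha).2 b ⟨hb, h3.symm, h1⟩ c ⟨hc, h4.symm, h2⟩ e).1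
  obtain ⟨d, hd⟩ := hne
  obtain ⟨a, ha, b, hb, hab⟩ := (loc d hd).1
  obtain ⟨nab, hda⟩ := (loc d hd).2 a ha b hb hab
  have hd' : d ∈ H50.Dx D a := ⟨hd, ha.2.1.symm, ha.2.2.symm⟩
  obtain ⟨e, he, hde⟩ : ∃ e ∈ H50.Dx D a, d ≠ e := by
    obtain ⟨x, hx, y, hy, hxy⟩ := (loc a ha.1).1
    by_cases h : d = x
    exacts [⟨y, hy, h ▸ hxy⟩, ⟨x, hx, h⟩]
  obtain ⟨nde, had⟩ := (loc a ha.1).2 d hd' e he hde
  by_cases hbe : Commute b e
  · right
    have neb : b ≠ e := by rintro rfl; exact nde hb.2.2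
    have ha' : a ∈ H50.Dx D e := ⟨ha.1, he.2.1.symm, he.2.2.symm⟩
    have hb' : b ∈ H50.Dx D e := ⟨hb.1, neb, hbe.symm⟩
    have hdb : d ∈ H50.Dx D b := ⟨hd, hb.2.1.symm, hb.2.2.symm⟩
    have heb : e ∈ H50.Dx D b := ⟨he.1, neb.symm, hbe⟩
    have hc : a * b * a ∈ H50.Dx D d := (hF.Dx d).conj _ ha _ hb
    have hc' : a * b * a ∈ H50.Dx D e := (hF.Dx e).conj _ ha' _ hb'
    have hf : d * e * d ∈ H50.Dx D a := (hF.Dx a).conj _ hd' _ he
    have hf' : d * e * d ∈ H50.Dx D b := (hF.Dx b).conj _ hdb _ heb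
    have hall : ∀ x ∈ D, (x = d ∨ x = e ∨ x = d * e * d) ∨ (x = a ∨ x = b ∨ x = a * b * a) := by
      intro x hx
      by_contra hn
      rw [not_or] at hn
      obtain ⟨n1, n2⟩ := hn
      have c1 : ∀ y ∈ D, a ∈ H50.Dx D y → b ∈ H50.Dx D y → x ≠ y → ¬ Commute x y :=
        fun y hy k1 k2 k3 c => n2 (((loc y hy).2 a k1 b k2 hab).2 x ⟨hx, k3, c.symm⟩)
      have c2 : ∀ y ∈ D, d ∈ H50.Dx D y → e ∈ H50.Dx D y → x ≠ y → ¬ Commute x y :=
        fun y hy k1 k2 k3 c => n1 (((loc y hy).2 d k1 e k2 hde).2 x ⟨hx, k3, c.symm⟩)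
      push Not at n1 n2
      have xd := c1 d hd ha hb n1.1
      have xe := c1 e he.1 ha' hb' n1.2.1
      have xf := c1 _ hf.1 ⟨ha.1, hf.2.1.symm, hf.2.2.symm⟩ ⟨hb.1, hf'.2.1.symm, hf'.2.2.symm⟩ n1.2.2
      have xa := c2 a ha.1 hd' he n2.1
      have xb := c2 b hb.1 hdb heb n2.2.1
      have xc := c2 _ hc.1 ⟨hd, hc.2.1.symm, hc.2.2.symm⟩ ⟨he.1, hc'.2.1.symm, hc'.2.2.symm⟩ n2.2.2
      have t1 : d * e ∈ pCore 3 G := H50.Ta.mul_mem_pCore hF hconj hd he.1 (H50.ta_iff_set.1
        (Set.ext fun z => ⟨fun hz => by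
            rcases hda z hz with rfl | rfl | rfl
            exacts [ha', hb', hc'], fun hz => by
            rcases ((loc e he.1).2 a ha' b hb' hab).2 z hz with rfl | rfl | rfl
            exacts [ha, hb, hc]⟩))
      have t2 : a * b ∈ pCore 3 G := H50.Ta.mul_mem_pCore hF hconj ha.1 hb.1 (H50.ta_iff_set.1
        (Set.ext fun z => ⟨fun hz => by
            rcases had z hz with rfl | rfl | rfl
            exacts [hdb, heb, hf'], fun hz => by
            rcases ((loc b hb.1).2 d hdb e heb hde).2 z hz with rfl | rfl | rfl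
            exacts [hd', he, hf]⟩))
      obtain ⟨Q, hQ, -, hop, q0, q1, q2, -⟩ := H50.exists_ag hF hd he.1 hx nde (fun c => xd c.symm)
        (fun c => xe c.symm) (fun c => xf ((H50.commute_iconj_iff' (hF.sq _ hd)).1 c.symm))
      have z1 := H50.ag_central (fun y => hF.sq _ (hQ y)) hop 0 ![1, 0] ![0, 1]
      have z2 := z1 0
      have z3 := z1 ![0, 1]
      rw [q0, q1, q2] at z2 z3
      have z4 := H50.s33_z hF hT hd he.1 ha.1 hb.1 hx nde nab ha.2.2 ha.2.1.symm hb.2.2 hb.2.1.symm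
        he.2.2.symm he.2.1 hbe.symm neb.symm xd xe xf xa xb xc
      have z5 : d * e * x * (d * e * x) ∈ pCore 3 G := by
        have := mul_mem t1 (H50.iconj_mem_of_normal (hF.sq _ hx) _ t1)
        simpa only [mul_assoc] using this
      have z6 : d * e * x * (d * e * x) ≠ 1 := fun h => z4 (by
        have e' : ∀ z : G, z = 1 → z * a * z⁻¹ = a := by rintro z rfl; simp
        convert e' _ h using 1
        simp only [mul_inv_rev, H50.inv_eq_of_mul_self (hF.sq _ hd), H50.inv_eq_of_mul_self (hF.sq _ hx),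
          H50.inv_eq_of_mul_self (hF.sq _ he.1), mul_assoc])
      generalize d * e * x * (d * e * x) = z at z2 z3 z5 z6
      haveI : Fact (Nat.Prime 3) := ⟨Nat.prime_three⟩
      have m1 : z ∈ Subgroup.centralizer ({d} : Set G) := Subgroup.mem_centralizer_singleton_iff.2 z2
      have m2 : a * b ∈ Subgroup.centralizer ({d} : Set G) :=
        Subgroup.mem_centralizer_singleton_iff.2 (ha.2.2.mul_right hb.2.2).symm
      obtain ⟨k, hk⟩ := mem_zpowers_of_prime_card (hloc d hd).2
        (g := ⟨⟨z, m1⟩, H3.pCore_subgroupOf_le _ z5⟩) (g' := ⟨⟨_, m2⟩, H3.pCore_subgroupOf_le _ t2⟩)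
        (fun h => z6 (congrArg Subtype.val (congrArg Subtype.val h)))
      have hk' : z ^ k = a * b := by
        simpa using congrArg Subtype.val (congrArg Subtype.val hk)
      have := H50.conj_eq_iff_commute.2 (hk' ▸ z3.zpow_left k)
      apply H50.ag_ne hF ha.1 hb.1 hx nab xa xb xc
      rw [mul_inv_rev, H50.inv_eq_of_mul_self (hF.sq _ ha.1), H50.inv_eq_of_mul_self (hF.sq _ hb.1)] at this
      rw [H50.iconj_eq_iff (hF.sq _ ha.1)]
      simpa only [mul_assoc] using this.symm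
    obtain ⟨φ, e1, e2, e3⟩ := H50.exists_perm_three_hom (hF.sq _ hd) (hF.sq _ he.1) (hF.br _ hd _ he.1 nde)
    obtain ⟨ψ, f1, f2, f3⟩ := H50.exists_perm_three_hom (hF.sq _ ha.1) (hF.sq _ hb.1)
      (hF.br _ ha.1 _ hb.1 nab)
    have i1 := H50.perm_three_hom_injective φ (by rwa [e1, e2])
    have i2 := H50.perm_three_hom_injective ψ (by rwa [f1, f2])
    have gen : ∀ (σ : Equiv.Perm (Fin 3)) (K : Subgroup (Equiv.Perm (Fin 3))), Equiv.swap 0 1 ∈ K →
        Equiv.swap 1 2 ∈ K → σ ∈ K := fun σ K k1 k2 => by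
      have : σ = 1 ∨ σ = Equiv.swap 0 1 ∨ σ = Equiv.swap 1 2 ∨ σ = Equiv.swap 0 1 * Equiv.swap 1 2 ∨
        σ = Equiv.swap 1 2 * Equiv.swap 0 1 ∨ σ = Equiv.swap 0 1 * Equiv.swap 1 2 * Equiv.swap 0 1 := by
        revert σ; decide
      rcases this with rfl | rfl | rfl | rfl | rfl | rfl <;> apply_rules [one_mem, mul_mem]
    have cm : ∀ σ τ, Commute (φ σ) (ψ τ) := fun σ τ => by
      have : ∀ y, Commute d y → Commute e y → Commute (φ σ) y := fun y k1 k2 =>
        Subgroup.mem_centralizer_singleton_iff.1 (gen σ ((Subgroup.centralizer {y}).comap φ)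
          (Subgroup.mem_centralizer_singleton_iff.2 (e1 ▸ k1))
          (Subgroup.mem_centralizer_singleton_iff.2 (e2 ▸ k2)))
      exact (Subgroup.mem_centralizer_singleton_iff.1 (gen τ ((Subgroup.centralizer {φ σ}).comap ψ)
        (Subgroup.mem_centralizer_singleton_iff.2 (f1 ▸ (this a ha.2.2 ha'.2.2).symm))
        (Subgroup.mem_centralizer_singleton_iff.2 (f2 ▸ (this b hb.2.2 hb'.2.2).symm)))).symm
    have inj : Function.Injective (φ.noncommCoprod ψ cm) := by
      rw [injective_iff_map_eq_one]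
      rintro ⟨σ, τ⟩ h
      rw [MonoidHom.noncommCoprod_apply] at h
      have h1 : σ = 1 := by
        rw [← Subgroup.mem_bot, ← H50.center_perm_eq_bot (le_refl 3), Subgroup.mem_center_iff]
        intro ρ
        apply i1
        rw [map_mul, map_mul, eq_inv_of_mul_eq_one_left h]
        exact (cm ρ τ).inv_right
      rw [h1, map_one, one_mul, map_eq_one_iff _ i2] at h
      exact Prod.ext h1 h
    have hr : (φ.noncommCoprod ψ cm).range = Subgroup.closure D := by
      apply le_antisymm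
      · rintro _ ⟨⟨σ, τ⟩, rfl⟩
        exact mul_mem (gen σ ((Subgroup.closure D).comap φ) (by
            rw [Subgroup.mem_comap, e1]; exact Subgroup.subset_closure hd) (by
            rw [Subgroup.mem_comap, e2]; exact Subgroup.subset_closure he.1))
          (gen τ ((Subgroup.closure D).comap ψ) (by
            rw [Subgroup.mem_comap, f1]; exact Subgroup.subset_closure ha.1) (by
            rw [Subgroup.mem_comap, f2]; exact Subgroup.subset_closure hb.1))
      · rw [Subgroup.closure_le]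
        intro x hx
        rcases hall x hx with (h | h | h) | (h | h | h) <;> rw [h]
        exacts [⟨(_, 1), by simpa using e1⟩, ⟨(_, 1), by simpa using e2⟩, ⟨(_, 1), by simpa using e3⟩,
          ⟨(1, _), by simpa using f1⟩, ⟨(1, _), by simpa using f2⟩, ⟨(1, _), by simpa using f3⟩]
    exact ⟨(MulEquiv.subgroupCongr hr.symm).trans (MonoidHom.ofInjective inj).symm⟩
  · left
    have hed : ¬ Commute e d := fun c => nde c.symm
    obtain ⟨S, hS, p, hp, e1, e2, e3, e4⟩ := H50.exists_s5 hF ha.1 hb.1 he.1 hd nab hbe hed he.2.2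
      he.2.1.symm ha.2.2.symm ha.2.1 hb.2.2.symm hb.2.1
    have aS : a ∈ S := e1 ▸ hp.mem _ (by simp [H50.symX])
    have bS : b ∈ S := e2 ▸ hp.mem _ (by simp [H50.symX])
    have eS : e ∈ S := e3 ▸ hp.mem _ (by simp [H50.symX])
    have dS : d ∈ S := e4 ▸ hp.mem _ (by simp [H50.symX])
    have cj := hp.conj_mem
    have key := H50.s5_perp_subset hF hS hp (by
      rw [e4]
      intro z hz
      rcases hda z hz with rfl | rfl | rfl
      exacts [aS, bS, cj _ aS _ bS])
    have : S = D := Set.Subset.antisymm hS fun x hx => by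
      by_contra hn
      have k : ∀ y ∈ S, ¬ Commute x y := fun y hy c =>
        hn (key y hy ⟨hx, by rintro rfl; exact hn hy, c.symm⟩)
      exact H50.s5_ext hF hT ha.1 hb.1 he.1 hd hx nab hbe hed he.2.2
        he.2.1.symm ha.2.2.symm ha.2.1 hb.2.2.symm hb.2.1 (k _ aS) (k _ bS) (k _ eS) (k _ dS)
        (k _ (cj _ aS _ bS)) (k _ (cj _ bS _ eS)) (k _ (cj _ eS _ dS)) (k _ (cj _ aS _ (cj _ bS _ eS)))
        (k _ (cj _ bS _ (cj _ eS _ dS))) (k _ (cj _ aS _ (cj _ bS _ (cj _ eS _ dS))))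
    exact H50.IsSym.closure_equiv ⟨p, this ▸ hp⟩ hF.sq (by norm_num)

end Cfsg.Agent.S5365
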