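import Cfsg.Statements.S5366
import Cfsg.Agent.H50.Planes

set_option autoImplicit false
open Cfsg

namespace Cfsg.Agent.S5366

open Cfsg.LineSystem H50

def Tri {X : Type*} (L : Set (Set X)) (x y z : X) : Prop :=
  z ≠ x ∧ z ≠ y ∧ x ≠ y ∧ ({x, y, z} : Set X) ∈ L

def Rl {X : Type*} (L : Set (Set X)) (x y z : X) : Prop :=
  Tri L x y z ∨ (z = y ∧ ¬ ∃ w, Tri L x y w)

def PP {X : Type*} (L : Set (Set X)) : Prop :=
  ∀ x a b c a' b' c' : X, Tri L a b c → Rl L x a a' → Rl L x b b' → Rl L x c c' →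
    ({a', b', c'} : Set X) ∈ L

theorem pp_model {Y : Type*} (M : Set (Set Y)) (op : Y → Y → Y)
    (hM : ∀ l, l ∈ M ↔ ∃ x y, op x y ≠ y ∧ ∀ z, z ∈ l ↔ (z = x ∨ z = y ∨ z = op y x))
    (h1 : ∀ u v, op u v ≠ v → op v u = op u v ∧ op u v ≠ u ∧ op u (op u v) = v ∧
      op (op u v) u = v ∧ u ≠ v)
    (h2 : ∀ x u v, op u v ≠ v → op (op x u) (op x v) = op x (op u v) ∧ op x (op u v) ≠ op x v) :
    PP M := by
  have t : ∀ x y z, Tri M x y z ↔ op x y ≠ y ∧ z = op x y := by
    intro x y z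
    constructor
    · rintro ⟨a1, a2, a3, h⟩
      obtain ⟨u, v, huv, h⟩ := (hM _).1 h
      obtain ⟨b1, b2, b3, b4, b5⟩ := h1 u v huv
      obtain ⟨c1, c2, c3, c4, c5⟩ := h1 v u (by rw [b1]; exact b2)
      rw [b1] at c2 c3 c4 h
      have hx := (h x).1 (by simp)
      have hy := (h y).1 (by simp)
      have hz := (h z).1 (by simp)
      obtain ⟨d1, -⟩ := h1 u (op u v) (by rw [b3]; exact huv.symm)
      obtain ⟨d2, -⟩ := h1 v (op u v) (by rw [c3]; exact b2.symm)
      clear h h1 h2 hM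
      rcases hx with rfl | rfl | rfl <;> rcases hy with rfl | rfl | rfl <;>
        rcases hz with rfl | rfl | rfl <;> grind
    · rintro ⟨h, rfl⟩
      obtain ⟨b1, b2, b3, b4, b5⟩ := h1 x y h
      exact ⟨b2, h, b5, (hM _).2 ⟨x, y, h, fun z => by simp [b1]⟩⟩
  have r : ∀ x y z, Rl M x y z → z = op x y := by
    rintro x y z (h | ⟨rfl, h⟩)
    · exact ((t _ _ _).1 h).2
    · by_contra hne
      exact h ⟨_, (t _ _ _).2 ⟨Ne.symm hne, rfl⟩⟩
  intro x a b c a' b' c' h ha hb hc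
  rw [r _ _ _ ha, r _ _ _ hb, r _ _ _ hc]
  obtain ⟨k, rfl⟩ := (t _ _ _).1 h
  obtain ⟨k1, k2⟩ := h2 x a b k
  exact ((t _ _ _).2 ⟨by rwa [k1], k1.symm⟩).2.2.2

theorem pp_ag : PP affinePlaneThree :=
  pp_model _ (fun x y => -x - y) mem_ag_iff (by decide +kernel) (by decide +kernel)

theorem pp_da : PP dualAffinePlaneTwo :=
  pp_model _ daOp mem_da_iff (by decide +kernel) (by decide +kernel)

theorem tri_iso {X Y : Type*} {L : Set (Set X)} {M : Set (Set Y)} {e : X ≃ Y} (h : IsIso L M e)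
    (x y z : X) : Tri L x y z ↔ Tri M (e x) (e y) (e z) := by
  unfold Tri
  rw [h, Set.image_insert_eq, Set.image_pair]
  simp only [Ne, e.apply_eq_iff_eq]

theorem rl_iso {X Y : Type*} {L : Set (Set X)} {M : Set (Set Y)} {e : X ≃ Y} (h : IsIso L M e)
    (x y z : X) : Rl L x y z ↔ Rl M (e x) (e y) (e z) := by
  unfold Rl
  rw [tri_iso h, e.apply_eq_iff_eq, e.surjective.exists]
  simp only [← tri_iso h]

theorem pp_iso {X Y : Type*} {L : Set (Set X)} {M : Set (Set Y)} (h : Isomorphic L M)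
    (hM : PP M) : PP L := by
  obtain ⟨e, h⟩ := h
  intro x a b c a' b' c' h0 ha hb hc
  rw [h, Set.image_insert_eq, Set.image_pair]
  exact hM (e x) _ _ _ _ _ _ ((tri_iso h _ _ _).1 h0) ((rl_iso h _ _ _).1 ha) ((rl_iso h _ _ _).1 hb)
    ((rl_iso h _ _ _).1 hc)

theorem mem_restrict {X : Type*} {L : Set (Set X)} {S : Set X} (x y z : S) :
    ({x, y, z} : Set S) ∈ restrict L S ↔ ({(x : X), (y : X), (z : X)} : Set X) ∈ L := by
  constructor
  · rintro ⟨l, hl, hlS, e⟩
    convert hl using 1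
    ext w
    constructor
    · rintro (rfl | rfl | rfl)
      exacts [(Set.ext_iff.1 e x).1 (by simp), (Set.ext_iff.1 e y).1 (by simp),
        (Set.ext_iff.1 e z).1 (by simp)]
    · intro hw
      have := (Set.ext_iff.1 e ⟨w, hlS hw⟩).2 hw
      simpa [Subtype.ext_iff] using this
  · intro h
    refine ⟨_, h, ?_, ?_⟩
    · rintro w (rfl | rfl | rfl)
      exacts [x.2, y.2, z.2]
    · ext w; simp [Subtype.ext_iff]

theorem tri_restrict {X : Type*} {L : Set (Set X)} {S : Set X} (x y z : S) :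
    Tri (restrict L S) x y z ↔ Tri L x y z := by
  unfold Tri
  rw [mem_restrict]
  simp only [Ne, Subtype.ext_iff]

theorem tri_mem {X : Type*} {L : Set (Set X)} {S : Set X} (hS : IsSubspace L S) {x y z : X}
    (hx : x ∈ S) (hy : y ∈ S) (h : Tri L x y z) : z ∈ S :=
  hS _ h.2.2.2 x hx y hy h.2.2.1 (by simp) (by simp) (by simp)

theorem rl_restrict {X : Type*} {L : Set (Set X)} {S : Set X} (hS : IsSubspace L S) (x y z : S)
    (h : Rl L x y z) : Rl (restrict L S) x y z := by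
  rcases h with h | ⟨h, h'⟩
  · exact Or.inl ((tri_restrict _ _ _).2 h)
  · exact Or.inr ⟨Subtype.ext h, fun ⟨w, hw⟩ => h' ⟨w, (tri_restrict _ _ _).1 hw⟩⟩

theorem rl_mem {X : Type*} {L : Set (Set X)} {S : Set X} (hS : IsSubspace L S) {x y z : X}
    (hx : x ∈ S) (hy : y ∈ S) (h : Rl L x y z) : z ∈ S := by
  rcases h with h | ⟨rfl, -⟩
  exacts [tri_mem hS hx hy h, hy]

theorem span_subspace {X : Type*} (L : Set (Set X)) (A : Set X) : IsSubspace L (span L A) :=
  fun l hl x hx y hy hxy h1 h2 w hw T hT => hT.2 l hl x (hx T hT) y (hy T hT) hxy h1 h2 hw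

theorem subset_span {X : Type*} (L : Set (Set X)) (A : Set X) : A ⊆ span L A :=
  fun _ hx _ hT => hT.1 hx

theorem tri_unique {X : Type*} {L : Set (Set X)} (hL : IsPartialLinear L) {x y z w : X}
    (h : Tri L x y z) (h' : Tri L x y w) : z = w := by
  have := hL _ h.2.2.2 _ h'.2.2.2 x y h.2.2.1 (by simp) (by simp) (by simp) (by simp)
  have hz : z ∈ ({x, y, w} : Set X) := this ▸ (by simp)
  rcases hz with e | e | e
  exacts [absurd e h.1, absurd e h.2.1, e]

theorem rl_unique {X : Type*} {L : Set (Set X)} (hL : IsPartialLinear L) {x y z w : X}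
    (h : Rl L x y z) (h' : Rl L x y w) : z = w := by
  rcases h with h | ⟨rfl, h⟩ <;> rcases h' with h' | ⟨rfl, h'⟩
  exacts [tri_unique hL h h', absurd ⟨_, h⟩ h', absurd ⟨_, h'⟩ h, rfl]

theorem rl_lineMap {X : Type*} (L : Set (Set X)) (x y : X) : Rl L x y (lineMap L x y) := by
  unfold lineMap
  split_ifs with h
  · exact Or.inl h.choose_spec
  · exact Or.inr ⟨rfl, h⟩

theorem Tri.swap23 {X : Type*} {L : Set (Set X)} {x y z : X} (h : Tri L x y z) : Tri L x z y :=
  ⟨h.2.2.1.symm, h.2.1.symm, h.1.symm, by rw [Set.pair_comm z y]; exact h.2.2.2⟩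

theorem Tri.swap12 {X : Type*} {L : Set (Set X)} {x y z : X} (h : Tri L x y z) : Tri L y x z :=
  ⟨h.2.1, h.1, h.2.2.1.symm, by rw [Set.insert_comm]; exact h.2.2.2⟩

theorem Rl.swap {X : Type*} {L : Set (Set X)} {x y z : X} (h : Rl L x y z) : Rl L x z y := by
  rcases h with h | ⟨rfl, h⟩
  exacts [Or.inl h.swap23, Or.inr ⟨rfl, h⟩]

theorem pp_fischer {X : Type*} {L : Set (Set X)} (hL : IsFischerSpace L) : PP L := by
  have key : ∀ x a b c a' b' c' : X, Tri L a b c → Tri L x a a' → Rl L x b b' → Rl L x c c' →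
      ({a', b', c'} : Set X) ∈ L := by
    intro x a b c a' b' c' h ha hb hc
    by_cases e : ({x, a, a'} : Set X) = {a, b, c}
    · have hx : x ∈ ({a, b, c} : Set X) := e ▸ (by simp)
      have hxx : Rl L x x x := Or.inr ⟨rfl, fun ⟨w, hw⟩ => hw.2.2.1 rfl⟩
      rcases hx with rfl | rfl | rfl
      · exact absurd rfl ha.2.2.1
      · rw [tri_unique hL.1 ha h.swap12, rl_unique hL.1 hb hxx,
          rl_unique hL.1 hc (Or.inl h.swap12.swap23)]
        exact h.swap23.swap12.swap23.2.2.2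
      · rw [tri_unique hL.1 ha h.swap23.swap12, rl_unique hL.1 hc hxx,
          rl_unique hL.1 hb (Or.inl h.swap12.swap23.swap12)]
        exact h.swap12.2.2.2
    have hp : PP (restrict L (span L ({x, a, a'} ∪ {a, b, c}))) := by
      rcases hL.2.2 _ ha.2.2.2 _ h.2.2.2 e ⟨a, by simp, by simp⟩ with h | h
      exacts [pp_iso h pp_da, pp_iso h pp_ag]
    have hS := span_subspace L ({x, a, a'} ∪ {a, b, c})
    have hs := subset_span L ({x, a, a'} ∪ {a, b, c})
    have mx := hs (show x ∈ _ by simp)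
    have ma := hs (show a ∈ _ by simp)
    have mb := hs (show b ∈ _ by simp)
    have mc := hs (show c ∈ _ by simp)
    exact (mem_restrict _ _ _).1 (hp ⟨x, mx⟩ ⟨a, ma⟩ ⟨b, mb⟩ ⟨c, mc⟩ ⟨a', tri_mem hS mx ma ha⟩
      ⟨b', rl_mem hS mx mb hb⟩ ⟨c', rl_mem hS mx mc hc⟩ ((tri_restrict _ _ _).2 h)
      (rl_restrict hS _ _ _ (Or.inl ha)) (rl_restrict hS _ _ _ hb) (rl_restrict hS _ _ _ hc))
  intro x a b c a' b' c' h ha hb hc
  rcases ha with ha | ⟨rfl, ha⟩
  · exact key _ _ _ _ _ _ _ h ha hb hc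
  rcases hb with hb | ⟨rfl, hb⟩
  · rw [Set.insert_comm]
    exact key _ _ _ _ _ _ _ h.swap12 hb (Or.inr ⟨rfl, ha⟩) hc
  rcases hc with hc | ⟨rfl, hc⟩
  · rw [Set.pair_comm, Set.insert_comm]
    exact key _ _ _ _ _ _ _ h.swap23.swap12 hc (Or.inr ⟨rfl, ha⟩) (Or.inr ⟨rfl, hb⟩)
  exact h.2.2.2


/-- Let L be a nondegenerate Fischer space on the point type X (every point on a line). Then for every point x the map t(x) — sending a point collinear with x to the third point of their common line and fixing every other point — is a permutation of X of order 2 and an automorphism of the line system; and the set of all t(x) satisfies the 3-transposition order conditions in the permutation group of X (any two have product of order at most 3). -/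
theorem result {X : Type*} (L : Set (Set X)) (hL : Cfsg.IsFischerSpace L) (hnd : Cfsg.LineSystem.IsNondegenerate L) : (∀ x : X, ∃ σ : Equiv.Perm X, ⇑σ = Cfsg.LineSystem.lineMap L x ∧ orderOf σ = 2 ∧ Cfsg.LineSystem.IsIso L L σ) ∧ Cfsg.IsThreeTranspositionSet {σ : Equiv.Perm X | ∃ x : X, ⇑σ = Cfsg.LineSystem.lineMap L x} := by
  have hinv : ∀ x, Function.Involutive (lineMap L x) := fun x y =>
    rl_unique hL.1 (rl_lineMap L x _) (rl_lineMap L x y).swap
  let t : X → Equiv.Perm X := fun x => (hinv x).toPerm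
  have ht : ∀ x, ⇑(t x) = lineMap L x := fun x => rfl
  have hsq : ∀ x, t x * t x = 1 := fun x => Equiv.ext fun y => hinv x y
  have htri : ∀ l ∈ L, ∃ a b c, Tri L a b c ∧ l = {a, b, c} := fun l hl => by
    obtain ⟨a, b, c, h1, h2, h3, rfl⟩ := Set.ncard_eq_three.1 (hL.2.1 l hl)
    exact ⟨a, b, c, ⟨h2.symm, h3.symm, h1, hl⟩, rfl⟩
  have himg : ∀ x, ∀ l ∈ L, t x '' l ∈ L := fun x l hl => by
    obtain ⟨a, b, c, h, rfl⟩ := htri l hl
    rw [Set.image_insert_eq, Set.image_pair]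
    exact pp_fischer hL x _ _ _ _ _ _ h (rl_lineMap L x a) (rl_lineMap L x b) (rl_lineMap L x c)
  have hiso : ∀ x, IsIso L L (t x) := fun x l => ⟨himg x l, fun h => by
    have := himg x _ h
    rwa [Set.image_image, show (fun y => t x (t x y)) = id from funext (hinv x), Set.image_id] at this⟩
  have hne : ∀ x, t x ≠ 1 := fun x h => by
    obtain ⟨l, hl, hx⟩ := hnd x
    obtain ⟨a, b, c, h', rfl⟩ := htri l hl
    have : ∀ y z, ¬ Tri L x y z := fun y z k => by
      have e := rl_unique hL.1 (Or.inl k) (rl_lineMap L x y)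
      rw [← ht, h] at e
      exact k.2.1 e
    rcases hx with rfl | rfl | rfl
    exacts [this _ _ h', this _ _ h'.swap12, this _ _ h'.swap23.swap12]
  have hconj : ∀ x y, t x * t y * t x = t (t x y) := fun x y => Equiv.ext fun z => by
    have h1 := (rl_iso (hiso x) _ _ _).1 (rl_lineMap L y (t x z))
    rw [show t x (t x z) = z from hinv x z] at h1
    exact rl_unique hL.1 h1 (rl_lineMap L _ _)
  refine ⟨fun x => ⟨t x, rfl, orderOf_two_of (hsq x) (hne x), hiso x⟩, ?_⟩
  have hS : ∀ σ : Equiv.Perm X, (∃ x : X, ⇑σ = lineMap L x) → ∃ x, σ = t x :=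
    fun σ ⟨x, h⟩ => ⟨x, Equiv.ext (congrFun h)⟩
  refine tt_of (fun a ha => ?_) (fun a ha => ?_) fun a ha b hb hab => ?_
  · obtain ⟨x, rfl⟩ := hS a ha; exact hsq x
  · obtain ⟨x, rfl⟩ := hS a ha; exact hne x
  · obtain ⟨x, rfl⟩ := hS a ha
    obtain ⟨y, rfl⟩ := hS b hb
    rw [hconj, hconj]
    rcases rl_lineMap L x y with h | ⟨h, -⟩
    · rw [show t y x = t x y from rl_unique hL.1 (rl_lineMap L y x) (Or.inl h.swap12)]
    · exact absurd ((commute_iff_conj_eq (hsq x)).2 (by rw [hconj, show t x y = y from h])) hab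

end Cfsg.Agent.S5366
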