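import Cfsg.Statements.S5378
import Cfsg.Agent.H48.RecCo1

set_option autoImplicit false
open Cfsg

namespace Cfsg.Agent.S5378

open Cfsg.Agent.H48.Rec

/-- Let G be a finite group of Conway type: it has an involution z whose centralizer C has generalized Fitting subgroup Q extraspecial of order 2^9 with C/Q isomorphic to the commutator subgroup of the isometry group of the hyperbolic quadratic form in dimension 8 over the field with two elements, and some conjugate of z other than z lies in Q. Then G has exactly three conjugacy classes of involutions. -/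
theorem result {G : Type*} [Group G] [Finite G] (z : G) (hz : orderOf z = 2) (Q : Subgroup (Subgroup.centralizer ({z} : Set G))) [Q.Normal] (hF : Cfsg.generalizedFittingSubgroup (Subgroup.centralizer ({z} : Set G)) = Q) (hQ : Cfsg.IsExtraspecial 2 Q) (hcard : Nat.card Q = 2 ^ 9) (e : (Subgroup.centralizer ({z} : Set G)) ⧸ Q ≃* Cfsg.Omega (ZMod 2) (Cfsg.quadFormPlus 4 (ZMod 2))) (hnwc : ∃ g : G, (∃ hq : g * z * g⁻¹ ∈ Subgroup.centralizer ({z} : Set G), (⟨g * z * g⁻¹, hq⟩ : Subgroup.centralizer ({z} : Set G)) ∈ Q) ∧ g * z * g⁻¹ ≠ z) : ∃ a b c : G, orderOf a = 2 ∧ orderOf b = 2 ∧ orderOf c = 2 ∧ ¬ IsConj a b ∧ ¬ IsConj a c ∧ ¬ IsConj b c ∧ ∀ x : G, orderOf x = 2 → IsConj x a ∨ IsConj x b ∨ IsConj x c := by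
  obtain ⟨f, -⟩ := iso_of_hyp z hz Q hF hQ hcard e hnwc
  exact classes_of_iso f

end Cfsg.Agent.S5378
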