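import Cfsg.Statements.S5380
import Cfsg.Agent.H59.SzZ

set_option autoImplicit false
open Cfsg

namespace Cfsg.Agent.S5380

/-- Let G be a finite group of Suzuki sporadic type (involution z with generalized Fitting subgroup Q of its centralizer C extraspecial of order 2^7, C/Q the commutator subgroup of the isometry group of the elliptic quadratic form in dimension 6 over the field with two elements, z not weakly closed in Q), and let Y be a subgroup of C of order 3 whose commutator subgroup with Q is non-abelian of order 8 (a quaternion group). Then the centralizer of Y in G is quasisimple, its quotient by Y is isomorphic to the projective special unitary group of dimension 4 over the field with nine elements, and the centralizer of Y has index 2 in the normalizer of Y. -/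
theorem result {G : Type*} [Group G] [Finite G] (z : G) (hz : orderOf z = 2) (Q : Subgroup (Subgroup.centralizer ({z} : Set G))) [Q.Normal] (hF : Cfsg.generalizedFittingSubgroup (Subgroup.centralizer ({z} : Set G)) = Q) (hQ : Cfsg.IsExtraspecial 2 Q) (hcard : Nat.card Q = 2 ^ 7) (e : (Subgroup.centralizer ({z} : Set G)) ⧸ Q ≃* Cfsg.Omega (ZMod 2) (Cfsg.quadFormMinus 2 (ZMod 2) 1 1)) (hnwc : ∃ g : G, (∃ hq : g * z * g⁻¹ ∈ Subgroup.centralizer ({z} : Set G), (⟨g * z * g⁻¹, hq⟩ : Subgroup.centralizer ({z} : Set G)) ∈ Q) ∧ g * z * g⁻¹ ≠ z) (Y : Subgroup (Subgroup.centralizer ({z} : Set G))) (hY : Nat.card Y = 3) (hQY : Nat.card ↥⁅Q, Y⁆ = 8) (hQYna : ¬ IsMulCommutative ↥⁅Q, Y⁆) [((Y.map (Subgroup.subtype (Subgroup.centralizer ({z} : Set G)))).subgroupOf (Subgroup.centralizer ((Y.map (Subgroup.subtype (Subgroup.centralizer ({z} : Set G)))) : Set G))).Normal] (K : Type) [Field K] [Fintype K] (hK : Fintype.card K = 9) : Cfsg.IsQuasisimple ↥(Subgroup.centralizer ((Y.map (Subgroup.subtype (Subgroup.centralizer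 ({z} : Set G)))) : Set G)) ∧ Nonempty (↥(Subgroup.centralizer ((Y.map (Subgroup.subtype (Subgroup.centralizer ({z} : Set G)))) : Set G)) ⧸ (Y.map (Subgroup.subtype (Subgroup.centralizer ({z} : Set G)))).subgroupOf (Subgroup.centralizer ((Y.map (Subgroup.subtype (Subgroup.centralizer ({z} : Set G)))) : Set G)) ≃* Cfsg.PSU 4 K 3) ∧ (Subgroup.centralizer ((Y.map (Subgroup.subtype (Subgroup.centralizer ({z} : Set G)))) : Set G)).relIndex (Subgroup.normalizer ((Y.map (Subgroup.subtype (Subgroup.centralizer ({z} : Set G)))) : Set G)) = 2 := by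
  obtain ⟨h, ⟨g, hg⟩, ⟨f⟩⟩ := H59.suz_main z hz Q hF hQ hcard e hnwc
  obtain ⟨x, hx, hY', h32⟩ := h.dvd_cent hY hQY hQYna
  obtain ⟨i, rfl⟩ := H59.Sz.exists_iso3 f hx h32
  have E := H59.Sz.eq3.map i.toMonoidHom
  simp only [H59.eqs_cons, H44.ev_append, H44.ev_cons _ 8] at E
  obtain ⟨h1, ⟨j⟩, h2⟩ := ((H59.Sz.y3 f hg).map i).main hx
    (a := H44.ev (fun x => i (H59.Sz.β x)) [17, 16, 16])
    (k := H44.ev (fun x => i (H59.Sz.β x)) [25, 23, 24, 22]) (d := i (H59.Sz.β 22))
    (by simpa [H44.ev, mul_assoc] using E.1) (by simpa [H44.ev, mul_assoc] using E.2.1) E.2.2.1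
    (by simpa [H44.ev] using (H59.Sz.eqX.map i.toMonoidHom).get [22, 8] [8, 8, 22] (by decide +kernel))
    hY'
  exact ⟨h1, ⟨j.trans (H59.U43P.equiv_psu K hK).some.symm⟩, h2⟩

end Cfsg.Agent.S5380
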