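import Cfsg.Statements.S5381
import Cfsg.Agent.H42.Co1P
import Cfsg.Agent.H48.RecCo1

set_option autoImplicit false
set_option maxRecDepth 1000000
open Cfsg

namespace Cfsg.Agent.S5381

open Cfsg.Agent.H42

open Subgroup in
theorem cq_of {X : Subgroup Spor.Co1} (h3 : Nat.card X = 3) (hz : X ≤ centralizer {H48.Rec.z0})
    (h8 : Nat.card (⁅H48.Rec.Q0, X⁆ : Subgroup Spor.Co1) = 8) : CT.CQ Spor.Suz X := by
  obtain ⟨x, hx, h1⟩ := X.bot_or_exists_ne_one.resolve_left fun e => by simp [e] at h3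
  obtain ⟨g, hg⟩ := Co1P.three (x := x)
    (congrArg Subtype.val (h3 ▸ pow_card_eq_one' (x := (⟨x, hx⟩ : X)))) (hz hx)
    (h8 ▸ Co1K.cjs_le_comm hx)
  have : Fact (Nat.Prime 3) := ⟨Nat.prime_three⟩
  have e : ∀ {Y : Subgroup Spor.Co1} {y : Spor.Co1}, Nat.card Y = 3 → y ∈ Y → y ≠ 1 →
      zpowers y = Y := fun {Y y} h hy h1 => eq_of_le_of_card_ge (zpowers_le.2 hy) (by
    rw [h, Nat.card_zpowers, orderOf_eq_prime
      (congrArg Subtype.val (h ▸ pow_card_eq_one' (x := (⟨y, hy⟩ : Y)))) h1])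
  have := Co1S.cq.map (MulAut.conj g⁻¹)
  rwa [← e (by rw [Nat.card_zpowers, Co1S.ord_x]) hg (by simpa using h1), MonoidHom.map_zpowers,
    show (MulAut.conj g⁻¹).toMonoidHom (g * x * g⁻¹) = x by simp [mul_assoc], e h3 hx h1] at this

/-- Let G be a finite group of Conway type (involution z with generalized Fitting subgroup Q of its centralizer C extraspecial of order 2^9, C/Q the commutator subgroup of the isometry group of the hyperbolic quadratic form in dimension 8 over the field with two elements, z not weakly closed in Q), and let X be a subgroup of C of order 3 whose commutator subgroup with Q is non-abelian of order 8, contained in an elementary abelian subgroup Y of C of order 9 whose centralizer in Q is extraspecial of order 32 containing an elementary abelian subgroup of order 8. Then the centralizer of X in G is quasisimple and its quotient by X is isomorphic to the presented sporadic Suzuki group. -/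
theorem result {G : Type*} [Group G] [Finite G] (z : G) (hz : orderOf z = 2) (Q : Subgroup (Subgroup.centralizer ({z} : Set G))) [Q.Normal] (hF : Cfsg.generalizedFittingSubgroup (Subgroup.centralizer ({z} : Set G)) = Q) (hQ : Cfsg.IsExtraspecial 2 Q) (hcard : Nat.card Q = 2 ^ 9) (e : (Subgroup.centralizer ({z} : Set G)) ⧸ Q ≃* Cfsg.Omega (ZMod 2) (Cfsg.quadFormPlus 4 (ZMod 2))) (hnwc : ∃ g : G, (∃ hq : g * z * g⁻¹ ∈ Subgroup.centralizer ({z} : Set G), (⟨g * z * g⁻¹, hq⟩ : Subgroup.centralizer ({z} : Set G)) ∈ Q) ∧ g * z * g⁻¹ ≠ z) (X : Subgroup (Subgroup.centralizer ({z} : Set G))) (hX : Nat.card X = 3) (hQX : Nat.card ↥⁅Q, X⁆ = 8) (hQXna : ¬ IsMulCommutative ↥⁅Q, X⁆) (Y₉ : Subgroup (Subgroup.centralizer ({z} : Set G))) (hXY : X ≤ Y₉) (hY₉ : Nat.card Y₉ = 9) (hY₉e : ∀ y ∈ Y₉, y ^ 3 = 1) (hCQ₉ : Cfsg.IsExtraspecial 2 ↥(Q ⊓ Subgroup.centralizer (Y₉ : Set (Subgroup.centralizer ({z} : Set G))))) (hCQ₉c : Nat.card ↥(Q ⊓ Subgroup.centralizer (Y₉ : Set (Subgroup.centralizer ({z}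 : Set G)))) = 32) (hCQ₉p : ∃ A : Subgroup (Subgroup.centralizer ({z} : Set G)), A ≤ Q ⊓ Subgroup.centralizer (Y₉ : Set (Subgroup.centralizer ({z} : Set G))) ∧ Cfsg.IsElementaryAbelian 2 A ∧ Nat.card A = 8) [((X.map (Subgroup.subtype (Subgroup.centralizer ({z} : Set G)))).subgroupOf (Subgroup.centralizer ((X.map (Subgroup.subtype (Subgroup.centralizer ({z} : Set G)))) : Set G))).Normal] : Cfsg.IsQuasisimple ↥(Subgroup.centralizer ((X.map (Subgroup.subtype (Subgroup.centralizer ({z} : Set G)))) : Set G)) ∧ Cfsg.Spor.IsoSuz (↥(Subgroup.centralizer ((X.map (Subgroup.subtype (Subgroup.centralizer ({z} : Set G)))) : Set G)) ⧸ (X.map (Subgroup.subtype (Subgroup.centralizer ({z} : Set G)))).subgroupOf (Subgroup.centralizer ((X.map (Subgroup.subtype (Subgroup.centralizer ({z} : Set G)))) : Set G))) := by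
  obtain ⟨γ, ⟨hq, h1⟩, h2⟩ := hnwc
  have h := H48.Rec.exists_CH z hz Q hF hQ hcard e
  obtain ⟨f, hf⟩ := H48.Rec.iso_of_CH h (Subgroup.mem_map_of_mem (Subgroup.subtype _) h1) h2
  have hi : Function.Injective (f.toMonoidHom.comp (Subgroup.centralizer ({z} : Set G)).subtype) :=
    f.injective.comp (Subgroup.subtype_injective _)
  have := (cq_of (X := (X.map (Subgroup.subtype _)).map f.toMonoidHom)
    (by rw [Subgroup.map_map, Subgroup.card_map_of_injective hi, hX]) (by
      rintro _ ⟨_, ⟨x, -, rfl⟩, rfl⟩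
      rw [Subgroup.mem_centralizer_singleton_iff, ← hf, MulEquiv.coe_toMonoidHom, ← map_mul,
        ← map_mul]
      exact congrArg f (Subgroup.mem_centralizer_singleton_iff.1 x.2)) (by
      rw [← Co1K.map_eq_Q0 h f hf, Subgroup.map_map, Subgroup.map_map, ← Subgroup.map_commutator,
        Subgroup.card_map_of_injective hi, hQX])).map f.symm
  rw [Subgroup.map_map, show f.symm.toMonoidHom.comp f.toMonoidHom = MonoidHom.id G from
    MonoidHom.ext f.symm_apply_apply, Subgroup.map_id] at this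
  have _ := H44.SuzM.simple
  exact this.out

end Cfsg.Agent.S5381
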