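import Cfsg.Statements.S5384
import Cfsg.Agent.H59.SzY

set_option autoImplicit false
open Cfsg

namespace Cfsg.Agent.S5384

/-- Let G be a finite group of Suzuki sporadic type (involution z with generalized Fitting subgroup Q of its centralizer C extraspecial of order 2^7, C/Q the commutator subgroup of the isometry group of the elliptic quadratic form in dimension 6 over the field with two elements, z not weakly closed in Q). Then G has exactly two conjugacy classes of subgroups of order 5, and the normalizer of a Sylow 5-subgroup P of G has order 600, with P of order 25 and N(P)/P isomorphic to the direct product of a cyclic group of order 4 and the symmetric group of degree 3. -/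
theorem result {G : Type*} [Group G] [Finite G] (z : G) (hz : orderOf z = 2) (Q : Subgroup (Subgroup.centralizer ({z} : Set G))) [Q.Normal] (hF : Cfsg.generalizedFittingSubgroup (Subgroup.centralizer ({z} : Set G)) = Q) (hQ : Cfsg.IsExtraspecial 2 Q) (hcard : Nat.card Q = 2 ^ 7) (e : (Subgroup.centralizer ({z} : Set G)) ⧸ Q ≃* Cfsg.Omega (ZMod 2) (Cfsg.quadFormMinus 2 (ZMod 2) 1 1)) (hnwc : ∃ g : G, (∃ hq : g * z * g⁻¹ ∈ Subgroup.centralizer ({z} : Set G), (⟨g * z * g⁻¹, hq⟩ : Subgroup.centralizer ({z} : Set G)) ∈ Q) ∧ g * z * g⁻¹ ≠ z) (P : Sylow 5 G) : (∃ A B : Subgroup G, Nat.card A = 5 ∧ Nat.card B = 5 ∧ (∀ g : G, A.map (MulAut.conj g).toMonoidHom ≠ B) ∧ ∀ C : Subgroup G, Nat.card C = 5 → ∃ g : G, C.map (MulAut.conj g).toMonoidHom = A ∨ C.map (MulAut.conj g).toMonoidHom = B) ∧ Nat.card (P : Subgroup G) = 25 ∧ Nat.card ↥(Subgroup.normalizer ((P : Subgroup G) : Set G)) = 600 ∧ Nonempty (↥(Subgroup.normalizer ((P : Subgroup G) : Set G)) ⧸ (P : Subgroup G).subgroupOf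 (Subgroup.normalizer ((P : Subgroup G) : Set G)) ≃* Multiplicative (ZMod 4) × Equiv.Perm (Fin 3)) := by
  obtain ⟨-, -, ⟨f⟩⟩ := H59.suz_main z hz Q hF hQ hcard e hnwc
  have : Fact (Nat.Prime 5) := ⟨by norm_num⟩
  obtain ⟨S, h1, h2, ⟨i⟩⟩ := H59.Sz.loc5
  obtain ⟨f', hB⟩ := H59.exists_equiv_sylow f S P
  have hN : Subgroup.normalizer ((P : Subgroup G) : Set G) =
      (Subgroup.normalizer ((S : Subgroup H59.Sz.Γ) : Set H59.Sz.Γ)).map f'.toMonoidHom := by
    rw [hB, Subgroup.map_equiv_normalizer_eq]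
  have c : ∀ x, Nat.card (Subgroup.centralizer ((Subgroup.zpowers (f x) : Subgroup G) : Set G)) =
      Nat.card (Subgroup.centralizer {x}) := fun x => by
    rw [← H59.cent_zpowers x, ← H59.card_map_equiv f, ← H59.map_cent, MonoidHom.map_zpowers]
    rfl
  refine ⟨⟨Subgroup.zpowers (f (H59.Sz.β 11)), Subgroup.zpowers (f (H59.Sz.β 12)),
    by rw [Nat.card_zpowers, f.orderOf_eq, H59.Sz.ord5a],
    by rw [Nat.card_zpowers, f.orderOf_eq, H59.Sz.ord5b], fun g hg => ?_, fun C hC => ?_⟩,
    by rw [hB, H59.card_map_equiv, h1], by rw [hN, H59.card_map_equiv, h2],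
    ⟨(H59.quot_map f' hB hN).some.trans i⟩⟩
  · have h3 := c (H59.Sz.β 12)
    rw [← hg, H59.map_cent, H59.card_map_equiv, c, H59.Sz.cent5a, H59.Sz.cent5b] at h3
    omega
  · obtain ⟨u, hu, rfl⟩ := H59.exists_zpowers_eq hC
    have k : ∀ x, IsConj x (f.symm u) → ∃ g : G, (Subgroup.zpowers u).map
        (MulAut.conj g).toMonoidHom = Subgroup.zpowers (f x) := fun x hx => by
      obtain ⟨g, hg⟩ := isConj_iff.1 hx.symm
      refine ⟨f g, ?_⟩
      rw [MonoidHom.map_zpowers, ← hg]
      simp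
    rcases H59.Sz.cls5 (f.symm u) (by rw [f.symm.orderOf_eq, hu]) with h | h
    exacts [(k _ h).imp fun _ => Or.inl, (k _ h).imp fun _ => Or.inr]

end Cfsg.Agent.S5384
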