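import Cfsg.Statements.S5386
import Cfsg.Agent.H42.Co1A9
import Cfsg.Agent.S1718

set_option autoImplicit false
set_option maxRecDepth 1000000
open Cfsg

namespace Cfsg.Agent.S5386

open Cfsg.Agent.H42

theorem map_cent {G H : Type*} [Group G] [Group H] (f : G ≃* H) (V : Subgroup G) :
    (Subgroup.centralizer (V : Set G)).map f.toMonoidHom =
      Subgroup.centralizer (V.map f.toMonoidHom : Set H) := by
  apply le_antisymm
  · exact Subgroup.map_centralizer_le_centralizer_image _ _
  · intro h hh
    refine ⟨f.symm h, fun v hv => f.injective ?_, f.apply_symm_apply h⟩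
    rw [map_mul, map_mul, f.apply_symm_apply]
    exact hh _ ⟨v, hv, rfl⟩

/-- Let G be a finite group of Conway type (involution z with generalized Fitting subgroup Q of its centralizer C extraspecial of order 2^9, C/Q the commutator subgroup of the isometry group of the hyperbolic quadratic form in dimension 8 over the field with two elements, z not weakly closed in Q). Then G has a subgroup V of order 7 whose centralizer is isomorphic to the direct product of a cyclic group of order 7 and the alternating group of degree 7, and a subgroup W of order 3 whose normalizer is isomorphic to the direct product of the symmetric group of degree 3 and the alternating group of degree 9. -/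
theorem result {G : Type*} [Group G] [Finite G] (z : G) (hz : orderOf z = 2) (Q : Subgroup (Subgroup.centralizer ({z} : Set G))) [Q.Normal] (hF : Cfsg.generalizedFittingSubgroup (Subgroup.centralizer ({z} : Set G)) = Q) (hQ : Cfsg.IsExtraspecial 2 Q) (hcard : Nat.card Q = 2 ^ 9) (e : (Subgroup.centralizer ({z} : Set G)) ⧸ Q ≃* Cfsg.Omega (ZMod 2) (Cfsg.quadFormPlus 4 (ZMod 2))) (hnwc : ∃ g : G, (∃ hq : g * z * g⁻¹ ∈ Subgroup.centralizer ({z} : Set G), (⟨g * z * g⁻¹, hq⟩ : Subgroup.centralizer ({z} : Set G)) ∈ Q) ∧ g * z * g⁻¹ ≠ z) : (∃ V : Subgroup G, Nat.card V = 7 ∧ Nonempty (↥(Subgroup.centralizer (V : Set G)) ≃* Multiplicative (ZMod 7) × alternatingGroup (Fin 7))) ∧ ∃ W : Subgroup G, Nat.card W = 3 ∧ Nonempty (↥(Subgroup.normalizer (W : Set G)) ≃* Equiv.Perm (Fin 3) × alternatingGroup (Fin 9)) := by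
  obtain ⟨f⟩ := Cfsg.Agent.S1718.result z hz Q hF hQ hcard e hnwc
  obtain ⟨V, hV, ⟨eV⟩⟩ := Cfsg.Agent.H42.Co1A9.co1_a7
  obtain ⟨W, hW, ⟨eW⟩⟩ := Cfsg.Agent.H42.Co1A9.co1_a9
  refine ⟨⟨V.map f.symm.toMonoidHom, ?_, ⟨MulEquiv.trans ?_ eV⟩⟩,
    W.map f.symm.toMonoidHom, ?_, ⟨MulEquiv.trans ?_ eW⟩⟩
  · rw [← hV]; exact Subgroup.card_map_of_injective f.symm.injective
  · exact (MulEquiv.subgroupCongr (map_cent f.symm V).symm).trans (f.symm.subgroupMap _).symm
  · rw [← hW]; exact Subgroup.card_map_of_injective f.symm.injective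
  · exact (MulEquiv.subgroupCongr
      (Subgroup.map_normalizer_eq_of_bijective W f.symm.bijective).symm).trans
      (f.symm.subgroupMap _).symm

end Cfsg.Agent.S5386
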