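import Cfsg.Statements.S5387
import Cfsg.Agent.H93.L34Cover

set_option autoImplicit false
open Cfsg

namespace Cfsg.Agent.S5387

open Subgroup H93.L34
open scoped commutatorElement

/-- Up to isomorphism there is at most one quasisimple group whose centre is elementary abelian of order 4 and whose central quotient is isomorphic to the projective special linear group of dimension 3 over the field with four elements: any two such groups are isomorphic. -/
theorem result {L₁ L₂ : Type*} [Group L₁] [Finite L₁] [Group L₂] [Finite L₂] (F : Type) [Field F] [Fintype F] (hF : Fintype.card F = 4) (h₁ : Cfsg.IsQuasisimple L₁) (h₂ : Cfsg.IsQuasisimple L₂) (hc₁ : Nat.card (Subgroup.center L₁) = 4) (hc₂ : Nat.card (Subgroup.center L₂) = 4) (he₁ : ∀ x ∈ Subgroup.center L₁, x * x = 1) (he₂ : ∀ x ∈ Subgroup.center L₂, x * x = 1) (e₁ : L₁ ⧸ Subgroup.center L₁ ≃* Matrix.ProjectiveSpecialLinearGroup (Fin 3) F) (e₂ : L₂ ⧸ Subgroup.center L₂ ≃* Matrix.ProjectiveSpecialLinearGroup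 (Fin 3) F) : Nonempty (L₁ ≃* L₂) := by
  obtain ⟨π₁, c₁, k₁⟩ := exists_cov hF he₁ e₁
  obtain ⟨π₂, c₂, k₂⟩ := exists_cov hF he₂ e₂
  let D : Subgroup (L₁ × L₂) :=
    (π₁.comp (MonoidHom.fst L₁ L₂)).eqLocus (π₂.comp (MonoidHom.snd L₁ L₂))
  have s₁ : ⁅D, D⁆.map (MonoidHom.fst L₁ L₂) = ⊤ := by
    have : D.map (MonoidHom.fst L₁ L₂) = ⊤ := eq_top_iff.2 fun x _ => by
      obtain ⟨y, hy⟩ := c₂.surj (π₁ x)
      exact ⟨(x, y), hy.symm, rfl⟩
    rw [map_commutator, this]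
    exact h₁.1.commutator_eq_top
  have s₂ : ⁅D, D⁆.map (MonoidHom.snd L₁ L₂) = ⊤ := by
    have : D.map (MonoidHom.snd L₁ L₂) = ⊤ := eq_top_iff.2 fun y _ => by
      obtain ⟨x, hx⟩ := c₁.surj (π₂ y)
      exact ⟨(x, y), hx, rfl⟩
    rw [map_commutator, this]
    exact h₂.1.commutator_eq_top
  have hle : ⁅D, D⁆ ≤ D := commutator_le_self D
  have hdec : ∀ d ∈ D, ∃ x ∈ ⁅D, D⁆, ∃ z, (∀ g, g * z = z * g) ∧ d = x * z := fun d hd => by
    obtain ⟨x, hx, e⟩ := s₁.ge (mem_top d.1)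
    have h1 : (x⁻¹ * d).1 = 1 := by rw [Prod.fst_mul, Prod.fst_inv, ← e]; exact inv_mul_cancel _
    have h2 : π₁ (x⁻¹ * d).1 = π₂ (x⁻¹ * d).2 := D.mul_mem (D.inv_mem (hle hx)) hd
    rw [h1, map_one] at h2
    exact ⟨x, hx, x⁻¹ * d, fun g => Prod.ext (by rw [Prod.fst_mul g, Prod.fst_mul _ g, h1]; simp)
      (c₂.cen _ h2.symm g.2), by group⟩
  have hp : Group.IsPerfect ↥⁅D, D⁆ := isPerfect_iff.2 (le_antisymm (commutator_le_self _)
    (commutator_le.2 fun d hd d' hd' => by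
      obtain ⟨x, hx, z, hz, rfl⟩ := hdec d hd
      obtain ⟨x', hx', z', hz', rfl⟩ := hdec d' hd'
      convert commutator_mem_commutator hx hx' using 1
      calc _ = x * (z * (x' * z') * z⁻¹) * x⁻¹ * (x' * z')⁻¹ := by rw [commutatorElement_def]; group
        _ = x * x' * (z' * x⁻¹ * z'⁻¹) * x'⁻¹ := by rw [← hz, mul_inv_cancel_right]; group
        _ = _ := by rw [← hz', mul_inv_cancel_right, commutatorElement_def]))
  generalize ⁅D, D⁆ = X at s₁ s₂ hle hp
  have t₁ : Function.Surjective ((MonoidHom.fst L₁ L₂).domRestrict X) :=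
    MonoidHom.range_eq_top.1 (by rw [MonoidHom.domRestrict_range, s₁])
  have t₂ : Function.Surjective ((MonoidHom.snd L₁ L₂).domRestrict X) :=
    MonoidHom.range_eq_top.1 (by rw [MonoidHom.domRestrict_range, s₂])
  have c : Cov (π₁.comp ((MonoidHom.fst L₁ L₂).domRestrict X)) := ⟨c₁.surj.comp t₁,
    fun z hz => Subtype.ext (Prod.ext (c₁.sq _ hz) (c₂.sq _ ((hle z.2).symm.trans hz))),
    fun z hz g => Subtype.ext (Prod.ext (c₁.cen _ hz _) (c₂.cen _ ((hle z.2).symm.trans hz) _))⟩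
  have card : ∀ {Y : Type _} [Group Y] {π : Y →* PS4}, Cov π →
      Nat.card Y = Nat.card π.ker * Nat.card PS4 := fun {Y _ π} c => by
    rw [← π.ker.card_mul_index, index_ker, MonoidHom.range_eq_top.2 c.surj, card_top]
  have h4 := Nat.mul_le_mul_right (Nat.card PS4) (c.card_ker_le hp.commutator_eq_top)
  have n₁ : Nat.card L₁ = 4 * Nat.card PS4 := by
    rw [← π₁.ker.card_mul_index, index_ker, MonoidHom.range_eq_top.2 c₁.surj, card_top, k₁, hc₁]
  have n₂ : Nat.card L₂ = 4 * Nat.card PS4 := by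
    rw [← π₂.ker.card_mul_index, index_ker, MonoidHom.range_eq_top.2 c₂.surj, card_top, k₂, hc₂]
  rw [← card c] at h4
  exact ⟨(MulEquiv.ofBijective _ (t₁.bijective_of_nat_card_le (n₁ ▸ h4))).symm.trans
    (MulEquiv.ofBijective _ (t₂.bijective_of_nat_card_le (n₂ ▸ h4)))⟩

end Cfsg.Agent.S5387
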