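import Cfsg.Statements.S5389
import Cfsg.Agent.H42.Co1S

set_option autoImplicit false
set_option maxRecDepth 1000000
open Cfsg

namespace Cfsg.Agent.S5389

open Cfsg.Agent.H42

/-- A simple section of the automorphism group of the Leech lattice satisfying the Suzuki-sporadic-type hypothesis (the group so obtained is the sporadic Suzuki group; that identification is not part of this statement): there is a subgroup A of order 3 of that automorphism group such that the centralizer of A modulo the subgroup generated by A and the centre of the automorphism group is a non-abelian simple group satisfying the large extraspecial hypothesis of minus type in dimension 6 — an involution whose centralizer has extraspecial generalized Fitting subgroup of order 2^7 with quotient the commutator subgroup of the isometry group of the elliptic quadratic form in dimension 6 over the field with two elements, the involution not weakly closed in that extraspecial group. -/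
theorem result : ∃ A : Subgroup ↥Cfsg.Co0, Nat.card A = 3 ∧ ∃ (hn : ((A ⊔ Subgroup.center ↥Cfsg.Co0).subgroupOf (Subgroup.centralizer (A : Set ↥Cfsg.Co0))).Normal), ∃ (S : Type) (_ : Group S) (_ : Finite S), Nonempty (S ≃* ↥(Subgroup.centralizer (A : Set ↥Cfsg.Co0)) ⧸ (A ⊔ Subgroup.center ↥Cfsg.Co0).subgroupOf (Subgroup.centralizer (A : Set ↥Cfsg.Co0))) ∧ IsSimpleGroup S ∧ ¬ IsMulCommutative S ∧ ∃ z : S, orderOf z = 2 ∧ ∃ (Q : Subgroup (Subgroup.centralizer ({z} : Set S))) (_ : Q.Normal), Cfsg.generalizedFittingSubgroup (Subgroup.centralizer ({z} : Set S)) = Q ∧ Cfsg.IsExtraspecial 2 Q ∧ Nat.card Q = 2 ^ 7 ∧ Nonempty ((Subgroup.centralizer ({z} : Set S)) ⧸ Q ≃* Cfsg.Omega (ZMod 2) (Cfsg.quadFormMinus 2 (ZMod 2) 1 1)) ∧ ∃ g : S, (∃ hq : g * z * g⁻¹ ∈ Subgroup.centralizer ({z} : Set S), (⟨g * z * g⁻¹, hq⟩ : Subgroup.centralizer ({z} : Set S)) ∈ Q) ∧ g * z * g⁻¹ ≠ z := by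
  obtain ⟨h1, π, h2, h3⟩ := H42.Co1S.co0
  have := H44.SuzM.simple
  have := H44.SuzM.finite
  have hn := π.normal_ker
  rw [h3] at hn
  refine ⟨_, h1, hn, H59.Sz.Γ, inferInstance, inferInstance,
    ⟨H59.Sz.e0.symm.trans ((QuotientGroup.quotientKerEquivOfSurjective π h2).symm.trans
      (QuotientGroup.quotientMulEquivOfEq h3))⟩, H59.Sz.e0.symm.isSimpleGroup,
    fun h => H42.Co1S.not_comm ⟨⟨fun a b => H59.Sz.e0.injective ?_⟩⟩, H42.SuzT.suz_type⟩
  rw [map_mul, map_mul, h.is_comm.comm]

end Cfsg.Agent.S5389
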