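import Cfsg.Statements.S5390
import Cfsg.Agent.H59.U43E

set_option autoImplicit false
open Cfsg

namespace Cfsg.Agent.S5390

/-- Let G be a finite group of unitary U₄(3) type: G has an involution z whose centralizer H has order 2^7 · 3^2 and satisfies: the subgroup of H generated by its elements of odd order is the product of two of its normal subgroups H₁, H₂, each isomorphic to SL(2, 3), meeting in the subgroup generated by z; Q, the largest normal 2-subgroup of that product, is the generalized Fitting subgroup of H; some conjugate of z other than z lies in Q; and for every conjugate g z g⁻¹ of z lying in Q and different from z, the intersection of Q with its conjugate by g has order 4. Then G is isomorphic to the projective special unitary group of dimension 4 over the field with nine elements. -/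
theorem result {G : Type*} [Group G] [Finite G] (z : G) (hz : orderOf z = 2) (H₁ H₂ : Subgroup (Subgroup.centralizer ({z} : Set G))) (hK : H₁ ⊔ H₂ = Subgroup.closure {x : Subgroup.centralizer ({z} : Set G) | Odd (orderOf x)}) (hn₁ : (H₁.subgroupOf (H₁ ⊔ H₂)).Normal) (hn₂ : (H₂.subgroupOf (H₁ ⊔ H₂)).Normal) (e₁ : H₁ ≃* Matrix.SpecialLinearGroup (Fin 2) (ZMod 3)) (e₂ : H₂ ≃* Matrix.SpecialLinearGroup (Fin 2) (ZMod 3)) (hmeet : (H₁ ⊓ H₂).map (Subgroup.subtype (Subgroup.centralizer ({z} : Set G))) = Subgroup.zpowers z) (Q : Subgroup (Subgroup.centralizer ({z} : Set G))) [Q.Normal] (hQ : Q = (Cfsg.pCore 2 ↥(H₁ ⊔ H₂)).map (Subgroup.subtype (H₁ ⊔ H₂))) (hF : Cfsg.generalizedFittingSubgroup (Subgroup.centralizer ({z} : Set G)) = Q) (hnwc : ∃ g : G, (∃ hq : g * z * g⁻¹ ∈ Subgroup.centralizer ({z} : Set G), (⟨g * z * g⁻¹, hq⟩ : Subgroup.centralizer ({z} : Set G)) ∈ Q) ∧ g * z * g⁻¹ ≠ z) (hH : Nat.card ↥(Subgroup.centralizer ({z} : Set G)) = 2 ^ 7 * 3 ^ 2) (hQQg : ∀ g : G, g * z * g⁻¹ ∈ Q.map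 (Subgroup.subtype (Subgroup.centralizer ({z} : Set G))) → g * z * g⁻¹ ≠ z → Nat.card ↥((Q.map (Subgroup.subtype (Subgroup.centralizer ({z} : Set G)))) ⊓ (Q.map (Subgroup.subtype (Subgroup.centralizer ({z} : Set G)))).map (MulAut.conj g).toMonoidHom) = 4) (K : Type) [Field K] [Fintype K] (hK9 : Fintype.card K = 9) : Nonempty (G ≃* Cfsg.PSU 4 K 3) := by
  obtain ⟨g, K', Q', h, -⟩ := H59.exists_Hy z hz _ rfl H₁ H₂ hK hn₁ hn₂ e₁ e₂ hmeet Q hQ hF hnwc hH
    hQQg
  exact ⟨h.equiv.some.trans (H59.U43P.equiv_psu K hK9).some.symm⟩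

end Cfsg.Agent.S5390
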