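import Cfsg.Statements.S5548
import Cfsg.Agent.H42.Code

set_option autoImplicit false
set_option maxRecDepth 1000000
open Cfsg

namespace Cfsg.Agent.S5548

open Cfsg.Agent.H42

/-- For the automorphism group of the length-24 binary Golay code of the definitions (the Mathieu group of degree 24) acting on binary words of length 24 by permuting coordinates, the only invariant subspaces of the space of all words are: zero, the span of the all-ones word, the code itself, the even-weight words, and the whole space. (So the permutation module has a unique composition series.) -/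
theorem result (W : Submodule (ZMod 2) (Cfsg.GolayPt → ZMod 2)) (hW : ∀ σ ∈ Cfsg.M24, ∀ w ∈ W, (fun p => w (σ.symm p)) ∈ W) : W = ⊥ ∨ W = Submodule.span (ZMod 2) {fun _ => (1 : ZMod 2)} ∨ W = Cfsg.golayCode ∨ (W : Set (Cfsg.GolayPt → ZMod 2)) = {w | ∑ p, w p = 0} ∨ W = ⊤ := by
  have key : ∀ V : Submodule (ZMod 2) (GolayPt → ZMod 2),
      {s | indWord s ∈ W} = {s | indWord s ∈ V} → W = V := fun V h => Submodule.ext fun w => by
    obtain ⟨s, rfl⟩ := exists_indWord w
    exact Set.ext_iff.mp h s
  rcases (invFam_of_submodule W hW).cases with h | h | h | h | h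
  · refine Or.inl (key _ (h.trans (Set.ext fun s => ?_)))
    rw [Set.mem_ofPred_eq, Submodule.mem_bot, ← indWord_empty, indWord_injective.eq_iff]
    rfl
  · refine Or.inr (Or.inl (key _ (h.trans (Set.ext fun s => ?_))))
    rw [Set.mem_ofPred_eq, Submodule.mem_span_singleton]
    refine ⟨?_, fun ⟨a, e⟩ => ?_⟩
    · rintro (rfl | rfl)
      · exact ⟨0, by rw [zero_smul, indWord_empty]⟩
      · exact ⟨1, by rw [one_smul, indWord_univ]⟩
    · rcases zmod2_cases a with rfl | rfl
      · exact Or.inl (indWord_injective (by rw [← e, zero_smul, indWord_empty]))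
      · exact Or.inr (indWord_injective (by rw [← e, one_smul, indWord_univ]))
  · exact Or.inr (Or.inr (Or.inl (key _ (h.trans (Set.ext mem_codeSets_iff)))))
  · refine Or.inr (Or.inr (Or.inr (Or.inl (Set.ext fun w => ?_))))
    obtain ⟨s, rfl⟩ := exists_indWord w
    rw [Set.mem_ofPred_eq, sum_indWord, ZMod.natCast_eq_zero_iff_even]
    exact Set.ext_iff.mp h s
  · exact Or.inr (Or.inr (Or.inr (Or.inr (key _ (h.trans (Set.ext fun s => by simp))))))

end Cfsg.Agent.S5548
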