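import Cfsg.Statements.S5393
import Cfsg.Agent.S5548

set_option autoImplicit false
set_option maxRecDepth 1000000
open Cfsg

namespace Cfsg.Agent.S5393

open Cfsg.Agent.H42

/-- The length-24 code built from the squares modulo 23 contains the all-ones word, and the code modulo the all-ones word is an irreducible module over the field with two elements for the code's automorphism group: a subspace of the code that contains the all-ones word and is invariant under every coordinate permutation preserving the code is either the span of the all-ones word or the whole code. -/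
theorem result : (fun _ : Cfsg.GolayPt => (1 : ZMod 2)) ∈ Cfsg.golayCode ∧ ∀ W : Submodule (ZMod 2) (Cfsg.GolayPt → ZMod 2), (fun _ => (1 : ZMod 2)) ∈ W → W ≤ Cfsg.golayCode → (∀ σ ∈ Cfsg.M24, ∀ w ∈ W, (fun p => w (σ.symm p)) ∈ W) → W = Submodule.span (ZMod 2) {fun _ => (1 : ZMod 2)} ∨ W = Cfsg.golayCode := by
  have h1 : (fun _ : GolayPt => (1 : ZMod 2)) ∈ golayCode := by
    rw [← indWord_univ, ← mem_codeSets_iff]
    exact univ_mem_codeSets
  have h2 : indWord (toSet 3) ∉ golayCode := by
    rw [← mem_codeSets_iff, toSet_mem_codeSets_iff (by norm_num)]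
    decide +kernel
  refine ⟨h1, fun W h3 h4 h5 => ?_⟩
  rcases S5548.result W h5 with h | h | h | h | h
  · rw [h, Submodule.mem_bot] at h3
    exact absurd (congrFun h3 none) (by decide)
  · exact Or.inl h
  · exact Or.inr h
  · refine absurd (h4 (show indWord (toSet 3) ∈ (W : Set (GolayPt → ZMod 2)) from ?_)) h2
    rw [h, Set.mem_ofPred_eq, sum_indWord, card_toSet (by norm_num)]
    decide +kernel
  · exact absurd (h4 (h ▸ Submodule.mem_top)) h2

end Cfsg.Agent.S5393
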