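import Cfsg.Statements.S5396
import Cfsg.Agent.H84.XModel
import Cfsg.Agent.H49.XSDual

set_option autoImplicit false
open Cfsg

namespace Cfsg.Agent.S5396

open Cfsg.Agent.H84 in
/-- If every element of square one centralising the elementary subgroup `B` lies in `B`, then the
2-rank of the extraspecial group is that of `B`. -/
theorem sSup_eq {E : Type} [Group E] [Finite E] (hE : IsExtraspecial 2 E) (B : Subgroup E) (r : ℕ)
    (hB : IsElementaryAbelian 2 B) (hc : Nat.card B = 2 ^ r)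
    (hmax : ∀ x : E, x ^ 2 = 1 → (∀ b ∈ B, b * x = x * b) → x ∈ B) :
    sSup {k : ℕ | ∃ A : Subgroup E, IsElementaryAbelian 2 A ∧ Nat.card A = 2 ^ k} = r := by
  obtain ⟨z, h⟩ := H49.exists_XS_top hE
  refine IsGreatest.csSup_eq ⟨⟨B, hB, hc⟩, ?_⟩
  rintro k ⟨A, hA, hk⟩
  have h1 := h.relIndex_centralizer_symm (A := A) (B := B) le_top le_top
  have h2 := H49.XS.card_mul_relIndex' (Subgroup.centralizer (B : Set E)) A
  have h3 := H49.XS.card_mul_relIndex' (Subgroup.centralizer (A : Set E)) B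
  have h4 : A ⊓ Subgroup.centralizer (B : Set E) ≤ B ⊓ Subgroup.centralizer (A : Set E) := by
    rintro x ⟨hx, hx'⟩
    refine ⟨hmax x (hA.2 x hx) (fun b hb => hx' b hb), fun a ha => ?_⟩
    have := hA.1
    exact congrArg Subtype.val (mul_comm' (⟨a, ha⟩ : A) ⟨x, hx⟩)
  have h5 := Subgroup.card_le_of_le h4
  have : 2 ^ k ≤ 2 ^ r := by
    rw [← hk, ← hc, ← h2, ← h3, h1]
    exact Nat.mul_le_mul_right _ h5
  exact (Nat.pow_le_pow_iff_right (by norm_num)).1 this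

/-- The bilinear forms of the two types. -/
def bf (m : ℕ) (c : ZMod 2) :
    LinearMap.BilinForm (ZMod 2) ((Fin (m + 1) → ZMod 2) × (Fin (m + 1) → ZMod 2)) :=
  LinearMap.mk₂ (ZMod 2) (fun u v => u.1 ⬝ᵥ v.2 + c * (u.1 0 * v.1 0 + u.2 0 * v.2 0))
    (fun u u' v => by simp only [Prod.fst_add, Prod.snd_add, add_dotProduct, Pi.add_apply]; ring)
    (fun a u v => by
      simp only [Prod.smul_fst, Prod.smul_snd, smul_dotProduct, Pi.smul_apply, smul_eq_mul]; ring)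
    (fun u v v' => by simp only [Prod.fst_add, Prod.snd_add, dotProduct_add, Pi.add_apply]; ring)
    (fun a u v => by
      simp only [Prod.smul_fst, Prod.smul_snd, dotProduct_smul, Pi.smul_apply, smul_eq_mul]; ring)

theorem bf_apply (m : ℕ) (c : ZMod 2) (u v : (Fin (m + 1) → ZMod 2) × (Fin (m + 1) → ZMod 2)) :
    bf m c u v = u.1 ⬝ᵥ v.2 + c * (u.1 0 * v.1 0 + u.2 0 * v.2 0) := rfl

theorem bf_symm_iff (m : ℕ) (c : ZMod 2) (u v : (Fin (m + 1) → ZMod 2) × (Fin (m + 1) → ZMod 2)) :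
    bf m c u v = bf m c v u ↔ u.1 ⬝ᵥ v.2 = v.1 ⬝ᵥ u.2 := by
  rw [bf_apply, bf_apply, mul_comm (v.1 0), mul_comm (v.2 0), add_left_inj]

theorem bf_nondeg (m : ℕ) (c : ZMod 2) (u : (Fin (m + 1) → ZMod 2) × (Fin (m + 1) → ZMod 2))
    (h : ∀ v, bf m c u v = bf m c v u) : u = 0 := by
  ext i
  · simpa using (bf_symm_iff m c u (0, Pi.single i 1)).1 (h _)
  · simpa using ((bf_symm_iff m c u (Pi.single i 1, 0)).1 (h _)).symm

theorem xg_extra (m : ℕ) (c : ZMod 2) : IsExtraspecial 2 (H84.XG (bf m c)) ∧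
    Nat.card (H84.XG (bf m c)) = 2 ^ (2 * (m + 1) + 1) := by
  have : Fact (Nat.Prime 2) := ⟨Nat.prime_two⟩
  have hc : Nat.card (H84.XG (bf m c)) = 2 ^ (2 * (m + 1) + 1) := by
    rw [H84.XG.card, Nat.card_prod, Nat.card_fun, Nat.card_zmod, Nat.card_eq_fintype_card,
      Fintype.card_fin]
    ring
  refine ⟨(H84.XG.xs (bf_nondeg m c)).isExtraspecial ?_, hc⟩
  rw [hc]
  have : 2 ^ 1 < 2 ^ (2 * (m + 1) + 1) := Nat.pow_lt_pow_right (by norm_num) (by omega)
  omega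

/-- The maximal elementary subgroup. -/
def Bm (m : ℕ) (c : ZMod 2) : Subgroup (H84.XG (bf m c)) where
  carrier := {g | g.v.1 = 0 ∧ c * g.v.2 0 = 0}
  one_mem' := ⟨rfl, by simp⟩
  mul_mem' := by
    rintro x y ⟨h1, h2⟩ ⟨h3, h4⟩
    refine ⟨by simp [h1, h3], ?_⟩
    simp only [H84.XG.mul_v, Prod.snd_add, Pi.add_apply, mul_add, h2, h4, add_zero]
  inv_mem' := by
    rintro x ⟨h1, h2⟩
    refine ⟨by simp [h1], ?_⟩
    simp only [H84.XG.inv_v, Prod.snd_neg, Pi.neg_apply, mul_neg, h2, neg_zero]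

theorem comm_iff (m : ℕ) (c : ZMod 2) (x y : H84.XG (bf m c)) :
    x * y = y * x ↔ x.v.1 ⬝ᵥ y.v.2 = y.v.1 ⬝ᵥ x.v.2 := by
  rw [← bf_symm_iff]
  constructor
  · intro h
    have := congrArg H84.XG.a h
    simp only [H84.XG.mul_a] at this
    rw [add_comm y.a] at this
    exact add_left_cancel this
  · intro h
    ext1
    · simp only [H84.XG.mul_a, h, add_comm y.a]
    · simp only [H84.XG.mul_v, add_comm]

theorem Bm_elem (m : ℕ) (c : ZMod 2) : IsElementaryAbelian 2 (Bm m c) := by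
  refine ⟨⟨⟨fun x y => Subtype.ext ?_⟩⟩, fun x hx => ?_⟩
  · show x.1 * y.1 = y.1 * x.1
    rw [comm_iff, x.2.1, y.2.1]; simp
  · rw [pow_two, H84.XG.mul_self_eq_one, bf_apply, hx.1, mul_add, ← mul_assoc c (x.v.2 0), hx.2]
    simp

theorem Bm_max (m : ℕ) (c : ZMod 2) (x : H84.XG (bf m c)) (hx : x ^ 2 = 1)
    (h : ∀ b ∈ Bm m c, b * x = x * b) : x ∈ Bm m c := by
  rw [pow_two, H84.XG.mul_self_eq_one, bf_apply] at hx
  have key : ∀ i : Fin (m + 1), c * (Pi.single i 1 : Fin (m + 1) → ZMod 2) 0 = 0 → x.v.1 i = 0 := by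
    intro i hi
    have := (comm_iff m c _ _).1 (h ⟨0, (0, Pi.single i 1)⟩ ⟨rfl, hi⟩)
    simpa using this.symm
  have hs : ∀ i : Fin m, x.v.1 i.succ = 0 := fun i => key _ (by
    rw [Pi.single_eq_of_ne (Fin.succ_ne_zero i).symm, mul_zero])
  rw [dotProduct, Fin.sum_univ_succ] at hx
  simp only [hs, zero_mul, Finset.sum_const_zero, add_zero] at hx
  have h0 : x.v.1 0 = 0 ∧ c * x.v.2 0 = 0 := by
    by_cases hc : c = 0
    · exact ⟨key 0 (mul_eq_zero_of_left hc _), mul_eq_zero_of_left hc _⟩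
    · exact (by decide : ∀ c a b : ZMod 2, a * b + c * (a * a + b * b) = 0 → ¬c = 0 →
        a = 0 ∧ c * b = 0) _ _ _ hx hc
  exact ⟨funext fun i => Fin.cases h0.1 hs i, h0.2⟩

theorem card_B0 (m : ℕ) : Nat.card (Bm m 0) = 2 ^ (m + 1 + 1) := by
  have e : Bm m 0 ≃ ZMod 2 × (Fin (m + 1) → ZMod 2) :=
    { toFun := fun x => (x.1.a, x.1.v.2)
      invFun := fun p => ⟨⟨p.1, (0, p.2)⟩, rfl, by simp⟩
      left_inv := fun x => Subtype.ext (H84.XG.ext rfl (Prod.ext x.2.1.symm rfl))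
      right_inv := fun p => rfl }
  rw [Nat.card_congr e, Nat.card_prod, Nat.card_fun, Nat.card_zmod, Nat.card_eq_fintype_card,
    Fintype.card_fin]
  ring

theorem card_B1 (m : ℕ) : Nat.card (Bm m 1) = 2 ^ (m + 1) := by
  have e : Bm m 1 ≃ ZMod 2 × (Fin m → ZMod 2) :=
    { toFun := fun x => (x.1.a, fun i => x.1.v.2 i.succ)
      invFun := fun p => ⟨⟨p.1, (0, Fin.cons 0 p.2)⟩, rfl, by simp⟩
      left_inv := fun x => Subtype.ext (H84.XG.ext rfl (Prod.ext x.2.1.symm (funext fun i =>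
        Fin.cases (by simpa using x.2.2.symm) (fun i => by simp) i)))
      right_inv := fun p => by simp }
  rw [Nat.card_congr e, Nat.card_prod, Nat.card_fun, Nat.card_zmod, Nat.card_eq_fintype_card,
    Fintype.card_fin]
  ring

/-- For every n ≥ 1 there exist finite extraspecial 2-groups of order 2^(2n+1) whose 2-rank (the largest rank of an elementary abelian subgroup) is n, and ones whose 2-rank is n + 1 (so for each such order there are two non-isomorphic extraspecial 2-groups, told apart by their 2-rank). -/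
theorem result (n : ℕ) (hn : 1 ≤ n) : ∀ r ∈ ({n, n + 1} : Set ℕ), ∃ (E : Type) (_ : Group E) (_ : Finite E), Cfsg.IsExtraspecial 2 E ∧ Nat.card E = 2 ^ (2 * n + 1) ∧ sSup {k : ℕ | ∃ A : Subgroup E, Cfsg.IsElementaryAbelian 2 A ∧ Nat.card A = 2 ^ k} = r := by
  obtain ⟨m, rfl⟩ : ∃ m, n = m + 1 := ⟨n - 1, by omega⟩
  rintro r (rfl | rfl)
  · exact ⟨H84.XG (bf m 1), inferInstance, inferInstance, (xg_extra m 1).1, (xg_extra m 1).2,
      sSup_eq (xg_extra m 1).1 _ _ (Bm_elem m 1) (card_B1 m) (Bm_max m 1)⟩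
  · exact ⟨H84.XG (bf m 0), inferInstance, inferInstance, (xg_extra m 0).1, (xg_extra m 0).2,
      sSup_eq (xg_extra m 0).1 _ _ (Bm_elem m 0) (card_B0 m) (Bm_max m 0)⟩

end Cfsg.Agent.S5396
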