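import Cfsg.Statements.S5405
import Cfsg.Agent.H32.H1Orth

set_option autoImplicit false
open scoped MatrixGroups
open Cfsg

namespace Cfsg.Agent.S5405

open QuadraticMap

set_option synthInstance.maxSize 2000 in
set_option synthInstance.maxHeartbeats 200000 in
theorem nexc : ¬ H30.IsExc (H30.qMinus (ZMod 2) 1 1 1) := by
  rintro ⟨-, -, u, v, h, h1, h2, h3⟩
  have key : ∀ u v : (Fin 1 ⊕ Fin 1) ⊕ Fin 2 → ZMod 2, quadFormMinus 1 (ZMod 2) 1 1 u = 0 →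
      quadFormMinus 1 (ZMod 2) 1 1 v = 0 → polar (quadFormMinus 1 (ZMod 2) 1 1) u v = 0 →
      u = 0 ∨ v = 0 ∨ u = v := by decide +kernel
  rcases key u v h1 h2 h3 with h4 | h4 | h4
  · exact h.ne_zero 0 h4
  · exact h.ne_zero 1 h4
  · exact zero_ne_one (h.injective (a₁ := 0) (a₂ := 1) h4)

def e4 : Fin 4 → ((Fin 1 ⊕ Fin 1) ⊕ Fin 2 → ZMod 2) :=
  ![Sum.elim (Sum.elim ![0] ![0]) ![0, 1],
    Sum.elim (Sum.elim ![0] ![0]) ![1, 0],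
    Sum.elim (Sum.elim ![0] ![1]) ![0, 1],
    Sum.elim (Sum.elim ![1] ![1]) ![0, 0]]

def d4 : Fin 4 → ((Fin 1 ⊕ Fin 1) ⊕ Fin 2 → ZMod 2) :=
  ![Sum.elim (Sum.elim ![1] ![1]) ![1, 0],
    Sum.elim (Sum.elim ![0] ![0]) ![0, 1],
    Sum.elim (Sum.elim ![1] ![1]) ![0, 0],
    Sum.elim (Sum.elim ![0] ![1]) ![0, 0]]

def h4 (v : ((Fin 1 ⊕ Fin 1) ⊕ Fin 2 → ZMod 2)) : ℕ :=
  [0, 0, 0, 0, 0, 3, 2, 0, 0, 1, 0, 0, 1, 2, 1, 0].getD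
    ((v (.inl (.inl 0))).val * 1 + (v (.inl (.inr 0))).val * 2 + (v (.inr 0)).val * 4 + (v (.inr 1)).val * 8) 0

theorem orb4 : ∀ a0 a1 a2 a3 : ZMod 2, (quadFormMinus 1 (ZMod 2) 1 1) (Sum.elim (Sum.elim ![a0] ![a1]) ![a2, a3]) = 1 →
    (∃ i, (Sum.elim (Sum.elim ![a0] ![a1]) ![a2, a3]) = e4 i) ∨ ∃ i, h4 ((Sum.elim (Sum.elim ![a0] ![a1]) ![a2, a3]) + polar (quadFormMinus 1 (ZMod 2) 1 1) (Sum.elim (Sum.elim ![a0] ![a1]) ![a2, a3]) (e4 i) • e4 i) < h4 (Sum.elim (Sum.elim ![a0] ![a1]) ![a2, a3]) := by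
  decide +kernel

theorem all4 (v : ((Fin 1 ⊕ Fin 1) ⊕ Fin 2 → ZMod 2)) : ∃ a0 a1 a2 a3 : ZMod 2, v = (Sum.elim (Sum.elim ![a0] ![a1]) ![a2, a3]) := by
  refine ⟨v (.inl (.inl 0)), v (.inl (.inr 0)), v (.inr 0), v (.inr 1), funext fun i => ?_⟩
  rcases i with (i | i) | i <;> fin_cases i <;> rfl

theorem H4 (f : H30.O (H30.qMinus (ZMod 2) 1 1 1) → ((Fin 1 ⊕ Fin 1) ⊕ Fin 2 → ZMod 2))
    (hf : ∀ g ∈ commutator (H30.O (H30.qMinus (ZMod 2) 1 1 1)), ∀ h ∈ commutator (H30.O (H30.qMinus (ZMod 2) 1 1 1)), f (g * h) = f g + g.1 (f h)) :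
    ∃ w, ∀ g ∈ commutator (H30.O (H30.qMinus (ZMod 2) 1 1 1)), f g = g.1 w - w := by
  refine H32.h1_vanish (H30.qMinus_nondegenerate _ (by decide))
    nexc e4 d4 h4 ?_ ?_ ?_ ?_ ?_ ?_ f hf
  · change ∀ i, (quadFormMinus 1 (ZMod 2) 1 1) (e4 i) = 1
    decide +kernel
  · change ∀ i j, polar (quadFormMinus 1 (ZMod 2) 1 1) (d4 i) (e4 j) = if i = j then 1 else 0
    decide +kernel
  · change ∀ i j l, polar (quadFormMinus 1 (ZMod 2) 1 1) (e4 i) (e4 j) = 1 → polar (quadFormMinus 1 (ZMod 2) 1 1) (e4 l) (e4 j) = 1 →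
      polar (quadFormMinus 1 (ZMod 2) 1 1) (e4 i) (e4 l) = 0
    decide +kernel
  · change ∀ j, ∃ i, polar (quadFormMinus 1 (ZMod 2) 1 1) (e4 i) (e4 j) = 1
    decide +kernel
  · change ∀ j, j = 0 ∨ ∃ i, i < j ∧ polar (quadFormMinus 1 (ZMod 2) 1 1) (e4 i) (e4 j) = 1
    decide +kernel
  · intro v hv
    obtain ⟨a0, a1, a2, a3, rfl⟩ := all4 v
    exact orb4 _ _ _ _ hv

def e6 : Fin 6 → ((Fin 2 ⊕ Fin 2) ⊕ Fin 2 → ZMod 2) :=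
  ![Sum.elim (Sum.elim ![0, 0] ![0, 0]) ![0, 1],
    Sum.elim (Sum.elim ![0, 0] ![0, 0]) ![1, 0],
    Sum.elim (Sum.elim ![0, 0] ![0, 1]) ![0, 1],
    Sum.elim (Sum.elim ![0, 1] ![0, 1]) ![0, 0],
    Sum.elim (Sum.elim ![1, 0] ![1, 1]) ![0, 0],
    Sum.elim (Sum.elim ![0, 1] ![1, 1]) ![0, 0]]

def d6 : Fin 6 → ((Fin 2 ⊕ Fin 2) ⊕ Fin 2 → ZMod 2) :=
  ![Sum.elim (Sum.elim ![0, 1] ![1, 1]) ![1, 0],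
    Sum.elim (Sum.elim ![0, 0] ![0, 0]) ![0, 1],
    Sum.elim (Sum.elim ![0, 1] ![1, 1]) ![0, 0],
    Sum.elim (Sum.elim ![1, 0] ![1, 1]) ![0, 0],
    Sum.elim (Sum.elim ![0, 0] ![1, 0]) ![0, 0],
    Sum.elim (Sum.elim ![1, 0] ![1, 0]) ![0, 0]]

def h6 (v : ((Fin 2 ⊕ Fin 2) ⊕ Fin 2 → ZMod 2)) : ℕ :=
  [0, 0, 0, 0, 0, 10, 0, 1, 0, 0, 0, 9, 0, 0, 0, 0, 0, 5, 3, 6, 4, 0, 3, 0, 2, 5, 0, 0, 4, 0, 0, 4, 0, 3, 1, 8, 6, 0, 1, 0, 0, 7, 0, 0, 2, 0, 0, 2, 1, 4, 2, 7, 5, 0, 2, 0, 1, 6, 0, 0, 3, 0, 0, 3].getD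
    ((v (.inl (.inl 0))).val * 1 + (v (.inl (.inl 1))).val * 2 + (v (.inl (.inr 0))).val * 4 + (v (.inl (.inr 1))).val * 8 + (v (.inr 0)).val * 16 + (v (.inr 1)).val * 32) 0

theorem orb6 : ∀ a0 a1 a2 a3 a4 a5 : ZMod 2, (quadFormMinus 2 (ZMod 2) 1 1) (Sum.elim (Sum.elim ![a0, a1] ![a2, a3]) ![a4, a5]) = 1 →
    (∃ i, (Sum.elim (Sum.elim ![a0, a1] ![a2, a3]) ![a4, a5]) = e6 i) ∨ ∃ i, h6 ((Sum.elim (Sum.elim ![a0, a1] ![a2, a3]) ![a4, a5]) + polar (quadFormMinus 2 (ZMod 2) 1 1) (Sum.elim (Sum.elim ![a0, a1] ![a2, a3]) ![a4, a5]) (e6 i) • e6 i) < h6 (Sum.elim (Sum.elim ![a0, a1] ![a2, a3]) ![a4, a5]) := by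
  decide +kernel

theorem all6 (v : ((Fin 2 ⊕ Fin 2) ⊕ Fin 2 → ZMod 2)) : ∃ a0 a1 a2 a3 a4 a5 : ZMod 2, v = (Sum.elim (Sum.elim ![a0, a1] ![a2, a3]) ![a4, a5]) := by
  refine ⟨v (.inl (.inl 0)), v (.inl (.inl 1)), v (.inl (.inr 0)), v (.inl (.inr 1)), v (.inr 0), v (.inr 1), funext fun i => ?_⟩
  rcases i with (i | i) | i <;> fin_cases i <;> rfl

theorem H6 (f : H30.O (H30.qMinus (ZMod 2) 2 1 1) → ((Fin 2 ⊕ Fin 2) ⊕ Fin 2 → ZMod 2))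
    (hf : ∀ g ∈ commutator (H30.O (H30.qMinus (ZMod 2) 2 1 1)), ∀ h ∈ commutator (H30.O (H30.qMinus (ZMod 2) 2 1 1)), f (g * h) = f g + g.1 (f h)) :
    ∃ w, ∀ g ∈ commutator (H30.O (H30.qMinus (ZMod 2) 2 1 1)), f g = g.1 w - w := by
  refine H32.h1_vanish (H30.qMinus_nondegenerate _ (by decide))
    (H30.not_isExc_of_finrank (by simp)) e6 d6 h6 ?_ ?_ ?_ ?_ ?_ ?_ f hf
  · change ∀ i, (quadFormMinus 2 (ZMod 2) 1 1) (e6 i) = 1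
    decide +kernel
  · change ∀ i j, polar (quadFormMinus 2 (ZMod 2) 1 1) (d6 i) (e6 j) = if i = j then 1 else 0
    decide +kernel
  · change ∀ i j l, polar (quadFormMinus 2 (ZMod 2) 1 1) (e6 i) (e6 j) = 1 → polar (quadFormMinus 2 (ZMod 2) 1 1) (e6 l) (e6 j) = 1 →
      polar (quadFormMinus 2 (ZMod 2) 1 1) (e6 i) (e6 l) = 0
    decide +kernel
  · change ∀ j, ∃ i, polar (quadFormMinus 2 (ZMod 2) 1 1) (e6 i) (e6 j) = 1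
    decide +kernel
  · change ∀ j, j = 0 ∨ ∃ i, i < j ∧ polar (quadFormMinus 2 (ZMod 2) 1 1) (e6 i) (e6 j) = 1
    decide +kernel
  · intro v hv
    obtain ⟨a0, a1, a2, a3, a4, a5, rfl⟩ := all6 v
    exact orb6 _ _ _ _ _ _ hv

def e8 : Fin 8 → (Fin 4 ⊕ Fin 4 → ZMod 2) :=
  ![Sum.elim ![0, 0, 0, 1] ![0, 0, 0, 1],
    Sum.elim ![0, 0, 1, 0] ![0, 0, 1, 1],
    Sum.elim ![0, 0, 0, 1] ![0, 1, 0, 1],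
    Sum.elim ![0, 1, 0, 0] ![0, 1, 0, 0],
    Sum.elim ![0, 0, 0, 1] ![0, 1, 1, 1],
    Sum.elim ![0, 0, 1, 0] ![0, 0, 1, 0],
    Sum.elim ![0, 0, 0, 1] ![1, 0, 1, 1],
    Sum.elim ![1, 1, 1, 0] ![1, 1, 1, 0]]

def d8 : Fin 8 → (Fin 4 ⊕ Fin 4 → ZMod 2) :=
  ![Sum.elim ![1, 1, 0, 0] ![1, 1, 0, 1],
    Sum.elim ![0, 0, 0, 1] ![0, 0, 0, 1],
    Sum.elim ![1, 1, 1, 0] ![1, 1, 1, 0],
    Sum.elim ![0, 0, 0, 0] ![1, 1, 0, 0],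
    Sum.elim ![1, 0, 1, 0] ![1, 0, 1, 0],
    Sum.elim ![0, 0, 0, 1] ![1, 0, 1, 1],
    Sum.elim ![1, 0, 0, 0] ![1, 0, 0, 0],
    Sum.elim ![0, 0, 0, 0] ![1, 0, 0, 0]]

def h8 (v : (Fin 4 ⊕ Fin 4 → ZMod 2)) : ℕ :=
  [0, 0, 0, 0, 0, 0, 0, 0, 0, 0, 0, 0, 0, 0, 0, 0, 0, 28, 0, 11, 0, 3, 0, 8, 0, 5, 0, 2, 0, 6, 0, 7, 0, 0, 0, 11, 0, 0, 3, 12, 0, 0, 15, 22, 0, 0, 4, 9, 0, 12, 16, 0, 0, 7, 15, 0, 0, 3, 5, 0, 0, 6, 18, 0, 0, 0, 0, 0, 0, 15, 13, 24, 0, 0, 0, 0, 1, 6, 2, 9, 0, 4, 0, 9, 12, 0, 3, 0, 0, 5, 0, 6, 21, 0, 18, 0, 0, 0, 2, 11, 12, 25, 0, 0, 0, 0, 5, 10, 1, 8, 0, 0, 0, 8, 16, 0, 2, 0, 0, 0, 0, 5, 17, 0, 19, 0, 0, 9, 0, 0, 0, 0, 0, 0, 0, 0, 0, 5, 1, 10, 11, 26, 2, 13, 0, 4, 0, 3, 0, 5, 0, 8, 22, 0, 17, 0, 1, 0, 14, 0, 0, 0, 16, 21, 0, 0, 3, 10, 0, 9, 0, 0, 1, 14, 0, 0, 0, 4,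 6, 0, 0, 7, 17, 0, 18, 0, 0, 10, 13, 0, 0, 9, 0, 0, 0, 0, 0, 7, 3, 8, 10, 27, 1, 12, 0, 0, 0, 0, 0, 4, 0, 7, 20, 0, 19, 0, 0, 0, 15, 0, 0, 6, 0, 1, 0, 0, 4, 11, 2, 7, 0, 0, 0, 13, 0, 0, 0, 0, 14, 23, 0, 6, 16, 0, 20, 0, 0, 8, 14, 0, 0, 10, 0, 2, 4, 0].getD
    ((v (.inl 0)).val * 1 + (v (.inl 1)).val * 2 + (v (.inl 2)).val * 4 + (v (.inl 3)).val * 8 + (v (.inr 0)).val * 16 + (v (.inr 1)).val * 32 + (v (.inr 2)).val * 64 + (v (.inr 3)).val * 128) 0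

theorem orb8 : ∀ a0 a1 a2 a3 a4 a5 a6 a7 : ZMod 2, (quadFormPlus 4 (ZMod 2)) (Sum.elim ![a0, a1, a2, a3] ![a4, a5, a6, a7]) = 1 →
    (∃ i, (Sum.elim ![a0, a1, a2, a3] ![a4, a5, a6, a7]) = e8 i) ∨ ∃ i, h8 ((Sum.elim ![a0, a1, a2, a3] ![a4, a5, a6, a7]) + polar (quadFormPlus 4 (ZMod 2)) (Sum.elim ![a0, a1, a2, a3] ![a4, a5, a6, a7]) (e8 i) • e8 i) < h8 (Sum.elim ![a0, a1, a2, a3] ![a4, a5, a6, a7]) := by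
  decide +kernel

theorem all8 (v : (Fin 4 ⊕ Fin 4 → ZMod 2)) : ∃ a0 a1 a2 a3 a4 a5 a6 a7 : ZMod 2, v = (Sum.elim ![a0, a1, a2, a3] ![a4, a5, a6, a7]) := by
  refine ⟨v (.inl 0), v (.inl 1), v (.inl 2), v (.inl 3), v (.inr 0), v (.inr 1), v (.inr 2), v (.inr 3), funext fun i => ?_⟩
  rcases i with i | i <;> fin_cases i <;> rfl

theorem H8 (f : H30.O (H30.qPlus (ZMod 2) 4) → (Fin 4 ⊕ Fin 4 → ZMod 2))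
    (hf : ∀ g ∈ commutator (H30.O (H30.qPlus (ZMod 2) 4)), ∀ h ∈ commutator (H30.O (H30.qPlus (ZMod 2) 4)), f (g * h) = f g + g.1 (f h)) :
    ∃ w, ∀ g ∈ commutator (H30.O (H30.qPlus (ZMod 2) 4)), f g = g.1 w - w := by
  refine H32.h1_vanish (H30.qPlus_nondegenerate _)
    (H30.not_isExc_of_finrank (by simp)) e8 d8 h8 ?_ ?_ ?_ ?_ ?_ ?_ f hf
  · change ∀ i, (quadFormPlus 4 (ZMod 2)) (e8 i) = 1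
    decide +kernel
  · change ∀ i j, polar (quadFormPlus 4 (ZMod 2)) (d8 i) (e8 j) = if i = j then 1 else 0
    decide +kernel
  · change ∀ i j l, polar (quadFormPlus 4 (ZMod 2)) (e8 i) (e8 j) = 1 → polar (quadFormPlus 4 (ZMod 2)) (e8 l) (e8 j) = 1 →
      polar (quadFormPlus 4 (ZMod 2)) (e8 i) (e8 l) = 0
    decide +kernel
  · change ∀ j, ∃ i, polar (quadFormPlus 4 (ZMod 2)) (e8 i) (e8 j) = 1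
    decide +kernel
  · change ∀ j, j = 0 ∨ ∃ i, i < j ∧ polar (quadFormPlus 4 (ZMod 2)) (e8 i) (e8 j) = 1
    decide +kernel
  · intro v hv
    obtain ⟨a0, a1, a2, a3, a4, a5, a6, a7, rfl⟩ := all8 v
    exact orb8 _ _ _ _ _ _ _ _ hv


/-- Vanishing of first cohomology on the natural module for three small orthogonal groups over the field with two elements: for the commutator subgroup of the isometry group of the elliptic quadratic form in dimension 4, of the elliptic form in dimension 6, and of the hyperbolic form in dimension 8, every crossed homomorphism into the natural module (a map f with f(gh) = f(g) + g·f(h)) is principal (of the form g ↦ g·v − v). -/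
theorem result : (∀ f : ↥(Cfsg.Omega (ZMod 2) (Cfsg.quadFormMinus 1 (ZMod 2) 1 1)) → ((Fin 1 ⊕ Fin 1) ⊕ Fin 2 → ZMod 2), (∀ g h : ↥(Cfsg.Omega (ZMod 2) (Cfsg.quadFormMinus 1 (ZMod 2) 1 1)), f (g * h) = f g + Matrix.mulVec (((g : ↥(Cfsg.isometryGroup (ZMod 2) (Cfsg.quadFormMinus 1 (ZMod 2) 1 1))) : GL ((Fin 1 ⊕ Fin 1) ⊕ Fin 2) (ZMod 2)) : Matrix ((Fin 1 ⊕ Fin 1) ⊕ Fin 2) ((Fin 1 ⊕ Fin 1) ⊕ Fin 2) (ZMod 2)) (f h)) → ∃ v : (Fin 1 ⊕ Fin 1) ⊕ Fin 2 → ZMod 2, ∀ g : ↥(Cfsg.Omega (ZMod 2) (Cfsg.quadFormMinus 1 (ZMod 2) 1 1)), f g = Matrix.mulVec (((g : ↥(Cfsg.isometryGroup (ZMod 2) (Cfsg.quadFormMinus 1 (ZMod 2) 1 1))) : GL ((Fin 1 ⊕ Fin 1) ⊕ Fin 2) (ZMod 2)) : Matrix ((Fin 1 ⊕ Fin 1) ⊕ Fin 2) ((Fin 1 ⊕ Fin 1) ⊕ Fin 2) (ZMod 2)) v - v) ∧ (∀ f : ↥(Cfsg.Omega (ZMod 2) (Cfsg.quadFormMinus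 2 (ZMod 2) 1 1)) → ((Fin 2 ⊕ Fin 2) ⊕ Fin 2 → ZMod 2), (∀ g h : ↥(Cfsg.Omega (ZMod 2) (Cfsg.quadFormMinus 2 (ZMod 2) 1 1)), f (g * h) = f g + Matrix.mulVec (((g : ↥(Cfsg.isometryGroup (ZMod 2) (Cfsg.quadFormMinus 2 (ZMod 2) 1 1))) : GL ((Fin 2 ⊕ Fin 2) ⊕ Fin 2) (ZMod 2)) : Matrix ((Fin 2 ⊕ Fin 2) ⊕ Fin 2) ((Fin 2 ⊕ Fin 2) ⊕ Fin 2) (ZMod 2)) (f h)) → ∃ v : (Fin 2 ⊕ Fin 2) ⊕ Fin 2 → ZMod 2, ∀ g : ↥(Cfsg.Omega (ZMod 2) (Cfsg.quadFormMinus 2 (ZMod 2) 1 1)), f g = Matrix.mulVec (((g : ↥(Cfsg.isometryGroup (ZMod 2) (Cfsg.quadFormMinus 2 (ZMod 2) 1 1))) : GL ((Fin 2 ⊕ Fin 2) ⊕ Fin 2) (ZMod 2)) : Matrix ((Fin 2 ⊕ Fin 2) ⊕ Fin 2) ((Fin 2 ⊕ Fin 2) ⊕ Fin 2) (ZMod 2)) v - v) ∧ (∀ f : ↥(Cfsg.Omega (ZMod 2) (Cfsg.quadFormPlus 4 (ZMod 2))) → (Fin 4 ⊕ Fin 4 → ZMod 2), (∀ g h : ↥(Cfsg.Omega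 (ZMod 2) (Cfsg.quadFormPlus 4 (ZMod 2))), f (g * h) = f g + Matrix.mulVec (((g : ↥(Cfsg.isometryGroup (ZMod 2) (Cfsg.quadFormPlus 4 (ZMod 2)))) : GL (Fin 4 ⊕ Fin 4) (ZMod 2)) : Matrix (Fin 4 ⊕ Fin 4) (Fin 4 ⊕ Fin 4) (ZMod 2)) (f h)) → ∃ v : Fin 4 ⊕ Fin 4 → ZMod 2, ∀ g : ↥(Cfsg.Omega (ZMod 2) (Cfsg.quadFormPlus 4 (ZMod 2))), f g = Matrix.mulVec (((g : ↥(Cfsg.isometryGroup (ZMod 2) (Cfsg.quadFormPlus 4 (ZMod 2)))) : GL (Fin 4 ⊕ Fin 4) (ZMod 2)) : Matrix (Fin 4 ⊕ Fin 4) (Fin 4 ⊕ Fin 4) (ZMod 2)) v - v) := by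
  exact ⟨H32.h1_vanish_mat H4, H32.h1_vanish_mat H6, H32.h1_vanish_mat H8⟩

end Cfsg.Agent.S5405
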