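import Cfsg.Statements.S5410
import Cfsg.Agent.H49.Monster

set_option autoImplicit false
open Cfsg

namespace Cfsg.Agent.S5410

open Cfsg.Agent.H48 Cfsg.Agent.H49 in
theorem aux {H : Type*} [Group H] (π : Co0 →* H) (hπ : ∀ g, π g = 1 ↔ g ∈ Subgroup.center Co0) :
    Signs.map π ≤ Mono.map π ∧ (∀ x ∈ Mono.map π, ∀ y ∈ Signs.map π, x * y * x⁻¹ ∈ Signs.map π) ∧
      Cfsg.IsElementaryAbelian 2 (Signs.map π) ∧ Nat.card (Signs.map π) = 2 ^ 11 ∧
      ∃ K : Subgroup H, K ≤ Mono.map π ∧ Signs.map π ⊓ K = ⊥ ∧ Signs.map π ⊔ K = Mono.map π ∧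
        Nonempty (K ≃* Cfsg.M24) := by
  have hker : π.ker = Subgroup.center Co0 := by ext g; exact hπ g
  have key : ∀ s ∈ Signs, ∀ σ : M24, π s = π (permEl σ) → σ = 1 := by
    intro s hs σ e
    apply eq_one_of_permEl_mem_Signs
    have : s⁻¹ * permEl σ ∈ Signs := center_le_Signs ((hπ _).1 (by rw [map_mul, map_inv, e]; simp))
    simpa using mul_mem hs this
  refine ⟨Subgroup.map_mono Signs_le_Mono, ?_, ⟨⟨⟨?_⟩⟩, ?_⟩, ?_, (π.comp permHom).range, ?_, ?_, ?_,
    ⟨(MonoidHom.ofInjective ?_).symm⟩⟩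
  · rintro _ ⟨x, hx, rfl⟩ _ ⟨y, hy, rfl⟩
    exact ⟨_, conj_mem_Signs hx hy, by simp⟩
  · rintro ⟨_, _, ⟨c, hc, rfl⟩, rfl⟩ ⟨_, _, ⟨d, hd, rfl⟩, rfl⟩
    apply Subtype.ext
    change π _ * π _ = π _ * π _
    rw [← map_mul, signEl_comm, map_mul]
  · rintro _ ⟨_, ⟨c, hc, rfl⟩, rfl⟩
    rw [← map_pow, sq, signEl_mul_self, map_one]
  · rw [← card_map_Signs, ← Subgroup.relIndex_ker, ← Subgroup.relIndex_ker, hker,
      QuotientGroup.ker_mk']
  · rintro _ ⟨σ, rfl⟩
    exact ⟨_, permEl_mem_mono σ, rfl⟩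
  · rw [eq_bot_iff]
    rintro _ ⟨⟨s, hs, rfl⟩, σ, e⟩
    have := key s hs σ e.symm
    subst this
    rw [← e, map_one]; exact one_mem _
  · apply le_antisymm (sup_le (Subgroup.map_mono Signs_le_Mono) ?_)
    · rintro _ ⟨x, hx, rfl⟩
      obtain ⟨σ, c, hc, rfl⟩ := mono_structure hx
      rw [map_mul]
      exact Subgroup.mul_mem_sup ⟨_, signEl_mem_Signs c hc, rfl⟩ ⟨σ, rfl⟩
    · rintro _ ⟨σ, rfl⟩
      exact ⟨_, permEl_mem_mono σ, rfl⟩
  · rw [injective_iff_map_eq_one]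
    intro σ e
    exact key 1 (one_mem _) σ (by rw [map_one]; exact e.symm)

/-- Let G be a finite group of Monster type at the involution z with Q the extraspecial normal subgroup of order 2^25 of C = C_G(z) (so C/Q is identified with the first Conway group with Q modulo its centre the Leech lattice modulo 2, and z is not weakly closed in Q). Let g in G with s = g z g⁻¹ a member of Q other than z, let X be the image in C/Q of the centralizer of s in C, and let E be the image in C/Q of the intersection of g Q g⁻¹ with C. Then E is a normal subgroup of X, elementary abelian of order 2^11, and it has a complement in X isomorphic to the Mathieu group of degree 24 (the automorphism group of the length-24 binary Golay code). -/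
theorem result {G : Type*} [Group G] [Finite G] (z : G) (Q : Subgroup (Subgroup.centralizer ({z} : Set G))) [Q.Normal] (hM : Cfsg.IsOfMonsterType z Q) (s : G) (hsQ : ∃ hsc : s ∈ Subgroup.centralizer ({z} : Set G), (⟨s, hsc⟩ : Subgroup.centralizer ({z} : Set G)) ∈ Q) (hs : IsConj z s) (hs1 : s ≠ z) (g : G) (hg : g * z * g⁻¹ = s) (X E : Subgroup ((Subgroup.centralizer ({z} : Set G)) ⧸ Q)) (hX : X = ((Subgroup.centralizer ({z} : Set G) ⊓ Subgroup.centralizer ({s} : Set G)).subgroupOf (Subgroup.centralizer ({z} : Set G))).map (QuotientGroup.mk' Q)) (hE : E = (((Q.map (Subgroup.centralizer ({z} : Set G)).subtype).map (MulAut.conj g).toMonoidHom ⊓ Subgroup.centralizer ({z} : Set G)).subgroupOf (Subgroup.centralizer ({z} : Set G))).map (QuotientGroup.mk' Q)) : E ≤ X ∧ (∀ x ∈ X, ∀ y ∈ E, x * y * x⁻¹ ∈ E) ∧ Cfsg.IsElementaryAbelian 2 E ∧ Nat.card E = 2 ^ 11 ∧ ∃ K : Subgroup ((Subgroup.centralizer ({z} : Set G)) ⧸ Q), K ≤ X ∧ E ⊓ K = ⊥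 ∧ E ⊔ K = X ∧ Nonempty (K ≃* Cfsg.M24) := by
  obtain ⟨hS, e, ψ, hψ⟩ := hM
  obtain ⟨h1, h2⟩ := hsQ
  subst hg
  have h := H49.MD.of_iso hS hψ
  have p := h.hQ.pair h.h8 ⟨_, h2, rfl⟩ hs1
  obtain ⟨v, r, hv⟩ := h.exists_short p.xQ
  obtain ⟨g₀, hg₀⟩ := H48.trans64 (h.norm_eq_64 p r hv) (H48.sqNorm_e8 none)
  have h' := h.twist g₀
  have r' : H49.monR Q ψ (g₀⁻¹ • H48.e8 none) (g * z * g⁻¹) := by
    rw [← hg₀, inv_smul_smul]; exact r
  have e1 := h'.pull_eq_Signs p r'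
  have e2 := h'.pull_CV_eq_Mono r'
  let ε := e.trans (MulAut.conj (QuotientGroup.mk g₀ : Spor.Co1))
  let π : Co0 →* _ := ε.symm.toMonoidHom.comp (QuotientGroup.mk' _)
  have hπ : ∀ H : Subgroup G, (H.subgroupOf (Subgroup.centralizer {z})).map (QuotientGroup.mk' Q) =
      (H49.pull ((MulAut.conj (QuotientGroup.mk g₀ : Spor.Co1)).toMonoidHom.comp
        (e.toMonoidHom.comp (QuotientGroup.mk' Q))) H).map π := by
    intro H
    rw [← Subgroup.map_map, ← H49.map_eq_map_pull, Subgroup.map_map]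
    congr 1
    ext k
    exact (ε.symm_apply_apply _).symm
  rw [hπ, e1] at hE
  rw [hπ, e2] at hX
  subst hX hE
  apply aux
  intro k
  simp only [π, MonoidHom.comp_apply, MulEquiv.coe_toMonoidHom, map_eq_one_iff _ ε.symm.injective,
    QuotientGroup.mk'_apply, QuotientGroup.eq_one_iff]

end Cfsg.Agent.S5410
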