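import Cfsg.Statements.S5413
import Cfsg.Agent.H49.Monster4
import Cfsg.Agent.H49.Fix5

set_option autoImplicit false
open Cfsg

namespace Cfsg.Agent.S5413

/-- Let G be a finite group of Monster type at the involution z with Q the extraspecial normal subgroup of order 2^25 of C = C_G(z) (so C/Q is identified with the first Conway group with Q modulo its centre the Leech lattice modulo 2, and z is not weakly closed in Q). Let s be a conjugate of z in Q other than z and let B be a Sylow 5-subgroup of the joint centralizer of z and s. Then the centralizer of B modulo B is a group of Harada–Norton type (an involution whose centralizer D has generalized Fitting subgroup R extraspecial of order 2^9 with D/R the wreath product of the alternating group of degree 5 by a group of order 2, the involution not weakly closed in R). -/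
theorem result {G : Type*} [Group G] [Finite G] (z : G) (Q : Subgroup (Subgroup.centralizer ({z} : Set G))) [Q.Normal] (hM : Cfsg.IsOfMonsterType z Q) (s : G) (hsQ : ∃ hsc : s ∈ Subgroup.centralizer ({z} : Set G), (⟨s, hsc⟩ : Subgroup.centralizer ({z} : Set G)) ∈ Q) (hs : IsConj z s) (hs1 : s ≠ z) (B : Subgroup G) (hB : B ≤ Subgroup.centralizer ({z, s} : Set G)) (hBp : Nat.card B = 5 ^ (Nat.card ↥(Subgroup.centralizer ({z, s} : Set G))).factorization 5) [hn : (B.subgroupOf (Subgroup.centralizer (B : Set G))).Normal] : Cfsg.IsOfHaradaNortonType (↥(Subgroup.centralizer (B : Set G)) ⧸ B.subgroupOf (Subgroup.centralizer (B : Set G))) := by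
  have : Fact (Nat.Prime 5) := ⟨by norm_num⟩
  obtain ⟨Q', θ₀, R₀, h₀, r₀⟩ := H49.mon_start hM hsQ hs hs1
  obtain ⟨b, τ, hb, e, h1, h2⟩ := h₀.exists_perm' r₀ (by decide) hB (h₀.card_sylow r₀ (Or.inl rfl) hBp)
  obtain ⟨i, hi, -, c⟩ := H49.m24_class_of_order h1 [8] (by decide +kernel)
  obtain rfl : i = 8 := by simpa using hi
  obtain ⟨θ, R, h, r, a⟩ := h2 _ c
  have hsb : s * b = b * s := (hB (e ▸ Subgroup.mem_zpowers b)) s (by simp)
  obtain ⟨zs, Qs, hQ, h1, h2, -⟩ := h.odd_quot (w := 4) (by decide) H49.f5_ord H49.f5_centData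
    H49.f5_fs hb a (h.mem r) hs hs1 hsb e
  exact ⟨zs, Qs, hQ, h1, h2⟩

end Cfsg.Agent.S5413
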