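import Cfsg.Statements.S5414
import Cfsg.Agent.H49.Monster4
import Cfsg.Agent.H49.Fix3

set_option autoImplicit false
open Cfsg

namespace Cfsg.Agent.S5414

open Subgroup H49 H48 H42 H43 in
theorem cent_dvd {G : Type*} [Group G] [Finite G] {z : G} {Q : Subgroup G}
    {θ : centralizer ({z} : Set G) →* Spor.Co1} {R : Lam → G → Prop} (h : MD Q z θ R) {s : G}
    (r : R (e8 none) s) {p : ℕ} [Fact p.Prime] (hp : Odd p) {y : G} (hy : orderOf y = p) {σ : M24}
    (a : Ass θ (permEl σ) y) (hs : s * y = y * s) :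
    Nat.card (centralizer {σ}) ∣ Nat.card ↥(centralizer ({z, s} : Set G) ⊓ centralizer {y}) := by
  set D := centralizer ({z, s} : Set G) ⊓ centralizer {y} with hD
  let D' : Subgroup G :=
    { carrier := {k | k ∈ D ∧ ∃ τ : centralizer {σ}, Ass θ (permEl τ.1) k}
      one_mem' := ⟨one_mem _, 1, by simpa [permEl_one] using ass_one_one⟩
      mul_mem' := by
        rintro k k' ⟨h1, τ, a1⟩ ⟨h2, τ', a2⟩
        exact ⟨mul_mem h1 h2, τ * τ', by simpa only [← permHom_apply, ← map_mul, coe_mul] using a1.mul a2⟩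
      inv_mem' := by
        rintro k ⟨h1, τ, a1⟩
        exact ⟨inv_mem h1, τ⁻¹, by simpa only [← permHom_apply, ← map_inv, coe_inv] using a1.inv⟩ }
  have un : ∀ {k : G} {τ τ' : M24}, Ass θ (permEl τ) k → Ass θ (permEl τ') k → τ = τ' := by
    intro k τ τ' a1 a2
    have := center_le_Signs ((h.ass_mem_iff (a1.mul a2.inv)).1 (by simp))
    rw [← permHom_apply, ← permHom_apply, ← map_inv, ← map_mul] at this
    exact mul_inv_eq_one.1 (eq_one_of_permEl_mem_Signs this)
  have ex : ∀ k : D', ∃ τ : centralizer {σ}, Ass θ (permEl τ.1) k.1 := fun k => k.2.2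
  choose f hf using ex
  let β : D' →* centralizer {σ} := MonoidHom.mk' f fun k k' => Subtype.ext (un (hf (k * k'))
    (by simpa only [← permHom_apply, ← map_mul, coe_mul] using (hf k).mul (hf k')))
  refine (card_dvd_of_surjective β fun τ => ?_).trans (card_dvd_of_le fun k hk => hk.1)
  obtain ⟨c, ac, e⟩ := h.lift hp (hy ▸ pow_orderOf_eq_one y) a (g := permEl τ.1) (k := 1) (by
    rw [pow_one, ← permHom_apply, ← permHom_apply, ← map_mul, ← map_mul,
      mem_centralizer_singleton_iff.1 τ.2])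
  rw [pow_one, mul_inv_eq_iff_eq_mul] at e
  have mD : ∀ k, k * z = z * k → k * s * k⁻¹ = s → k * y = y * k → k ∈ D := fun k h1 h2 h3 => by
    rw [hD, centralizer_pair]
    exact ⟨⟨mem_centralizer_singleton_iff.2 h1,
      mem_centralizer_singleton_iff.2 (mul_inv_eq_iff_eq_mul.1 h2)⟩, mem_centralizer_singleton_iff.2 h3⟩
  obtain ⟨k, hk, ak⟩ : ∃ k ∈ D, Ass θ (permEl τ.1) k := by
    rcases (h.uniq r (h.act' ac r)).1 (cong_of_mem_mono (permEl_mem_mono _) none) with e1 | e1
    · exact ⟨c, mD c ac.comm e1 e, ac⟩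
    · have X := h.xs_fix (hy ▸ hp) a.comm (h.mem r) (h.e8_ne_one r) (h.e8_spec r).2 hs
      rw [centralizer_zpowers'] at X
      obtain ⟨q, hq, e2⟩ := X.exists_conj_eq_mul_z
        ⟨h.mem r, mem_centralizer_singleton_iff.2 hs⟩ (h.e8_ne_one r) (h.e8_spec r).2
      have a2 := (h.ass_one hq.1).mul ac
      rw [one_mul] at a2
      refine ⟨q * c, mD _ a2.comm ?_ ?_, a2⟩
      · calc q * c * s * (q * c)⁻¹ = q * (c * s * c⁻¹) * q⁻¹ := by group
          _ = q * s * q⁻¹ * (q * z * q⁻¹) := by rw [e1]; group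
          _ = s := by rw [e2, h.hQ.cen q hq.1, mul_inv_cancel_right, mul_assoc, h.hQ.zz, mul_one]
      · rw [mul_assoc, e, ← mul_assoc, mem_centralizer_singleton_iff.1 hq.2, mul_assoc]
  exact ⟨⟨k, hk, τ, ak⟩, Subtype.ext (un (hf _) ak)⟩

/-- Let G be a finite group of Monster type at the involution z with Q the extraspecial normal subgroup of order 2^25 of C = C_G(z) (so C/Q is identified with the first Conway group with Q modulo its centre the Leech lattice modulo 2, and z is not weakly closed in Q). Let s be a conjugate of z in Q other than z and let Y be a subgroup of order 3 of the joint centralizer L of z and s that is not 3-central in L (Y lies in the centre of no Sylow 3-subgroup of L). Then the centralizer of Y modulo Y is a group of Thompson type (an involution whose centralizer D has generalized Fitting subgroup R extraspecial of order 2^9 with D/R the alternating group of degree 9, the involution not weakly closed in R). -/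
theorem result {G : Type*} [Group G] [Finite G] (z : G) (Q : Subgroup (Subgroup.centralizer ({z} : Set G))) [Q.Normal] (hM : Cfsg.IsOfMonsterType z Q) (s : G) (hsQ : ∃ hsc : s ∈ Subgroup.centralizer ({z} : Set G), (⟨s, hsc⟩ : Subgroup.centralizer ({z} : Set G)) ∈ Q) (hs : IsConj z s) (hs1 : s ≠ z) (Y : Subgroup G) (hY : Y ≤ Subgroup.centralizer ({z, s} : Set G)) (hY3 : Nat.card Y = 3) (hnc : ∀ P : Sylow 3 ↥(Subgroup.centralizer ({z, s} : Set G)), ¬ Y.subgroupOf (Subgroup.centralizer ({z, s} : Set G)) ≤ (Subgroup.center ↥(P : Subgroup ↥(Subgroup.centralizer ({z, s} : Set G)))).map (P : Subgroup ↥(Subgroup.centralizer ({z, s} : Set G))).subtype) [hn : (Y.subgroupOf (Subgroup.centralizer (Y : Set G))).Normal] : Cfsg.IsOfThompsonType (↥(Subgroup.centralizer (Y : Set G)) ⧸ Y.subgroupOf (Subgroup.centralizer (Y : Set G))) := by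
  have : Fact (Nat.Prime 3) := ⟨by norm_num⟩
  obtain ⟨Q', θ₀, R₀, h₀, r₀⟩ := H49.mon_start hM hsQ hs hs1
  obtain ⟨b, τ, hb, e, h1, h2⟩ := h₀.exists_perm' r₀ (by decide) hY hY3
  have hsb : s * b = b * s := (hY (e ▸ Subgroup.mem_zpowers b)) s (by simp)
  obtain ⟨i, hi, -, c⟩ := H49.m24_class_of_order h1 [3, 4] (by decide +kernel)
  obtain ⟨θ, R, h, r, a⟩ := h2 _ c
  simp only [List.mem_cons, List.not_mem_nil, or_false] at hi
  rcases hi with rfl | rfl
  · exfalso
    have h3 := cent_dvd h r (by decide) hb a hsb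
    rw [(H49.m24_rep_spec (i := 3) (by norm_num)).2] at h3
    set L := Subgroup.centralizer ({z, s} : Set G) with hL
    have hY' : Y ≤ L ⊓ Subgroup.centralizer {b} := le_inf hY (by
      rw [e, Subgroup.zpowers_le]; exact Subgroup.mem_centralizer_singleton_iff.2 rfl)
    obtain ⟨S, hS, hYS⟩ := H8.exists_isSylowIn_ge (p := 3) (IsPGroup.of_card (n := 1) hY3) hY'
    obtain ⟨T, hT⟩ := H8.exists_isSylowIn 3 L
    have h4 : Nat.card T = 3 ^ 3 := by
      rw [hT.card_eq, h.card_L r, show 2 ^ 35 * 244823040 = 3 ^ 3 * (2 ^ 35 * 9067520) by norm_num,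
        Nat.factorization_mul (by norm_num) (by norm_num), Nat.Prime.factorization_pow (by norm_num)]
      simp [Nat.factorization_eq_zero_of_not_dvd]
    have h5 : 3 ^ 3 ≤ Nat.card S := by
      rw [hS.card_eq]
      exact Nat.pow_le_pow_right (by norm_num) (((by norm_num : Nat.Prime 3).pow_dvd_iff_le_factorization
        Nat.card_pos.ne').1 ((show 3 ^ 3 ∣ 1080 by norm_num).trans h3))
    have hS' := hT.of_card_ge hS.isPGroup (hS.le.trans inf_le_left) (h4 ▸ h5)
    refine hnc hS'.toSylow fun y hy => ⟨⟨y, hYS hy⟩, Subgroup.mem_center_iff.2 fun g => ?_, rfl⟩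
    obtain ⟨k, hk⟩ := Subgroup.mem_zpowers_iff.1 (e ▸ (hy : y.1 ∈ Y))
    have h6 : Commute g.1.1 b := Subgroup.mem_centralizer_singleton_iff.1 (hS.le g.2).2
    exact Subtype.ext (Subtype.ext (by have := (h6.zpow_right k).eq; rwa [hk] at this))
  · obtain ⟨zs, Qs, hQ, h1, h2, -⟩ := h.odd_quot (w := 4) (by decide) H49.f3_ord H49.f3_centData
      H49.f3_fs hb a (h.mem r) hs hs1 hsb e
    exact ⟨zs, Qs, hQ, h1, h2⟩

end Cfsg.Agent.S5414
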