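import Cfsg.Statements.S5418
import Cfsg.Agent.H49.Monster4
import Cfsg.Agent.H49.Simp

set_option autoImplicit false
open Cfsg

namespace Cfsg.Agent.S5418

open Subgroup H49 H48 H42 H43

theorem mem_layer_of_quot {M M' : Type*} [Group M] [Group M'] [Finite M] (φ : M →* M')
    (hs : Function.Surjective φ) (hk : φ.ker ≤ center M) (ho : Odd (Nat.card φ.ker))
    {K : Subgroup M'} [K.Normal] (hK : IsQuasisimple K) {z : M} (zz : z * z = 1) (hz : φ z ∈ K) :
    z ∈ layer M := by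
  set L := K.comap φ with hL
  have h1 : (⁅L, L⁆).map φ = K := by
    rw [map_commutator, hL, map_comap_eq_self_of_surjective hs, H52.IsQuasisimple.commutator_self hK]
  have h2 : ⁅L, L⁆ ⊔ φ.ker = L := by rw [← comap_map_eq, h1]
  have h3 : ∀ A : Subgroup M, ⁅A, φ.ker⁆ = ⊥ := fun A =>
    eq_bot_iff.2 ((commutator_mono le_rfl hk).trans (commutator_center_right A).le)
  have h4 : ⁅⁅L, L⁆, ⁅L, L⁆⁆ = ⁅L, L⁆ := by
    conv_rhs => rw [← h2, H52.commutator_sup_sup_of_commute (h3 _), h3, sup_bot_eq]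
  have h5 : IsQuasisimple ↥⁅L, L⁆ := H52.isQuasisimple_of_map φ h4 (eq_bot_iff.2
    ((commutator_mono inf_le_right le_rfl).trans (by rw [commutator_comm, h3]))) (h1.symm ▸ hK)
  have h6 := H52.IsComponent.le_layer ⟨Normal.isSubnormal inferInstance, h5⟩
  obtain ⟨a, ha, b, hb, e⟩ := (H52.mem_sup_of_commutator_eq_bot (h3 _)).1 (h2.ge hz)
  obtain ⟨n, hn⟩ := ho
  have c : Commute a b := mem_center_iff.1 (hk hb) a
  have h7 : b ^ (2 * n + 1) = 1 := by
    rw [← hn]; exact congrArg Subtype.val (pow_card_eq_one' (x := (⟨b, hb⟩ : φ.ker)))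
  have : z = a ^ (2 * n + 1) := by
    have h8 : z ^ (2 * n + 1) = z := by rw [pow_succ, pow_mul, sq, zz, one_pow, one_mul]
    rw [← h8, ← e, c.mul_pow, h7, mul_one]
  exact this ▸ pow_mem (h6 ha) _

section

variable {G : Type*} [Group G] [Finite G] {z : G} {Q : Subgroup G}
  {θ : centralizer ({z} : Set G) →* Spor.Co1} {R : Lam → G → Prop}

theorem exists_invol (h : MD Q z θ R) {s : G} (r : R (e8 none) s) {c : Finset GolayPt}
    (hc : IsWord c) (h1 : c ≠ ∅) (h2 : c ≠ Finset.univ) :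
    ∃ y, Ass θ (signEl c hc) y ∧ y * y = 1 ∧ y ≠ 1 := by
  obtain ⟨S, p⟩ := h.pair (h.mem r) (h.e8_spec r).1 (h.e8_spec r).2
  obtain ⟨y, hy, a⟩ := mem_pull.1 (h.pull_eq_Signs p r ▸ signEl_mem_Signs c hc)
  have nQ : ∀ y, Ass θ (signEl c hc) y → y ∉ Q := fun y a hy => by
    rcases mem_center_Co0.1 ((h.ass_mem_iff a).1 hy) with e | e
    · exact h1 (signEl_inj (e.trans signEl_empty.symm))
    · exact h2 (signEl_inj e)
  have ne : ∀ y, Ass θ (signEl c hc) y → y ≠ 1 := fun y a e => nQ y a (e ▸ one_mem Q)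
  rcases p.hS.sq hy.1 with e | e
  · exact ⟨y, a, e, ne y a⟩
  have hE : ∀ u ∈ Q ⊓ S, ∀ v ∈ Q ⊓ S, u * v = v * u := by
    intro u hu v hv
    by_contra hne
    exact p.ne (mul_left_cancel ((p.hS.comm_of_ne hu.2 hv.2 hne).symm.trans
      (h.hQ.comm_of_ne hu.1 hv.1 hne)))
  obtain ⟨u, hu, hne⟩ : ∃ u ∈ Q ⊓ S, u * y ≠ y * u := by
    by_contra hc
    push Not at hc
    have h3 := p.hS.card_mul_card_centralizer_of_mem (U := Q ⊓ S) inf_le_right ⟨p.xQ, p.hS.mem⟩
    rw [h.card_E p, p.card_eq, h.card] at h3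
    have h4 := eq_of_le_of_card_ge (H := Q ⊓ S) (K := S ⊓ centralizer ((Q ⊓ S : Subgroup G) : Set G))
      (fun u hu => ⟨hu.2, fun v hv => hE v hv u hu⟩) (by rw [h.card_E p]; omega)
    exact nQ y a (h4.ge ⟨hy.1, hc⟩).1
  have uu : u * u = 1 := by
    rcases h.hQ.sq hu.1 with e1 | e1
    · exact e1
    · rcases p.hS.sq hu.2 with e2 | e2
      · exact e2
      · exact absurd (e2.symm.trans e1) p.ne
  have a' := (h.ass_one hu.1).mul a
  rw [one_mul] at a'
  refine ⟨u * y, a', ?_, ne _ a'⟩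
  calc u * y * (u * y) = u * (y * u) * y := by group
    _ = u * u * y * (s * y) := by rw [p.hS.comm_of_ne hy.1 hu.2 hne.symm]; group
    _ = 1 := by rw [uu, one_mul, ← p.hS.cen y hy.1, ← mul_assoc, e, p.hS.zz]

theorem exists_invert (h : MD Q z θ R) {s : G} (r : R (e8 none) s) {b : G} (hb : orderOf b = 7)
    (a : Ass θ f7x b) : ∃ t, orderOf t = 2 ∧ t * z = z * t ∧ t * b * t⁻¹ = b⁻¹ := by
  have : Fact (Nat.Prime 7) := ⟨by norm_num⟩
  obtain ⟨g, c, hc, h1, h2, e⟩ := f7_invert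
  obtain ⟨y, ay, yy, y1⟩ := exists_invol h r hc h1 h2
  obtain ⟨k, ak⟩ := h.exists_ass' g
  have at' := (ak.mul ay).mul ak.inv
  set u := g * signEl c hc * g⁻¹ with hu
  set t := k * y * k⁻¹ with ht
  have tt : t * t = 1 := by rw [show t * t = k * (y * y) * k⁻¹ by rw [ht]; group, yy]; simp
  have t1 : t ≠ 1 := fun e => y1 (conj_eq_one_iff.1 e)
  have ti : t⁻¹ = t := inv_eq_of_mul_eq_one_right tt
  have x7 : f7x ^ 7 = 1 := f7_ord ▸ pow_orderOf_eq_one f7x
  have ad := ((at'.mul a).mul at'.inv).mul a.inv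
  rw [e, mul_inv_cancel_right] at ad
  set d := t * b * t⁻¹ * b⁻¹ with hd
  have td : t * d * t⁻¹ = d⁻¹ := by
    rw [hd, ti]
    calc t * (t * b * t * b⁻¹) * t = (t * t) * b * t * b⁻¹ * t := by group
      _ = b * t⁻¹ * b⁻¹ * t⁻¹ := by rw [tt, ti, one_mul]
      _ = _ := by group
  have d7 : d ^ 7 ∈ Q := (h.ass_mem_iff (ad.pow 7)).2 (by
    rw [← sq, ← pow_mul, mul_comm, pow_mul, inv_pow, x7]; simp)
  obtain ⟨q, hq, e'⟩ := exists_conj_of_coprime (not_dvd_card_of_two (p := 7) (by decide) h.hQ.isPGroup)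
    (a := d ^ 4) (b := b⁻¹) (fun n hn => by simpa using h.hQ.conj_mem (ad.pow 4).inv.comm hn)
    ((h.ass_mem_iff (a.inv.mul (ad.pow 4).inv)).2 (by
      rw [show f7x⁻¹ * ((f7x⁻¹ * f7x⁻¹) ^ 4)⁻¹ = f7x ^ 7 by group, x7]; exact one_mem _))
    (by rw [← pow_mul, mul_comm, pow_mul, h.hQ.pow_four d7])
    (by rw [inv_pow, ← hb, pow_orderOf_eq_one, inv_one])
  refine ⟨q * t * q⁻¹, ?_, (((h.ass_one hq).mul at').mul (h.ass_one hq).inv).comm, ?_⟩
  · rw [← orderOf_two_iff.2 ⟨t1, tt⟩]; exact (MulAut.conj q).orderOf_eq t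
  · have h3 : t * d ^ 4 * t⁻¹ = (d ^ 4)⁻¹ := by rw [← conj_pow, td, inv_pow]
    rw [← inv_inv b, ← e', inv_inv]
    calc q * t * q⁻¹ * (q * d ^ 4 * q⁻¹)⁻¹ * (q * t * q⁻¹)⁻¹ = q * (t * d ^ 4 * t⁻¹)⁻¹ * q⁻¹ := by group
      _ = _ := by rw [h3, inv_inv]

theorem fix_le (h : MD Q z θ R) {b : G} (hb : orderOf b = 7) (a : Ass θ f7x b) {N : Subgroup G}
    (hN : ∀ m, m * b = b * m → m * z * m⁻¹ ∈ N) {y : G} (hy : y ∈ Q) (hyb : y * b = b * y) : y ∈ N := by
  have hbo : Odd (orderOf b) := hb ▸ (by decide)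
  have zN : z ∈ N := by simpa using hN 1 (by simp)
  have key : ∀ i k, k ≤ 6 → ∀ y, R (sumB (fun j => rep f7reps (2 ^ j)) i k) y → y ∈ N := by
    intro i k
    induction k with
    | zero =>
      intro _ y r
      rcases (h.zero_iff r).1 (cong.refl _) with rfl | rfl
      exacts [one_mem _, zN]
    | succ k ih =>
      intro hk y r
      rw [sumB, Finset.sum_range_succ, ← sumB] at r
      split_ifs at r
      · obtain ⟨y1, r1⟩ := h.ex2 (sumB (fun j => rep f7reps (2 ^ j)) i k)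
        obtain ⟨y2, r2⟩ := h.ex2 (rep f7reps (2 ^ k))
        have hk' : 2 ^ k < 2 ^ 6 := Nat.pow_lt_pow_right one_lt_two hk
        have h1 := (h.isConj_iff_norm r2 (f7_fs.short _ hk')).2
          ((sqNorm_rep (f7_fs.mem _ hk')).trans (f7_basis k hk))
        obtain ⟨m, hm, e⟩ := h.exists_conj_cent hbo a.comm (h.mem r2) h1.1
          ((h.mem_fix_iff hbo a f7_fs).2 ⟨_, hk', r2⟩).2
        have h2 := mul_mem (ih (by omega) y1 r1) (e ▸ hN m hm)
        rcases (h.uniq (h.mul r1 r2) r).1 (cong.refl _) with rfl | rfl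
        exacts [h2, mul_mem h2 zN]
      · exact ih (by omega) y (by simpa using r)
  obtain ⟨i, hi, r⟩ := (h.mem_fix_iff hbo a f7_fs).1 ⟨hy, hyb⟩
  exact key i 6 le_rfl y (h.cg r (f7_fs.cong_sumB (f7_fs.kap_rep i hi)))

theorem z_mem_layer (h : MD Q z θ R) {s : G} (r : R (e8 none) s) {b : G} (hb : orderOf b = 7)
    (a : Ass θ f7x b) (hsb : s * b = b * s) (hz : z ∈ centralizer (zpowers b : Set G)) :
    (⟨z, hz⟩ : centralizer (zpowers b : Set G)) ∈ layer _ := by
  have : Fact (Nat.Prime 7) := ⟨by norm_num⟩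
  set M := centralizer (zpowers b : Set G) with hM
  have mM : ∀ y, y ∈ M ↔ y * b = b * y := fun y => by
    rw [hM, centralizer_zpowers', mem_centralizer_singleton_iff]
  have hc : (zpowers b).subgroupOf M ≤ center M := fun u hu =>
    mem_center_iff.2 fun v => Subtype.ext (v.2 _ hu).symm
  have hn : ((zpowers b).subgroupOf M).Normal := ⟨fun u hu v => by
    rwa [mem_center_iff.1 (hc hu) v, mul_inv_cancel_right]⟩
  obtain ⟨zs, Qs, hQ, ⟨h1, h2, h3, h4, g, ⟨hg1, hg2⟩, hg3⟩, -, -, ⟨hz', e⟩, h5⟩ :=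
    h.odd_quot (w := 3) (by decide) f7_ord f7_centData f7_fs hb a (h.mem r) (h.e8_spec r).1
      (h.e8_spec r).2 hsb rfl
  obtain ⟨X, hO⟩ := LX.of_fstar (Q := Qs.map (centralizer ({zs} : Set _)).subtype)
    (orderOf_two_iff.1 h1).1 (by rw [h2]) ((isExtraspecial_map_iff (subtype_injective _)).2 h3)
  have hg : g * zs * g⁻¹ ∈ Qs.map (centralizer ({zs} : Set _)).subtype := ⟨_, hg2, rfl⟩
  have hL := X.large_of_mem_cj hg hg3 (X.mem_cj_of_mem (by
    rw [card_map_of_injective (subtype_injective _), h4]; norm_num) hg)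
  have hle : Qs.map (centralizer ({zs} : Set _)).subtype ≤ normalClosure {zs} := by
    rw [h5]
    rintro _ ⟨y, hy, rfl⟩
    obtain ⟨y', h6, h7⟩ := fix_le h hb a (N := ((normalClosure {zs}).comap
      (QuotientGroup.mk' ((zpowers b).subgroupOf M))).map M.subtype) (fun m hm =>
        ⟨⟨m, (mM m).2 hm⟩ * ⟨z, hz⟩ * ⟨m, (mM m).2 hm⟩⁻¹, (inferInstance : Normal _).conj_mem _
          (by rw [mem_comap, ← e]; exact subset_normalClosure rfl) _, rfl⟩) hy.1 ((mM _).1 y.2)
    rwa [← (Subtype.ext h7 : y' = y)]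
  have hs := (X.isSimpleGroup_normalClosure hL hO hle).1
  refine mem_layer_of_quot (QuotientGroup.mk' ((zpowers b).subgroupOf M))
    (QuotientGroup.mk'_surjective _) (by rwa [QuotientGroup.ker_mk']) ?_
    (K := normalClosure {zs}) (H52.isQuasisimple_of_isSimpleGroup fun hcm => ?_)
    (Subtype.ext h.hQ.zz) (e ▸ subset_normalClosure rfl)
  · rw [QuotientGroup.ker_mk', Nat.card_congr (subgroupOfEquivOfLe
      (zpowers_le.2 ((mM b).2 rfl))).toEquiv, Nat.card_zpowers, hb]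
    decide
  · obtain ⟨v, hv, hne⟩ := X.exists_not_comm hg (X.cj g).ne hg3
    exact hne (congrArg Subtype.val (hcm.1.1 ⟨_, hle hg⟩ ⟨_, hle hv⟩))

end

/-- Let G be a finite group of Monster type at the involution z with Q the extraspecial normal subgroup of order 2^25 of C = C_G(z) (so C/Q is identified with the first Conway group with Q modulo its centre the Leech lattice modulo 2, and z is not weakly closed in Q). Let s be a conjugate of z in Q other than z and let B be a Sylow 7-subgroup of the joint centralizer of z and s. Then the centralizer of B has index 6 in the normalizer of B; and some involution inverting B induces, by conjugation, a non-inner automorphism of the layer of the centralizer of B. -/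
theorem result {G : Type*} [Group G] [Finite G] (z : G) (Q : Subgroup (Subgroup.centralizer ({z} : Set G))) [Q.Normal] (hM : Cfsg.IsOfMonsterType z Q) (s : G) (hsQ : ∃ hsc : s ∈ Subgroup.centralizer ({z} : Set G), (⟨s, hsc⟩ : Subgroup.centralizer ({z} : Set G)) ∈ Q) (hs : IsConj z s) (hs1 : s ≠ z) (B : Subgroup G) (hB : B ≤ Subgroup.centralizer ({z, s} : Set G)) (hBp : Nat.card B = 7 ^ (Nat.card ↥(Subgroup.centralizer ({z, s} : Set G))).factorization 7) : (Subgroup.centralizer (B : Set G)).relIndex (Subgroup.normalizer (B : Set G)) = 6 ∧ ∃ t : G, orderOf t = 2 ∧ (∀ b ∈ B, t * b * t⁻¹ = b⁻¹) ∧ (∀ x ∈ (Cfsg.layer ↥(Subgroup.centralizer (B : Set G))).map (Subgroup.centralizer (B : Set G)).subtype, t * x * t⁻¹ ∈ (Cfsg.layer ↥(Subgroup.centralizer (B : Set G))).map (Subgroup.centralizer (B : Set G)).subtype) ∧ ¬ ∃ l ∈ (Cfsg.layer ↥(Subgroup.centralizer (B : Set G))).map (Subgroup.centralizer (B : Set G)).subtype, ∀ x ∈ (Cfsg.layer ↥(Subgroup.centralizer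 (B : Set G))).map (Subgroup.centralizer (B : Set G)).subtype, t * x * t⁻¹ = l * x * l⁻¹ := by
  have : Fact (Nat.Prime 7) := ⟨by norm_num⟩
  obtain ⟨Q', θ₀, R₀, h₀, r₀⟩ := mon_start hM hsQ hs hs1
  have hc := h₀.card_sylow r₀ (Or.inr rfl) hBp
  obtain ⟨b, θ, R, hb, rfl, h, r, a⟩ := h₀.exists_seven r₀ hB hc
  have hsb : s * b = b * s := (hB (mem_zpowers b)) s (by simp)
  have b7 : b ^ 7 = 1 := hb ▸ pow_orderOf_eq_one b
  have nB : ∀ {c : G} {k : ℤ}, c * b * c⁻¹ = b ^ k → c ∈ normalizer (zpowers b : Set G) :=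
    fun {c k} e => mem_normalizer_fintype fun _ ⟨j, hj⟩ => by
      rw [← hj, ← conj_zpow, e]; exact zpow_mem (zpow_mem (mem_zpowers b) k) j
  refine ⟨?_, ?_⟩
  · obtain ⟨c, -, e⟩ := h.lift (by decide) b7 a f7N_conj
    have hcN := nB (k := 3) (by rw [e]; norm_cast)
    have : IsCyclic (zpowers b) := inferInstance
    have h6 : Nat.card (MulAut (zpowers b)) = 6 := by rw [IsCyclic.card_mulAut, hc]; decide
    rw [relIndex, ← normalizerMonoidHom_ker, index_ker]
    set φ := (zpowers b).normalizerMonoidHom ⟨c, hcN⟩ with hφ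
    have hp : ∀ n : ℕ, ((φ ^ n) ⟨b, mem_zpowers b⟩).1 = b ^ 3 ^ n := by
      intro n
      induction n with
      | zero => simp
      | succ n ih =>
        rw [pow_succ', MulAut.mul_apply]
        change c * ((φ ^ n) ⟨b, mem_zpowers b⟩).1 * c⁻¹ = _
        rw [ih, ← conj_pow, e, ← pow_mul, pow_succ']
    have hne : ∀ n : ℕ, 3 ^ n % 7 ≠ 1 → φ ^ n ≠ 1 := fun n h1 h2 => by
      have := hp n
      rw [h2, ← pow_mod_orderOf, hb] at this
      exact h1 (pow_injOn_Iio_orderOf (x := b) (by rw [hb]; exact Nat.mod_lt _ (by norm_num))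
        (by rw [hb]; norm_num) (this.symm.trans (pow_one b).symm))
    have ho : orderOf φ = 6 := orderOf_eq_of_pow_and_pow_div_prime (by norm_num)
      (h6 ▸ pow_card_eq_one') fun p hp hd => by
        have : p ≤ 6 := Nat.le_of_dvd (by norm_num) hd
        interval_cases p <;> first | exact hne _ (by decide) | exact absurd hp (by decide) | exact absurd hd (by decide)
    exact Nat.dvd_antisymm (h6 ▸ card_subgroup_dvd_card _) (ho ▸ orderOf_dvd_natCard _ ⟨_, rfl⟩)
  · obtain ⟨t, t2, tz, e⟩ := exists_invert h r hb a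
    have htN := nB (k := -1) (by rw [e]; simp)
    have mM : ∀ y, y ∈ centralizer (zpowers b : Set G) ↔ y * b = b * y := fun y => by
      rw [centralizer_zpowers', mem_centralizer_singleton_iff]
    refine ⟨t, t2, ?_, fun x hx => ?_, ?_⟩
    · rintro _ ⟨j, rfl⟩
      rw [← conj_zpow, e, inv_zpow]
    · exact (mem_normalizer_iff.1 (H52.normalizer_le_normalizer_map_layer _
        (H52.normalizer_le_normalizer_centralizer _ htN)) x).1 hx
    · rintro ⟨l, hl, hx⟩
      have hz := z_mem_layer h r hb a hsb ((mM z).2 a.comm.symm)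
      obtain ⟨m, hm, e'⟩ := h.exists_conj_cent (hb ▸ (by decide)) a.comm (h.mem r) hs hsb
      have h1 := hx z ⟨_, hz, rfl⟩
      have h2 := hx s ⟨_, H52.layer_normal.conj_mem _ hz ⟨m, (mM m).2 hm⟩, e'⟩
      have h3 : ∀ {u : G}, t * u * t⁻¹ = l * u * l⁻¹ → l⁻¹ * t * u = u * (l⁻¹ * t) := fun {u} e => by
        rw [mul_assoc, mul_inv_eq_iff_eq_mul.1 e]; group
      obtain ⟨g, ag⟩ := exists_ass (θ := θ) (h3 h1)
      refine f7_not_conj (Or.inr rfl) (mem_mono_of_cong (h.cong_of_comm r ag (h3 h2)))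
        (h.unlift (p := 7) (by decide) (f7_ord ▸ pow_orderOf_eq_one f7x) a ag ?_)
      have h4 := (mM l).1 (map_subtype_le _ hl)
      calc l⁻¹ * t * b * (l⁻¹ * t)⁻¹ = l⁻¹ * (t * b * t⁻¹) * l := by group
        _ = (l⁻¹ * (b * l))⁻¹ := by rw [e]; group
        _ = b ^ 6 := by
          rw [← h4, inv_mul_cancel_left, inv_eq_iff_mul_eq_one, ← pow_succ', b7]

end Cfsg.Agent.S5418
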