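import Cfsg.Statements.S5423
import Cfsg.Agent.H32.Hol

set_option autoImplicit false
open Cfsg

namespace Cfsg.Agent.S5423

/-- Let G be a finite group that is the split extension of an elementary abelian normal subgroup U of order 2^(n+1), n ≥ 1, by its full automorphism group: U has a complement M in G whose conjugation action on U is faithful and realizes every automorphism of U. Let Z be a subgroup of U of order 2 and Q the largest normal 2-subgroup of the centralizer C of Z. Then Q is extraspecial of order 2^(2n+1) with an elementary abelian subgroup of order 2^(n+1) (plus type), Q is a large extraspecial 2-subgroup of G, and C is the split extension of Q by the general linear group of degree n over the field with two elements. -/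
theorem result {G : Type*} [Group G] [Finite G] (n : ℕ) (hn : 1 ≤ n) (U M : Subgroup G) [U.Normal] (hU : Cfsg.IsElementaryAbelian 2 U) (hUcard : Nat.card ↥U = 2 ^ (n + 1)) (hUM : U ⊓ M = ⊥) (hUM' : U ⊔ M = ⊤) (hfaith : ∀ m ∈ M, (∀ u ∈ U, m * u * m⁻¹ = u) → m = 1) (hfull : ∀ φ : ↥U ≃* ↥U, ∃ m ∈ M, ∀ u : ↥U, ((φ u : ↥U) : G) = m * u * m⁻¹) (Z : Subgroup G) (hZU : Z ≤ U) (hZ : Nat.card ↥Z = 2) (Q : Subgroup G) (hQ : Q = (Cfsg.pCore 2 ↥(Subgroup.centralizer (Z : Set G))).map (Subgroup.centralizer (Z : Set G)).subtype) : Cfsg.IsExtraspecial 2 ↥Q ∧ Nat.card ↥Q = 2 ^ (2 * n + 1) ∧ (∃ E : Subgroup G, E ≤ Q ∧ Cfsg.IsElementaryAbelian 2 E ∧ Nat.card ↥E = 2 ^ (n + 1)) ∧ Cfsg.IsLargeExtraspecial Q ∧ ∃ K : Subgroup G, K ≤ Subgroup.centralizer (Z : Set G) ∧ Q ⊓ K = ⊥ ∧ Q ⊔ K = Subgroup.centralizer (Z : Set G) ∧ Nonempty (↥K ≃* Matrix.GeneralLinearGroup (Fin n) (ZMod 2)) := by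
  haveI : IsMulCommutative U := hU.1
  letI : CommGroup U := { (inferInstance : Group U) with mul_comm := hU.1.is_comm.comm }
  letI : Module (ZMod 2) (Additive U) := AddCommGroup.zmodModule (fun x => by
    change Additive.ofMul (x.toMul ^ 2) = 0
    have : x.toMul ^ 2 = 1 := Subtype.ext (hU.2 _ x.toMul.2)
    rw [this]; rfl)
  haveI : Module.Finite (ZMod 2) (Additive U) := Module.Finite.of_finite
  have hfr : Module.finrank (ZMod 2) (Additive U) = n + 1 := by
    haveI := Fintype.ofFinite (Additive U)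
    have h1 := Module.card_eq_pow_finrank (K := ZMod 2) (V := Additive U)
    rw [ZMod.card, ← Nat.card_eq_fintype_card] at h1
    have h2 : Nat.card (Additive U) = 2 ^ (n + 1) := hUcard
    rw [h2] at h1
    exact (Nat.pow_right_injective le_rfl h1).symm
  obtain ⟨z, hz1, hzz, rfl⟩ := H49.exists_gen_of_card_two hZ
  have hzU : z ∈ U := hZU (Subgroup.mem_zpowers z)
  obtain ⟨f, hf⟩ := H32.exists_prod_equiv hfr (z := Additive.ofMul (⟨z, hzU⟩ : U))
    (fun h => hz1 (congrArg (fun x : Additive U => ((x.toMul : U) : G)) h))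
  let e : H32.HV n → G := fun v => ((f v).toMul : U)
  have hrange : ∀ u ∈ U, ∃ v, u = e v := fun u hu =>
    ⟨f.symm (Additive.ofMul ⟨u, hu⟩), by simp [e]⟩
  have heU : ∀ v, e v ∈ U := fun v => (f v).toMul.2
  have he : H32.Hol n e M := by
    refine ⟨fun v w => by simp [e], fun v w h => f.injective (Additive.toMul.injective
      (Subtype.ext h)), fun v _ g _ w => hrange _ (Subgroup.Normal.conj_mem inferInstance _
        (heU w) g), fun g hg => ?_, fun v hv => ?_, fun A => ?_⟩
    · have hg' : g ∈ ((U ⊔ M : Subgroup G) : Set G) := by rw [hUM']; trivial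
      rw [Subgroup.normal_mul] at hg'
      obtain ⟨u, hu, m, hm, rfl⟩ := hg'
      have hm1 : m = 1 := hfaith m hm (fun x hx => by
        obtain ⟨w, rfl⟩ := hrange x hx
        have h1 := hg w
        have h2 : e w * u = u * e w :=
          congrArg Subtype.val (hU.1.is_comm.comm (⟨e w, heU w⟩ : U) ⟨u, hu⟩)
        simp only at h1
        rw [← mul_assoc, h2, mul_assoc, mul_assoc] at h1
        rw [mul_left_cancel h1]; group)
      subst hm1
      simpa using hrange u hu
    · have h1 : e v ∈ U ⊓ M := ⟨heU v, hv⟩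
      rw [hUM, Subgroup.mem_bot] at h1
      apply f.injective
      rw [map_zero]
      exact Additive.toMul.injective (Subtype.ext h1)
    · obtain ⟨m, hm, h1⟩ := hfull
        (MulEquiv.toAdditive.symm (f.symm.trans (A.trans f)).toAddEquiv)
      refine ⟨m, hm, fun w => ?_⟩
      have := h1 (f w).toMul
      rw [← this]
      simp [e]
  have hez : e (1, 0) = z := by simp [e, hf]
  refine he.main hn _ ?_ Q hQ
  rw [H32.Hol.C, hez, Subgroup.zpowers_eq_closure, Subgroup.centralizer_closure]

end Cfsg.Agent.S5423
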