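import Cfsg.Statements.S5425
import Cfsg.Agent.H42.Cent

set_option autoImplicit false
set_option maxRecDepth 1000000
open Cfsg

namespace Cfsg.Agent.S5425

open Cfsg.Agent.H42

/-- In the Mathieu group of degree 24 (the automorphism group of the length-24 binary Golay code, acting on the 24 coordinates), let z be an involution whose fixed points form an octad (the support of a code word of weight 8), and let Q be the largest normal 2-subgroup of the centralizer C of z. Then Q is extraspecial of order 2^7 with an elementary abelian subgroup of order 16 (plus type), Q is a large extraspecial 2-subgroup, and C is the split extension of Q by the special linear group of degree 3 over the field with two elements. -/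
theorem result (z : ↥Cfsg.M24) (hz : orderOf z = 2) (hfix : (Finset.univ.filter fun p : Cfsg.GolayPt => (z : Equiv.Perm Cfsg.GolayPt) p = p) ∈ Cfsg.octads) (Q : Subgroup ↥Cfsg.M24) (hQ : Q = (Cfsg.pCore 2 ↥(Subgroup.centralizer ({z} : Set ↥Cfsg.M24))).map (Subgroup.centralizer ({z} : Set ↥Cfsg.M24)).subtype) : Cfsg.IsExtraspecial 2 ↥Q ∧ Nat.card ↥Q = 2 ^ 7 ∧ (∃ E : Subgroup ↥Cfsg.M24, E ≤ Q ∧ Cfsg.IsElementaryAbelian 2 E ∧ Nat.card ↥E = 2 ^ 4) ∧ Cfsg.IsLargeExtraspecial Q ∧ ∃ K : Subgroup ↥Cfsg.M24, K ≤ Subgroup.centralizer ({z} : Set ↥Cfsg.M24) ∧ Q ⊓ K = ⊥ ∧ Q ⊔ K = Subgroup.centralizer ({z} : Set ↥Cfsg.M24) ∧ Nonempty (↥K ≃* Matrix.SpecialLinearGroup (Fin 3) (ZMod 2)) := by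
  obtain ⟨k, rfl⟩ := conj_z24 hz (by
    rw [show (fixSet z).card = 8 from ((mem_octads_iff _).mp hfix).2]; norm_num)
  have h1 : Q = H49.cj QZ k := by
    rw [hQ, ← pCore_CZ, H49.map_pCore_cj, H49.cj_centralizer_singleton]
  have h2 := large_cj_QZ k
  rw [h1, ← H49.cj_centralizer_singleton]
  refine ⟨h2.1, by rw [H49.card_cj, card_QZ]; norm_num, ⟨H49.cj (gen gensE16) k,
    H49.cj_mono E16_le_QZ k, ?_, by rw [H49.card_cj, ← fixS_oct0_eq.1, fixS_oct0_eq.2]; norm_num⟩, h2,
    H49.cj (gen gensKZ) k, H49.cj_mono KZ_le_CZ k, ?_, ?_, ?_⟩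
  · have h3 : ∀ x ∈ H49.cj (gen gensE16) k, x * x = 1 := fun x hx => by
      have := mul_self_of_mem_fixing_octad oct0_mem (x := k⁻¹ * x * k) (by
        rw [← fixS_eq_fixing, fixS_oct0_eq.1]; exact H49.mem_cj.mp hx)
      rw [show x * x = k * (k⁻¹ * x * k * (k⁻¹ * x * k)) * k⁻¹ by group, this, mul_one, mul_inv_cancel]
    exact ⟨⟨⟨fun a b => H49.mul_comm_of_sq (fun v => Subtype.ext (h3 _ v.2)) a b⟩⟩,
      fun a ha => by rw [pow_two, h3 a ha]⟩
  · rw [← H49.cj_inf, QZ_inf_KZ, H49.cj, Subgroup.map_bot]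
  · rw [← H49.cj_sup, QZ_sup_KZ]
  · obtain ⟨e⟩ := KZ_equiv
    exact ⟨((gen gensKZ).equivMapOfInjective _ (MulAut.conj k).injective).symm.trans e⟩

end Cfsg.Agent.S5425
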