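import Cfsg.Statements.S5426
import Cfsg.Agent.H49.Simp
import Cfsg.Agent.H49.Pair

set_option autoImplicit false
open Cfsg

namespace Cfsg.Agent.S5426

/-- Let Q be a large extraspecial 2-subgroup of the finite group G (extraspecial; centralizer equal to its centre; normal in the centralizer of its centre; normalizing no non-trivial subgroup of odd order) with centre generated by z, and let M be the normal closure of z in G. Then one of the following holds: Q is normal in G; or M is abelian and the generalized Fitting subgroup of G is its largest normal 2-subgroup; or M is the generalized Fitting subgroup of G and is a non-abelian simple group; or M is the generalized Fitting subgroup of G and is the direct product of a non-abelian simple subgroup L and its conjugate u L u⁻¹ by some u in Q (the two meet trivially and commute elementwise), with z = z₁ (u z₁ u⁻¹) for some z₁ in L whose centralizer in L is a Sylow 2-subgroup of L with Frattini subgroup inside the subgroup generated by z₁, and Q is not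 the largest normal 2-subgroup of the centralizer of z. -/
theorem result {G : Type*} [Group G] [Finite G] (Q : Subgroup G) (hQ : Cfsg.IsLargeExtraspecial Q) (z : G) (hz : ((Subgroup.center ↥Q).map Q.subtype) = Subgroup.zpowers z) (M : Subgroup G) (hM : M = Subgroup.normalClosure ({z} : Set G)) : Q.Normal ∨ (IsMulCommutative ↥M ∧ Cfsg.generalizedFittingSubgroup G = Cfsg.pCore 2 G) ∨ (M = Cfsg.generalizedFittingSubgroup G ∧ IsSimpleGroup ↥M ∧ ¬ IsMulCommutative ↥M) ∨ (M = Cfsg.generalizedFittingSubgroup G ∧ ∃ (L : Subgroup G) (u : G), u ∈ Q ∧ IsSimpleGroup ↥L ∧ ¬ IsMulCommutative ↥L ∧ L ⊓ (L).map (MulAut.conj u).toMonoidHom = ⊥ ∧ (∀ x ∈ L, ∀ y ∈ (L).map (MulAut.conj u).toMonoidHom, x * y = y * x) ∧ L ⊔ (L).map (MulAut.conj u).toMonoidHom = M ∧ ∃ z₁ ∈ L, z = z₁ * (u * z₁ * u⁻¹) ∧ (∃ R : Sylow 2 ↥L, (R : Subgroup ↥L) = (Subgroup.centralizer ({z₁} : Set G)).subgroupOf L ∧ (frattini ↥(R : Subgroup ↥L)).map ((L.subtype).comp (R : Subgroup ↥L).subtype) ≤ Subgroup.zpowers z₁) ∧ Q ≠ (Cfsg.pCore 2 ↥(Subgroup.centralizer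 ({z} : Set G))).map (Subgroup.centralizer ({z} : Set G)).subtype) := by
  have : Fact (Nat.Prime 2) := ⟨Nat.prime_two⟩
  have h := H49.LX.of_large' hQ hz
  subst hM
  right
  by_cases h2 : Cfsg.pCore 2 G = ⊥
  swap
  · exact Or.inl (h.of_pCore_ne_bot (H49.pPrimeCore_eq_bot_of_large hQ) h2)
  right
  obtain ⟨h3, h4, h5, h6⟩ := h.of_pCore_eq_bot hQ h2
  obtain ⟨L, hL⟩ := H52.layer_ne_bot_iff.1 h6
  by_cases hall : ∀ K : Subgroup G, IsComponent K → K = L
  · left
    have : layer G = L := le_antisymm (H52.layer_le_iff.2 fun K hK => (hall K hK).le)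
      (H52.IsComponent.le_layer hL)
    rw [h4, h3, this]
    exact ⟨rfl, H49.isSimpleGroup_of_component hL (h5 L hL),
      H52.IsQuasisimple.not_isMulCommutative hL.2⟩
  right
  push Not at hall
  obtain ⟨K, hK, hne⟩ := hall
  obtain ⟨u, hu, huL, hl, z₁, hz₁, e, hS, hsq, h7⟩ := h.two_components h5
    (h3 ▸ Subgroup.subset_normalClosure rfl) hL hK hne
  have hC : H49.cj L u ≤ Subgroup.centralizer (L : Set G) :=
    Subgroup.commutator_eq_bot_iff_le_centralizer.1
      (H52.IsComponent.commutator_eq_bot_of_ne (H52.IsComponent.conj hL u) hL huL)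
  refine ⟨h3.trans h4.symm, L, u, hu, H49.isSimpleGroup_of_component hL (h5 L hL),
    H52.IsQuasisimple.not_isMulCommutative hL.2, ?_, fun x hx y hy => hC hy x hx, hl.trans h3.symm,
    z₁, hz₁, e, ?_, h7⟩
  · exact le_bot_iff.1 (h5 L hL ▸ inf_le_inf_left _ hC)
  obtain ⟨R, hR⟩ := hS.exists_sylow
  rw [Subgroup.inf_subgroupOf_left] at hR
  refine ⟨R, hR, ?_⟩
  have hRm : ∀ x ∈ (R : Subgroup L), (x : G) ∈ L ⊓ Subgroup.centralizer {z₁} := by
    intro x hx
    rw [hR] at hx
    exact ⟨x.2, hx⟩
  rw [← Subgroup.map_map, Subgroup.map_le_iff_le_comap, H3.map_frattini_le_iff R.isPGroup']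
  refine ⟨Subgroup.commutator_le.2 fun x hx y hy => ?_, fun x hx => ?_⟩
  · exact H49.commutator_mem_of_sq (R := L ⊓ Subgroup.centralizer {z₁}) (inf_le_right.trans
      (by rw [← H49.centralizer_zpowers']; exact Subgroup.centralizer_le_normalizer _)) hsq
      (hRm x hx) (hRm y hy)
  · rw [pow_two]; exact hsq x (hRm x hx)

end Cfsg.Agent.S5426
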