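import Cfsg.Statements.S5427
import Cfsg.Agent.H49.Simp

set_option autoImplicit false
open Cfsg

namespace Cfsg.Agent.S5427

/-- Let z be an involution of the finite group G whose centralizer C has generalized Fitting subgroup Q, an extraspecial 2-group of width at least 2 (order 2^(2w+1), w ≥ 2). Let K be a subgroup of G such that the subgroup U generated by the K-conjugates of z is abelian and C is generated by the C-conjugates of U. Suppose that either some K-conjugate of z other than z lies in Q, or some element u of U ∩ Q outside the subgroup generated by z has z in the largest normal 2-subgroup of its centralizer. Then G is simple and Q is a large extraspecial 2-subgroup of G. -/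
theorem result {G : Type*} [Group G] [Finite G] (z : G) (hz : orderOf z = 2) (Q : Subgroup G) (hQC : Q ≤ Subgroup.centralizer ({z} : Set G)) (hF : (Cfsg.generalizedFittingSubgroup ↥(Subgroup.centralizer ({z} : Set G))).map (Subgroup.centralizer ({z} : Set G)).subtype = Q) (hQ : Cfsg.IsExtraspecial 2 ↥Q) (w : ℕ) (hw : 2 ≤ w) (hcard : Nat.card ↥Q = 2 ^ (2 * w + 1)) (K U : Subgroup G) (hU : U = Subgroup.closure {x : G | ∃ k ∈ K, x = k * z * k⁻¹}) (hUab : IsMulCommutative ↥U) (hgen : Subgroup.closure {x : G | ∃ c ∈ Subgroup.centralizer ({z} : Set G), ∃ u ∈ U, x = c * u * c⁻¹} = Subgroup.centralizer ({z} : Set G)) (h3 : (∃ k ∈ K, k * z * k⁻¹ ∈ Q ∧ k * z * k⁻¹ ≠ z) ∨ ∃ u ∈ U ⊓ Q, u ∉ Subgroup.zpowers z ∧ (∃ hz' : z ∈ Subgroup.centralizer ({u} : Set G), (⟨z, hz'⟩ : ↥(Subgroup.centralizer ({u} : Set G))) ∈ Cfsg.pCore 2 ↥(Subgroup.centralizer ({u} : Set G)))) : IsSimpleGroup G ∧ Cfsg.IsLargeExtraspecial Q := by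
  obtain ⟨h, hO⟩ := H49.LX.of_fstar (H49.orderOf_two_iff.1 hz).1 hF hQ
  have h8 : 8 < Nat.card Q := by
    rw [hcard]
    calc 8 = 2 ^ 3 := rfl
      _ < 2 ^ (2 * w + 1) := Nat.pow_lt_pow_right (by decide) (by omega)
  have hL : Cfsg.IsLargeExtraspecial Q := by
    rcases h3 with ⟨k, -, h1, h2⟩ | ⟨u, hu, h1, hz', h2⟩
    · exact h.large_of_mem_cj h1 h2 (h.mem_cj_of_mem h8 h1)
    · rw [h.mem_Z, not_or] at h1
      have huu : ∀ u ∈ U, u * u = 1 := by
        intro u hu
        have hle : ∀ x ∈ Subgroup.closure {x : G | ∃ k ∈ K, x = k * z * k⁻¹}, x ∈ U :=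
          fun x hx => hU ▸ hx
        rw [hU] at hu
        induction hu using Subgroup.closure_induction with
        | mem x hx => obtain ⟨k, -, rfl⟩ := hx; exact (h.cj k).zz
        | one => exact one_mul 1
        | inv x _ ih => rw [← mul_inv_rev, ih, inv_one]
        | mul x y hx hy ihx ihy =>
          have c : x * y = y * x := congrArg Subtype.val (hUab.is_comm.comm ⟨x, hle x hx⟩ ⟨y, hle y hy⟩)
          calc x * y * (x * y) = x * (y * x) * y := by group
            _ = (x * x) * (y * y) := by rw [← c]; group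
            _ = 1 := by rw [ihx, ihy, one_mul]
      refine h.large_of_invol hu.2 h1.1 h1.2 (huu u hu.1) (H3.map_pCore_isPGroup
        (Subgroup.centralizer ({u} : Set G))) (fun c hc x hx => ?_) ⟨_, h2, rfl⟩
      exact H49.conj_mem_of_mem_normalizer (H3.normalizer_le_normalizer_map_pCore _
        (Subgroup.le_normalizer (Subgroup.mem_centralizer_singleton_iff.2 hc))) hx
  refine ⟨h.isSimpleGroup hL hO ?_, hL⟩
  rw [← hgen, Subgroup.closure_le]
  rintro _ ⟨c, -, u, hu, rfl⟩
  refine Subgroup.normalClosure_normal.conj_mem _ ?_ c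
  revert u
  show U ≤ _
  rw [hU, Subgroup.closure_le]
  rintro _ ⟨k, -, rfl⟩
  exact Subgroup.normalClosure_normal.conj_mem _ (Subgroup.subset_normalClosure (Set.mem_singleton z)) k

end Cfsg.Agent.S5427
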