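import Cfsg.Statements.S5428
import Cfsg.Agent.H49.Quot

set_option autoImplicit false
open Cfsg

namespace Cfsg.Agent.S5428

/-- Let z be an involution of the finite group G whose centralizer C has generalized Fitting subgroup Q extraspecial (as a 2-group), let A be a subgroup of C of odd order, and let R be the centralizer of A in Q; suppose R has order at least 32, the largest normal subgroup of odd order of the centralizer of the subgroup generated by A and R lies in A, the order of that centralizer is not divisible by 4, and g is an element of G with g z g⁻¹ in R but outside the centre Z of Q. Let M be the subgroup generated by A and the centralizer of A (A is normal in it). Then: the centralizer in M of the subgroup generated by R and A, joined with A, equals the subgroup generated by A and Z; the image of R in M/A is a large extraspecial 2-subgroup of M/A; and g z g⁻¹ is conjugate to z inside the subgroup generated by R and the centralizer of A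 in g Q g⁻¹. -/
theorem result {G : Type*} [Group G] [Finite G] (z : G) (hz : orderOf z = 2) (Q : Subgroup G) (hQC : Q ≤ Subgroup.centralizer ({z} : Set G)) (hF : (Cfsg.generalizedFittingSubgroup ↥(Subgroup.centralizer ({z} : Set G))).map (Subgroup.centralizer ({z} : Set G)).subtype = Q) (hQ : Cfsg.IsExtraspecial 2 ↥Q) (A : Subgroup G) (hA : A ≤ Subgroup.centralizer ({z} : Set G)) (hAodd : Odd (Nat.card ↥A)) (R : Subgroup G) (hR : R = Q ⊓ Subgroup.centralizer (A : Set G)) (hR32 : 32 ≤ Nat.card ↥R) (hO : (Cfsg.oddCore ↥(Subgroup.centralizer ((A ⊔ R : Subgroup G) : Set G))).map (Subgroup.centralizer ((A ⊔ R : Subgroup G) : Set G)).subtype ≤ A) (h4 : ¬ 4 ∣ Nat.card ↥(Subgroup.centralizer ((A ⊔ R : Subgroup G) : Set G))) (g : G) (hgR : g * z * g⁻¹ ∈ R) (hgZ : g * z * g⁻¹ ∉ ((Subgroup.center ↥Q).map Q.subtype)) (M : Subgroup G) (hM : M = Subgroup.centralizer (A : Set G) ⊔ A) [hn : (A.subgroupOf M).Normal] : (M ⊓ Subgroup.centralizer ((R ⊔ A : Subgroup G) :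 Set G)) ⊔ A = A ⊔ ((Subgroup.center ↥Q).map Q.subtype) ∧ Cfsg.IsLargeExtraspecial ((R.subgroupOf M).map (QuotientGroup.mk' (A.subgroupOf M))) ∧ ∃ x ∈ R ⊔ ((Q).map (MulAut.conj g).toMonoidHom ⊓ Subgroup.centralizer (A : Set G)), x * (g * z * g⁻¹) * x⁻¹ = z := by
  obtain ⟨h, -⟩ := H49.LX.of_fstar (H49.orderOf_two_iff.1 hz).1 hF hQ
  rw [h.center_map] at hgZ ⊢
  rw [h.mem_Z, not_or] at hgZ
  have h' := h.cj g
  set x := g * z * g⁻¹ with hx
  have hRQ : R ≤ Q := hR ▸ inf_le_left
  have hRC : R ≤ Subgroup.centralizer (A : Set G) := hR ▸ inf_le_right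
  have hCM : Subgroup.centralizer (A : Set G) ≤ M := hM ▸ le_sup_left
  have zC : z ∈ Subgroup.centralizer (A : Set G) := fun a ha =>
    Subgroup.mem_centralizer_singleton_iff.1 (hA ha)
  have XR : H49.XS R z := hR ▸ h.fix (hA.trans h.nz) hAodd ⟨x, hR ▸ hgR, hgZ⟩
  have h8 : 8 < Nat.card Q := lt_of_lt_of_le (by omega) (Subgroup.card_le_of_le hRQ)
  have zQ' : z ∈ H49.cj Q g := h.mem_cj_of_mem h8 (hRQ hgR)
  have XR' : H49.XS (H49.cj Q g ⊓ Subgroup.centralizer (A : Set G)) x :=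
    h'.fix (fun a ha => h'.nz (Subgroup.mem_centralizer_singleton_iff.2 (hRC hgR a ha))) hAodd
      ⟨z, ⟨zQ', zC⟩, h.ne, Ne.symm hgZ.2⟩
  have mD : ∀ c : G, c ∈ Subgroup.centralizer (A : Set G) → c ∈ Subgroup.centralizer (R : Set G) →
      c ∈ Subgroup.centralizer ((A ⊔ R : Subgroup G) : Set G) := by
    intro c h1 h2 y hy
    have : A ⊔ R ≤ Subgroup.centralizer {c} := sup_le
      (fun a ha => Subgroup.mem_centralizer_singleton_iff.2 (h1 a ha))
      (fun a ha => Subgroup.mem_centralizer_singleton_iff.2 (h2 a ha))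
    exact Subgroup.mem_centralizer_singleton_iff.1 (this hy)
  have zD := mD z zC XR.cen
  have hD : Subgroup.centralizer ((A ⊔ R : Subgroup G) : Set G) ≤ A ⊔ Subgroup.zpowers z :=
    (H49.le_oddCore_sup zD h.ne h.zz h4).trans (sup_le_sup_right hO _)
  have nA : ∀ y ∈ Q, y ≠ 1 → y ∉ A := fun y hy h1 hy' =>
    h1 (H49.eq_one_of_mem_odd_of_mem_two hAodd h.isPGroup hy' hy)
  have key : ∀ (S : Subgroup G) (u : G), H49.LX S u → u ∈ Subgroup.centralizer (A : Set G) →
      ∀ m ∈ M, m * u * m⁻¹ * u⁻¹ ∈ A → ∃ c ∈ Subgroup.centralizer (A : Set G), ∃ a ∈ A,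
        c * a = m ∧ ∀ y ∈ S ⊓ Subgroup.centralizer (A : Set G), m * y * m⁻¹ = c * y * c⁻¹ ∧
        m * y * m⁻¹ ∈ S ⊓ Subgroup.centralizer (A : Set G) := by
    intro S u hS hu m hm hmu
    obtain ⟨c, hc, a, ha, rfl, hcu⟩ := H49.exists_centralizer_of_mod_odd hAodd hu hS.zz
      (hM ▸ hm) hmu
    refine ⟨c, hc, a, ha, rfl, fun y hy => ?_⟩
    obtain ⟨hy1, hy2⟩ := Subgroup.mem_inf.1 hy
    have e : c * a * y * (c * a)⁻¹ = c * y * c⁻¹ := by rw [mul_assoc c, hy2 a ha]; group
    rw [e]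
    exact ⟨rfl, Subgroup.mem_inf.2 ⟨hS.conj_mem hcu hy1, mul_mem (mul_mem hc hy2) (inv_mem hc)⟩⟩
  refine ⟨le_antisymm (sup_le (inf_le_right.trans (by rw [sup_comm R]; exact hD)) le_sup_left)
    (sup_le le_sup_right ((Subgroup.zpowers_le.2 (Subgroup.mem_inf.2
      ⟨hCM zC, by rw [sup_comm R]; exact zD⟩)).trans le_sup_left)), ?_, ?_⟩
  · have X1 := H49.XS_quot (N := A) (hRC.trans hCM) XR.mem (nA z h.mem h.ne) h.zz XR.cen
      (fun p hp hc => by rcases XR.cent p hp hc with rfl | rfl <;> simp) XR.comm XR.nonab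
    have X2 := H49.LX_quot (hRC.trans hCM) _ X1 (by
      intro m hm hc
      obtain ⟨c, hc1, a, ha, rfl, hc2⟩ := key Q z h zC m hm (hc z XR.mem)
      have hcR : c ∈ Subgroup.centralizer (R : Set G) := by
        intro y hy
        obtain ⟨e1, e2⟩ := hc2 y (hR ▸ hy)
        have := H49.eq_one_of_mem_odd_of_mem_two hAodd h.isPGroup (hc y hy)
          (mul_mem e2.1 (inv_mem (hRQ hy)))
        rw [e1, mul_inv_eq_one, mul_inv_eq_iff_eq_mul] at this
        exact this.symm
      have hn : Subgroup.zpowers z ≤ Subgroup.normalizer (A : Set G) :=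
        (Subgroup.zpowers_le.2 zC).trans (Subgroup.centralizer_le_normalizer _)
      have := hD (mD c hc1 hcR)
      rw [sup_comm] at this
      obtain ⟨p, hp, a', ha', rfl⟩ := (H49.mem_sup_of_le_normalizer' hn).1 this
      refine ⟨p, XR.Z_le hp, ?_⟩
      have := H49.conj_mem_of_mem_normalizer (hn hp) (inv_mem (mul_mem ha' ha))
      simpa [mul_assoc] using this) (by
      intro m hm hc y hy
      obtain ⟨c, -, a, -, -, hc2⟩ := key Q z h zC m hm hc
      exact ⟨_, hR ▸ (hc2 y (hR ▸ hy)).2, by simp⟩)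
    refine H49.large_quot (hRC.trans hCM) (inf_le_right.trans hCM) _ X2 hgR
      (nA x (hRQ hgR) hgZ.1) (nA _ (mul_mem (hRQ hgR) (inv_mem h.mem))
      (fun e => hgZ.2 (mul_inv_eq_one.1 e))) h'.zz XR'.isPGroup ⟨zQ', zC⟩ ?_
    intro m hm hc y hy
    obtain ⟨c, -, a, -, -, hc2⟩ := key _ x h' (hRC hgR) m hm hc
    exact ⟨_, (hc2 y hy).2, by simp⟩
  · obtain ⟨r, hr, e⟩ := XR.exists_conj_eq_mul_z hgR hgZ.1 hgZ.2
    obtain ⟨r', hr', e'⟩ := XR'.exists_conj_eq_mul_z ⟨zQ', zC⟩ h.ne (Ne.symm hgZ.2)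
    exact H49.exists_conj_of_two_XS hr hr' (XR.cen x hgR) e e'

end Cfsg.Agent.S5428
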