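import Cfsg.Statements.S5429
import Cfsg.Agent.H49.Quot

set_option autoImplicit false
open Cfsg

namespace Cfsg.Agent.S5429

/-- Let z be an involution of the finite group G with centralizer C whose generalized Fitting subgroup Q is extraspecial of width at least 3 (order 2^(2w+1), w ≥ 3); let g be an element of G with g z g⁻¹ in Q but outside the centre Z of Q, and t an involution lying in both Q and g Q g⁻¹ that is not conjugate to z; write P for the centralizer of t in Q and suppose that the elements of C acting trivially by conjugation on P modulo the subgroup generated by t and z are exactly the elements of Q. Then the image of P in the centralizer of t modulo the subgroup generated by t is a large extraspecial 2-subgroup there, and g z g⁻¹ is conjugate to z inside the subgroup generated by P and the centralizer of t in g Q g⁻¹. -/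
theorem result {G : Type*} [Group G] [Finite G] (z : G) (hz : orderOf z = 2) (Q : Subgroup G) (hQC : Q ≤ Subgroup.centralizer ({z} : Set G)) (hF : (Cfsg.generalizedFittingSubgroup ↥(Subgroup.centralizer ({z} : Set G))).map (Subgroup.centralizer ({z} : Set G)).subtype = Q) (hQ : Cfsg.IsExtraspecial 2 ↥Q) (w : ℕ) (hw : 3 ≤ w) (hcard : Nat.card ↥Q = 2 ^ (2 * w + 1)) (g : G) (hgQ : g * z * g⁻¹ ∈ Q) (hgZ : g * z * g⁻¹ ∉ ((Subgroup.center ↥Q).map Q.subtype)) (t : G) (ht : orderOf t = 2) (htQ : t ∈ Q ⊓ (Q).map (MulAut.conj g).toMonoidHom) (htz : ¬ IsConj z t) (P : Subgroup G) (hP : P = Q ⊓ Subgroup.centralizer ({t} : Set G)) (hCP : ∀ c ∈ Subgroup.centralizer ({z} : Set G), (∀ x ∈ P, ∃ y ∈ Subgroup.closure ({t, z} : Set G), c * x * c⁻¹ = x * y) ↔ c ∈ Q) [hn : ((Subgroup.zpowers t).subgroupOf (Subgroup.centralizer ({t} : Set G))).Normal] : Cfsg.IsLargeExtraspecial ((P.subgroupOf (Subgroup.centralizer ({t} : Set G))).map (QuotientGroup.mk' ((Subgroup.zpowers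 t).subgroupOf (Subgroup.centralizer ({t} : Set G))))) ∧ ∃ x ∈ P ⊔ ((Q).map (MulAut.conj g).toMonoidHom ⊓ Subgroup.centralizer ({t} : Set G)), x * (g * z * g⁻¹) * x⁻¹ = z := by
  obtain ⟨h, -⟩ := H49.LX.of_fstar (H49.orderOf_two_iff.1 hz).1 hF hQ
  rw [h.center_map, h.mem_Z, not_or] at hgZ
  have h' := h.cj g
  set x := g * z * g⁻¹ with hx
  have hxc : IsConj z x := isConj_iff.2 ⟨g, rfl⟩
  obtain ⟨t1, tt⟩ := H49.orderOf_two_iff.1 ht
  have h8 : 8 < Nat.card Q := by
    rw [hcard]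
    calc 8 = 2 ^ 3 := rfl
      _ < 2 ^ (2 * w + 1) := Nat.pow_lt_pow_right (by decide) (by omega)
  have zQ' : z ∈ H49.cj Q g := h.mem_cj_of_mem h8 hgQ
  have hPQ : P ≤ Q := hP ▸ inf_le_left
  have hPM : P ≤ Subgroup.centralizer {t} := hP ▸ inf_le_right
  have mP : ∀ y, y ∈ P ↔ y ∈ Q ∧ y * t = t * y := fun y => by
    rw [hP, Subgroup.mem_inf, Subgroup.mem_centralizer_singleton_iff]
  have nT : ∀ y, IsConj z y → y ∉ Subgroup.zpowers t := by
    intro y hy hm
    rcases (H49.mem_zpowers_invol tt).1 hm with rfl | rfl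
    · exact h.ne (isConj_one_left.1 hy)
    · exact htz hy
  have nc : ∀ (S : Subgroup G) (u : G), H49.LX S u → IsConj z u → t ∈ S → ¬ IsConj z (t * u) := by
    intro S u hS hu htS hc
    obtain ⟨q, -, e⟩ := hS.exists_conj_eq_mul_z htS t1 (fun e => htz (e ▸ hu))
    exact htz (hc.trans (isConj_iff.2 ⟨q, e⟩).symm)
  have key : ∀ (S : Subgroup G) (u : G), H49.LX S u → IsConj z u → t ∈ S →
      ∀ m : G, m * u * m⁻¹ * u⁻¹ ∈ Subgroup.zpowers t → m * u = u * m := by
    intro S u hS hu htS m hm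
    rcases (H49.mem_zpowers_invol tt).1 hm with e | e
    · rwa [mul_inv_eq_one, mul_inv_eq_iff_eq_mul] at e
    · exact absurd (hu.trans (isConj_iff.2 ⟨m, mul_inv_eq_iff_eq_mul.1 e⟩)) (nc S u hS hu htS)
  have key2 : ∀ (S : Subgroup G) (u : G), H49.LX S u → IsConj z u → t ∈ S →
      ∀ m ∈ Subgroup.centralizer ({t} : Set G), m * u * m⁻¹ * u⁻¹ ∈ Subgroup.zpowers t →
      ∀ y ∈ S ⊓ Subgroup.centralizer {t}, ∃ p ∈ S ⊓ Subgroup.centralizer {t},
        p * (m * y * m⁻¹)⁻¹ ∈ Subgroup.zpowers t := by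
    intro S u hS hu htS m hm hc y hy
    obtain ⟨hy1, hy2⟩ := Subgroup.mem_inf.1 hy
    exact ⟨_, Subgroup.mem_inf.2 ⟨hS.conj_mem (key S u hS hu htS m hc) hy1,
      mul_mem (mul_mem hm hy2) (inv_mem hm)⟩, by simp⟩
  have key3 : ∀ (S : Subgroup G) (u v : G), H49.LX S u → IsConj z u → t ∈ S → IsConj z v →
      v ∈ S → v ≠ u → ∃ r ∈ S ⊓ Subgroup.centralizer {t}, r * v * r⁻¹ = v * u := by
    intro S u v hS hu htS hv hvS hne
    by_contra hc
    rcases hS.mem_of_centralizes_centralizer htS hvS (fun y hy hyt => by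
      by_contra hne'
      exact hc ⟨y, ⟨hy, Subgroup.mem_centralizer_singleton_iff.2 hyt⟩,
        hS.conj_of_ne hy hvS hne'⟩) with e | e | e | e
    · exact nT v hv (e ▸ one_mem _)
    · exact hne e
    · exact htz (e ▸ hv)
    · exact nc S u hS hu htS (e ▸ hv)
  have zP : z ∈ P := (mP z).2 ⟨h.mem, (h.cen t htQ.1).symm⟩
  have xP : x ∈ P := (mP x).2 ⟨hgQ, (h'.cen t htQ.2).symm⟩
  constructor
  · have X1 := H49.XS_quot (N := Subgroup.zpowers t) hPM zP (nT z (IsConj.refl z)) h.zz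
      (fun p hp => h.cen p (hPQ hp)) (fun p hp hc => by
        rcases h.mem_of_centralizes_centralizer htQ.1 (hPQ hp)
          (fun y hy hyt => (hc y ((mP y).2 ⟨hy, hyt⟩)).symm) with rfl | rfl | rfl | rfl <;> simp)
      (fun p hp y hy => h.comm p (hPQ hp) y (hPQ hy)) (by
        obtain ⟨a, ha, b, hb, h1, h2, h3⟩ := h.exists_not_comm_in_centralizer h8 htQ.1
        exact ⟨a, (mP a).2 ⟨ha, h1⟩, b, (mP b).2 ⟨hb, h2⟩, h3⟩)
    have X2 := H49.LX_quot hPM _ X1 (by
      intro m hm hc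
      have h1 := key Q z h (IsConj.refl z) htQ.1 m (hc z zP)
      refine ⟨m, (mP m).2 ⟨(hCP m (Subgroup.mem_centralizer_singleton_iff.2 h1)).1 fun y hy => ?_,
        Subgroup.mem_centralizer_singleton_iff.1 hm⟩, by simp⟩
      rcases (H49.mem_zpowers_invol tt).1 (hc y hy) with e | e
      · exact ⟨1, one_mem _, by rw [mul_inv_eq_one.1 e, mul_one]⟩
      · exact ⟨t, Subgroup.subset_closure (by simp), by
          rw [mul_inv_eq_iff_eq_mul.1 e, ((mP y).1 hy).2]⟩)
      (hP ▸ key2 Q z h (IsConj.refl z) htQ.1)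
    refine H49.large_quot hPM inf_le_right _ X2 xP (nT x hxc) (fun hm => ?_) h'.zz
      h'.isPGroup.to_inf_left ⟨zQ', hPM zP⟩ (key2 _ x h' hxc htQ.2)
    rcases (H49.mem_zpowers_invol tt).1 hm with e | e
    · exact hgZ.2 (mul_inv_eq_one.1 e)
    · exact nc Q z h (IsConj.refl z) htQ.1 (mul_inv_eq_iff_eq_mul.1 e ▸ hxc)
  · obtain ⟨r, hr, e⟩ := key3 Q z x h (IsConj.refl z) htQ.1 hxc hgQ hgZ.2
    obtain ⟨r', hr', e'⟩ := key3 _ x z h' hxc htQ.2 (IsConj.refl z) zQ' (Ne.symm hgZ.2)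
    exact H49.exists_conj_of_two_XS (hP ▸ hr) hr' (h.cen x hgQ) e e'

end Cfsg.Agent.S5429
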