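import Cfsg.Statements.S5431
import Cfsg.Agent.H49.Pair

set_option autoImplicit false
open Cfsg

namespace Cfsg.Agent.S5431

/-- Let Q be a large extraspecial 2-subgroup of the finite group G (extraspecial; centralizer equal to its centre; normal in the centralizer of its centre; normalizing no non-trivial subgroup of odd order) with centre generated by z, an involution, of width w ≥ 2 (order 2^(2w+1)); let g be an element outside the centralizer H of z with g z g⁻¹ in Q; write V for the subgroup generated by z and g z g⁻¹, X for the subgroup generated by Q and g Q g⁻¹, R for the subgroup generated by the centralizer of z in g Q g⁻¹ and the centralizer of g z g⁻¹ in Q, and E for the intersection of Q and g Q g⁻¹. Then V is the centre of R, E lies in the second centre of R, R is nilpotent of class at most 3, E and R/E are elementary abelian, R/E is the direct product of the images of the centralizer of g z g⁻¹ in Q and of the centralizer of z in g Q g⁻¹ (R is their product and they meet in E), and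 the commutator subgroup of X and E lies in V. -/
theorem result {G : Type*} [Group G] [Finite G] (Q : Subgroup G) (hQ : Cfsg.IsLargeExtraspecial Q) (z : G) (hz : ((Subgroup.center ↥Q).map Q.subtype) = Subgroup.zpowers z) (hz2 : orderOf z = 2) (w : ℕ) (hw : 2 ≤ w) (hcard : Nat.card ↥Q = 2 ^ (2 * w + 1)) (g : G) (hgH : g ∉ Subgroup.centralizer ({z} : Set G)) (hgQ : g * z * g⁻¹ ∈ Q) (V X R E : Subgroup G) (hV : V = Subgroup.closure ({z, g * z * g⁻¹} : Set G)) (hX : X = Q ⊔ (Q).map (MulAut.conj g).toMonoidHom) (hR : R = ((Q).map (MulAut.conj g).toMonoidHom ⊓ Subgroup.centralizer ({z} : Set G)) ⊔ (Q ⊓ Subgroup.centralizer ({g * z * g⁻¹} : Set G))) (hE : E = Q ⊓ (Q).map (MulAut.conj g).toMonoidHom) : (Subgroup.center ↥R).map R.subtype = V ∧ E ≤ (Subgroup.upperCentralSeries ↥R 2).map R.subtype ∧ Subgroup.upperCentralSeries ↥R 3 = ⊤ ∧ Cfsg.IsElementaryAbelian 2 E ∧ (∀ x ∈ R, ∀ y ∈ R, x * y * x⁻¹ * y⁻¹ ∈ E ∧ x ^ 2 ∈ E) ∧ ((Q).map (MulAut.conj g).toMonoidHom ⊓ Subgroup.centralizer ({z} : Set G)) ⊓ (Q ⊓ Subgroup.centralizer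 ({g * z * g⁻¹} : Set G)) = E ∧ ⁅X, E⁆ ≤ V := by
  have h := H49.LX.of_large' hQ hz
  have h8 : 8 < Nat.card Q := by
    rw [hcard]
    calc 8 = 2 ^ 3 := rfl
      _ < 2 ^ (2 * w + 1) := Nat.pow_lt_pow_right (by decide) (by omega)
  have hne : g * z * g⁻¹ ≠ z := fun e => hgH (Subgroup.mem_centralizer_singleton_iff.2
    (by rw [← mul_inv_eq_iff_eq_mul]; exact e))
  have P := h.pair h8 hgQ hne
  have hZ : (Subgroup.center ↥R).map R.subtype = V := by
    subst hV hR; exact P.center_R
  have hER : E ≤ R := by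
    subst hE hR; exact P.E_le_A.trans le_sup_right
  have hRX : R ≤ X := by
    subst hX hR; exact H49.Pair.R_le_X _ _ _ _
  have hXE : ∀ y ∈ X, ∀ e ∈ E, y * e * y⁻¹ * e⁻¹ ∈ V := by
    subst hX hE hV; exact fun y hy e he => P.commutator_X_E hy he
  have hRR : ∀ x ∈ R, ∀ y ∈ R, x * y * x⁻¹ * y⁻¹ ∈ E ∧ x ^ 2 ∈ E := by
    subst hE hR
    exact fun x hx y hy => ⟨P.R_commutator hx hy, by rw [pow_two]; exact P.R_sq hx⟩
  have h1 : ∀ v : R, (v : G) ∈ V → v ∈ Subgroup.upperCentralSeries ↥R 1 := by
    intro v hv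
    rw [Subgroup.upperCentralSeries_one]
    rw [← hZ] at hv
    obtain ⟨v', hv', e⟩ := hv
    have : v' = v := Subtype.ext e
    rwa [← this]
  have h2 : ∀ e : R, (e : G) ∈ E → e ∈ Subgroup.upperCentralSeries ↥R 2 := by
    intro e he
    rw [Subgroup.mem_upperCentralSeries_succ_iff]
    intro y
    apply h1
    have := inv_mem (hXE y (hRX y.2) e he)
    simpa [commutatorElement_def, mul_assoc] using this
  refine ⟨hZ, fun e he => ⟨⟨e, hER he⟩, h2 _ he, rfl⟩, ?_, ?_, hRR, ?_, ?_⟩
  · rw [eq_top_iff]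
    intro x _
    rw [Subgroup.mem_upperCentralSeries_succ_iff]
    intro y
    apply h2
    simpa [commutatorElement_def] using (hRR x x.2 y y.2).1
  · subst hE; exact P.E_elementaryAbelian
  · subst hE; exact P.B_inf_A
  · rw [Subgroup.commutator_le]
    intro y hy e he
    exact hXE y hy e he

end Cfsg.Agent.S5431
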