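import Cfsg.Statements.S5435
import Cfsg.Agent.H49.Pair
import Cfsg.Agent.H3.Frattini
import Cfsg.Agent.H8.Alperin
import Cfsg.Agent.H52.Quasisimple

set_option autoImplicit false
open Cfsg

namespace Cfsg.Agent.S5435

open H49 Subgroup in
theorem aux {G : Type*} [Group G] {z : G} (zz : z * z = 1) (z1 : z ≠ 1)
    (hc : ∀ a b : G, a * z = z * a → b * z = z * b → a * b * a⁻¹ * b⁻¹ ∈ zpowers z)
    (hs : ∀ a : G, a * z = z * a → a * a ∈ zpowers z) (hr : ∃ r : G, r * r = z) {x : G}
    (hx : IsConj z x) : x ≠ 1 ∧ x * x = 1 ∧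
      (∀ a b : G, a * x = x * a → b * x = x * b → a * b ≠ b * a → a * b * a⁻¹ = b * x) ∧
      (∀ a : G, a * x = x * a → a * a = 1 ∨ a * a = x) ∧ ∃ r : G, r * r = x := by
  obtain ⟨g, rfl⟩ := isConj_iff.1 hx
  have key : ∀ a : G, a * (g * z * g⁻¹) = g * z * g⁻¹ * a → g⁻¹ * a * g * z = z * (g⁻¹ * a * g) := by
    intro a ha
    calc g⁻¹ * a * g * z = g⁻¹ * (a * (g * z * g⁻¹)) * g := by group
      _ = _ := by rw [ha]; group
  refine ⟨fun e => z1 (by simpa using e), ?_, fun a b ha hb hne => ?_, fun a ha => ?_, ?_⟩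
  · calc g * z * g⁻¹ * (g * z * g⁻¹) = g * (z * z) * g⁻¹ := by group
      _ = 1 := by rw [zz]; group
  · rcases (mem_zpowers_invol zz).1 (hc _ _ (key a ha) (key b hb)) with e | e
    · exfalso; apply hne
      calc a * b = g * (g⁻¹ * a * g * (g⁻¹ * b * g) * (g⁻¹ * a * g)⁻¹ * (g⁻¹ * b * g)⁻¹) * g⁻¹ *
            (b * a) := by group
        _ = _ := by rw [e]; group
    · calc a * b * a⁻¹ = g * (g⁻¹ * a * g * (g⁻¹ * b * g) * (g⁻¹ * a * g)⁻¹ *
            (g⁻¹ * b * g)⁻¹) * g⁻¹ * b := by group
        _ = _ := by rw [e, hb]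
  · rcases (mem_zpowers_invol zz).1 (hs _ (key a ha)) with e | e
    · left
      calc a * a = g * (g⁻¹ * a * g * (g⁻¹ * a * g)) * g⁻¹ := by group
        _ = _ := by rw [e]; group
    · right
      calc a * a = g * (g⁻¹ * a * g * (g⁻¹ * a * g)) * g⁻¹ := by group
        _ = _ := by rw [e]
  · obtain ⟨r, hr⟩ := hr
    exact ⟨g * r * g⁻¹, by rw [← hr]; group⟩

/-- Let L be a finite non-abelian simple group with an involution z whose centralizer R is a Sylow 2-subgroup of L whose Frattini subgroup is the subgroup generated by z. Then R is dihedral of order 8. -/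
theorem result {L : Type*} [Group L] [Finite L] [IsSimpleGroup L] (hL : ¬ IsMulCommutative L) (z : L) (hz : orderOf z = 2) (R : Sylow 2 L) (hR : (R : Subgroup L) = Subgroup.centralizer ({z} : Set L)) (hΦ : (frattini ↥(R : Subgroup L)).map (R : Subgroup L).subtype = Subgroup.zpowers z) : Nonempty (↥(R : Subgroup L) ≃* DihedralGroup 4) := by
  have : Fact (Nat.Prime 2) := ⟨Nat.prime_two⟩
  obtain ⟨z1, zz⟩ := H49.orderOf_two_iff.1 hz
  have mR : ∀ a : L, a ∈ (R : Subgroup L) ↔ a * z = z * a := fun a => by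
    rw [hR, Subgroup.mem_centralizer_singleton_iff]
  obtain ⟨hΦ1, hΦ2⟩ := (H3.map_frattini_le_iff R.isPGroup').1 hΦ.le
  have hr : ∃ r : L, r * r = z := by
    by_contra hc
    have hsq : ∀ x ∈ (R : Subgroup L), x * x ∈ (⊥ : Subgroup L) := by
      intro x hx
      have := hΦ2 x hx
      rw [pow_two, H49.mem_zpowers_invol zz] at this
      exact this.resolve_right fun e => hc ⟨x, e⟩
    have : (frattini ↥(R : Subgroup L)).map (R : Subgroup L).subtype ≤ ⊥ :=
      (H3.map_frattini_le_iff R.isPGroup').2 ⟨Subgroup.commutator_le.2 fun x hx y hy =>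
        H49.commutator_mem_of_sq Subgroup.le_normalizer_of_normal hsq hx hy,
        fun x hx => by rw [pow_two]; exact hsq x hx⟩
    rw [hΦ] at this
    exact z1 (this (Subgroup.mem_zpowers z))
  have P := fun x => aux (x := x) zz z1 (fun a b ha hb => hΦ1 (Subgroup.commutator_mem_commutator
    ((mR a).2 ha) ((mR b).2 hb))) (fun a ha => by rw [← pow_two]; exact hΦ2 a ((mR a).2 ha)) hr
  have hsq1 : ∀ x y a : L, IsConj z x → IsConj z y → x ≠ y → a * x = x * a → a * y = y * a →
      a * a = 1 := by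
    intro x y a hx hy hne h1 h2
    rcases (P x hx).2.2.2.1 a h1 with e | e
    · exact e
    rcases (P y hy).2.2.2.1 a h2 with e' | e'
    · exact e'
    · exact absurd (e.symm.trans e') hne
  have hroot : ∀ x y : L, IsConj z x → IsConj z y → x ≠ y → x * y = y * x → ∀ r : L, r * r = y →
      r * x ≠ x * r ∧ r * y = y * r ∧ r * x * r⁻¹ = x * y := by
    intro x y hx hy hne c r hr
    have h2 : r * y = y * r := by rw [← hr]; group
    have h1 : r * x ≠ x * r := fun e => (P y hy).1 (hr.symm.trans (hsq1 x y r hx hy hne e h2))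
    exact ⟨h1, h2, (P y hy).2.2.1 r x h2 c h1⟩
  have htri : ∀ x y w : L, IsConj z x → IsConj z y → IsConj z w → x ≠ y → x ≠ w → y ≠ w →
      x * y = y * x → x * w = w * x → y * w = w * y → x * y = w := by
    intro x y w hx hy hw n1 n2 n3 c1 c2 c3
    obtain ⟨r, hr⟩ := (P w hw).2.2.2.2
    obtain ⟨s, hs⟩ := (P y hy).2.2.2.2
    have hxy : IsConj z (x * y) :=
      hx.trans (isConj_iff.2 ⟨s, (hroot x y hx hy n1 c1 s hs).2.2⟩)
    by_contra hne
    have c4 : x * y * w = w * (x * y) := Commute.mul_left c2 c3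
    apply (hroot _ w hxy hw hne c4 r hr).1
    rw [← mul_inv_eq_iff_eq_mul]
    calc r * (x * y) * r⁻¹ = (r * x * r⁻¹) * (r * y * r⁻¹) := by group
      _ = x * (w * y) * w := by
        rw [(hroot x w hx hw n2 c2 r hr).2.2, (hroot y w hy hw n3 c3 r hr).2.2]; group
      _ = x * y * (w * w) := by rw [← c3]; group
      _ = _ := by rw [(P w hw).2.1, mul_one]
  set W := Subgroup.closure {x : L | IsConj z x ∧ x * z = z * x} with hW
  have zW : z ∈ W := Subgroup.subset_closure ⟨IsConj.refl z, rfl⟩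
  have hRW : (R : Subgroup L) ≤ W := by
    have h1 : commutator L = ⊤ := (H52.isQuasisimple_of_isSimpleGroup hL).1.1
    have := H8.commutator_inf_le_of_alperin R (K := W)
      (hΦ1.trans (Subgroup.zpowers_le.2 zW)) (by
      intro Q hQR _ hC n hn _ _ a ha
      have zQ : z ∈ Q := hC ⟨(mR z).2 rfl, fun q hq => (mR q).1 (hQR hq)⟩
      have e0 : a * (n * a * n⁻¹)⁻¹ = (n * a * n⁻¹ * a⁻¹)⁻¹ := by group
      rw [e0]
      refine inv_mem ?_
      by_cases e : n * z * n⁻¹ = z
      · exact Subgroup.zpowers_le.2 zW (hΦ1 (Subgroup.commutator_mem_commutator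
          ((mR n).2 (mul_inv_eq_iff_eq_mul.1 e)) (hQR ha)))
      set x := n * z * n⁻¹ with hxd
      have hx : IsConj z x := isConj_iff.2 ⟨n, rfl⟩
      have xz : x * z = z * x := (mR x).1 (hQR (H49.conj_mem_of_mem_normalizer hn zQ))
      have az : a * z = z * a := (mR a).1 (hQR ha)
      have ax : a * x = x * a := by
        have := (mR _).1 (hQR (H49.conj_mem_of_mem_normalizer (inv_mem hn) ha))
        calc a * x = n * (n⁻¹ * a * n⁻¹⁻¹ * z) * n⁻¹ := by rw [hxd]; group
          _ = _ := by rw [this, hxd]; group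
      have key : ∀ u v : L, IsConj z u → u * v = v * u → a * u = u * a → ∀ c : L,
          c * u = u * c → c ∈ H49.commMod {a} (Subgroup.closure ({u, v} : Set L)) := by
        intro u v hu c1 c2 c hc
        have mu : u ∈ Subgroup.closure ({u, v} : Set L) := Subgroup.subset_closure (by simp)
        have mv : v ∈ Subgroup.closure ({u, v} : Set L) := Subgroup.subset_closure (by simp)
        refine ⟨H49.Four.mem_normalizer ?_ ?_, ?_⟩
        · rw [hc, mul_inv_cancel_right]; exact mu
        · by_cases e : c * v = v * c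
          · rw [e, mul_inv_cancel_right]; exact mv
          · rw [(P u hu).2.2.1 c v hc c1.symm e]; exact mul_mem mv mu
        · intro a' ha'
          rw [Set.mem_singleton_iff.1 ha']
          by_cases e : c * a = a * c
          · rw [e]; simp
          · rw [(P u hu).2.2.1 c a hc c2 e, c2, mul_inv_cancel_right]; exact mu
      obtain ⟨r, hr⟩ := hr
      obtain ⟨s, hs⟩ := (P x hx).2.2.2.2
      obtain ⟨-, r2, r3⟩ := hroot x z hx (IsConj.refl z) e xz r hr
      obtain ⟨-, s2, s3⟩ := hroot z x (IsConj.refl z) hx (Ne.symm e) xz.symm s hs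
      have m : (r * s)⁻¹ * n * z = z * ((r * s)⁻¹ * n) := by
        have : r * s * z * (r * s)⁻¹ = x := by
          calc r * s * z * (r * s)⁻¹ = r * (s * z * s⁻¹) * r⁻¹ := by group
            _ = (r * z) * r⁻¹ * (r * x * r⁻¹) := by rw [s3]; group
            _ = z * (x * z) := by rw [r3, r2]; group
            _ = x := by rw [xz, ← mul_assoc, zz, one_mul]
        calc (r * s)⁻¹ * n * z = (r * s)⁻¹ * x * n := by rw [hxd]; group
          _ = _ := by rw [← this]; group
      have k1 := key z x (IsConj.refl z) xz.symm az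
      have k2 := key x z hx xz ax s s2
      rw [H49.Pair.closure_comm] at k2
      have := (mul_mem (mul_mem (k1 r r2) k2) (k1 _ m)).2 a rfl
      rw [mul_inv_cancel_left] at this
      refine (Subgroup.closure_le _).2 ?_ this
      rintro _ (rfl | rfl)
      · exact zW
      · exact Subgroup.subset_closure ⟨hx, xz⟩)
    rwa [h1, top_inf_eq] at this
  obtain ⟨r, hr⟩ := hr
  have rW : r ∈ W := hRW ((mR r).2 (by rw [← hr]; group))
  obtain ⟨x, hx, xz, xne⟩ : ∃ x : L, IsConj z x ∧ x * z = z * x ∧ x ≠ z := by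
    by_contra hc
    push Not at hc
    have : W ≤ Subgroup.zpowers z := (Subgroup.closure_le _).2 fun x hx => by
      rw [hc x hx.1 hx.2]; exact Subgroup.mem_zpowers z
    rcases (H49.mem_zpowers_invol zz).1 (this rW) with e | e <;> rw [e] at hr
    · exact z1 (by simpa using hr.symm)
    · exact z1 (hr.symm.trans zz)
  obtain ⟨y, hy, yz, xy⟩ : ∃ y : L, IsConj z y ∧ y * z = z * y ∧ y * x ≠ x * y := by
    by_contra hc
    push Not at hc
    have : W ≤ Subgroup.centralizer {x} := (Subgroup.closure_le _).2 fun y hy =>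
      Subgroup.mem_centralizer_singleton_iff.2 (hc y hy.1 hy.2)
    exact (hroot x z hx (IsConj.refl z) xne xz r hr).1
      (Subgroup.mem_centralizer_singleton_iff.1 (this rW))
  have xx := (P x hx).2.1
  have yy := (P y hy).2.1
  have ix : x⁻¹ = x := inv_eq_of_mul_eq_one_right xx
  have iy : y⁻¹ = y := inv_eq_of_mul_eq_one_right yy
  have hxy : x * y * (x * y) = z := by
    have := (P z (IsConj.refl z)).2.2.1 x y xz yz (Ne.symm xy)
    rw [ix] at this
    rw [← mul_assoc, this, yz, mul_assoc, yy, mul_one]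
  have mx : x ∈ Subgroup.closure ({x, y} : Set L) := Subgroup.subset_closure (by simp)
  have my : y ∈ Subgroup.closure ({x, y} : Set L) := Subgroup.subset_closure (by simp)
  have mz : z ∈ Subgroup.closure ({x, y} : Set L) := hxy ▸ mul_mem (mul_mem mx my) (mul_mem mx my)
  have hWD : W ≤ Subgroup.closure ({x, y} : Set L) := by
    rw [hW, Subgroup.closure_le]
    rintro w ⟨hw, wz⟩
    have k : ∀ u : L, IsConj z u → u * z = z * u → u ≠ z → u ∈ Subgroup.closure ({x, y} : Set L) →
        u * w = w * u → w ∈ Subgroup.closure ({x, y} : Set L) := by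
      intro u hu uz une mu c
      by_cases e1 : w = z
      · rw [e1]; exact mz
      by_cases e2 : u = w
      · rw [← e2]; exact mu
      have := htri u w z hu hw (IsConj.refl z) e2 une e1 c uz wz
      rw [eq_inv_mul_of_mul_eq this]
      exact mul_mem (inv_mem mu) mz
    by_cases c1 : x * w = w * x
    · exact k x hx xz xne mx c1
    refine k y hy yz (by rintro rfl; exact xy xz.symm) my ?_
    have c2 : w * y * x = x * (w * y) := by
      have e1 := (P z (IsConj.refl z)).2.2.1 x w xz wz c1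
      have e2 := (P z (IsConj.refl z)).2.2.1 x y xz yz (Ne.symm xy)
      rw [eq_comm, ← mul_inv_eq_iff_eq_mul]
      calc x * (w * y) * x⁻¹ = (x * w * x⁻¹) * (x * y * x⁻¹) := by group
        _ = w * (z * y) * z := by rw [e1, e2]; group
        _ = w * y * (z * z) := by rw [← yz]; group
        _ = _ := by rw [zz, mul_one]
    have := hsq1 x z (w * y) hx (IsConj.refl z) xne c2 (Commute.mul_left wz yz)
    have iw : w⁻¹ = w := inv_eq_of_mul_eq_one_right (P w hw).2.1
    rw [eq_inv_of_mul_eq_one_left this, mul_inv_rev, iw, iy]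
  have hRD : (R : Subgroup L) = Subgroup.closure ({x * y, x} : Set L) := by
    rw [← H9.closure_pair_involutions xx]
    refine le_antisymm (hRW.trans hWD) ((Subgroup.closure_le _).2 ?_)
    rintro _ (rfl | rfl)
    · exact (mR _).2 xz
    · exact (mR _).2 yz
  rw [hRD]
  refine H9.closure_equiv_dihedral _ _ ?_ xx (H9.left_inverts_mul xx yy)
    (H9.left_not_mem_zpowers_mul (H49.orderOf_two_iff.2 ⟨(P x hx).1, xx⟩)
      (H49.orderOf_two_iff.2 ⟨(P y hy).1, yy⟩))
  refine orderOf_eq_prime_pow (p := 2) (n := 1) ?_ ?_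
  · rw [pow_one, pow_two, hxy]; exact z1
  · rw [show 2 ^ (1 + 1) = 2 * 2 from rfl, pow_mul, pow_two (x * y), hxy, pow_two, zz]

end Cfsg.Agent.S5435
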