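import Cfsg.Statements.S5436
import Cfsg.Agent.H49.Simp

set_option autoImplicit false
open Cfsg

namespace Cfsg.Agent.S5436

/-- Let z be an involution of the finite group G with centralizer H whose generalized Fitting subgroup Q is extraspecial of width at least 2 (order 2^(2w+1), w ≥ 2); suppose some conjugate of z other than z lies in Q, H/Q is a non-abelian simple group, H acts irreducibly by conjugation on Q modulo the subgroup generated by z (the only H-invariant subgroups of Q containing z are that subgroup and Q), and Q is not the subgroup generated by the conjugates of z lying in H. Then G is simple. -/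
theorem result {G : Type*} [Group G] [Finite G] (z : G) (hz : orderOf z = 2) (Q : Subgroup (Subgroup.centralizer ({z} : Set G))) [Q.Normal] (hF : Cfsg.generalizedFittingSubgroup ↥(Subgroup.centralizer ({z} : Set G)) = Q) (hQ : Cfsg.IsExtraspecial 2 ↥Q) (w : ℕ) (hw : 2 ≤ w) (hcard : Nat.card ↥Q = 2 ^ (2 * w + 1)) (hnwc : ∃ g : G, (∃ hq : g * z * g⁻¹ ∈ Subgroup.centralizer ({z} : Set G), (⟨g * z * g⁻¹, hq⟩ : Subgroup.centralizer ({z} : Set G)) ∈ Q) ∧ g * z * g⁻¹ ≠ z) (hsimp : IsSimpleGroup (↥(Subgroup.centralizer ({z} : Set G)) ⧸ Q)) (hna : ¬ IsMulCommutative (↥(Subgroup.centralizer ({z} : Set G)) ⧸ Q)) (hirr : ∀ W : Subgroup (Subgroup.centralizer ({z} : Set G)), W.Normal → W ≤ Q → (W = Q ∨ ∀ x ∈ W, (x : G) ∈ Subgroup.zpowers z)) (hwcl : Subgroup.closure {x : Subgroup.centralizer ({z} : Set G) | IsConj z (x : G)} ≠ Q) : IsSimpleGroup G := by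
  obtain ⟨h, hO⟩ := H49.LX.of_fstar (H49.orderOf_two_iff.1 hz).1 (congrArg _ hF)
    ((H49.isExtraspecial_map_iff (Subgroup.subtype_injective _)).2 hQ)
  have h8 : 8 < Nat.card (Q.map (Subgroup.centralizer ({z} : Set G)).subtype) := by
    rw [H3.card_map_subtype, hcard]
    calc 8 = 2 ^ 3 := rfl
      _ < 2 ^ (2 * w + 1) := Nat.pow_lt_pow_right (by decide) (by omega)
  obtain ⟨g, ⟨hq, hg⟩, hne⟩ := hnwc
  have h1 : g * z * g⁻¹ ∈ Q.map (Subgroup.centralizer ({z} : Set G)).subtype := ⟨_, hg, rfl⟩
  have hL := h.large_of_mem_cj h1 hne (h.mem_cj_of_mem h8 h1)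
  refine h.isSimpleGroup hL hO ?_
  set W := Subgroup.closure {x : Subgroup.centralizer ({z} : Set G) | IsConj z (x : G)} with hW
  have hWn : W.Normal := by
    refine ⟨fun n hn c => ?_⟩
    have : W ≤ W.comap (MulAut.conj c).toMonoidHom := by
      rw [hW, Subgroup.closure_le]
      intro x hx
      refine Subgroup.subset_closure ?_
      exact IsConj.trans hx (isConj_iff.2 ⟨c, rfl⟩)
    exact this hn
  have hQW : Q ≤ W := by
    rcases hirr (W ⊓ Q) inferInstance inf_le_right with e | e
    · exact inf_eq_right.1 e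
    · exfalso
      have := e ⟨_, hq⟩ ⟨Subgroup.subset_closure (isConj_iff.2 ⟨g, rfl⟩), hg⟩
      rcases h.mem_Z.1 this with e | e
      · exact (h.cj g).ne e
      · exact hne e
  have hWt : W = ⊤ := by
    rcases (hWn.map _ (QuotientGroup.mk'_surjective Q)).eq_bot_or_eq_top with e | e
    · rw [Subgroup.map_eq_bot_iff, QuotientGroup.ker_mk'] at e
      exact absurd (le_antisymm e hQW) hwcl
    · have := congrArg (Subgroup.comap (QuotientGroup.mk' Q)) e
      rwa [Subgroup.comap_map_eq, QuotientGroup.ker_mk', sup_eq_left.2 hQW,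
        Subgroup.comap_top] at this
  have : W ≤ (Subgroup.normalClosure ({z} : Set G)).subgroupOf _ := by
    rw [hW, Subgroup.closure_le]
    intro x hx
    obtain ⟨c, hc⟩ := isConj_iff.1 hx
    show (x : G) ∈ Subgroup.normalClosure ({z} : Set G)
    rw [← hc]
    exact Subgroup.normalClosure_normal.conj_mem _ (Subgroup.subset_normalClosure (Set.mem_singleton z)) c
  intro c hc
  exact this (hWt ▸ Subgroup.mem_top (⟨c, hc⟩ : Subgroup.centralizer ({z} : Set G)))

end Cfsg.Agent.S5436
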