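import Cfsg.Statements.S5437
import Cfsg.Agent.H49.Syl

set_option autoImplicit false
open Cfsg

namespace Cfsg.Agent.S5437

/-- Let I be a set of involutions of the finite group G closed under conjugation, and H a subgroup of G. The following are equivalent: (1) for every member x of I lying in H, the conjugates of x lying in H form a single H-class and the centralizer of x lies in H; (2) for every g outside H, no member of I lies in both H and g H g⁻¹; (3) every member of I lying in H fixes exactly one coset in the action of G on the cosets of H. -/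
theorem result {G : Type*} [Group G] [Finite G] (I : Set G) (hI : ∀ x ∈ I, orderOf x = 2) (hIc : ∀ g : G, ∀ x ∈ I, g * x * g⁻¹ ∈ I) (H : Subgroup G) : ((∀ x ∈ I, x ∈ H → (∀ g : G, g * x * g⁻¹ ∈ H → ∃ h ∈ H, h * x * h⁻¹ = g * x * g⁻¹) ∧ Subgroup.centralizer ({x} : Set G) ≤ H) ↔ (∀ g : G, g ∉ H → ∀ x ∈ I, ¬ (x ∈ H ∧ x ∈ (H : Subgroup G).map (MulAut.conj g).toMonoidHom))) ∧ ((∀ g : G, g ∉ H → ∀ x ∈ I, ¬ (x ∈ H ∧ x ∈ (H : Subgroup G).map (MulAut.conj g).toMonoidHom)) ↔ ∀ x ∈ I, x ∈ H → ∃! c : G ⧸ H, x • c = c) := by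
  refine ⟨⟨fun h g hg x hx hh => ?_, fun h x hx hxH => ⟨fun g hg => ?_, fun c hc => ?_⟩⟩,
    ⟨fun h x hx hxH => ⟨((1 : G) : G ⧸ H), ?_, fun c hc => ?_⟩, fun h g hg x hx hh => ?_⟩⟩
  · obtain ⟨h1, h2⟩ := h x hx hh.1
    have h3 := H49.mem_cj.1 hh.2
    obtain ⟨k, hk, e⟩ := h1 g⁻¹ (by rwa [inv_inv])
    have h4 : g * k ∈ H := h2 (Subgroup.mem_centralizer_singleton_iff.2 (by
      calc g * k * x = g * (k * x * k⁻¹) * k := by group
        _ = x * (g * k) := by rw [e]; group))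
    exact hg (by simpa using H.mul_mem h4 (H.inv_mem hk))
  · by_cases hgH : g ∈ H
    · exact ⟨g, hgH, rfl⟩
    · exact absurd ⟨hxH, H49.mem_cj.2 (by rwa [inv_inv])⟩
        (h g⁻¹ (fun e => hgH (by simpa using e)) x hx)
  · by_contra hcH
    refine h c hcH x hx ⟨hxH, H49.mem_cj.2 ?_⟩
    rw [mul_assoc, ← Subgroup.mem_centralizer_singleton_iff.1 hc]
    simpa using hxH
  · exact H49.smul_mk_eq_iff.2 (by simpa using hxH)
  · obtain ⟨g, rfl⟩ := QuotientGroup.mk_surjective c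
    have h1 := H49.smul_mk_eq_iff.1 hc
    by_contra hne
    refine h g (fun hg => hne ?_) x hx ⟨hxH, H49.mem_cj.2 h1⟩
    rw [QuotientGroup.eq]; simpa using hg
  · obtain ⟨c, -, hc⟩ := h x hx hh.1
    have h1 := hc ((1 : G) : G ⧸ H) (H49.smul_mk_eq_iff.2 (by simpa using hh.1))
    have h2 := hc (g : G ⧸ H) (H49.smul_mk_eq_iff.2 (H49.mem_cj.1 hh.2))
    rw [← h2, QuotientGroup.eq] at h1
    exact hg (by simpa using h1)

end Cfsg.Agent.S5437
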