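import Cfsg.Statements.S5440
import Cfsg.Agent.H49.FiD2

set_option autoImplicit false
open Cfsg

namespace Cfsg.Agent.S5440

/-- Let G be a finite group of large Fischer type at the involution z: the generalized Fitting subgroup Q of H = C_G(z) is extraspecial of order 2^13, H has normal subgroups Q ≤ H₁ ≤ H₂ with H₁/Q of order 3, H₂/H₁ the projective special unitary group of dimension 4 over the field with nine elements and H₂ of index 2 in H, and some conjugate of z other than z lies in Q. Then H has exactly two orbits, under conjugation, on the involutions of Q other than z. -/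
theorem result {G : Type*} [Group G] [Finite G] (z : G) (Q : Subgroup (Subgroup.centralizer ({z} : Set G))) [Q.Normal] (hF : Cfsg.IsOfLargeFischerTypeAt z Q) : ∃ s t : Subgroup.centralizer ({z} : Set G), s ∈ Q ∧ t ∈ Q ∧ orderOf s = 2 ∧ orderOf t = 2 ∧ (s : G) ≠ z ∧ (t : G) ≠ z ∧ (¬ ∃ h : Subgroup.centralizer ({z} : Set G), h * s * h⁻¹ = t) ∧ ∀ x : Subgroup.centralizer ({z} : Set G), x ∈ Q → orderOf x = 2 → (x : G) ≠ z → (∃ h : Subgroup.centralizer ({z} : Set G), h * s * h⁻¹ = x) ∨ ∃ h : Subgroup.centralizer ({z} : Set G), h * t * h⁻¹ = x := by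
  open Cfsg.Agent.H49 Subgroup in
  obtain ⟨ρ, κ, h⟩ := exists_FD hF
  have memQ : ∀ c : centralizer ({z} : Set G),
      c.1 ∈ Q.map (centralizer ({z} : Set G)).subtype ↔ c ∈ Q := fun c =>
    mem_map_iff_mem (subtype_injective _)
  obtain ⟨_, ⟨s, hs, rfl⟩, s1, s2, s3⟩ := h.of_sing (Or.inl (MulAction.mem_orbit_self (dv 5)))
  obtain ⟨_, ⟨t, ht, rfl⟩, t1, t2, t3⟩ := h.of_sing (Or.inr (MulAction.mem_orbit_self (dv 85)))
  have s4 : κ s ∈ Rt := s1 ▸ MulAction.mem_orbit_self (dv 5)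
  have t4 : κ t ∈ St := t1 ▸ MulAction.mem_orbit_self (dv 85)
  refine ⟨s, t, hs, ht, (orderOf_coe s).symm.trans s2, (orderOf_coe t).symm.trans t2, s3, t3, ?_,
    fun x hx x2 xz => ?_⟩
  · rintro ⟨c, rfl⟩
    have := h.act c ((memQ s).2 hs)
    refine not_Rt_St ((norm_Rt (h.norm ⟨c, rfl⟩)).2 s4) (this ▸ t4)
  · obtain ⟨x1, x3⟩ := orderOf_two_iff.1 ((orderOf_coe x).trans x2)
    rcases h.invol ((memQ x).2 hx) x3 x1 xz with e | e
    · obtain ⟨c, hc⟩ := h.conj_of_Rt ((memQ s).2 hs) ((memQ x).2 hx) s4 e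
      exact Or.inl ⟨c, Subtype.ext hc⟩
    · obtain ⟨c, hc⟩ := h.conj_of_St ((memQ t).2 ht) ((memQ x).2 hx) t4 e
      exact Or.inr ⟨c, Subtype.ext hc⟩

end Cfsg.Agent.S5440
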