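import Cfsg.Statements.S5442
import Cfsg.Agent.H49.FiD2

set_option autoImplicit false
open Cfsg

namespace Cfsg.Agent.S5442

/-- Let G be a finite group of large Fischer type at the involution z: the generalized Fitting subgroup Q of H = C_G(z) is extraspecial of order 2^13, H has normal subgroups Q ≤ H₁ ≤ H₂ with H₁/Q of order 3, H₂/H₁ the projective special unitary group of dimension 4 over the field with nine elements and H₂ of index 2 in H, and some conjugate of z other than z lies in Q. Let s = g z g⁻¹ be a conjugate of z lying in Q and different from z. Then the intersection of Q and g Q g⁻¹ (as subgroups of G) is elementary abelian of order 2^7; and in H/Q, writing X for the image of the centralizer of s in H and E for the image of the intersection of g Q g⁻¹ with H, E is a normal subgroup of X, elementary abelian of order 32, with X/E isomorphic to the alternating group of degree 6. -/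
theorem result {G : Type*} [Group G] [Finite G] (z : G) (Q : Subgroup (Subgroup.centralizer ({z} : Set G))) [Q.Normal] (hF : Cfsg.IsOfLargeFischerTypeAt z Q) (s : G) (hsQ : ∃ hsc : s ∈ Subgroup.centralizer ({z} : Set G), (⟨s, hsc⟩ : Subgroup.centralizer ({z} : Set G)) ∈ Q) (hs : IsConj z s) (hs1 : s ≠ z) (g : G) (hg : g * z * g⁻¹ = s) (X E : Subgroup ((Subgroup.centralizer ({z} : Set G)) ⧸ Q)) (hX : X = ((Subgroup.centralizer ({z} : Set G) ⊓ Subgroup.centralizer ({s} : Set G)).subgroupOf (Subgroup.centralizer ({z} : Set G))).map (QuotientGroup.mk' Q)) (hE : E = ((((Q.map (Subgroup.centralizer ({z} : Set G)).subtype)).map (MulAut.conj g).toMonoidHom ⊓ Subgroup.centralizer ({z} : Set G)).subgroupOf (Subgroup.centralizer ({z} : Set G))).map (QuotientGroup.mk' Q)) : Cfsg.IsElementaryAbelian 2 ((Q.map (Subgroup.centralizer ({z} : Set G)).subtype) ⊓ ((Q.map (Subgroup.centralizer ({z} : Set G)).subtype)).map (MulAut.conj g).toMonoidHom) ∧ Nat.card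 ↥((Q.map (Subgroup.centralizer ({z} : Set G)).subtype) ⊓ ((Q.map (Subgroup.centralizer ({z} : Set G)).subtype)).map (MulAut.conj g).toMonoidHom) = 2 ^ 7 ∧ E ≤ X ∧ (∀ x ∈ X, ∀ y ∈ E, x * y * x⁻¹ ∈ E) ∧ Cfsg.IsElementaryAbelian 2 E ∧ Nat.card E = 32 ∧ ∃ _ : (E.subgroupOf X).Normal, Nonempty (↥X ⧸ E.subgroupOf X ≃* alternatingGroup (Fin 6)) := by
  open Cfsg.Agent.H49 Subgroup in
  obtain ⟨ρ, κ, h⟩ := exists_FD hF
  have memQ : ∀ c : centralizer ({z} : Set G),
      c.1 ∈ Q.map (centralizer ({z} : Set G)).subtype ↔ c ∈ Q := fun c =>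
    mem_map_iff_mem (subtype_injective _)
  obtain ⟨s1, s2⟩ := hsQ
  have s3 : s ∈ Q.map (centralizer ({z} : Set G)).subtype := ⟨_, s2, rfl⟩
  generalize Q.map (centralizer ({z} : Set G)).subtype = P at *
  have p : Pair P (cj P g) z s := hg ▸ h.pair (hg ▸ s3) (hg ▸ hs1)
  change E = ((cj P g ⊓ _).subgroupOf _).map _ at hE
  change Cfsg.IsElementaryAbelian 2 (P ⊓ cj P g) ∧ Nat.card ↥(P ⊓ cj P g) = _ ∧ _
  generalize cj P g = S at *
  obtain ⟨k, hk, e⟩ := exists_K0_of_mem (h.mem_St p) (MulAction.mem_orbit_self _)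
  have h' := h.conj hk
  generalize (MulAut.conj k).toMonoidHom.comp ρ = ρ' at h'
  obtain ⟨c1, c2, c3, c4⟩ := h'.im85 p e
  let ι : centralizer ({z} : Set G) ⧸ Q →* Equiv.Perm V0 :=
    QuotientGroup.lift Q ρ' fun c hc => (h'.ker c).2 ((memQ c).2 hc)
  have hι : Function.Injective ι := (QuotientGroup.injective_lift_iff _ _ _).2
    (Subgroup.ext fun c => ((h'.ker c).trans (memQ c)).symm)
  have eE : E.map ι = im ρ' S := by rw [hE, inf_subgroupOf_right, map_map]; rfl
  have eX : X.map ι = ρ'.range ⊓ stb (dv 85) := by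
    rw [hX, inf_subgroupOf_left, map_map, ← e, ← h'.im_cent p.xQ (h'.ne_zero p)]; rfl
  have mE : ∀ {x}, x ∈ E ↔ ι x ∈ im ρ' S := by
    intro x; rw [← eE, mem_map_iff_mem hι]
  have mX : ∀ {x}, x ∈ X ↔ ι x ∈ ρ'.range ⊓ stb (dv 85) := by
    intro x; rw [← eX, mem_map_iff_mem hι]
  have hle : E ≤ X := fun x hx => mX.2 (e ▸ h'.im_le_stb p (mE.1 hx))
  have hn : ∀ x ∈ X, ∀ y ∈ E, x * y * x⁻¹ ∈ E := fun x hx y hy => by
    rw [mE, map_mul, map_mul, map_inv]
    exact h'.im_conj p (e ▸ mX.1 hx) (mE.1 hy)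
  have sq : ∀ x ∈ E, x * x = 1 := fun x hx => hι (by
    rw [map_mul, map_one]; exact h'.im_sq p (mE.1 hx))
  have hN : (E.subgroupOf X).Normal := ⟨fun y hy x => hn x x.2 y hy⟩
  refine ⟨p.E_elementaryAbelian, c2, hle, hn, ⟨⟨⟨fun a b => mul_comm_of_sq
    (fun v => Subtype.ext (sq _ v.2)) a b⟩⟩, fun x hx => (pow_two x).trans (sq x hx)⟩,
    by rw [← c1, ← eE, card_map_of_injective hι], hN, ?_⟩
  let D : Subgroup X := K0.comap (ι.comp X.subtype)
  let δ : D →* X1 := ((ι.comp X.subtype).comp D.subtype).codRestrict _ fun d =>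
    mem_inf.2 ⟨d.2, (mem_inf.1 (mX.1 d.1.2)).2⟩
  obtain ⟨f, -⟩ := exists_equiv_of_ker_eq ((QuotientGroup.mk' (E.subgroupOf X)).comp D.subtype)
    (psi.comp δ) (by
      intro y
      obtain ⟨x, rfl⟩ := QuotientGroup.mk'_surjective _ y
      by_cases hx : x ∈ D
      · exact ⟨⟨x, hx⟩, rfl⟩
      obtain ⟨a, ha, hK⟩ := SetLike.not_le_iff_exists.1 c4
      obtain ⟨a, ha', rfl⟩ := eE.ge ha
      refine ⟨⟨x * ⟨a, hle ha'⟩, ?_⟩, ?_⟩
      · change ι (x.1 * a) ∈ K0
        rw [map_mul]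
        exact h'.mul_mem_K0 (mem_inf.1 (mX.1 x.2)).1 (im_le _ _ ha) hx hK
      · exact QuotientGroup.mk_mul_of_mem x ha')
    (psi_surj.comp (by
      rintro ⟨y, hy⟩
      obtain ⟨x, hx, rfl⟩ := eX.ge (mem_inf.2 ⟨h'.le (mem_inf.1 hy).1, (mem_inf.1 hy).2⟩)
      exact ⟨⟨⟨x, hx⟩, (mem_inf.1 hy).1⟩, rfl⟩)) (fun d => by
      refine (QuotientGroup.eq_one_iff d.1).trans (mE.trans ?_)
      change δ d ∈ (im ρ' S).subgroupOf X1 ↔ _
      rw [c3]; rfl)
  exact ⟨f⟩

end Cfsg.Agent.S5442
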