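import Cfsg.Statements.S5443
import Cfsg.Agent.H49.FiD2

set_option autoImplicit false
open Cfsg

namespace Cfsg.Agent.S5443

/-- Let G be a finite group of large Fischer type at the involution z: the generalized Fitting subgroup Q of H = C_G(z) is extraspecial of order 2^13, H has normal subgroups Q ≤ H₁ ≤ H₂ with H₁/Q of order 3, H₂/H₁ the projective special unitary group of dimension 4 over the field with nine elements and H₂ of index 2 in H, and some conjugate of z other than z lies in Q. Let t be an involution of Q not conjugate to z in G, and S the set of elements of H conjugating t to t or to t z (the stabilizer of the image of t in Q modulo its centre). Then the image of S in H/Q is isomorphic to the full isometry group of the elliptic quadratic form in dimension 6 over the field with two elements. -/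
theorem result {G : Type*} [Group G] [Finite G] (z : G) (Q : Subgroup (Subgroup.centralizer ({z} : Set G))) [Q.Normal] (hF : Cfsg.IsOfLargeFischerTypeAt z Q) (t : Subgroup.centralizer ({z} : Set G)) (htQ : t ∈ Q) (ht2 : orderOf t = 2) (ht : ¬ IsConj z (t : G)) (S : Subgroup (Subgroup.centralizer ({z} : Set G))) (hS : ∀ h : Subgroup.centralizer ({z} : Set G), h ∈ S ↔ (h * t * h⁻¹ = t ∨ ((h * t * h⁻¹ : Subgroup.centralizer ({z} : Set G)) : G) = t * z)) : Nonempty (↥(S.map (QuotientGroup.mk' Q)) ≃* Cfsg.isometryGroup (ZMod 2) (Cfsg.quadFormMinus 2 (ZMod 2) 1 1)) := by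
  open Cfsg.Agent.H49 Subgroup in
  obtain ⟨ρ, κ, h⟩ := exists_FD hF
  have memQ : ∀ c : centralizer ({z} : Set G),
      c.1 ∈ Q.map (centralizer ({z} : Set G)).subtype ↔ c ∈ Q := fun c =>
    mem_map_iff_mem (subtype_injective _)
  have t0 := (memQ t).2 htQ
  obtain ⟨t1, t2⟩ := orderOf_two_iff.1 ((orderOf_coe t).trans ht2)
  have tz : t.1 ≠ z := fun e => ht (by rw [e])
  have t3 : κ t ∈ Rt := (h.invol t0 t2 t1 tz).resolve_right fun e => ht ((h.mem_St_iff t0).1 e).1
  obtain ⟨k, hk, e⟩ := exists_K0_of_mem t3 (MulAction.mem_orbit_self _)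
  have h' := h.conj hk
  generalize (MulAut.conj k).toMonoidHom.comp ρ = ρ' at h'
  have hm : ∀ c, c ∈ S ↔ ρ' c ∈ H0 ⊓ stb (dv 5) := fun c => by
    have := h'.eq_iff t0 (h'.conj_mem c t0)
    rw [h'.act c t0, e] at this
    rw [hS, ← h'.range_eq, mem_inf, mem_stb, and_iff_right ⟨c, rfl⟩, eq_comm (b := dv 5), this,
      Subtype.ext_iff]
    rfl
  obtain ⟨f, -⟩ := exists_equiv_of_ker_eq ((QuotientGroup.mk' Q).subgroupMap S)
    ((ρ'.comp S.subtype).codRestrict _ fun c => (hm c).1 c.2)
    (MonoidHom.subgroupMap_surjective _ _) (by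
      rintro ⟨g, hg⟩
      obtain ⟨c, rfl⟩ := h'.range_eq.ge hg.1
      exact ⟨⟨c, (hm c).2 hg⟩, rfl⟩) (fun c => by
      rw [Subtype.ext_iff, Subtype.ext_iff]
      exact (QuotientGroup.eq_one_iff c.1).trans ((memQ c).symm.trans (h'.ker c).symm))
  exact stab_H0_equiv.map f.trans

end Cfsg.Agent.S5443
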