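import Cfsg.Statements.S5444
import Cfsg.Agent.H49.FiT

set_option autoImplicit false
open Cfsg

namespace Cfsg.Agent.S5444

/-- Let G be a finite group of large Fischer type at the involution z: the generalized Fitting subgroup Q of H = C_G(z) is extraspecial of order 2^13, H has normal subgroups Q ≤ H₁ ≤ H₂ with H₁/Q of order 3, H₂/H₁ the projective special unitary group of dimension 4 over the field with nine elements and H₂ of index 2 in H, and some conjugate of z other than z lies in Q. Let T be a Sylow 2-subgroup of H. Then T has exactly one elementary abelian subgroup A of largest order; A has order 2^11, it meets Q in a subgroup of order 2^7, and its image in H/Q has order 16. -/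
theorem result {G : Type*} [Group G] [Finite G] (z : G) (Q : Subgroup (Subgroup.centralizer ({z} : Set G))) [Q.Normal] (hF : Cfsg.IsOfLargeFischerTypeAt z Q) (T : Sylow 2 ↥(Subgroup.centralizer ({z} : Set G))) : ∃ A : Subgroup ↥(T : Subgroup (Subgroup.centralizer ({z} : Set G))), Cfsg.maxElementaryAbelianSubgroups 2 ↥(T : Subgroup (Subgroup.centralizer ({z} : Set G))) = {A} ∧ Nat.card A = 2 ^ 11 ∧ Nat.card ↥(A.map (T : Subgroup (Subgroup.centralizer ({z} : Set G))).subtype ⊓ Q) = 2 ^ 7 ∧ Nat.card ↥((A.map (T : Subgroup (Subgroup.centralizer ({z} : Set G))).subtype).map (QuotientGroup.mk' Q)) = 16 := by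
  open Cfsg.Agent.H49 Subgroup in
  obtain ⟨ρ, κ, h⟩ := exists_FD hF
  have hT := H98.sylIn_map_sylow T
  obtain ⟨ρ, κ, h, hN⟩ := h.exists_NW hT.isPGroup
  have le := h.AA_le_syl hT hN
  obtain ⟨x, σ, α, h'⟩ := h.exists_FA
  let f := (centralizer ({z} : Set G)).subtype.comp (T : Subgroup (centralizer ({z} : Set G))).subtype
  have hf : Function.Injective f := (subtype_injective _).comp (subtype_injective _)
  have e : f.range = (T : Subgroup _).map (centralizer ({z} : Set G)).subtype := by
    rw [MonoidHom.range_comp, range_subtype]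
  have e2 := map_comap_eq_self (le.trans e.ge)
  have c1 := h.card_AA
  have c2 : Nat.card ↥(((AA (Q.map (centralizer ({z} : Set G)).subtype) ρ κ).comap f).map (T : Subgroup (centralizer ({z} : Set G))).subtype ⊓
      Q) = 2 ^ 7 := by
    rw [← card_map_of_injective (subtype_injective (centralizer ({z} : Set G))),
      map_inf _ _ _ (subtype_injective _), map_map, e2, inf_comm, h'.card_inf h.z_mem_AA,
      show κ '' _ = W0 from ?_, ncard_W0]
    · rfl
    ext v
    constructor
    · rintro ⟨y, hy, rfl⟩
      exact (h.mem_AA hy.1).1 hy.2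
    · intro hv
      obtain ⟨y, hy, rfl⟩ := h.surj v
      exact ⟨y, ⟨hy, (h.mem_AA hy).2 hv⟩, rfl⟩
  refine ⟨_, max_elem f hf (le.trans e.ge) h.AA_sq fun B hB h2 hc =>
    h.uniq2 hT.isPGroup (hB.trans e.le) le h2 h.AA_sq (c1 ▸ hc) c1.ge, ?_, c2, ?_⟩
  · rw [← card_map_of_injective hf, e2, c1]; rfl
  · have := card_map_mul (QuotientGroup.mk' Q) (((AA (Q.map (centralizer ({z} : Set G)).subtype) ρ κ).comap f).map
      (T : Subgroup (centralizer ({z} : Set G))).subtype)
    rw [QuotientGroup.ker_mk', c2, card_map_of_injective (subtype_injective _),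
      ← card_map_of_injective (K := (AA (Q.map (centralizer ({z} : Set G)).subtype) ρ κ).comap f) hf, e2, c1] at this
    omega

end Cfsg.Agent.S5444
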