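import Cfsg.Statements.S5447
import Cfsg.Agent.H49.FiT

set_option autoImplicit false
open Cfsg

namespace Cfsg.Agent.S5447

/-- Let G be a finite group of large Fischer type at the involution z: the generalized Fitting subgroup Q of H = C_G(z) is extraspecial of order 2^13, H has normal subgroups Q ≤ H₁ ≤ H₂ with H₁/Q of order 3, H₂/H₁ the projective special unitary group of dimension 4 over the field with nine elements and H₂ of index 2 in H, and some conjugate of z other than z lies in Q. Let T be a Sylow 2-subgroup of G, A its Thompson subgroup and M = N_G(A) its normalizer. Then M controls fusion in A (elements of A conjugate in G are conjugate in M), and M has exactly two orbits on the non-identity elements of A: those conjugate to z in G and those not. -/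
theorem result {G : Type*} [Group G] [Finite G] (z : G) (Q : Subgroup (Subgroup.centralizer ({z} : Set G))) [Q.Normal] (hF : Cfsg.IsOfLargeFischerTypeAt z Q) (T : Sylow 2 G) (A M : Subgroup G) (hA : A = Cfsg.thompsonSubgroupOf 2 (T : Subgroup G)) (hM : M = Subgroup.normalizer (A : Set G)) : (∀ a ∈ A, ∀ g : G, g * a * g⁻¹ ∈ A → ∃ m ∈ M, m * a * m⁻¹ = g * a * g⁻¹) ∧ (∃ a ∈ A, a ≠ 1 ∧ IsConj z a) ∧ (∃ a ∈ A, a ≠ 1 ∧ ¬ IsConj z a) ∧ ∀ a ∈ A, ∀ b ∈ A, a ≠ 1 → b ≠ 1 → (IsConj z a ↔ IsConj z b) → ∃ m ∈ M, m * a * m⁻¹ = b := by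
  open Cfsg.Agent.H49 Subgroup in
  obtain ⟨ρ, κ, h0⟩ := exists_FD hF
  obtain ⟨α, h⟩ := h0.thompson T
  rw [← hA] at h
  subst hM
  have fus : ∀ a ∈ A, ∀ g : G, g * a * g⁻¹ ∈ A →
      ∃ m ∈ normalizer (A : Set G), m * a * m⁻¹ = g * a * g⁻¹ :=
    fun a ha g hg => h0.fusion h.sq h.card.ge ha hg
  have ne : ∀ c < 2048, c ≠ 0 → α c ≠ 1 := fun c hc h1 e =>
    h1 (h.inj hc (by norm_num) (e.trans h.a_zero.symm))
  refine ⟨fus, ⟨α 64, h.amem _, ne _ (by norm_num) (by norm_num),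
    (h.chi (by norm_num)).2 (by decide +kernel)⟩, ⟨_, h.amem _, ne _ (cd2_lt none (some 0))
      (cd_ne (by simp)), fun i => absurd ((h.chi (cd2_lt _ _)).1 i) (by simp [chi_cd])⟩,
    fun a ha b hb a1 b1 e => ?_⟩
  by_cases i : IsConj z a
  · obtain ⟨g, rfl⟩ := isConj_iff.1 (i.symm.trans (e.1 i))
    exact fus a ha g hb
  obtain ⟨p, q, pq, rfl⟩ := h.exists_pair ha a1 i
  obtain ⟨r, s, rs, rfl⟩ := h.exists_pair hb b1 (mt e.2 i)
  obtain ⟨φ, h1, -, h3⟩ := h.exists_hom
  obtain ⟨⟨k, hk⟩, e⟩ := H42.exists_smul_fun (k := 2) (by norm_num) ![p, q] ![r, s]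
    (by simp [Function.Injective, pq, pq.symm]) (by simp [Function.Injective, rs, rs.symm])
  obtain ⟨m, rfl⟩ := h1.ge hk
  exact ⟨m, m.2, by rw [h3, show φ m p = r from e 0, show φ m q = s from e 1]⟩

end Cfsg.Agent.S5447
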