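import Cfsg.Statements.S5448
import Cfsg.Agent.H49.FiT

set_option autoImplicit false
open scoped Pointwise
open Cfsg

namespace Cfsg.Agent.S5448

/-- Let G be a finite group of large Fischer type at the involution z: the generalized Fitting subgroup Q of H = C_G(z) is extraspecial of order 2^13, H has normal subgroups Q ≤ H₁ ≤ H₂ with H₁/Q of order 3, H₂/H₁ the projective special unitary group of dimension 4 over the field with nine elements and H₂ of index 2 in H, and some conjugate of z other than z lies in Q. Let T be a Sylow 2-subgroup of G, A its Thompson subgroup, M = N_G(A) its normalizer, and t an involution of A not conjugate to z in G. Then the centralizer of t in M, modulo A, is isomorphic to the setwise stabilizer of a two-element subset of the 24 points in the Mathieu group of degree 24 (the automorphism group of the smaller Mathieu group on 22 points). -/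
theorem result {G : Type*} [Group G] [Finite G] (z : G) (Q : Subgroup (Subgroup.centralizer ({z} : Set G))) [Q.Normal] (hF : Cfsg.IsOfLargeFischerTypeAt z Q) (T : Sylow 2 G) (A M : Subgroup G) (hA : A = Cfsg.thompsonSubgroupOf 2 (T : Subgroup G)) (hM : M = Subgroup.normalizer (A : Set G)) (t : G) (htA : t ∈ A) (ht2 : orderOf t = 2) (ht : ¬ IsConj z t) : ∃ _ : (A.subgroupOf (M ⊓ Subgroup.centralizer ({t} : Set G))).Normal, Nonempty (↥(M ⊓ Subgroup.centralizer ({t} : Set G)) ⧸ A.subgroupOf (M ⊓ Subgroup.centralizer ({t} : Set G)) ≃* ↥(Cfsg.M24 ⊓ MulAction.stabilizer (Equiv.Perm Cfsg.GolayPt) ({none, some 0} : Set Cfsg.GolayPt))) := by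
  open Cfsg.Agent.H49 Subgroup in
  obtain ⟨ρ, κ, h0⟩ := exists_FD hF
  obtain ⟨α, h⟩ := h0.thompson T
  rw [← hA] at h
  subst hM
  obtain ⟨p, q, pq, rfl⟩ := h.exists_pair htA (orderOf_two_iff.1 ht2).1 ht
  obtain ⟨φ, h1, h2, h3⟩ := h.exists_hom
  obtain ⟨⟨k, hk⟩, e⟩ := H42.exists_smul_fun (k := 2) (by norm_num) ![p, q] ![none, some 0]
    (by simp [Function.Injective, pq, pq.symm]) (by simp [Function.Injective])
  have e0 : k p = none := e 0
  have e1 : k q = some 0 := e 1
  have key : ∀ m : normalizer (A : Set G), m.1 ∈ centralizer {α (cd p ^^^ cd q)} ↔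
      k * φ m * k⁻¹ ∈ MulAction.stabilizer (Equiv.Perm GolayPt) ({none, some 0} : Set GolayPt) := by
    intro m
    rw [mem_centralizer_singleton_iff, ← mul_inv_eq_iff_eq_mul, h3, MulAction.mem_stabilizer_iff,
      ← e0, ← e1, Set.smul_set_insert, Set.smul_set_singleton, Set.pair_eq_pair_iff]
    simp only [Equiv.Perm.smul_def, Equiv.Perm.mul_apply, Equiv.Perm.coe_inv, Equiv.symm_apply_apply,
      k.injective.eq_iff]
    refine ⟨fun e => h.pair pq e.symm, ?_⟩
    rintro (⟨a, b⟩ | ⟨a, b⟩) <;> rw [a, b]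
    rw [Nat.xor_comm]
  let ψ := (MulAut.conj k).toMonoidHom.comp (φ.comp (inclusion (inf_le_left :
    normalizer (A : Set G) ⊓ centralizer {α (cd p ^^^ cd q)} ≤ _)))
  have a : ψ.ker = A.subgroupOf _ := by
    ext m
    rw [MonoidHom.mem_ker, mem_subgroupOf]
    exact conj_eq_one_iff.trans (SetLike.ext_iff.1 h2 (inclusion inf_le_left m))
  have b : ψ.range = M24 ⊓ MulAction.stabilizer (Equiv.Perm GolayPt)
      ({none, some 0} : Set GolayPt) := by
    ext g
    constructor
    · rintro ⟨m, rfl⟩
      exact ⟨M24.mul_mem (M24.mul_mem hk (h1.le ⟨_, rfl⟩)) (M24.inv_mem hk), (key ⟨_, m.2.1⟩).1 m.2.2⟩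
    · intro hg
      obtain ⟨m, hm⟩ := h1.ge (M24.mul_mem (M24.mul_mem (M24.inv_mem hk) hg.1) hk)
      have : k * φ m * k⁻¹ = g := by rw [hm]; group
      exact ⟨⟨m, m.2, (key m).2 (this ▸ hg.2)⟩, this⟩
  have n := ψ.normal_ker
  rw [a] at n
  exact ⟨n, ⟨(QuotientGroup.quotientMulEquivOfEq a.symm).trans
    ((QuotientGroup.quotientKerEquivRange ψ).trans (MulEquiv.subgroupCongr b))⟩⟩

end Cfsg.Agent.S5448
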