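import Cfsg.Statements.S5459
import Mathlib

set_option autoImplicit false
open Cfsg

namespace Cfsg.Agent.S5459

/-- Let G be a finite group with a quasisimple normal subgroup L and an involution d such that G is generated by L and d, the centre of L has odd order, and d inverts every element of the centre of L. If the commuting graph on the conjugacy class of the image of d in G modulo the centre of L is connected, then the commuting graph on the conjugacy class of d is connected. -/
theorem result {G : Type*} [Group G] [Finite G] (L : Subgroup G) [L.Normal] (hL : Cfsg.IsQuasisimple ↥L) (d : G) (hd : orderOf d = 2) (hgen : L ⊔ Subgroup.zpowers d = ⊤) (hodd : Odd (Nat.card ↥(Subgroup.center ↥L))) (hinv : ∀ c ∈ (Subgroup.center ↥L).map L.subtype, d * c * d⁻¹ = c⁻¹) [hn : ((Subgroup.center ↥L).map L.subtype).Normal] (hconn : (Cfsg.commutingGraph (conjugatesOf (QuotientGroup.mk d : G ⧸ (Subgroup.center ↥L).map L.subtype))).Connected) : (Cfsg.commutingGraph (conjugatesOf d)).Connected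 :=
  by
  set Z := (Subgroup.center ↥L).map L.subtype with hZ
  have hZL : Z ≤ L := Subgroup.map_subtype_le _
  have hZc : ∀ z ∈ Z, ∀ l ∈ L, l * z = z * l := by
    rintro _ ⟨z, hz, rfl⟩ l hl
    exact congrArg Subtype.val (Subgroup.mem_center_iff.1 hz ⟨l, hl⟩)
  have hsq : ∀ z ∈ Z, ∃ w ∈ Z, w * w = z := fun z hz => by
    have h1 : Odd (orderOf z) := Odd.of_dvd_nat hodd (by
      rw [← Subgroup.card_subtype]; exact Subgroup.orderOf_dvd_natCard Z hz)
    obtain ⟨m, hm⟩ := exists_pow_eq_self_of_coprime (x := z) (n := 2) (Nat.coprime_two_left.2 h1)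
    exact ⟨z ^ m, pow_mem hz m, by rw [← sq, pow_right_comm, hm]⟩
  have dd : d * d = 1 := by rw [← sq, ← hd, pow_orderOf_eq_one]
  have hD : ∀ x ∈ conjugatesOf d, x * x = 1 ∧ ∀ z ∈ Z, x * z = z⁻¹ * x := fun x hx => by
    obtain ⟨g, rfl⟩ := isConj_iff.1 hx
    refine ⟨by rw [conj_mul, dd]; simp, fun z hz => ?_⟩
    have := hinv _ (hn.conj_mem z hz g⁻¹)
    calc _ = g * (d * (g⁻¹ * z * g⁻¹⁻¹) * d⁻¹) * d * g⁻¹ := by group
      _ = _ := by rw [this]; group
  have hcj : ∀ x ∈ conjugatesOf d, ∀ z ∈ Z, ∃ w ∈ Z, w * x * w⁻¹ = x * z := fun x hx z hz => by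
    obtain ⟨w, hw, rfl⟩ := hsq z hz
    refine ⟨w⁻¹, inv_mem hw, ?_⟩
    rw [inv_inv, ← (hD x hx).2 w hw, mul_assoc]
  have cm : ∀ (g : G) (x : conjugatesOf d), g * x * g⁻¹ ∈ conjugatesOf d := fun g x =>
    IsConj.trans x.2 (isConj_iff.2 ⟨g, rfl⟩)
  let φ : G → (commutingGraph (conjugatesOf d) →g commutingGraph (conjugatesOf d)) := fun g =>
    ⟨fun x => ⟨_, cm g x⟩, fun {a b} h => by
      rw [commutingGraph, SimpleGraph.fromRel_adj] at h ⊢
      refine ⟨fun e => h.1 (Subtype.ext (by simpa using e)), Or.inl ?_⟩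
      exact (h.2.elim id Commute.symm).map (MulAut.conj g)⟩
  let d' : conjugatesOf d := ⟨d, IsConj.refl d⟩
  let H : Subgroup G :=
    { carrier := {g | (commutingGraph (conjugatesOf d)).Reachable d' (φ g d')}
      one_mem' := by
        change SimpleGraph.Reachable _ _ _
        convert SimpleGraph.Reachable.refl d'
        exact Subtype.ext (by simp [φ])
      mul_mem' := fun {g h} hg hh => by
        change SimpleGraph.Reachable _ _ _
        convert SimpleGraph.Reachable.trans hg (SimpleGraph.Reachable.map (φ g) hh) using 1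
        exact Subtype.ext (by simp [φ, mul_assoc])
      inv_mem' := fun {g} hg => by
        change SimpleGraph.Reachable _ _ _
        convert (SimpleGraph.Reachable.map (φ g⁻¹) hg).symm using 1
        exact Subtype.ext (by simp [φ, mul_assoc]) }
  have lift : ∀ y : conjugatesOf (QuotientGroup.mk d : G ⧸ Z), ∃ x : conjugatesOf d,
      (x.1 : G ⧸ Z) = y.1 ∧ (commutingGraph (conjugatesOf d)).Reachable d' x := fun y => by
    have := (SimpleGraph.reachable_iff_reflTransGen _ _).1 (hconn.preconnected ⟨_, IsConj.refl _⟩ y)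
    induction this with
    | refl => exact ⟨d', rfl, SimpleGraph.Reachable.refl _⟩
    | @tail u v _ h ih =>
      obtain ⟨a, ha, r⟩ := ih
      obtain ⟨g, hg⟩ := isConj_iff.1 v.2
      obtain ⟨g, rfl⟩ := QuotientGroup.mk_surjective g
      obtain ⟨b, hb, hb'⟩ : ∃ b ∈ conjugatesOf d, (b : G ⧸ Z) = v.1 := ⟨_, cm g d', hg⟩
      rw [commutingGraph, SimpleGraph.fromRel_adj] at h
      have h1 : Commute (a.1 : G ⧸ Z) b := by rw [ha, hb']; exact h.2.elim id Commute.symm
      obtain ⟨a2, ai⟩ := hD a a.2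
      obtain ⟨b2, bi⟩ := hD b hb
      have h2 : (a.1 * b * (a.1 * b))⁻¹ ∈ Z := inv_mem ((QuotientGroup.eq_one_iff _).1 (by
        rw [QuotientGroup.mk_mul, QuotientGroup.mk_mul, h1.symm.mul_mul_mul_comm,
          ← QuotientGroup.mk_mul, ← QuotientGroup.mk_mul, a2, b2]; simp))
      obtain ⟨w, hw, e⟩ := hsq _ h2
      obtain ⟨k, -, hk⟩ := hcj b hb w hw
      have hm : b * w ∈ conjugatesOf d := hk ▸ cm k ⟨b, hb⟩
      have h3 : ((b * w : G) : G ⧸ Z) = v.1 := by
        rw [QuotientGroup.mk_mul, (QuotientGroup.eq_one_iff w).2 hw, mul_one, hb']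
      refine ⟨⟨_, hm⟩, h3, r.trans (SimpleGraph.Adj.reachable ?_)⟩
      rw [commutingGraph, SimpleGraph.fromRel_adj]
      refine ⟨fun e => h.1 (Subtype.ext (by rw [← ha, e, h3])), Or.inl ?_⟩
      have h4 : a.1 * b * w = w * (a.1 * b) := by
        rw [mul_assoc, bi w hw, ← mul_assoc, ai _ (inv_mem hw), inv_inv, mul_assoc]
      have h5 : a.1 * (b * w) * (a.1 * (b * w)) = 1 := by
        rw [← mul_assoc _ b, mul_assoc _ w, ← mul_assoc w, ← h4, mul_assoc _ w w, e, ← mul_assoc,
          mul_inv_cancel]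
      have h6 := eq_inv_of_mul_eq_one_left h5
      rwa [mul_inv_rev, inv_eq_of_mul_eq_one_right a2,
        inv_eq_of_mul_eq_one_right (hD _ hm).1] at h6
  have fac : ∀ g, ∃ w ∈ Z, w * g ∈ H := fun g => by
    obtain ⟨x, h1, h2⟩ := lift ⟨(g * d * g⁻¹ : G), isConj_iff.2 ⟨g, rfl⟩⟩
    obtain ⟨w, hw, e⟩ := hcj _ (cm g d') _ (QuotientGroup.eq.1 h1.symm)
    refine ⟨w, hw, ?_⟩
    change SimpleGraph.Reachable _ _ _
    convert h2 using 1
    exact Subtype.ext (by simpa [φ, d', mul_assoc] using e)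
  have hLH : L ≤ H := by
    have h1 : L = ⁅L, L⁆ := by
      have := congrArg (Subgroup.map L.subtype) hL.1.commutator_eq_top
      rw [commutator_def, Subgroup.map_commutator, ← MonoidHom.range_eq_map,
        Subgroup.range_subtype] at this
      exact this.symm
    rw [h1, Subgroup.commutator_le]
    intro a ha b hb
    obtain ⟨w, hw, h2⟩ := fac a
    obtain ⟨v, hv, h3⟩ := fac b
    have := mul_mem (mul_mem (mul_mem h2 h3) (inv_mem h2)) (inv_mem h3)
    convert this using 1
    have e1 : w * a * (v * b) * (w * a)⁻¹ = v * (a * b * a⁻¹) := by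
      rw [← hZc w hw a ha, mul_assoc a w, ← hZc w hw _ (mul_mem (hZL hv) hb), mul_assoc v,
        ← mul_assoc a v, hZc v hv a ha]
      group
    rw [e1, commutatorElement_def, mul_inv_rev, ← mul_assoc, mul_assoc v,
      ← hZc v hv _ (mul_mem (mul_mem (mul_mem ha hb) (inv_mem ha)) (inv_mem hb)),
      mul_inv_cancel_right]
  have hH : ∀ x, (commutingGraph (conjugatesOf d)).Reachable d' x := fun x => by
    obtain ⟨g, hg⟩ := isConj_iff.1 x.2
    obtain ⟨w, hw, h⟩ := fac g
    have : g ∈ H := (mul_mem_cancel_left (hLH (hZL hw))).1 h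
    convert (show SimpleGraph.Reachable _ _ _ from this) using 1
    exact Subtype.ext hg.symm
  exact @SimpleGraph.Connected.mk _ _ (fun x y => (hH x).symm.trans (hH y)) ⟨d'⟩

end Cfsg.Agent.S5459
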