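import Cfsg.Statements.S5520
import Cfsg.Agent.H49.U43SU

set_option autoImplicit false
open Cfsg

namespace Cfsg.Agent.S5520

/-- In the special unitary group of dimension 6 over the field with four elements (determinant-one matrices preserving the standard Hermitian form), the subgroups K whose centre has order 3 with K modulo its centre isomorphic to the projective special unitary group of dimension 4 over the field with nine elements fall into exactly three conjugacy classes. -/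
theorem result (F : Type) [Field F] [Fintype F] (hF : Fintype.card F = 4) (F9 : Type) [Field F9] [Fintype F9] (hF9 : Fintype.card F9 = 9) : ∃ K₁ K₂ K₃ : Subgroup ↥(Cfsg.SU 6 F 2), (∀ K ∈ [K₁, K₂, K₃], Nat.card ↥(Subgroup.center ↥K) = 3 ∧ Nonempty (↥K ⧸ Subgroup.center ↥K ≃* Cfsg.PSU 4 F9 3)) ∧ (¬ ∃ g : ↥(Cfsg.SU 6 F 2), K₁.map (MulAut.conj g).toMonoidHom = K₂) ∧ (¬ ∃ g : ↥(Cfsg.SU 6 F 2), K₁.map (MulAut.conj g).toMonoidHom = K₃) ∧ (¬ ∃ g : ↥(Cfsg.SU 6 F 2), K₂.map (MulAut.conj g).toMonoidHom = K₃) ∧ ∀ K : Subgroup ↥(Cfsg.SU 6 F 2), Nat.card ↥(Subgroup.center ↥K) = 3 → Nonempty (↥K ⧸ Subgroup.center ↥K ≃* Cfsg.PSU 4 F9 3) → ∃ g : ↥(Cfsg.SU 6 F 2), K.map (MulAut.conj g).toMonoidHom = K₁ ∨ K.map (MulAut.conj g).toMonoidHom = K₂ ∨ K.map (MulAut.conj g).toMonoidHom = K₃ := by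
  revert hF9
  rename' F9 => E9
  intro hF9
  open Cfsg.Agent.H49 Cfsg.Agent.H28 Subgroup Equiv in
  obtain ⟨ι, hι, hr⟩ := exists_iota F hF
  have : Finite (Cfsg.SU 6 F 2) := Finite.of_injective _ hι
  let δ : ZMod 3 → Perm V0 := fun c => Dm (Pi.single 0 c)
  have δ1 : ∀ c, δ c ∈ linG := fun c => Dm_lin _
  have δ2 : ∀ c, δ c ∈ isoG := fun c => Mon_le_isoG (Dm_mem_Mon _)
  have δ3 : ∀ c, dG ⟨δ c, δ1 c⟩ = w3 c := fun c => (dG_Dm _).trans (by simp)
  let K : ZMod 3 → Subgroup (Cfsg.SU 6 F 2) := fun c => (cj K0 (δ c)).comap ι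
  have hK : ∀ c, (K c).map ι = cj K0 (δ c) := fun c => map_comap_eq_self (by
    rintro _ ⟨x, hx, rfl⟩
    exact hr ▸ SU0_conj (δ1 c) (δ2 c) (K0_le_SU0 hx))
  have hc : ∀ (L : Subgroup (Cfsg.SU 6 F 2)) g,
      (L.map (MulAut.conj g).toMonoidHom).map ι = cj (L.map ι) (ι g) := fun L g => by
    rw [cj, map_map, map_map]
    congr 1
    ext1 x
    simp
  have h1 : ∀ c, Nat.card (center (K c)) = 3 ∧
      Nonempty (K c ⧸ center (K c) ≃* Cfsg.PSU 4 E9 3) := fun c => by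
    let e : K c ≃* K0 := (((K c).equivMapOfInjective ι hι).trans (MulEquiv.subgroupCongr (hK c))).trans
      (K0.equivMapOfInjective _ (MulAut.conj (δ c)).injective).symm
    exact ⟨(Nat.card_congr (centerCongr e).toEquiv).trans card_center_K0,
      (K0_quot E9 hF9).map (Cfsg.Agent.H28.centerQuotEquiv e).trans⟩
  have h2 : ∀ c d, c ≠ d → ¬ ∃ g, (K c).map (MulAut.conj g).toMonoidHom = K d := by
    rintro c d hcd ⟨g, hg⟩
    have e := hc (K c) g
    rw [hg, hK, hK, ← cj_mul] at e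
    have e2 : cj K0 ((δ d)⁻¹ * (ι g * δ c)) = K0 := by rw [cj_mul, ← e, cj_inv_cj]
    obtain ⟨-, g1, g2⟩ := mem_SU0.1 (hr.le ⟨g, rfl⟩)
    obtain ⟨-, g3, g4⟩ := mem_SU0.1
      (lin_norm_SU0 (mul_mem (inv_mem (δ1 d)) (mul_mem g1 (δ1 c))) (cj_eq_iff.1 e2))
    have : dG ⟨_, δ1 d⟩ * dG ⟨_, g3⟩ = dG ⟨_, g1⟩ * dG ⟨_, δ1 c⟩ := by
      rw [← map_mul, ← map_mul]
      exact congrArg dG (Subtype.ext (mul_inv_cancel_left _ _))
    rw [g2, g4, δ3, δ3, mul_one, one_mul] at this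
    exact hcd (w3_inj _ _ this).symm
  refine ⟨K 0, K 1, K 2, by simp only [List.forall_mem_cons, h1]; simp, h2 _ _ (by decide),
    h2 _ _ (by decide), h2 _ _ (by decide), fun L l1 ⟨e⟩ => ?_⟩
  have hL : L.map ι ≤ linG ⊓ isoG := fun x hx => by
    obtain ⟨x1, x2, -⟩ := mem_SU0.1 (hr.le (map_le_range _ _ hx))
    exact ⟨x2, x1⟩
  let f := (L.equivMapOfInjective ι hι).symm
  obtain ⟨g, ⟨g1, g2⟩, hg⟩ := exists_cj_K0 hL hF9
    (((Cfsg.Agent.H28.centerQuotEquiv f).trans e).toMonoidHom.comp (QuotientGroup.mk' _))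
    (((centerQuotEquiv f).trans e).surjective.comp (QuotientGroup.mk'_surjective _)) (by
      rw [← MonoidHom.comap_ker, (MonoidHom.ker_eq_bot_iff _).2 (MulEquiv.injective _),
        MonoidHom.comap_bot, QuotientGroup.ker_mk', Nat.card_congr (centerCongr f).toEquiv, l1])
  obtain ⟨c, hd⟩ := dG_cases ⟨g, g1⟩
  obtain ⟨x, hx⟩ : δ c * g⁻¹ ∈ ι.range := by
    refine hr.ge (mem_SU0.2 ⟨mul_mem (δ2 c) (inv_mem (SetLike.mem_coe.1 g2)),
      mul_mem (δ1 c) (inv_mem (SetLike.mem_coe.1 g1)), ?_⟩)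
    have : ∀ m, dG ⟨δ c * g⁻¹, m⟩ * dG ⟨g, g1⟩ = dG ⟨_, δ1 c⟩ := fun m => by
      rw [← map_mul]
      exact congrArg dG (Subtype.ext (inv_mul_cancel_right _ _))
    exact mul_right_cancel₀ (w3_ne_zero c) (by rw [one_mul, ← hd, this, δ3, hd])
  have : L.map (MulAut.conj x).toMonoidHom = K c :=
    map_injective hι (by rw [hc, hK, hx, hg, cj_mul, cj_inv_cj])
  have hc : ∀ c : ZMod 3, c = 0 ∨ c = 1 ∨ c = 2 := by decide
  exact ⟨x, by rcases hc c with rfl | rfl | rfl <;> simp only [this, true_or, or_true]⟩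

end Cfsg.Agent.S5520
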