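import Cfsg.Statements.S5541

set_option autoImplicit false
open Cfsg

namespace Cfsg.Agent.S5541

/-- Let ρ be a representation of a group H on a finite-dimensional real vector space U whose only ρ-invariant subspaces are the zero subspace and U, and suppose U carries a non-zero ρ-invariant symmetric bilinear form. Then the following are equivalent: (1) there is a non-zero ρ-equivariant commutative bilinear product on U of which every ρ-equivariant bilinear product is a scalar multiple; (2) there is a non-zero ρ-invariant trilinear form on U that is symmetric under all permutations of its arguments and of which every ρ-invariant trilinear form is a scalar multiple. -/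
theorem result {H : Type*} [Group H] {U : Type*} [AddCommGroup U] [Module ℝ U] [FiniteDimensional ℝ U] (ρ : Representation ℝ H U) (hirr : ∀ W : Submodule ℝ U, (∀ g : H, W.map (ρ g) ≤ W) → W = ⊥ ∨ W = ⊤) (B : LinearMap.BilinForm ℝ U) (hB0 : B ≠ 0) (hBs : ∀ u v, B u v = B v u) (hBi : ∀ (g : H) (u v : U), B (ρ g u) (ρ g v) = B u v) : (∃ m : U →ₗ[ℝ] U →ₗ[ℝ] U, m ≠ 0 ∧ (∀ u v, m u v = m v u) ∧ (∀ (g : H) (u v : U), m (ρ g u) (ρ g v) = ρ g (m u v)) ∧ ∀ m' : U →ₗ[ℝ] U →ₗ[ℝ] U, (∀ (g : H) (u v : U), m' (ρ g u) (ρ g v) = ρ g (m' u v)) → ∃ c : ℝ, m' = c • m) ↔ (∃ t : U →ₗ[ℝ] U →ₗ[ℝ] U →ₗ[ℝ] ℝ, t ≠ 0 ∧ (∀ u v w, t u v w = t v u w ∧ t u v w = t u w v) ∧ (∀ (g : H) (u v w : U), t (ρ g u) (ρ g v) (ρ g w) = t u v w) ∧ ∀ t' : U →ₗ[ℝ] U →ₗ[ℝ] U →ₗ[ℝ] ℝ, (∀ (g : H) (u v w : U), t' (ρ g u) (ρ g v) (ρ g w) = t' u v w) → ∃ c : ℝ, t' = c • t) := by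
  have hnd : B.Nondegenerate := by
    have hl : ∀ u, (∀ v, B u v = 0) → u = 0 := by
      rcases hirr (LinearMap.ker B) (by
        intro g
        rintro _ ⟨u, hu, rfl⟩
        have hu' : B u = 0 := hu
        rw [LinearMap.mem_ker]
        ext v
        have : v = ρ g (ρ g⁻¹ v) := by
          rw [← Module.End.mul_apply, ← map_mul, mul_inv_cancel, map_one]; rfl
        rw [this, hBi, hu']; rfl) with h | h
      · intro u hu
        have : u ∈ LinearMap.ker B := by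
          rw [LinearMap.mem_ker]; ext v; exact hu v
        rwa [h] at this
      · exact absurd (LinearMap.ker_eq_top.mp h) hB0
    exact ⟨hl, fun u hu => hl u fun v => by rw [hBs]; exact hu v⟩
  have hinv : ∀ (g : H) (w : U), ρ g (ρ g⁻¹ w) = w := by
    intro g w
    rw [← Module.End.mul_apply, ← map_mul, mul_inv_cancel, map_one]; rfl
  let Φ : (U →ₗ[ℝ] U →ₗ[ℝ] U) → (U →ₗ[ℝ] U →ₗ[ℝ] U →ₗ[ℝ] ℝ) := fun m => m.compr₂ B
  let Ψ : (U →ₗ[ℝ] U →ₗ[ℝ] U →ₗ[ℝ] ℝ) → (U →ₗ[ℝ] U →ₗ[ℝ] U) := fun t =>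
    t.compr₂ ((B.toDual hnd).symm : Module.Dual ℝ U →ₗ[ℝ] U)
  have hΦ : ∀ m u v w, Φ m u v w = B (m u v) w := fun _ _ _ _ => rfl
  have hΨ : ∀ t u v w, B (Ψ t u v) w = t u v w := fun t u v w =>
    LinearMap.BilinForm.apply_toDual_symm_apply (hB := hnd) (t u v) w
  have hext : ∀ x y : U, (∀ w, B x w = B y w) → x = y := by
    intro x y h
    rw [← sub_eq_zero]
    apply hnd.1
    intro w
    rw [map_sub, LinearMap.sub_apply, h, sub_self]
  have hΨeq : ∀ t : U →ₗ[ℝ] U →ₗ[ℝ] U →ₗ[ℝ] ℝ,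
      (∀ (g : H) (u v w : U), t (ρ g u) (ρ g v) (ρ g w) = t u v w) →
      ∀ (g : H) (u v : U), Ψ t (ρ g u) (ρ g v) = ρ g (Ψ t u v) := by
    intro t ht g u v
    apply hext
    intro w
    rw [← hinv g w, hΨ, ht, hBi, hΨ]
  have hΦeq : ∀ m : U →ₗ[ℝ] U →ₗ[ℝ] U, (∀ (g : H) (u v : U), m (ρ g u) (ρ g v) = ρ g (m u v)) →
      ∀ (g : H) (u v w : U), Φ m (ρ g u) (ρ g v) (ρ g w) = Φ m u v w := by
    intro m hm g u v w
    rw [hΦ, hΦ, hm, hBi]
  constructor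
  · rintro ⟨m, hm0, hmc, hmi, hmu⟩
    have huniq : ∀ t' : U →ₗ[ℝ] U →ₗ[ℝ] U →ₗ[ℝ] ℝ,
        (∀ (g : H) (u v w : U), t' (ρ g u) (ρ g v) (ρ g w) = t' u v w) → ∃ c : ℝ, t' = c • Φ m := by
      intro t' ht'
      obtain ⟨c, hc⟩ := hmu (Ψ t') (hΨeq t' ht')
      refine ⟨c, ?_⟩
      ext u v w
      rw [← hΨ, hc]
      simp [hΦ]
    have hne : Φ m ≠ 0 := by
      intro h
      apply hm0
      ext u v
      apply hext
      intro w
      rw [← hΦ, h]; simp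
    have h12 : ∀ u v w, Φ m u v w = Φ m v u w := fun u v w => by rw [hΦ, hΦ, hmc]
    refine ⟨Φ m, hne, fun u v w => ⟨h12 u v w, ?_⟩, hΦeq m hmi, huniq⟩
    obtain ⟨c, hc⟩ := huniq ((Φ m).compr₂ (LinearMap.id : (U →ₗ[ℝ] ℝ) →ₗ[ℝ] (U →ₗ[ℝ] ℝ)) |>
      fun t => (LinearMap.lflip : (U →ₗ[ℝ] U →ₗ[ℝ] ℝ) ≃ₗ[ℝ] (U →ₗ[ℝ] U →ₗ[ℝ] ℝ)).toLinearMap ∘ₗ t)
      (fun g u v w => hΦeq m hmi g u w v)
    have h23 : ∀ u v w, Φ m u w v = c * Φ m u v w := fun u v w =>
      congrArg (fun t : U →ₗ[ℝ] U →ₗ[ℝ] U →ₗ[ℝ] ℝ => t u v w) hc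
    obtain ⟨a, b, d, habd⟩ : ∃ a b d, Φ m a b d ≠ 0 := by
      by_contra h
      push Not at h
      exact hne (by ext a b d; exact h a b d)
    have e1 : c * c = 1 := by
      apply mul_right_cancel₀ habd
      rw [mul_assoc, ← h23, ← h23, one_mul]
    have e2 : c * c = c := by
      apply mul_right_cancel₀ habd
      -- (12)(23)(12) = (23)(12)(23)
      have l1 : Φ m d b a = c * Φ m a b d := by
        rw [h12 d b a, h23 b a d, h12 b a d]
      have l2 : Φ m d b a = c * c * Φ m a b d := by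
        rw [h23 d a b, h12 d a b, h23 a b d, mul_assoc]
      rw [← l1, l2]
    have hc1 : c = 1 := by rw [← e2, e1]
    rw [h23 u w v, hc1, one_mul]
  · rintro ⟨t, ht0, hts, hti, htu⟩
    refine ⟨Ψ t, ?_, ?_, hΨeq t hti, ?_⟩
    · intro h
      apply ht0
      ext u v w
      rw [← hΨ, h]; simp
    · intro u v
      apply hext
      intro w
      rw [hΨ, hΨ, (hts u v w).1]
    · intro m' hm'
      obtain ⟨c, hc⟩ := htu (Φ m') (hΦeq m' hm')
      refine ⟨c, ?_⟩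
      ext u v
      apply hext
      intro w
      rw [← hΦ, hc]
      simp [hΨ]

end Cfsg.Agent.S5541
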