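import Cfsg.Statements.S5543
import Cfsg.Agent.H47.Majorana

set_option autoImplicit false
open Cfsg

namespace Cfsg.Agent.S5543

theorem exists_not_mem {G : Type*} [Group G] (X : Subgroup G) (h : 4 < Nat.card X) (s : Finset G)
    (hs : s.card ≤ 4) : ∃ x ∈ X, x ∉ s := by
  by_contra hcon
  push Not at hcon
  have : Nat.card X ≤ s.card := by
    have h1 : (X : Set G) ⊆ (s : Set G) := fun x hx => hcon x hx
    have := Set.ncard_le_ncard h1
    rw [Set.ncard_coe_finset] at this
    exact this
  omega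

/-- Let V be a finite-dimensional real vector space with a commutative bilinear product and a positive-definite symmetric bilinear form that associates with the product and satisfies the Norton inequality (the Majorana setting of the definitions). Let X be a group of linear automorphisms of V in which every element squares to the identity, and suppose every non-identity element x of X is a Majorana involution with an axial vector a(x) of squared length 1, such that for any two distinct non-identity x, y the product a(x) ∘ a(y) equals (1/8)(a(x) + a(y) − a(xy)) (the dihedral subalgebra of type 2A whose third axis belongs to the involution xy). Then X has order at most 4. -/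
theorem result {V : Type*} [AddCommGroup V] [Module ℝ V] [FiniteDimensional ℝ V] (mul : V →ₗ[ℝ] V →ₗ[ℝ] V) (B : LinearMap.BilinForm ℝ V) (hV : Cfsg.Axial.IsMajoranaAmbient mul B) (X : Subgroup (V ≃ₗ[ℝ] V)) (hX : ∀ x ∈ X, x * x = 1) (ax : (V ≃ₗ[ℝ] V) → V) (hax : ∀ x ∈ X, x ≠ 1 → Cfsg.Axial.IsMajoranaPair mul B x (ax x)) (h1 : ∀ x ∈ X, x ≠ 1 → B (ax x) (ax x) = 1) (h2A : ∀ x ∈ X, ∀ y ∈ X, x ≠ 1 → y ≠ 1 → x ≠ y → mul (ax x) (ax y) = (1 / 8 : ℝ) • (ax x + ax y - ax (x * y))) : Nat.card ↥X ≤ 4 := by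
  classical
  by_contra hcon
  push Not at hcon
  obtain ⟨x, hx, hx1⟩ := exists_not_mem X hcon {1} (by simp)
  obtain ⟨y, hy, hy1⟩ := exists_not_mem X hcon {1, x} (Finset.card_le_two.trans (by norm_num))
  obtain ⟨z, hz, hz1⟩ := exists_not_mem X hcon {1, x, y, x * y} Finset.card_le_four
  simp only [Finset.mem_insert, Finset.mem_singleton, not_or] at hx1 hy1 hz1
  have inv : ∀ u ∈ X, u⁻¹ = u := fun u hu => inv_eq_of_mul_eq_one_right (hX u hu)
  have comm : ∀ u ∈ X, ∀ v ∈ X, u * v = v * u := fun u hu v hv => by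
    rw [← inv _ (X.mul_mem hu hv), mul_inv_rev, inv u hu, inv v hv]
  have ne1 : ∀ u ∈ X, ∀ v, v ≠ u → u * v ≠ 1 := fun u hu v huv h =>
    huv (by rw [← inv u hu]; exact (eq_inv_of_mul_eq_one_right h))
  have cancel : ∀ v, x * (x * v) = v := fun v => by rw [← mul_assoc, hX x hx, one_mul]
  have hxy := X.mul_mem hx hy
  have hxz := X.mul_mem hx hz
  have hyz := X.mul_mem hy hz
  have hxyz := X.mul_mem hx hyz
  have xy1 : x * y ≠ 1 := ne1 x hx y hy1.2
  have xz1 : x * z ≠ 1 := ne1 x hx z hz1.2.1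
  have yz1 : y * z ≠ 1 := ne1 y hy z hz1.2.2.1
  have xyz1 : x * (y * z) ≠ 1 := by rw [← mul_assoc]; exact ne1 _ hxy z hz1.2.2.2
  have hA := H47.ax_of_majorana (hax x hx hx1) (h1 x hx hx1)
  have beta : ∀ u ∈ X, u ≠ 1 → x * u ≠ 1 →
      mul (ax x) (ax u - ax (x * u)) = (1 / 4 : ℝ) • (ax u - ax (x * u)) := by
    intro u hu hu1 hxu
    rw [map_sub, h2A x hx u hu hx1 hu1 (fun h => hxu (by rw [← h, hX x hx])),
      h2A x hx (x * u) (X.mul_mem hx hu) hx1 hxu (fun h => hu1 (by simpa using h.symm)), cancel]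
    module
  have b1 := beta y hy hy1.1 xy1
  have b2 := beta z hz hz1.1 xz1
  have b3 := beta (y * z) hyz yz1 xyz1
  have e1 : y * (x * z) = x * (y * z) := by rw [← mul_assoc, comm y hy x hx, mul_assoc]
  have e2 : x * y * (x * z) = y * z := by rw [mul_assoc, e1, cancel]
  have p : mul (ax y - ax (x * y)) (ax z - ax (x * z)) =
      (-1 / 4 : ℝ) • (ax (y * z) - ax (x * (y * z))) := by
    simp only [map_sub, LinearMap.sub_apply]
    rw [h2A y hy z hz hy1.1 hz1.1 (Ne.symm hz1.2.2.1),
      h2A (x * y) hxy z hz xy1 hz1.1 (Ne.symm hz1.2.2.2),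
      h2A y hy (x * z) hxz hy1.1 xz1 (fun h => hz1.2.2.2 (by rw [h, cancel])),
      h2A (x * y) hxy (x * z) hxz xy1 xz1 (fun h => hz1.2.2.1 (mul_left_cancel h).symm),
      e1, e2, mul_assoc x y z]
    module
  obtain ⟨c, hc⟩ := hA.f44 _ _ b1 b2
  rw [p, map_smul, b3] at hc
  have h0 : ax (y * z) - ax (x * (y * z)) = 0 := by
    have h3 := congrArg (mul (ax x)) hc
    rw [map_smul, map_smul, b3, map_smul, hA.idem] at h3
    have : (3 / 64 : ℝ) • (ax (y * z) - ax (x * (y * z))) = 0 := by
      linear_combination (norm := module) h3 - hc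
    simpa using this
  have h4 := hax _ hxyz xyz1
  rw [← sub_eq_zero.mp h0] at h4
  have := H47.majorana_unique (hax _ hyz yz1) h4
  exact hx1 (by simpa using this.symm)

end Cfsg.Agent.S5543
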