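import Cfsg.Statements.S5544
import Cfsg.Agent.H47.Sakuma

set_option autoImplicit false
open Cfsg

namespace Cfsg.Agent.S5544

/-- Let V be a finite-dimensional real vector space with a commutative bilinear product and a positive-definite symmetric bilinear form that associates with the product and satisfies the Norton inequality (the Majorana setting of the definitions). Let μ₀ and μ₁ be Majorana involutions with axial vectors a₀ and a₁ of squared length 1, each involution having no other axial vector. Then the product μ₀μ₁ has order at most 6: some power (μ₀μ₁)^n with 1 ≤ n ≤ 6 is the identity (so the two involutions generate a dihedral group of order at most 12). This is the 6-transposition property of Majorana involutions. -/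
theorem result {V : Type*} [AddCommGroup V] [Module ℝ V] [FiniteDimensional ℝ V] (mul : V →ₗ[ℝ] V →ₗ[ℝ] V) (B : LinearMap.BilinForm ℝ V) (hV : Cfsg.Axial.IsMajoranaAmbient mul B) (μ₀ μ₁ : V ≃ₗ[ℝ] V) (a₀ a₁ : V) (h₀ : Cfsg.Axial.IsMajoranaPair mul B μ₀ a₀) (h₁ : Cfsg.Axial.IsMajoranaPair mul B μ₁ a₁) (hu₀ : ∀ a : V, Cfsg.Axial.IsMajoranaPair mul B μ₀ a → a = a₀) (hu₁ : ∀ a : V, Cfsg.Axial.IsMajoranaPair mul B μ₁ a → a = a₁) (hn₀ : B a₀ a₀ = 1) (hn₁ : B a₁ a₁ = 1) : ∃ n : ℕ, 1 ≤ n ∧ n ≤ 6 ∧ (μ₀ * μ₁) ^ n = 1 := by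
  have A₀ := H47.ax_of_majorana h₀ hn₀
  have A₁ := H47.ax_of_majorana h₁ hn₁
  have i₀ : μ₀ * μ₀ = 1 := by ext v; exact A₀.t_t v
  have i₁ : μ₁ * μ₁ = 1 := by ext v; exact A₁.t_t v
  set g := μ₁ * μ₀ with hg
  have ginv : g⁻¹ = μ₀ * μ₁ := by
    rw [hg, mul_inv_rev, inv_eq_of_mul_eq_one_right i₀, inv_eq_of_mul_eq_one_right i₁]
  have e1 : μ₁ = g * μ₀ := by rw [hg, mul_assoc, i₀, mul_one]
  have sw : ∀ k : ℤ, μ₀ * g ^ k = g ^ (-k) * μ₀ := fun k => by
    have : μ₀ * g * μ₀⁻¹ = g⁻¹ := by rw [ginv, hg]; group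
    rw [zpow_neg, ← inv_zpow, ← this, conj_zpow]; group
  let S : Subgroup (V ≃ₗ[ℝ] V) :=
    { carrier := {x | (∀ u v, x (mul u v) = mul (x u) (x v)) ∧ ∀ u v, B (x u) (x v) = B u v}
      one_mem' := ⟨fun _ _ => rfl, fun _ _ => rfl⟩
      mul_mem' := fun {x y} hx hy =>
        ⟨fun u v => by simp only [LinearEquiv.mul_apply, hy.1, hx.1],
          fun u v => by simp only [LinearEquiv.mul_apply, hy.2, hx.2]⟩
      inv_mem' := fun {x} hx =>
        ⟨fun u v => by
          apply x.injective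
          rw [hx.1]
          simp [LinearEquiv.coe_inv],
          fun u v => by rw [← hx.2]; simp [LinearEquiv.coe_inv]⟩ }
  have hS : ∀ k : ℤ, g ^ k ∈ S := fun k =>
    S.zpow_mem (S.mul_mem (x := μ₁) (y := μ₀) ⟨h₁.1, h₁.2.1⟩ ⟨h₀.1, h₀.2.1⟩) k
  let a : ℤ → V := fun i => (g ^ (i / 2)) (if i % 2 = 0 then a₀ else a₁)
  have ae : ∀ k, a (2 * k) = (g ^ k) a₀ := fun k => by
    simp only [a]; rw [if_pos (by omega), show 2 * k / 2 = k by omega]
  have ao : ∀ k, a (2 * k + 1) = (g ^ k) a₁ := fun k => by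
    simp only [a]; rw [if_neg (by omega), show (2 * k + 1) / 2 = k by omega]
  have hP : ∀ i, Axial.IsMajoranaPair mul B (g ^ i * μ₀) (a i) ∧ B (a i) (a i) = 1 := by
    intro i
    obtain ⟨k, rfl | rfl⟩ := Int.even_or_odd' i
    · rw [ae]
      refine ⟨?_, by rw [(hS k).2, hn₀]⟩
      convert H47.majorana_conj h₀ (g ^ k) (hS k).1 (hS k).2 using 1
      rw [← zpow_neg, mul_assoc, sw]; group
    · rw [ao]
      refine ⟨?_, by rw [(hS k).2, hn₁]⟩
      convert H47.majorana_conj h₁ (g ^ k) (hS k).1 (hS k).2 using 1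
      rw [e1, ← zpow_neg, mul_assoc, mul_assoc, sw]; group
  have hD : H47.Dih mul B (fun i => g ^ i * μ₀) a := by
    refine ⟨fun i => H47.ax_of_majorana (hP i).1 (hP i).2, fun i j => ?_⟩
    obtain ⟨k, rfl | rfl⟩ := Int.even_or_odd' j
    · rw [show 2 * i - 2 * k = 2 * (i - k) by ring, ae, ae, ← LinearEquiv.mul_apply, mul_assoc, sw,
        ← mul_assoc, LinearEquiv.mul_apply, A₀.ta, ← zpow_add, sub_eq_add_neg]
    · have : μ₀ a₁ = (g ^ (-1 : ℤ)) a₁ := by
        rw [zpow_neg_one, ginv, LinearEquiv.mul_apply, A₁.ta]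
      rw [show 2 * i - (2 * k + 1) = 2 * (i - k - 1) + 1 by ring, ao, ao, ← LinearEquiv.mul_apply,
        mul_assoc, sw, ← mul_assoc, LinearEquiv.mul_apply, this, ← LinearEquiv.mul_apply,
        ← zpow_add, ← zpow_add]
      rfl
  have fin : ∀ n : ℕ, B (a 0) (a n) = 1 → (μ₀ * μ₁) ^ n = 1 := by
    intro n hn
    have h1 := hD.eq_of_B hV _ _ hn
    have h2 := (hP n).1
    rw [← h1] at h2
    have h3 := H47.majorana_unique (hP 0).1 h2
    rw [zpow_zero, zpow_natCast] at h3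
    rw [← ginv, inv_pow, ← mul_right_cancel h3, inv_one]
  rcases hD.four_five_six hV with h | h | h
  · exact ⟨4, by norm_num, by norm_num, fin 4 h⟩
  · exact ⟨5, by norm_num, by norm_num, fin 5 h⟩
  · exact ⟨6, by norm_num, by norm_num, fin 6 h⟩

end Cfsg.Agent.S5544
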