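import Cfsg.Statements.S5545
import Cfsg.Agent.H47.Majorana

set_option autoImplicit false
open Cfsg

namespace Cfsg.Agent.S5545

open Cfsg.Axial Cfsg.Agent.H47

variable {V : Type*} [AddCommGroup V] [Module ℝ V] {mul : V →ₗ[ℝ] V →ₗ[ℝ] V}
  {B : LinearMap.BilinForm ℝ V}

theorem key (hV : IsMajoranaAmbient mul B) {t s : V ≃ₗ[ℝ] V} {a b : V} (ha : Ax mul B t a)
    (hb : Ax mul B s b) (h1 : t b = b) (h2 : s a = a) :
    (B a b - 1 / 8) • (mul a b - B a b • a) = 0 := by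
  have hc : ∀ u v, mul u v = mul v u := hV.1
  have e1 := ha.even hV b h1
  have e2 := hb.even hV a h2
  rw [hc b a, hV.2.1 b a] at e2
  generalize hl : B a b = l at e1 e2
  generalize hp : mul a b = p at e1 e2
  have hba : mul b a = p := by rw [hc, hp]
  have e1' : mul p a = (1 / 4 : ℝ) • p + (3 / 4 * l) • a := by rw [hc, e1]
  have e2' : mul p b = (1 / 4 : ℝ) • p + (3 / 4 * l) • b := by rw [hc, e2]
  have hα : mul a (b + (3 * l) • a - (4 : ℝ) • p) = 0 := by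
    simp only [map_add, map_sub, map_smul, hp, ha.idem, e1]; module
  have hβ : mul a (p - l • a) = (1 / 4 : ℝ) • (p - l • a) := by
    simp only [map_sub, map_smul, ha.idem, e1]; module
  have f1 := ha.f00 _ _ hα hα
  have f2 := ha.f04 _ _ hα hβ
  obtain ⟨c, f3⟩ := ha.f44 _ _ hβ hβ
  simp only [map_add, map_sub, map_smul, LinearMap.add_apply, LinearMap.sub_apply,
    LinearMap.smul_apply, hp, hba, ha.idem, hb.idem, e1, e2, e1', e2'] at f1 f2 f3
  have hpp : mul p p = (3 / 16 * l) • (a + b) + ((6 * l - 1) / 8) • p := by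
    linear_combination (norm := module) (1 / 4 : ℝ) • f1 + f2
  rw [hpp] at f3
  simp only [map_add, map_smul, hp, ha.idem, e1] at f3
  have f4 := congrArg (mul a) f3
  simp only [map_add, map_sub, map_smul, ha.idem, e1] at f4
  linear_combination (norm := module) (16 / 3 : ℝ) • f3 - (16 / 3 : ℝ) • f4

theorem sq_eq (hV : IsMajoranaAmbient mul B) {t s : V ≃ₗ[ℝ] V} {a b : V} (ha : Ax mul B t a)
    (hb : Ax mul B s b) (h1 : t b = b) (h2 : s a = a) :
    mul (mul a b) (mul a b) = (3 / 16 * B a b) • (a + b) + ((6 * B a b - 1) / 8) • mul a b := by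
  have hc : ∀ u v, mul u v = mul v u := hV.1
  have e1 := ha.even hV b h1
  have e2 := hb.even hV a h2
  rw [hc b a, hV.2.1 b a] at e2
  generalize hl : B a b = l at e1 e2
  generalize hp : mul a b = p at e1 e2
  have hba : mul b a = p := by rw [hc, hp]
  have e1' : mul p a = (1 / 4 : ℝ) • p + (3 / 4 * l) • a := by rw [hc, e1]
  have e2' : mul p b = (1 / 4 : ℝ) • p + (3 / 4 * l) • b := by rw [hc, e2]
  have hα : mul a (b + (3 * l) • a - (4 : ℝ) • p) = 0 := by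
    simp only [map_add, map_sub, map_smul, hp, ha.idem, e1]; module
  have hβ : mul a (p - l • a) = (1 / 4 : ℝ) • (p - l • a) := by
    simp only [map_sub, map_smul, ha.idem, e1]; module
  have f1 := ha.f00 _ _ hα hα
  have f2 := ha.f04 _ _ hα hβ
  simp only [map_add, map_sub, map_smul, LinearMap.add_apply, LinearMap.sub_apply,
    LinearMap.smul_apply, hp, hba, ha.idem, hb.idem, e1, e2, e1', e2'] at f1 f2
  linear_combination (norm := module) (1 / 4 : ℝ) • f1 + f2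

/-- Let V be a finite-dimensional real vector space with a commutative bilinear product and a positive-definite symmetric bilinear form that associates with the product and satisfies the Norton inequality (the Majorana setting of the definitions). Let μ₀, μ₁ be commuting Majorana involutions with distinct axial vectors a₀ ≠ a₁ of squared length 1, each involution having no other axial vector. Then either a₀ and a₁ are orthogonal with a₀ ∘ a₁ = 0 (type 2B), or their inner product is 1/8 and, with a₂ = a₀ + a₁ − 8 a₀ ∘ a₁, the vector a₂ is an idempotent and a₀ ∘ a₂ = (1/8)(a₀ + a₂ − a₁), a₁ ∘ a₂ = (1/8)(a₁ + a₂ − a₀) (type 2A: the three idempotents span a subalgebra with aᵢ ∘ aⱼ = (1/8)(aᵢ + aⱼ − aₖ)). -/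
theorem result {V : Type*} [AddCommGroup V] [Module ℝ V] [FiniteDimensional ℝ V] (mul : V →ₗ[ℝ] V →ₗ[ℝ] V) (B : LinearMap.BilinForm ℝ V) (hV : Cfsg.Axial.IsMajoranaAmbient mul B) (μ₀ μ₁ : V ≃ₗ[ℝ] V) (a₀ a₁ : V) (h₀ : Cfsg.Axial.IsMajoranaPair mul B μ₀ a₀) (h₁ : Cfsg.Axial.IsMajoranaPair mul B μ₁ a₁) (hu₀ : ∀ a : V, Cfsg.Axial.IsMajoranaPair mul B μ₀ a → a = a₀) (hu₁ : ∀ a : V, Cfsg.Axial.IsMajoranaPair mul B μ₁ a → a = a₁) (hn₀ : B a₀ a₀ = 1) (hn₁ : B a₁ a₁ = 1) (hc : μ₀ * μ₁ = μ₁ * μ₀) (hne : a₀ ≠ a₁) : (B a₀ a₁ = 0 ∧ mul a₀ a₁ = 0) ∨ (B a₀ a₁ = 1 / 8 ∧ mul (a₀ + a₁ - (8 : ℝ) • mul a₀ a₁) (a₀ + a₁ - (8 : ℝ) • mul a₀ a₁) = a₀ + a₁ - (8 : ℝ) • mul a₀ a₁ ∧ mul a₀ (a₀ + a₁ - (8 : ℝ) • mul a₀ a₁) = (1 / 8 : ℝ) • (a₀ + (a₀ + a₁ - (8 : ℝ) • mul a₀ a₁) - a₁) ∧ mul a₁ (a₀ + a₁ - (8 : ℝ) • mul a₀ a₁) = (1 / 8 : ℝ) • (a₁ + (a₀ + a₁ - (8 : ℝ) • mul a₀ a₁) - a₀)) := by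
  have A0 := ax_of_majorana h₀ hn₀
  have A1 := ax_of_majorana h₁ hn₁
  have c1 : μ₀ a₁ = a₁ := by
    apply hu₁
    have := majorana_conj h₁ μ₀ h₀.1 h₀.2.1
    rwa [hc, mul_inv_cancel_right] at this
  have c2 : μ₁ a₀ = a₀ := by
    apply hu₀
    have := majorana_conj h₀ μ₁ h₁.1 h₁.2.1
    rwa [← hc, mul_inv_cancel_right] at this
  have hcm : ∀ u v, mul u v = mul v u := hV.1
  have k1 := key hV A0 A1 c1 c2
  have k2 := key hV A1 A0 c2 c1
  rw [hcm a₁ a₀, hV.2.1 a₁ a₀] at k2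
  by_cases hl : B a₀ a₁ = 1 / 8
  · right
    have e1 := A0.even hV a₁ c1
    have e2 := A1.even hV a₀ c2
    have e3 := sq_eq hV A0 A1 c1 c2
    rw [hcm a₁ a₀, hV.2.1 a₁ a₀] at e2
    rw [hl] at e1 e2 e3
    generalize hp : mul a₀ a₁ = p at e1 e2 e3
    have hba : mul a₁ a₀ = p := by rw [hcm, hp]
    have e1' := (hcm p a₀).trans e1
    have e2' := (hcm p a₁).trans e2
    refine ⟨hl, ?_, ?_, ?_⟩ <;>
    · simp only [map_add, map_sub, map_smul, LinearMap.add_apply, LinearMap.sub_apply,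
        LinearMap.smul_apply, hp, hba, A0.idem, A1.idem, e1, e2, e1', e2', e3]
      module
  · left
    have hl' := sub_ne_zero.mpr hl
    have k1' := sub_eq_zero.mp ((smul_eq_zero.mp k1).resolve_left hl')
    have k2' := sub_eq_zero.mp ((smul_eq_zero.mp k2).resolve_left hl')
    have : B a₀ a₁ • (a₀ - a₁) = 0 := by rw [smul_sub, ← k1', ← k2', sub_self]
    have h0 := (smul_eq_zero.mp this).resolve_right (sub_ne_zero.mpr hne)
    exact ⟨h0, by rw [k1', h0, zero_smul]⟩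

end Cfsg.Agent.S5545
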