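import Cfsg.Statements.S5546
import Cfsg.Agent.H48.Rep

set_option autoImplicit false
open Cfsg

namespace Cfsg.Agent.S5546

open Cfsg.Agent.H48 Cfsg.Agent.H42 MulAction
open scoped Pointwise

instance instFact13 : Fact (Nat.Prime 13) := ⟨by norm_num⟩

/-- The second Conway group (the stabilizer in the Leech lattice automorphism group of the short vector fixed in the definitions) is isomorphic to a subgroup of the general linear group of degree 23 over the field with 13 elements: there is an injective homomorphism into it. -/
theorem result : ∃ f : ↥Cfsg.Spor.Co2 →* GL (Fin 23) (ZMod 13), Function.Injective f := by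
  have hc : (8 : ZMod 13) * 5 = 1 := by decide
  let u : Cfsg.GolayPt → ZMod 13 := redV (ZMod 13) vU
  have hu : u ≠ 0 := fun h => absurd (congrFun h none) (by decide +kernel)
  let W : Submodule (ZMod 13) (Cfsg.GolayPt → ZMod 13) := Submodule.span (ZMod 13) {u}
  have hW : ∀ g : St vU, W ≤ W.comap (repHom hc g.1) := by
    intro g
    rw [Submodule.span_le, Set.singleton_subset_iff, SetLike.mem_coe, Submodule.mem_comap,
      repHom_redV, show g.1 • vU = vU from g.2]
    exact Submodule.mem_span_singleton_self _
  let ρ : St vU →* Module.End (ZMod 13) (_ ⧸ W) :=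
    { toFun := fun g => W.mapQ W (repHom hc g.1) (hW g)
      map_one' := by
        apply Submodule.linearMap_qext
        ext x
        simp
      map_mul' := by
        intro g h
        apply Submodule.linearMap_qext
        ext x
        simp }
  have hd : Module.finrank (ZMod 13) (_ ⧸ W) = 23 := by
    have h1 := W.finrank_quotient_add_finrank
    rw [finrank_span_singleton hu, Module.finrank_fintype_fun_eq_card, card_golayPt] at h1
    omega
  let b := Module.finBasisOfFinrankEq (ZMod 13) (_ ⧸ W) hd
  let f : St vU →* GL (Fin 23) (ZMod 13) :=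
    ((LinearMap.toMatrixAlgEquiv b).toMulEquiv.toMonoidHom.comp ρ).toHomUnits
  have hf : Function.Injective f := by
    rw [← MonoidHom.ker_eq_bot_iff]
    have := simple_Co2'
    refine (f.normal_ker.eq_bot_or_eq_top).resolve_right fun h => ?_
    obtain ⟨w, hw, h1, h2, h3, -⟩ := exists_word4 (a := none) (b := some 0) (c := some 1)
      (d := some 2) (by decide) (by decide) (by decide) (by decide) (by decide) (by decide)
      False False True True
    have hs : signEl w hw ∈ St vU := by
      apply Subtype.ext; funext i
      rw [signEl_apply]
      split_ifs with h4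
      · have h5 : ∀ i, i ≠ none → i ≠ some 0 → vU.1 i = 0 := by decide +kernel
        rw [h5 i (fun e => h1.1 (e ▸ h4)) (fun e => h2.1 (e ▸ h4))]; rfl
      · rfl
    have h4 : f ⟨_, hs⟩ = 1 := by rw [← MonoidHom.mem_ker, h]; trivial
    have h5 : ρ ⟨_, hs⟩ = 1 := by
      apply (LinearMap.toMatrixAlgEquiv b).injective
      rw [map_one]
      exact congrArg Units.val h4
    have h6 := LinearMap.congr_fun h5 (Submodule.Quotient.mk (redV (ZMod 13) (e8 (some 1))))
    change Submodule.Quotient.mk (repHom hc (signEl w hw) _) = Submodule.Quotient.mk _ at h6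
    rw [Submodule.Quotient.eq, repHom_redV, signEl_e8, if_pos (h3.2 trivial),
      Submodule.mem_span_singleton] at h6
    obtain ⟨a, ha⟩ := h6
    have h7 := congrFun ha (some 1)
    have h8 : u (some 1) = 0 := by decide +kernel
    rw [Pi.smul_apply, h8, smul_zero] at h7
    exact absurd h7 (by decide +kernel)
  exact ⟨f.comp equivCo2.symm.toMonoidHom, hf.comp equivCo2.symm.injective⟩

end Cfsg.Agent.S5546
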