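import Cfsg.Statements.S5547
import Cfsg.Agent.H47.R78Data
import Cfsg.Agent.H46.Tree
import Cfsg.Agent.H44.Fi22M

set_option autoImplicit false
open Cfsg

namespace Cfsg.Agent.S5547

set_option maxRecDepth 1000000
set_option exponentiation.threshold 200000

open Cfsg.Agent.H42 Cfsg.Agent.H46 Cfsg.Agent.H47.R78

theorem pack_const {w : ℕ} (hw : 0 < w) (n c : ℕ) :
    pack w n (fun _ => c) = c * ((2 ^ (w * n) - 1) / (2 ^ w - 1)) := by
  have h2 : 2 ≤ 2 ^ w := by
    calc 2 = 2 ^ 1 := by norm_num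
      _ ≤ 2 ^ w := Nat.pow_le_pow_right (by norm_num) hw
  rw [pow_mul, ← Nat.geomSum_eq h2, Finset.mul_sum]
  exact Finset.sum_congr rfl fun i _ => by rw [pow_mul]

/-- A constant in `n` lanes of width `w`. -/
def rep (w n c : ℕ) : ℕ :=
  Nat.mul c (Nat.div (Nat.sub (Nat.pow 2 (Nat.mul w n)) 1) (Nat.sub (Nat.pow 2 w) 1))

theorem cmask_eq {w : ℕ} (hw : 0 < w) (v n : ℕ) : cmask w v n = rep w n (2 ^ v - 1) :=
  pack_const hw _ _

theorem smask_eq {w n : ℕ} (hw : 0 < w * n) (v m : ℕ) :
    smask w v n m = rep (w * n) m (2 ^ v - 1) := pack_const hw _ _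

/-- The product of coded matrices. -/
noncomputable def mul (m : ℕ) (A B : ℕ) : ℕ := frc A fun A => frc B fun B =>
  frc (rep 28 78 (2 ^ 4 - 1)) fun cm => frc (rep (28 * 78) m (2 ^ 4 - 1)) fun sm =>
    frc (accA 28 78 cm sm A B 78) fun x => redP 13 20165 18 (rep 28 (78 * m) (2 ^ 10 - 1)) x

theorem barrett : ∀ x < 78 * ((13 - 1) * (13 - 1)) + 1,
    x * 20165 < 2 ^ 28 ∧ x * 20165 / 2 ^ 18 % 2 ^ 10 = x / 13 := by
  have : allB (fun a => allB (fun b => andB (ltB ((128 * a + b) * 20165) (2 ^ 28))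
      (Nat.beq ((128 * a + b) * 20165 / 2 ^ 18 % 2 ^ 10) ((128 * a + b) / 13))) 128) 88 = true := by
    decide +kernel
  intro x hx
  have h := andB_iff.1 (of_allB (of_allB this (i := x / 128) (by omega)) (i := x % 128)
    (by omega))
  rw [Nat.div_add_mod] at h
  exact ⟨ltB_iff.1 h.1, beq_iff.1 h.2⟩

theorem mul_spec (m : ℕ) : MulSpec (fun a : ℕ => (a : ZMod 13)) 28 13 78 m (mul m) := by
  have := mulSpec_ZMod (w := 28) (v := 4) (p := 13) (c := 20165) (s := 18) (u := 10) (n := 78)
    (m := m) (by norm_num) (by norm_num) (by norm_num) (by norm_num) (by norm_num) (by norm_num)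
    (by norm_num) barrett
  rw [cmask_eq (by norm_num), cmask_eq (by norm_num), smask_eq (by norm_num)] at this
  exact this

/-- The code of the identity. -/
def one : ℕ := rep (28 * 79) 78 1

/-- Check of the lanes, row by row. -/
noncomputable def canB (a : ℕ) : Bool := frc a fun a =>
  andB (ltB a (Nat.pow 2 (Nat.mul 28 6084)))
    (allB (fun j => frc (fld 2184 a j) fun r => allB (fun i => ltB (fld 28 r i) 13) 78) 78)

theorem canon_of_canB {a : ℕ} (h : canB a = true) : Canon 28 13 (78 * 78) a := by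
  obtain ⟨h1, h2⟩ := andB_iff.1 h
  refine ⟨ltB_iff.1 h1, fun l hl => ?_⟩
  have h5 := of_allB h2 (i := l / 78) (by omega)
  rw [frc_eq] at h5
  have h3 := ltB_iff.1 (of_allB h5 (i := l % 78) (by omega))
  have h4 := lane_lane 28 78 a (l / 78) (l % 78) (by omega)
  rw [Nat.div_add_mod] at h4
  rw [← h4]
  exact h3

theorem one_lane : allB (fun j => frc (fld 2184 one j) fun r =>
    allB (fun i => Nat.beq (fld 28 r i) (iteB (Nat.beq i j) 1 0)) 78) 78 = true := by
  decide +kernel

theorem matData : MatData (fun a : ℕ => (a : ZMod 13)) 28 13 78 (mul 78) (mul 1) one where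
  w_pos := by norm_num
  inj := inj_ZMod 13
  mul_spec := mul_spec 78
  act_spec := mul_spec 1
  one_canon := canon_of_canB (by decide +kernel)
  one_spec := fun i hi j hj => by
    have h5 := of_allB one_lane hj
    rw [frc_eq] at h5
    have h := beq_iff.1 (of_allB h5 hi)
    rw [← lane_lane 28 78 one j i hi]
    change ((fld 28 (fld 2184 one j) i : ℕ) : ZMod 13) = _
    rw [h, iteB_eq]
    by_cases e : i = j <;> simp [e]

/-- The operations on codes. -/
noncomputable def O : Ops := ⟨mul 78, one, fun a => a⟩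

/-- The coding of the general linear group. -/
noncomputable def C : Coded O (GL (Fin 78) (ZMod 13)) := matData.coded (Equiv.refl _)

/-- The coded generators. -/
noncomputable def gen : ℕ → ℕ := getL [one, ma, mb, mc, md, me, mf, mg, mh, mi]

theorem gen_ok : allB (fun j => andB (canB (gen j)) (Nat.beq (mul 78 (gen j) (gen j)) one)) 10 = true := by
  decide +kernel

theorem exists_g : ∃ g : ℕ → GL (Fin 78) (ZMod 13), ∀ j < 10, C.R (gen j) (g j) := by
  have : ∀ j, ∃ g : GL (Fin 78) (ZMod 13), j < 10 → C.R (gen j) g := fun j => by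
    by_cases hj : j < 10
    · obtain ⟨h1, h2⟩ := andB_iff.1 (of_allB gen_ok hj)
      obtain ⟨g, hg⟩ := matData.exists_R (Equiv.refl (Fin 78)) (canon_of_canB h1)
        (canon_of_canB h1) (beq_iff.1 h2)
      exact ⟨g, fun _ => hg⟩
    · exact ⟨1, fun h => absurd h hj⟩
  choose g hg using this
  exact ⟨g, hg⟩

theorem rel_ok : allL (fun r => andB (allL (fun j => ltB j 10) r) (Nat.beq (O.word gen r) one))
    H44.Fi22.Rm = true := by
  decide +kernel

/-- The Fischer group Fi₂₂ (the finitely presented 3-transposition group of the definitions) is isomorphic to a subgroup of the general linear group of degree 78 over the field with 13 elements: there is an injective homomorphism into it. -/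
theorem result : ∃ f : Cfsg.Spor.Fi22 →* GL (Fin 78) (ZMod 13), Function.Injective f := by
  obtain ⟨g, hg⟩ := exists_g
  have hs : H44.Sat g H44.Fi22.Rm := fun r hr => by
    obtain ⟨h1, h2⟩ := andB_iff.1 (allL_iff.1 rel_ok r hr)
    have h3 := C.R_word (gen := gen) (g := g) r fun j hj => hg j (ltB_iff.1 (allL_iff.1 h1 j hj))
    rw [beq_iff.1 h2] at h3
    exact C.R_fun h3 C.R_one
  obtain ⟨φ, hφ⟩ := H44.Fi22.exists_hom hs
  refine ⟨φ, (MonoidHom.ker_eq_bot_iff φ).1 ?_⟩
  have := H44.Fi22M.simple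
  refine (Subgroup.Normal.eq_bot_or_eq_top φ.normal_ker).resolve_right fun h => ?_
  have h1 : φ (H44.Fi22.gm 1) = 1 := (h ▸ Subgroup.mem_top _ : _ ∈ φ.ker)
  rw [hφ 1 ⟨le_rfl, by norm_num⟩] at h1
  exact C.ne_of_eqB (hg 1 (by norm_num)) C.R_one (by decide +kernel) h1

end Cfsg.Agent.S5547
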