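import Cfsg.Statements.S5549
import Cfsg.Agent.H42.Code

set_option autoImplicit false
set_option maxRecDepth 1000000
open Cfsg

namespace Cfsg.Agent.S5549

open Cfsg.Agent.H42

open scoped Pointwise

/-- The distance of the size of a set from twelve. -/
def ty (s : Finset GolayPt) : ℕ := (s.card - 12) + (12 - s.card)

/-- Equality up to complementation. -/
def Eqv (s t : Finset GolayPt) : Prop := s = t ∨ s = tᶜ

theorem ty_compl (s : Finset GolayPt) : ty sᶜ = ty s := by
  have := Finset.card_le_univ s
  simp only [ty, Finset.card_compl, card_pt] at this ⊢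
  omega

theorem Eqv.ty_eq {s t : Finset GolayPt} (h : Eqv s t) : ty s = ty t := by
  rcases h with rfl | rfl
  exacts [rfl, ty_compl t]

theorem Eqv.add {s t s' t' : Finset GolayPt} (h : Eqv s t) (h' : Eqv s' t') :
    Eqv (symmDiff s s') (symmDiff t t') := by
  rcases h with rfl | rfl <;> rcases h' with rfl | rfl
  · exact Or.inl rfl
  · exact Or.inr (by ext p; simp only [Finset.mem_symmDiff, Finset.mem_compl]; tauto)
  · exact Or.inr (by ext p; simp only [Finset.mem_symmDiff, Finset.mem_compl]; tauto)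
  · exact Or.inl (compl_symmDiff_compl _ _)

theorem Eqv.smul {s t : Finset GolayPt} (h : Eqv s t) (g : M24) : Eqv (g • s) (g • t) := by
  rcases h with rfl | rfl
  exacts [Or.inl rfl, Or.inr (msmul_compl g t)]

theorem Eqv.of_compl {s t : Finset GolayPt} (h : Eqv sᶜ tᶜ) : Eqv s t := by
  rcases h with h | h
  exacts [Or.inl (compl_injective h), Or.inr (compl_injective h)]

/-- An additive map of the code fixing the full set and preserving the weight types. -/
structure Good (F : Finset GolayPt → Finset GolayPt) : Prop where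
  mem : ∀ {s}, s ∈ codeSets → F s ∈ codeSets
  add : ∀ {s t}, s ∈ codeSets → t ∈ codeSets → F (symmDiff s t) = symmDiff (F s) (F t)
  univ : F Finset.univ = Finset.univ
  ty : ∀ {s}, s ∈ codeSets → ty (F s) = ty s

theorem Good.smul {F : Finset GolayPt → Finset GolayPt} (h : Good F) (g : M24) :
    Good (fun s => g • F s) where
  mem := fun hs => (msmul_mem_codeSets_iff g).mpr (h.mem hs)
  add := fun hs ht => by rw [h.add hs ht, msmul_symmDiff]
  univ := by rw [h.univ, msmul_univ]
  ty := fun hs => by rw [← h.ty hs, S5549.ty, Finset.card_smul_finset]; rfl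

theorem symmDiff_univ (s : Finset GolayPt) : symmDiff s Finset.univ = sᶜ := by
  rw [← Finset.top_eq_univ, symmDiff_top, hnot_eq_compl]

theorem Good.compl {F : Finset GolayPt → Finset GolayPt} (h : Good F) {s : Finset GolayPt}
    (hs : s ∈ codeSets) : F sᶜ = (F s)ᶜ := by
  rw [← symmDiff_univ, h.add hs univ_mem_codeSets, h.univ, symmDiff_univ]

/-- The type of a bit mask. -/
noncomputable def tyN (n : ℕ) : ℕ := force (pc n) fun c => Nat.add (Nat.sub c 12) (Nat.sub 12 c)

theorem tyN_eq {n : ℕ} (hn : n < 2 ^ 24) : tyN n = ty (toSet n) := by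
  rw [tyN, force_eq, ty, card_toSet hn]
  rfl

/-- Add the translates by `o` to a list. -/
noncomputable def dblK (o : ℕ) (k : List ℕ → Bool) (U : List ℕ) : List ℕ → Bool :=
  List.rec (fun acc => k acc) (fun u _ ih acc => force (Nat.xor o u) fun v => ih (u :: v :: acc)) U

theorem dblK_spec (o : ℕ) (k : List ℕ → Bool) (U acc : List ℕ) (h : dblK o k U acc = true) :
    ∃ V, k V = true ∧ ∀ v ∈ V, v ∈ acc ∨ v ∈ U ∨ ∃ u ∈ U, v = Nat.xor o u := by
  induction U generalizing acc with
  | nil => exact ⟨acc, h, fun v hv => Or.inl hv⟩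
  | cons u U ih =>
    obtain ⟨V, h1, h2⟩ := ih (u :: Nat.xor o u :: acc)
      ((force_eq (Nat.xor o u) fun v => dblK o k U (u :: v :: acc)).symm.trans h)
    refine ⟨V, h1, fun v hv => ?_⟩
    rcases h2 v hv with h3 | h3 | ⟨w, h3, e⟩
    · simp only [List.mem_cons] at h3
      rcases h3 with h3 | h3 | h3
      · exact Or.inr (Or.inl (h3 ▸ List.mem_cons_self))
      · exact Or.inr (Or.inr ⟨u, List.mem_cons_self, h3⟩)
      · exact Or.inl h3
    · exact Or.inr (Or.inl (List.mem_cons_of_mem _ h3))
    · exact Or.inr (Or.inr ⟨w, List.mem_cons_of_mem _ h3, e⟩)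

/-- One step of the normalisation. -/
noncomputable def stepChk (U : List ℕ) (o : ℕ) (gens : List ℕ) : Bool :=
  Bool.and (Bool.and (isOct o) (Bool.and (allL inM gens)
    (allL (fun g => allL (fun u => Nat.beq (img g u) u) U) gens)))
    (orb (actsOf img gens) o 800 false (fun t _ => allB (fun m => force (enc m) fun c =>
      Bool.or (!Nat.beq (pc c) 8) (Bool.or (t.mem c)
        (!allL (fun u => Nat.beq (tyN (Nat.xor c u)) (tyN (Nat.xor o u))) U))) 4096))

/-- The invariant of the normalisation. -/
def Inv (F : Finset GolayPt → Finset GolayPt) (U : List ℕ) : Prop :=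
  ∀ u ∈ U, isCode u = true ∧ Eqv (F (toSet u)) (toSet u)

theorem step {F : Finset GolayPt → Finset GolayPt} (hF : Good F) {U : List ℕ} (hU : Inv F U)
    {o : ℕ} {gens : List ℕ} (h : stepChk U o gens = true) {V : List ℕ}
    (hV : ∀ v ∈ V, v ∈ U ∨ ∃ u ∈ U, v = Nat.xor o u) : ∃ g : M24, Inv (fun s => g • F s) V := by
  simp only [stepChk, Bool.and_eq_true] at h
  obtain ⟨⟨ho, hg, h1⟩, h2⟩ := h
  obtain ⟨t, n, hs, h3⟩ := orb_true h2
  have ho' := toSet_mem_codeSets (isOct_isCode ho)
  obtain ⟨c, hc, e⟩ : ∃ c ∈ octads, Eqv (F (toSet o)) c := by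
    have h4 := hF.ty ho'
    have h5 := card_codeSets (hF.mem ho')
    rw [ty, ty, ((mem_octads_iff _).mp (toSet_mem_octads ho)).2] at h4
    by_cases h6 : (F (toSet o)).card = 8
    · exact ⟨_, (mem_octads_iff _).mpr ⟨hF.mem ho', h6⟩, Or.inl rfl⟩
    · exact ⟨_, compl_mem_octads (hF.mem ho') (by omega), Or.inr (compl_compl _).symm⟩
  obtain ⟨c, hc', rfl, h4⟩ := forall_octads h3 hc
  have h5 : allL (fun u => Nat.beq (tyN (Nat.xor c u)) (tyN (Nat.xor o u))) U = true :=
    allL_iff.mpr fun u hu => beq_iff.mpr (by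
      rw [tyN_eq (xor_lt (isOct_lt hc') (isCode_lt (hU u hu).1)),
        tyN_eq (xor_lt (isOct_lt ho) (isCode_lt (hU u hu).1)), toSet_xor, toSet_xor,
        ← (e.add (hU u hu).2).ty_eq, ← hF.add ho' (toSet_mem_codeSets (hU u hu).1),
        hF.ty (symmDiff_mem_codeSets ho' (toSet_mem_codeSets (hU u hu).1))])
  rw [h5] at h4
  obtain ⟨⟨g, hg'⟩, e'⟩ := (encSet.mem_orbit_clos_iff (gens := gens) (x0 := o) (inM_of_allL hg)
    (isOct_lt ho) hs (y := c) (isOct_lt hc')).mpr (by simpa using h4)
  have e1 : g • toSet o = toSet c := e'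
  have h6 : ∀ u ∈ U, Eqv (g⁻¹ • F (toSet u)) (toSet u) := fun u hu => by
    have h7 : g • toSet u = toSet u := gen_le (MulAction.stabilizer M24 (toSet u))
      (allL_fix_set (inM_of_allL hg) (isCode_lt (hU u hu).1) (allL_iff.mpr fun a ha =>
        allL_iff.mp (allL_iff.mp h1 a ha) u hu)) hg'
    have := (hU u hu).2.smul g⁻¹
    rwa [inv_smul_eq_iff.mpr h7.symm] at this
  have h7 := e.smul g⁻¹
  rw [inv_smul_eq_iff.mpr e1.symm] at h7
  refine ⟨g⁻¹, fun v hv => ?_⟩
  rcases hV v hv with h8 | ⟨u, hu, rfl⟩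
  · exact ⟨(hU v h8).1, h6 v h8⟩
  · refine ⟨isCode_xor (isOct_isCode ho) (hU u hu).1, ?_⟩
    show Eqv (g⁻¹ • F _) _
    rw [toSet_xor, hF.add ho' (toSet_mem_codeSets (hU u hu).1), msmul_symmDiff]
    exact h7.add (h6 u hu)

/-- The whole normalisation. -/
noncomputable def chainChk (steps : List (ℕ × List ℕ)) : List ℕ → Bool :=
  List.rec (fun U => allB (fun i => Bool.or (memL (bas i) U) (memL (Nat.xor (bas i) 16777215) U)) 12)
    (fun s _ ih U => Bool.and (stepChk U s.1 s.2) (dblK s.1 ih U [])) steps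

theorem chain (steps : List (ℕ × List ℕ)) {F : Finset GolayPt → Finset GolayPt} (hF : Good F)
    {U : List ℕ} (hU : Inv F U) (h : chainChk steps U = true) :
    ∃ g : M24, ∀ s ∈ codeSets, Eqv (g • F s) s := by
  induction steps generalizing F U with
  | nil =>
    refine ⟨1, forall_codeSets.mpr fun m hm => ?_⟩
    rw [one_smul, enc_eq_xorC hm]
    refine (xorC_induction (fun n => isCode n = true ∧ Eqv (F (toSet n)) (toSet n))
      ⟨by decide +kernel, Or.inl ?_⟩ (fun a b ha hb => ⟨isCode_xor ha.1 hb.1, ?_⟩) bas m 12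
      fun i hi => ⟨isCode_bas hi, ?_⟩).2
    · have := hF.add empty_mem_codeSets empty_mem_codeSets
      rw [symmDiff_self, symmDiff_self] at this
      rw [toSet_zero]
      exact this
    · show Eqv (F (toSet (Nat.xor a b))) (toSet (Nat.xor a b))
      rw [toSet_xor, hF.add (toSet_mem_codeSets ha.1) (toSet_mem_codeSets hb.1)]
      exact ha.2.add hb.2
    · rcases Bool.or_eq_true_iff.mp (of_allB (p := fun i => Bool.or (memL (bas i) U)
        (memL (Nat.xor (bas i) 16777215) U)) (n := 12) h hi) with h1 | h1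
      · exact (hU _ (memL_iff.mp h1)).2
      · have := (hU _ (memL_iff.mp h1)).2
        rw [toSet_compl, hF.compl (toSet_mem_codeSets (isCode_bas hi))] at this
        exact this.of_compl
  | cons s steps ih =>
    obtain ⟨h1, h2⟩ := Bool.and_eq_true_iff.mp h
    obtain ⟨V, h3, h4⟩ := dblK_spec _ _ _ _ h2
    obtain ⟨g, hg⟩ := step hF hU h1 (V := V) fun v hv => (h4 v hv).resolve_left List.not_mem_nil
    obtain ⟨g', hg'⟩ := ih (hF.smul g) hg h3
    exact ⟨g' * g, fun s hs => by rw [mul_smul]; exact hg' s hs⟩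

theorem main {F : Finset GolayPt → Finset GolayPt} (hF : Good F) :
    ∃ g : M24, ∀ s ∈ codeSets, Eqv (F s) (g • s) := by
  obtain ⟨g, hg⟩ := chain
    [(8536111, [671804955150707923763648861541369546, 721172848187798649859446012876509312]),
    (15777, [9585543084781088185847572792281189, 609345149934762838097701866047570007]),
    (104010, [603083134122287112375259141960206048, 110956848866915397745174034449370661]),
    (8521420, [731004289817911406524264760273320037, 731691358918902897888372871990904928]),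
    (12222476, []),
    (13062145, []),
    (4845570, []),
    (13938692, []),
    (10170384, []),
    (15515712, []),
    (4038912, [])] hF (U := [0]) (fun u hu => by
      rw [List.mem_singleton.mp hu]
      refine ⟨by decide +kernel, Or.inl ?_⟩
      have := hF.add empty_mem_codeSets empty_mem_codeSets
      rw [symmDiff_self, symmDiff_self] at this
      rw [toSet_zero]
      exact this) (by decide +kernel)
  exact ⟨g⁻¹, fun s hs => by simpa using (hg s hs).smul g⁻¹⟩

open Classical in
/-- The map of subsets induced by a linear map of the code. -/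
noncomputable def ind (x : golayCode ≃ₗ[ZMod 2] golayCode) (s : Finset GolayPt) : Finset GolayPt :=
  if h : indWord s ∈ golayCode then support₂ (x ⟨indWord s, h⟩ : GolayPt → ZMod 2) else ∅

theorem indWord_ind (x : golayCode ≃ₗ[ZMod 2] golayCode) {s : Finset GolayPt}
    (h : indWord s ∈ golayCode) : indWord (ind x s) = x ⟨indWord s, h⟩ := by
  rw [ind, dif_pos h, indWord_support]

theorem eqv_iff {s t : Finset GolayPt} :
    Eqv s t ↔ indWord s = indWord t ∨ indWord s = indWord t + fun _ => 1 := by
  rw [← indWord_compl, indWord_injective.eq_iff, indWord_injective.eq_iff, Eqv]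

/-- Let X be a group of linear automorphisms of the length-24 binary Golay code of the definitions that fix the all-ones word, containing the coordinate-permutation action of every element of the code's automorphism group (the Mathieu group of degree 24), and such that every element of X sends each codeword into its orbit under that Mathieu group up to adding the all-ones word (X has the same orbits as the Mathieu group on the code modulo the all-ones word). Then every element of X agrees, modulo the all-ones word, with the action of a single element of the Mathieu group: X induces exactly the Mathieu group on the code modulo the all-ones word. -/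
theorem result (X : Subgroup (↥Cfsg.golayCode ≃ₗ[ZMod 2] ↥Cfsg.golayCode)) (h1 : ∀ x ∈ X, ∀ e : ↥Cfsg.golayCode, (e : (Cfsg.GolayPt → ZMod 2)) = (fun _ => (1 : ZMod 2)) → x e = e) (hM : ∀ σ ∈ Cfsg.M24, ∃ x ∈ X, ∀ c : ↥Cfsg.golayCode, ((x c : ↥Cfsg.golayCode) : (Cfsg.GolayPt → ZMod 2)) = fun p => (c : (Cfsg.GolayPt → ZMod 2)) (σ.symm p)) (horb : ∀ x ∈ X, ∀ c : ↥Cfsg.golayCode, ∃ σ ∈ Cfsg.M24, ((x c : ↥Cfsg.golayCode) : (Cfsg.GolayPt → ZMod 2)) = (fun p => (c : (Cfsg.GolayPt → ZMod 2)) (σ.symm p)) ∨ ((x c : ↥Cfsg.golayCode) : (Cfsg.GolayPt → ZMod 2)) = (fun p => (c : (Cfsg.GolayPt → ZMod 2)) (σ.symm p)) + fun _ => (1 : ZMod 2)) (x : ↥Cfsg.golayCode ≃ₗ[ZMod 2] ↥Cfsg.golayCode) (hx : x ∈ X) : ∃ σ ∈ Cfsg.M24, ∀ c : ↥Cfsg.golayCode, ((x c : ↥Cfsg.golayCode) : (Cfsg.GolayPt → ZMod 2)) = (fun p => (c : (Cfsg.GolayPt → ZMod 2)) (σ.symm p)) ∨ ((x c : ↥Cfsg.golayCode) : (Cfsg.GolayPt → ZMod 2)) = (fun p => (c : (Cfsg.GolayPt → ZMod 2)) (σ.symm p)) + fun _ => (1 : ZMod 2) := by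
  obtain ⟨g, hg⟩ := main (F := ind x)
    { mem := fun {s} hs => by
        rw [mem_codeSets_iff] at hs ⊢
        rw [indWord_ind x hs]
        exact (x _).2
      add := fun {s t} hs ht => indWord_injective (by
        have h := (mem_codeSets_iff _).mp (symmDiff_mem_codeSets hs ht)
        rw [mem_codeSets_iff] at hs ht
        rw [indWord_symmDiff (ind x s), indWord_ind x hs, indWord_ind x ht, indWord_ind x h,
          ← Submodule.coe_add, ← map_add]
        congr 2
        exact Subtype.ext (indWord_symmDiff s t))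
      univ := indWord_injective (by
        have h := (mem_codeSets_iff _).mp univ_mem_codeSets
        rw [indWord_ind x h, h1 x hx ⟨_, h⟩ indWord_univ])
      ty := fun {s} hs => by
        rw [mem_codeSets_iff] at hs
        obtain ⟨σ, hσ, h⟩ := horb x hx ⟨_, hs⟩
        rw [← indWord_ind x hs] at h
        simp only [indWord_smul] at h
        rw [(eqv_iff.mpr h).ty_eq, ty, Finset.card_smul_finset]
        rfl }
  refine ⟨g, g.2, fun ⟨c, hc⟩ => ?_⟩
  obtain ⟨s, rfl⟩ := exists_indWord c
  rw [← indWord_ind x hc]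
  simp only [indWord_smul]
  exact eqv_iff.mp (hg s ((mem_codeSets_iff s).mpr hc))

end Cfsg.Agent.S5549
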