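import Cfsg.Statements.S5550
import Cfsg.Agent.H42.Code

set_option autoImplicit false
set_option maxRecDepth 1000000
open Cfsg

namespace Cfsg.Agent.S5550

open Cfsg.Agent.H42
open scoped Pointwise

theorem exists_smul_fix {c : Finset GolayPt} (hc : c ∈ codeSets) {H : Subgroup M24}
    (h1 : ¬ 322560 ∣ Nat.card H) (h2 : ¬ 95040 ∣ Nat.card H) : ∃ g : M24, g • c = c ∧ g ∉ H := by
  by_contra h
  push Not at h
  have h3 := Subgroup.card_dvd_of_le (show MulAction.stabilizer M24 c ≤ H from h)
  have h4 : ∀ c' : Finset GolayPt, (∀ g : M24, g • c' = c' → g • c = c) → c' ∈ octads → False :=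
    fun c' h5 h6 => h1 (card_stab_octad h6 ▸ Subgroup.card_dvd_of_le fun g hg => h g (h5 g hg))
  rcases card_codeSets hc with e | e | e | e | e
  · exact h4 _ (fun g _ => by rw [Finset.card_eq_zero.mp e, Finset.smul_finset_empty]) oct0_mem
  · exact h4 _ (fun _ h => h) ((mem_octads_iff c).mpr ⟨hc, e⟩)
  · exact h2 (card_stab_dodecad ((mem_dodecads_iff c).mpr ⟨hc, e⟩) ▸ h3)
  · exact h4 _ (fun g h => compl_injective (by rw [← msmul_compl, h])) (compl_mem_octads hc e)
  · exact h4 _ (fun g _ => by rw [Finset.eq_univ_of_card c (e.trans card_pt.symm), msmul_univ])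
      oct0_mem

/-- Let u be a word of the length-24 binary Golay code of the definitions (possibly zero or all-ones) and w any binary word of length 24 outside the code. Then some automorphism of the code (a coordinate permutation preserving it) fixes u but moves w to a word not congruent to w modulo the code: the stabilizer of a codeword fixes no non-zero element of the quotient of the space of all words by the code. -/
theorem result (u : (Cfsg.GolayPt → ZMod 2)) (hu : u ∈ Cfsg.golayCode) (w : (Cfsg.GolayPt → ZMod 2)) (hw : w ∉ Cfsg.golayCode) : ∃ σ ∈ Cfsg.M24, (fun p => u (σ.symm p)) = u ∧ (fun p => w (σ.symm p)) - w ∉ Cfsg.golayCode := by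
  obtain ⟨c, rfl⟩ := exists_indWord u
  obtain ⟨s, rfl⟩ := exists_indWord w
  rw [← mem_codeSets_iff] at hu hw
  obtain ⟨t, ht, hc⟩ := exists_leader s
  have h0 : t.card ≠ 0 := fun e => hw (by
    rwa [Finset.card_eq_zero.mp e, ← Finset.bot_eq_empty, symmDiff_bot] at hc)
  suffices h : ∃ g : M24, g • c = c ∧ symmDiff t (g • t) ∉ codeSets by
    obtain ⟨g, h1, h2⟩ := h
    refine ⟨g, g.2, by rw [indWord_smul]; exact congrArg indWord h1, ?_⟩
    rw [indWord_smul, indWord_sub, ← mem_codeSets_iff, symmDiff_comm, symmDiff_mem_trans hc,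
      symmDiff_comm]
    have h3 := (msmul_mem_codeSets_iff g).mpr hc
    rw [msmul_symmDiff] at h3
    exact fun h4 => h2 (symmDiff_comm _ t ▸ (symmDiff_mem_trans h3).mp h4)
  by_cases h3 : t.card ≤ 3
  · obtain ⟨g, h1, h2⟩ := exists_smul_fix hu (H := MulAction.stabilizer M24 t) (by
      obtain e | e | e : t.card = 1 ∨ t.card = 2 ∨ t.card = 3 := by omega
      · obtain ⟨p, rfl⟩ := Finset.card_eq_one.mp e
        rw [MulAction.stabilizer_finset_singleton, card_stab_pt]; norm_num
      · rw [card_stab_duad e]; norm_num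
      · rw [card_stab_triad e]; norm_num) (by
      obtain e | e | e : t.card = 1 ∨ t.card = 2 ∨ t.card = 3 := by omega
      · obtain ⟨p, rfl⟩ := Finset.card_eq_one.mp e
        rw [MulAction.stabilizer_finset_singleton, card_stab_pt]; norm_num
      · rw [card_stab_duad e]; norm_num
      · rw [card_stab_triad e]; norm_num)
    exact ⟨g, h1, fun h => h2 (eq_of_symmDiff_mem h (by
      rw [Finset.card_smul_finset]; omega)).symm⟩
  · obtain ⟨S, hS, htS⟩ := exists_sextet_mem (show t.card = 4 by omega)
    obtain ⟨g, h1, h2⟩ := exists_smul_fix hu (H := MulAction.stabilizer M24 S)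
      (by rw [card_stab_sextet hS]; norm_num) (by rw [card_stab_sextet hS]; norm_num)
    exact ⟨g, h1, fun h => h2 (sextet_unique (msmul_mem_sextets g hS) hS
      (Finset.smul_mem_smul_finset htS) ((leader_four hS htS).mp
        ⟨by rwa [Finset.card_smul_finset], h⟩))⟩

end Cfsg.Agent.S5550
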