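import Cfsg.Statements.S5553
import Cfsg.Agent.H48.Order

set_option autoImplicit false
open Cfsg

namespace Cfsg.Agent.S5553

open Cfsg.Agent.H48

/-- The vectors of the lattice whose coordinates are even and all congruent modulo four. -/
def frameSub : AddSubgroup (Cfsg.GolayPt → ℤ) where
  carrier := {x | x ∈ Cfsg.leechLattice ∧ ∀ i, 2 ∣ x i ∧ 4 ∣ x i - x none}
  zero_mem' := ⟨zero_mem _, fun _ => by simp⟩
  add_mem' := fun {x y} h k => ⟨add_mem h.1 k.1, fun i => by
    have := h.2 i; have := k.2 i; simp only [Pi.add_apply]; omega⟩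
  neg_mem' := fun {x} h => ⟨neg_mem h.1, fun i => by
    have := h.2 i; simp only [Pi.neg_apply]; omega⟩

theorem fourD_le : fourD ≤ frameSub := fun x hx =>
  ⟨mem_of_four_dvd x hx.1 hx.2, fun i => by have := hx.1 i; have := hx.1 none; omega⟩

theorem mem_fourD {x : Cfsg.GolayPt → ℤ} (hx : x ∈ frameSub) (h : 4 ∣ x none) : x ∈ fourD :=
  ⟨fun i => by have := hx.2 i; omega, by
    have := (evenCond_of hx.1 none (by omega)).2.1; omega⟩

theorem two_smul_mem (v : Cfsg.GolayPt → ℤ) (hv : v ∈ Cfsg.leechLattice) :
    (2 : ℤ) • v ∈ frameSub :=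
  ⟨zsmul_mem hv _, fun i => by
    have := parity_eq hv i none
    simp only [Pi.smul_apply, smul_eq_mul]; omega⟩

theorem relIndex_frame : fourD.relIndex frameSub = 2 := by
  rw [AddSubgroup.relIndex_eq_two_iff_exists_notMem_and]
  have h5 : Cfsg.Spor.leechV.1 none = -5 := rfl
  refine ⟨_, two_smul_mem _ Cfsg.Spor.leechV.2, fun h => ?_, fun b hb => ?_⟩
  · have := h.1 none
    simp only [Pi.smul_apply, smul_eq_mul, h5] at this
    omega
  · by_cases h : 4 ∣ b none
    · exact Or.inr (mem_fourD hb h)
    · refine Or.inl (mem_fourD (add_mem hb (two_smul_mem _ Cfsg.Spor.leechV.2)) ?_)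
      have := (hb.2 none).1
      simp only [Pi.add_apply, Pi.smul_apply, smul_eq_mul, h5]
      omega

theorem sq_mod_two (a : ℤ) (h : a % 4 = 2) : 32 ∣ a ^ 2 - 4 := by
  obtain ⟨k, rfl⟩ : ∃ k, a = 4 * k + 2 := ⟨a / 4, by omega⟩
  obtain ⟨l, hl⟩ := Int.even_mul_succ_self k
  exact ⟨l, by linear_combination 16 * hl⟩

/-- The Leech lattice of the definitions has an additive subgroup A containing twice the lattice, of index 2^12 in the lattice, all of whose vectors have squared length divisible by 32: the invariant quadratic form 'squared length over 16 modulo 2' on the lattice modulo twice the lattice (a 24-dimensional space over the field with two elements) vanishes on a 12-dimensional subspace, so it is of plus type. -/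
theorem result : ∃ A : AddSubgroup (Cfsg.GolayPt → ℤ), A ≤ Cfsg.leechLattice ∧ (∀ v ∈ Cfsg.leechLattice, (2 : ℤ) • v ∈ A) ∧ (A.addSubgroupOf Cfsg.leechLattice).index = 2 ^ 12 ∧ ∀ v ∈ A, (32 : ℤ) ∣ Cfsg.sqNorm v := by
  refine ⟨frameSub, fun x hx => hx.1, two_smul_mem, ?_, fun v hv => ?_⟩
  · have h := AddSubgroup.relIndex_mul_relIndex fourD frameSub Cfsg.leechLattice fourD_le
      (fun x hx => hx.1)
    rw [relIndex_frame, relIndex_fourD_leech] at h
    show frameSub.relIndex Cfsg.leechLattice = _
    omega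
  · by_cases h : 4 ∣ v none
    · have h1 := mem_fourD hv h
      have h2 := Finset.dvd_sum (s := Finset.univ) fun i _ =>
        sq_mod_four_mul (v i) (by have := h1.1 i; omega)
      rw [Finset.sum_sub_distrib, ← Finset.mul_sum] at h2
      change 32 ∣ Cfsg.sqNorm v - _ at h2
      have := h1.2
      omega
    · have h2 := Finset.dvd_sum (s := Finset.univ) fun i _ =>
        sq_mod_two (v i) (by have := hv.2 i; have := hv.2 none; omega)
      rw [Finset.sum_sub_distrib, Finset.sum_const, Finset.card_univ, card_golayPt] at h2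
      change 32 ∣ Cfsg.sqNorm v - _ at h2
      simp only [nsmul_eq_mul, Nat.cast_ofNat] at h2
      omega

end Cfsg.Agent.S5553
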