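import Cfsg.Statements.S5566
import Cfsg.Agent.H83.J4W

set_option autoImplicit false
open Cfsg

namespace Cfsg.Agent.S5566

/-- Let G be a finite non-abelian simple group of Janko-four type (an involution z whose centralizer H has an extraspecial largest normal 2-subgroup E of order 2^13 containing its centralizer in H, a normal subgroup N ≥ E of H with N/E of order 3 and H/N the automorphism group of M₂₂, and a subgroup P ≤ N of order 3 with C_E(P) = ⟨z⟩, N_H(P) ≠ C_H(P) and P ≤ C_H(P)′). Then a Sylow 2-subgroup of G has exactly one elementary abelian subgroup of order 2^11. -/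
theorem result {G : Type*} [Group G] [Finite G] [IsSimpleGroup G] (hG : ¬ IsMulCommutative G) (hJ : Cfsg.IsOfJankoFourType G) (T : Sylow 2 G) :
    ∃! V : Subgroup G, V ≤ (T : Subgroup G) ∧ Cfsg.IsElementaryAbelian 2 V ∧ Nat.card ↥V = 2 ^ 11 := by
  obtain ⟨z, P, h⟩ := hJ
  obtain ⟨J0, -, -⟩ := H83.J4.exists_JA h
  obtain ⟨J, -⟩ := J0.exists_JY
  obtain ⟨g, -, hg⟩ := (H98.sylIn_top T).exists_conj_le le_top J.V_isPGroup
  have sq := H83.J4.cj_sq J.V_sq g
  have hc : Nat.card (H49.cj J.V g) = 2048 := by rw [H49.card_cj, J.card_V]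
  refine ⟨H49.cj J.V g, ⟨hg, ⟨⟨⟨fun a b => Subtype.ext (H83.J4.comm_of_sq' sq a.2 b.2)⟩⟩,
    fun a ha => by rw [pow_two, sq a ha]⟩, hc⟩, ?_⟩
  rintro E ⟨h1, h2, h3⟩
  exact J.uniqE T.isPGroup' h1 hg (fun x hx => by rw [← pow_two, h2.2 x hx]) sq (by rw [h3]; norm_num)
    hc.ge

end Cfsg.Agent.S5566
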