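import Cfsg.Statements.S5568
import Cfsg.Agent.H83.J4T

set_option autoImplicit false
open Cfsg

namespace Cfsg.Agent.S5568

/-- Let G be a finite non-abelian simple group of Janko-four type (an involution z whose centralizer H has an extraspecial largest normal 2-subgroup E of order 2^13 containing its centralizer in H, a normal subgroup N ≥ E of H with N/E of order 3 and H/N the automorphism group of M₂₂, and a subgroup P ≤ N of order 3 with C_E(P) = ⟨z⟩, N_H(P) ≠ C_H(P) and P ≤ C_H(P)′). Let V be an elementary abelian subgroup of G of order 2^11. Then under conjugation by the normalizer of V the non-identity elements of V fall into an orbit of length 1771 consisting of conjugates of z and an orbit of length 276 consisting of involutions t not conjugate to z, and for such t the centralizer of t in G lies in the normalizer of V. -/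
theorem result {G : Type*} [Group G] [Finite G] [IsSimpleGroup G] (hG : ¬ IsMulCommutative G) (z : G) (hJ : Cfsg.IsOfJankoFourTypeAt z) (V : Subgroup G) (hV : Cfsg.IsElementaryAbelian 2 V) (hcard : Nat.card ↥V = 2 ^ 11) :
    ∃ z' t : G, z' ∈ V ∧ t ∈ V ∧ t ≠ 1 ∧ IsConj z z' ∧ ¬ IsConj z t ∧
    Set.ncard {v : G | ∃ n ∈ Subgroup.normalizer (V : Set G), n * z' * n⁻¹ = v} = 1771 ∧
    Set.ncard {v : G | ∃ n ∈ Subgroup.normalizer (V : Set G), n * t * n⁻¹ = v} = 276 ∧
    Subgroup.centralizer ({t} : Set G) ≤ Subgroup.normalizer (V : Set G) := by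
  obtain ⟨P, h⟩ := hJ
  obtain ⟨J, rfl, -⟩ := H83.J4.exists_JL hG h
  obtain ⟨g, rfl⟩ := J.conjE (E := V) (fun x hx => by rw [← pow_two, hV.2 x hx]) (by rw [hcard]; norm_num)
  rw [← H83.J4.cj_normalizer]
  have key : ∀ x : G, Set.ncard {v : G | ∃ n ∈ H49.cj J.M g, n * (g * x * g⁻¹) * n⁻¹ = v} =
      Set.ncard {v : G | ∃ n ∈ J.M, n * x * n⁻¹ = v} := fun x => by
    refine (Set.ncard_congr (fun v _ => g * v * g⁻¹) ?_ (fun a b _ _ h => by simpa using h) ?_).symm
    · rintro _ ⟨n, hn, rfl⟩
      exact ⟨g * n * g⁻¹, H49.conj_mem_cj g hn, by group⟩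
    · rintro _ ⟨n, hn, rfl⟩
      exact ⟨_, ⟨_, H49.mem_cj.mp hn, rfl⟩, by group⟩
  refine ⟨g * J.z * g⁻¹, g * J.t * g⁻¹, H49.conj_mem_cj g J.z_mem_V, H49.conj_mem_cj g J.t_mem,
    by simpa using J.t_ne, isConj_iff.mpr ⟨g, rfl⟩, by rw [H83.J4.conj_cj]; exact J.t_B,
    by rw [key, J.ncard_A], by rw [key, J.ncard_B], ?_⟩
  rw [← H49.cj_centralizer_singleton]
  exact H49.cj_mono (fun c hc => J.cent_t (Subgroup.mem_centralizer_singleton_iff.mp hc)) g

end Cfsg.Agent.S5568
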