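import Cfsg.Statements.S5571
import Cfsg.Agent.H16.A10C
-- import your own Cfsg.Agent.* helpers here

set_option autoImplicit false
open Cfsg

namespace Cfsg.Agent.S5571

/-- Let G be a finite non-abelian simple group of Janko-four type (an involution z whose centralizer H has an extraspecial largest normal 2-subgroup E of order 2^13 containing its centralizer in H, a normal subgroup N ≥ E of H with N/E of order 3 and H/N the automorphism group of M₂₂, and a subgroup P ≤ N of order 3 with C_E(P) = ⟨z⟩, N_H(P) ≠ C_H(P) and P ≤ C_H(P)′). Let A be a self-centralizing elementary abelian subgroup of G of order 2^10. Then under conjugation by the normalizer of A the non-identity elements of A fall into two orbits, of lengths 155 and 868. -/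
theorem result {G : Type*} [Group G] [Finite G] [IsSimpleGroup G] (hG : ¬ IsMulCommutative G) (hJ : Cfsg.IsOfJankoFourType G) (A : Subgroup G) (hA : Cfsg.IsElementaryAbelian 2 A) (hcard : Nat.card ↥A = 2 ^ 10) (hself : Subgroup.centralizer (A : Set G) = A) :
    ∃ a b : G, a ∈ A ∧ b ∈ A ∧ Set.ncard {v : G | ∃ n ∈ Subgroup.normalizer (A : Set G), n * a * n⁻¹ = v} = 155 ∧
    Set.ncard {v : G | ∃ n ∈ Subgroup.normalizer (A : Set G), n * b * n⁻¹ = v} = 868 := by
  obtain ⟨B, -, h2, h3⟩ := H16.A10.main hG hJ
  obtain ⟨g, rfl⟩ := h3 A hA hcard hself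
  exact (h2.cj g).2

end Cfsg.Agent.S5571
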