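import Cfsg.Statements.S5600
import Cfsg.Agent.H42.Six

set_option autoImplicit false
set_option maxRecDepth 1000000
open scoped Pointwise
open Cfsg

namespace Cfsg.Agent.S5600

open Cfsg.Agent.H42

/-- Although the group of the length-24 code is only 5-transitive on the 24 points, it induces the full symmetric group on every 6-element subset: every permutation of a 6-set E is the restriction of an element of the group mapping E to itself. The pointwise stabiliser of E has order 16 when E lies in an octad and order 3 otherwise; in the latter case the setwise stabiliser of E has order 2160. -/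
theorem result (E : Finset Cfsg.GolayPt) (hE : E.card = 6) : (∀ σ : Equiv.Perm ↥E, ∃ g ∈ Cfsg.M24, ∀ p : ↥E, g p = σ p) ∧ ((∃ o ∈ Cfsg.octads, E ⊆ o) → Nat.card {g : Equiv.Perm Cfsg.GolayPt // g ∈ Cfsg.M24 ∧ ∀ p ∈ E, g p = p} = 16) ∧ ((¬ ∃ o ∈ Cfsg.octads, E ⊆ o) → Nat.card {g : Equiv.Perm Cfsg.GolayPt // g ∈ Cfsg.M24 ∧ ∀ p ∈ E, g p = p} = 3 ∧ Nat.card ↥(MulAction.stabilizer Cfsg.M24 E) = 2160) := by
  have hc : Nat.card {g : Equiv.Perm GolayPt // g ∈ M24 ∧ ∀ p ∈ E, g p = p} =
      Nat.card (fixingSubgroup M24 (E : Set GolayPt)) := Nat.card_congr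
    { toFun := fun g => ⟨⟨g.1, g.2.1⟩, fun p => g.2.2 p p.2⟩
      invFun := fun g => ⟨g.1, g.1.2, fun p hp => g.2 ⟨p, hp⟩⟩
      left_inv := fun _ => rfl
      right_inv := fun _ => rfl }
  refine ⟨fun σ => ?_, fun h => by rw [hc, card_fixing_six_in hE h], fun h =>
    ⟨by rw [hc, card_fixing_six_out hE h], ?_⟩⟩
  · obtain ⟨g, rfl⟩ := resHom_six_surjective hE σ
    exact ⟨g, g.1.2, fun _ => rfl⟩
  · rw [← card_range_mul_card_ker (resHom E (MulAction.stabilizer M24 E) le_rfl),
      MonoidHom.range_eq_top.mpr (resHom_six_surjective hE), Subgroup.card_top, card_perm_finset, hE,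
      card_ker_resHom E _ _ (fixingSubgroup M24 (E : Set GolayPt)) (fun g =>
      ⟨fun h => ⟨msmul_eq_of_forall (fun p hp => h ⟨p, hp⟩), fun p hp => h ⟨p, hp⟩⟩,
        fun h p => h.2 p p.2⟩), card_fixing_six_out hE h]
    rfl

end Cfsg.Agent.S5600
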