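import Cfsg.Statements.S5601
import Cfsg.Agent.H42.Cls

set_option autoImplicit false
set_option maxRecDepth 1000000
open scoped Pointwise
open Cfsg

namespace Cfsg.Agent.S5601

open Cfsg.Agent.H42

theorem exists_gen (X : Subgroup M24) (h : Nat.card X = 3) :
    ∃ x : M24, orderOf x = 3 ∧ X = Subgroup.zpowers x := by
  obtain ⟨⟨x, hx⟩, h1⟩ := exists_prime_orderOf_dvd_card' (G := X) 3 (by rw [h])
  rw [Subgroup.orderOf_mk] at h1
  exact ⟨x, h1, (Subgroup.eq_of_le_of_card_ge (Subgroup.zpowers_le_of_mem hx)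
    (by rw [h, Nat.card_zpowers, h1])).symm⟩

theorem ncard_fix (x : M24) :
    {p : GolayPt | ∀ y ∈ Subgroup.zpowers x, (y : Equiv.Perm GolayPt) p = p}.ncard =
      (fixSet x).card := by
  rw [← Set.ncard_coe_finset]
  congr 1
  ext p
  rw [Finset.mem_coe, mem_fixSet]
  exact ⟨fun h => h x (Subgroup.mem_zpowers x), fun h y hy =>
    Subgroup.zpowers_le_of_mem (H := MulAction.stabilizer M24 p) h hy⟩

theorem conj_zpowers (k x : M24) :
    MulAut.conj k • Subgroup.zpowers x = Subgroup.zpowers (k * x * k⁻¹) := by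
  exact MonoidHom.map_zpowers (MulAut.conj k).toMonoidHom x

/-- The group of the length-24 code has exactly two conjugacy classes of subgroups of order 3: a subgroup of order 3 fixes either exactly 6 of the 24 points or none of them, both cases occur, and two subgroups of order 3 with the same number of fixed points are conjugate. -/
theorem result : (∀ X : Subgroup ↥Cfsg.M24, Nat.card X = 3 → {p : Cfsg.GolayPt | ∀ x ∈ X, ((x : ↥Cfsg.M24) : Equiv.Perm Cfsg.GolayPt) p = p}.ncard = 6 ∨ {p : Cfsg.GolayPt | ∀ x ∈ X, ((x : ↥Cfsg.M24) : Equiv.Perm Cfsg.GolayPt) p = p}.ncard = 0) ∧ (∃ X : Subgroup ↥Cfsg.M24, Nat.card X = 3 ∧ {p : Cfsg.GolayPt | ∀ x ∈ X, ((x : ↥Cfsg.M24) : Equiv.Perm Cfsg.GolayPt) p = p}.ncard = 6) ∧ (∃ X : Subgroup ↥Cfsg.M24, Nat.card X = 3 ∧ {p : Cfsg.GolayPt | ∀ x ∈ X, ((x : ↥Cfsg.M24) : Equiv.Perm Cfsg.GolayPt) p = p}.ncard = 0) ∧ ∀ X Y : Subgroup ↥Cfsg.M24, Nat.card X = 3 → Nat.card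 Y = 3 → {p : Cfsg.GolayPt | ∀ x ∈ X, ((x : ↥Cfsg.M24) : Equiv.Perm Cfsg.GolayPt) p = p}.ncard = {p : Cfsg.GolayPt | ∀ x ∈ Y, ((x : ↥Cfsg.M24) : Equiv.Perm Cfsg.GolayPt) p = p}.ncard → ∃ k : ↥Cfsg.M24, MulAut.conj k • X = Y := by
  refine ⟨fun X hX => ?_, ⟨Subgroup.zpowers (toM a3), ?_, ?_⟩, ⟨Subgroup.zpowers (toM b3), ?_, ?_⟩,
    fun X Y hX hY h => ?_⟩
  · obtain ⟨x, hx, rfl⟩ := exists_gen X hX
    rw [ncard_fix]
    rcases three_classes hx with ⟨k, rfl⟩ | ⟨k, rfl⟩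
    · exact Or.inl (by rw [card_fixSet_conj, card_fixSet_a3])
    · exact Or.inr (by rw [card_fixSet_conj, card_fixSet_b3])
  · rw [Nat.card_zpowers, orderOf_a3]
  · rw [ncard_fix, card_fixSet_a3]
  · rw [Nat.card_zpowers, orderOf_b3]
  · rw [ncard_fix, card_fixSet_b3]
  · obtain ⟨x, hx, rfl⟩ := exists_gen X hX
    obtain ⟨y, hy, rfl⟩ := exists_gen Y hY
    rw [ncard_fix, ncard_fix] at h
    have key : ∀ u : M24, (∃ k : M24, k * u * k⁻¹ = x) → (∃ k : M24, k * u * k⁻¹ = y) →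
        ∃ k : M24, MulAut.conj k • Subgroup.zpowers x = Subgroup.zpowers y := fun u ⟨k, e⟩ ⟨k', e'⟩ =>
      ⟨k' * k⁻¹, by rw [conj_zpowers, ← e, ← e']; congr 1; group⟩
    by_cases h0 : (fixSet x).card = 0
    · exact key _ (conj_b3 hx h0) (conj_b3 hy (h ▸ h0))
    · exact key _ (conj_a3 hx h0) (conj_a3 hy (h ▸ h0))

end Cfsg.Agent.S5601
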