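import Cfsg.Statements.S5603
import Cfsg.Agent.H42.Cls

set_option autoImplicit false
set_option maxRecDepth 1000000
open scoped Pointwise
open Cfsg

namespace Cfsg.Agent.S5603

open Cfsg.Agent.H42

/-- A fixed-point-free element of order 3 of the group of the length-24 code maps to themselves exactly 7 sextets and exactly 15 trios. -/
theorem result (g : Equiv.Perm Cfsg.GolayPt) (hg : g ∈ Cfsg.M24) (h₃ : orderOf g = 3) (h₀ : ∀ p, g p ≠ p) : {S : Finset (Finset Cfsg.GolayPt) | S ∈ Cfsg.sextets ∧ g • S = S}.ncard = 7 ∧ {T : Finset (Finset Cfsg.GolayPt) | T ∈ Cfsg.trios ∧ g • T = T}.ncard = 15 := by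
  obtain ⟨k, e⟩ := conj_b3 ((orderOf_mk_M24 hg).trans h₃) (card_fixSet_eq_zero_iff.mpr h₀)
  have key : ∀ {X : Type} [MulAction (Equiv.Perm GolayPt) X] (T : Set X),
      (∀ x, k • x ∈ T ↔ x ∈ T) →
      {o | o ∈ T ∧ g • o = o}.ncard = {o | o ∈ T ∧ toM b3 • o = o}.ncard := fun T hT => by
    rw [← ncard_fix_conj T k _ hT, e]
    rfl
  refine ⟨?_, ?_⟩
  · rw [key _ fun _ => msmul_mem_sextets_iff k]
    exact ncard_fix_sext inM_b3 (by decide +kernel)
  · rw [key _ fun _ => msmul_mem_trios_iff k]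
    exact ncard_fix_trio inM_b3 (by decide +kernel)

end Cfsg.Agent.S5603
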