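import Cfsg.Statements.S5604
import Cfsg.Agent.H42.Idx3

set_option autoImplicit false
set_option maxRecDepth 1000000
open scoped Pointwise
open Cfsg

namespace Cfsg.Agent.S5604

open Cfsg.Agent.H42

open MulAction

/-- The trio fixed by the element of order 7. -/
def t7 : ℕ := 4436667145138420675665

/-- Generators of the normaliser. -/
def gensN : List ℕ := [44927128621318135618921599626566368, 17055099405637624749878882826529847]

theorem inM_gensN : ∀ g ∈ gensN, inM g = true := inM_of_allL (by decide +kernel)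

theorem isTrio_t7 : isTrio t7 = true := by decide +kernel

theorem L_eq : GD3 ⊓ stabilizer M24 (famDec 3 t7) = gen gensN :=
  (Subgroup.eq_of_le_of_card_ge (gen_le (GD3 ⊓ stabilizer M24 (famDec 3 t7)) fun g hg =>
    ⟨allL_fix_set inM_gensN triad0_lt (by decide +kernel) g hg,
      allL_fix_fam inM_gensN (by decide +kernel) g hg⟩) (by
    rw [card_gen_of_orbSize inM_gensN (fuel := 130) (n := 126) (by norm_num) (by decide +kernel)]
    exact (encFam 3).card_inf_stabilizer_le (gens := gensD3) inM_gensD3 GD3 gensD3_mem (x0 := t7)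
      (isTrio_famOk isTrio_t7) 1000 (n := 960) (by norm_num) (orbSize_fam (by decide +kernel))
      (by rw [card_stab_triad card_triad0]))).symm

theorem N_le : Subgroup.normalizer (Subgroup.zpowers (toM x7) : Set M24) ≤
    GD3 ⊓ stabilizer M24 (famDec 3 t7) := fun n hn => by
  have h1 : n ∈ GD3 := encSet.norm_smul_eq (fun _ h => h) (fun _ => rfl) inM_gens24 inM_x7
    (x0 := triad0) triad0_lt (by decide +kernel) (fuel := 2100)
    ((fastSet _ (fun a => orbAll a _ _ _)).trans (by decide +kernel))
    (by show n ∈ gen gens24; rw [gen_gens24]; trivial) hn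
  exact ⟨h1, (encFam 3).norm_smul_eq (fun _ h => h) (fun _ => rfl) inM_gensD3 inM_x7
    (x0 := t7) (isTrio_famOk isTrio_t7) (by decide +kernel) (fuel := 1000)
    ((fastFam _ _ (fun a => orbAll a _ _ _)).trans (by decide +kernel))
    (GD3_eq ▸ h1 : n ∈ gen gensD3) hn⟩

theorem card_N : Nat.card (Subgroup.normalizer (Subgroup.zpowers (toM x7) : Set M24)) = 126 := by
  rw [← top_inf_eq (Subgroup.normalizer _)]
  exact card_inf_normalizer L_eq inM_gensN le_top inM_x7 (inf_le_right.trans N_le) (fuel := 10)
    (fuel' := 130) (by decide +kernel)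

theorem mem_C {c x : M24} :
    c ∈ Subgroup.centralizer (Subgroup.zpowers x : Set M24) ↔ c * x = x * c := by
  rw [Subgroup.zpowers_eq_closure, Subgroup.centralizer_closure, mem_cent_iff]

theorem card_C : Nat.card (Subgroup.centralizer (Subgroup.zpowers (toM x7) : Set M24)) = 42 := by
  rw [← ncard_gen_filter inM_gensN (fuel := 130) (p := fun y => comm y x7) (m := 42)
    (by decide +kernel) (fun c => c * toM x7 = toM x7 * c) fun y hy => (comm_iff hy inM_x7).symm,
    ← SetLike.coe_sort_coe, Nat.card_coe_set_eq]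
  congr 1
  ext c
  exact ⟨fun h => ⟨L_eq ▸ N_le (Subgroup.centralizer_le_normalizer _ h), mem_C.mp h⟩,
    fun h => mem_C.mpr h.2⟩

/-- For a subgroup S of order 7 of the group of the length-24 code (a Sylow 7-subgroup): the normaliser of S has order 126, the centraliser of S has order 42 and is non-abelian, and the whole normaliser leaves some trio invariant. (These are the orders of a Frobenius group of order 21 times a symmetric group of degree 3; the isomorphism type itself is not asserted here.) -/
theorem result (S : Subgroup ↥Cfsg.M24) (hS : Nat.card S = 7) : Nat.card ↥(Subgroup.normalizer (S : Set ↥Cfsg.M24)) = 126 ∧ Nat.card ↥(Subgroup.centralizer (S : Set ↥Cfsg.M24)) = 42 ∧ (∃ x ∈ Subgroup.centralizer (S : Set ↥Cfsg.M24), ∃ y ∈ Subgroup.centralizer (S : Set ↥Cfsg.M24), x * y ≠ y * x) ∧ ∃ T ∈ Cfsg.trios, ∀ n ∈ Subgroup.normalizer (S : Set ↥Cfsg.M24), ((n : ↥Cfsg.M24) : Equiv.Perm Cfsg.GolayPt) • T = T := by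
  obtain ⟨⟨x, hx⟩, h1⟩ := exists_prime_orderOf_dvd_card' (G := S) 7 (by rw [hS])
  rw [Subgroup.orderOf_mk] at h1
  obtain ⟨k, -, h2⟩ := exists_cj_mem ⊤ (Subgroup.zpowers (toM x7)) (Subgroup.mem_top x) h1
    (by rw [card_G24]; norm_num) le_top (by rw [Nat.card_zpowers, orderOf_x7])
  have h3 : S = Subgroup.zpowers x := (Subgroup.eq_of_le_of_card_ge (Subgroup.zpowers_le_of_mem hx)
    (by rw [hS, Nat.card_zpowers, h1])).symm
  have h4 : S = cj k (Subgroup.zpowers (toM x7)) := h3.trans (Subgroup.eq_of_le_of_card_ge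
    (Subgroup.zpowers_le_of_mem h2) (by rw [card_cj, Nat.card_zpowers, Nat.card_zpowers, h1, orderOf_x7]))
  have hN : ∀ n : M24, n ∈ Subgroup.normalizer (Subgroup.zpowers (toM x7) : Set M24) ↔
      k * n * k⁻¹ ∈ Subgroup.normalizer (S : Set M24) := fun n => by
    rw [h4, Subgroup.mem_normalizer_iff, Subgroup.mem_normalizer_iff]
    symm
    rw [(MulAut.conj k).surjective.forall]
    simp only [MulAut.conj_apply, conj_inv, conj_mem_cj, conj_mul]
  have hC : ∀ n : M24, n ∈ Subgroup.centralizer (Subgroup.zpowers (toM x7) : Set M24) ↔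
      k * n * k⁻¹ ∈ Subgroup.centralizer (S : Set M24) := fun n => by
    rw [h4, Subgroup.mem_centralizer_iff, Subgroup.mem_centralizer_iff]
    symm
    rw [(MulAut.conj k).surjective.forall]
    simp only [MulAut.conj_apply, SetLike.mem_coe, conj_mem_cj, conj_mul, mul_left_inj, mul_right_inj]
  have ha : inM 13229977283479965048640866225326135 = true := by decide +kernel
  have hb : inM 56125572816864416320616838376144608 = true := by decide +kernel
  refine ⟨(card_eq_of_conj k _ _ hN).trans card_N, (card_eq_of_conj k _ _ hC).trans card_C,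
    ⟨_, (hC _).mp (mem_C.mpr ((comm_iff ha inM_x7).mp (by decide +kernel))), _,
      (hC _).mp (mem_C.mpr ((comm_iff hb inM_x7).mp (by decide +kernel))), fun h => ?_⟩,
    k • famDec 3 t7, msmul_mem_trios k (famDec_mem_trios isTrio_t7), fun n hn => ?_⟩
  · rw [conj_mul, conj_mul, mul_left_inj, mul_right_inj, ← comm_iff ha hb] at h
    exact absurd h (by decide +kernel)
  · obtain ⟨n, rfl⟩ := (MulAut.conj k).surjective n
    exact (conj_mem_stab1 k _ n).mp (N_le ((hN n).mpr hn)).2

end Cfsg.Agent.S5604
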