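import Cfsg.Statements.S5608
import Cfsg.Agent.H42.Cls

set_option autoImplicit false
set_option maxRecDepth 1000000
open scoped Pointwise
open Cfsg

namespace Cfsg.Agent.S5608

open Cfsg.Agent.H42

theorem key {u a n : ℕ} (hu : inM u = true) (ha : inM a = true) (hc : comm a u = true)
    (h3 : orbSize (actsOf pmul [a]) pid 5 = 3)
    (hK : ¬ 3 ^ (1 + 1) ∣ Nat.card (Subgroup.centralizer ({toM u} : Set M24)))
    (hall : orbAll (actsOf pmul [a]) pid 5
      (fun y => Bool.or (Nat.beq y pid) (Nat.beq (pc (fixM y)) n)) = true)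
    {x k : M24} (hx : orderOf x = 3) (h : Commute x (k * toM u * k⁻¹)) : (fixSet x).card = n := by
  have ha' : ∀ g ∈ [a], inM g = true := by simpa using ha
  have h1 : k⁻¹ * x * k ∈ Subgroup.centralizer ({toM u} : Set M24) := by
    rw [conj_mem_cent k, mem_cent_iff]
    simpa [mul_assoc] using h.eq
  have h2 : orderOf (k⁻¹ * x * k) = 3 := by
    simpa using (orderOf_conj' k⁻¹ x).trans hx
  obtain ⟨c, -, y, hy, e, h4⟩ := exists_conj_enum (p := 3) (a := 1) _ ha'
    (allL_comm ha' hu (by simpa [allL_iff] using hc)) (card_gen_of_orbSize ha' (by norm_num) h3) hK hall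
    h1 (pow_eq_one_of_orderOf h2)
  have h5 : (fixSet (toM y)).card = (fixSet x).card := by
    rw [e, card_fixSet_conj]
    simpa using card_fixSet_conj k⁻¹ x
  rw [Bool.or_eq_true, beq_iff, beq_iff] at h4
  rcases h4 with rfl | h4
  · rw [toM_pid] at e
    rw [← orderOf_conj' c, ← e, orderOf_one] at h2
    exact absurd h2 (by norm_num)
  · rw [← h5, card_fixSet_toM hy, h4]

/-- If an element of order 3 and an involution of the group of the length-24 code commute, then either the element of order 3 has exactly 6 fixed points and the involution exactly 8, or both are fixed-point-free. -/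
theorem result (x s : Equiv.Perm Cfsg.GolayPt) (hx : x ∈ Cfsg.M24) (hs : s ∈ Cfsg.M24) (h₃ : orderOf x = 3) (h₂ : orderOf s = 2) (hc : Commute x s) : ((Finset.univ.filter fun p => x p = p).card = 6 ∧ (Finset.univ.filter fun p => s p = p).card = 8) ∨ ((Finset.univ.filter fun p => x p = p).card = 0 ∧ (Finset.univ.filter fun p => s p = p).card = 0) := by
  have h3 := (orderOf_mk_M24 hx).trans h₃
  have hc' : Commute (⟨x, hx⟩ : M24) ⟨s, hs⟩ := Subtype.ext hc.eq
  rcases invol_classes ((orderOf_mk_M24 hs).trans h₂) with ⟨k, e⟩ | ⟨k, e⟩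
  · refine Or.inl ⟨key inM_z24 inM_a3 (by decide +kernel) (by decide +kernel)
      (by rw [card_CZ]; norm_num) (by decide +kernel) h3 (e ▸ hc'), ?_⟩
    show (fixSet ⟨s, hs⟩).card = 8
    rw [← e, card_fixSet_conj, card_fixSet_z24]
  · refine Or.inr ⟨key inM_t24 inM_b3 (by decide +kernel) (by decide +kernel)
      (by rw [card_CT]; norm_num) (by decide +kernel) h3 (e ▸ hc'), ?_⟩
    show (fixSet ⟨s, hs⟩).card = 0
    rw [← e, card_fixSet_conj, card_fixSet_t24]

end Cfsg.Agent.S5608
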