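import Cfsg.Statements.S5609
import Cfsg.Agent.H42.More

set_option autoImplicit false
set_option maxRecDepth 1000000
open scoped Pointwise
open Cfsg

namespace Cfsg.Agent.S5609

open Cfsg.Agent.H42

theorem adj_iff {a b : octads} : (blockGraph octads).Adj a b ↔ Disjoint (a : Finset GolayPt) b := by
  rw [blockGraph, SimpleGraph.fromRel_adj]
  refine ⟨fun h => h.2.elim id fun h => h.symm, fun h => ⟨fun e => ?_, Or.inl h⟩⟩
  rw [e, disjoint_self, Finset.bot_eq_empty] at h
  have := b.2.2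
  rw [h] at this
  exact absurd this (by decide)

theorem oct {n : ℕ} (h : isOct n = true) (g : M24) : g • toSet n ∈ octads :=
  (msmul_mem_octads_iff g).mpr (toSet_mem_octads h)

theorem dis {m n : ℕ} (hm : m < 2 ^ 24) (h : Nat.land m n = 0) (g : M24) :
    Disjoint (g • toSet m) (g • toSet n) :=
  (disjoint_msmul g).mpr ((toSet_disjoint_iff n hm).mpr h)

theorem walk2 {a b : octads} (h : ((a : Finset GolayPt) ∩ b).card = 4) :
    ∃ w : (blockGraph octads).Walk a b, w.length = 2 := by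
  obtain ⟨a, ha⟩ := a
  obtain ⟨b, hb⟩ := b
  obtain ⟨g, rfl, rfl⟩ := exists_smul_octad_pair' oct0_mem oct5_mem ha hb
    (by rw [h, card_toSet_inter _ oct0_lt]; decide +kernel)
  exact ⟨.cons (v := ⟨_, oct (n := 4038912) (by decide +kernel) g⟩) (adj_iff.mpr (dis oct0_lt (by decide) g))
    (.cons (adj_iff.mpr (dis (by norm_num) (by decide) g)) .nil), rfl⟩

theorem pair2 {a b : Finset GolayPt} (ha : a ∈ octads) (hb : b ∈ octads) (h : (a ∩ b).card = 2) :
    ∃ g : M24, g • toSet oct0 = a ∧ g • toSet 15777 = b :=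
  exists_smul_octad_pair' oct0_mem (toSet_mem_octads (by decide +kernel)) ha hb
    (by rw [h, card_toSet_inter _ oct0_lt]; decide +kernel)

theorem walk3 {a b : octads} (h : ((a : Finset GolayPt) ∩ b).card = 2) :
    ∃ w : (blockGraph octads).Walk a b, w.length = 3 := by
  obtain ⟨a, ha⟩ := a
  obtain ⟨b, hb⟩ := b
  obtain ⟨g, rfl, rfl⟩ := pair2 ha hb h
  exact ⟨.cons (v := ⟨_, oct (n := 5780352) (by decide +kernel) g⟩) (adj_iff.mpr (dis oct0_lt (by decide) g))
    (.cons (v := ⟨_, oct (n := 2605066) (by decide +kernel) g⟩) (adj_iff.mpr (dis (by norm_num) (by decide) g))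
      (.cons (adj_iff.mpr (dis (by norm_num) (by decide) g)) .nil)), rfl⟩

theorem no2 {a b c : Finset GolayPt} (ha : a ∈ octads) (hb : b ∈ octads) (hc : c ∈ octads)
    (h : (a ∩ b).card = 2) (h1 : Disjoint a c) (h2 : Disjoint c b) : False := by
  obtain ⟨g, rfl, rfl⟩ := pair2 ha hb h
  obtain ⟨c, rfl⟩ := MulAction.surjective g c
  obtain ⟨n, hn, rfl, h3⟩ := forall_octads (p := fun c => !Nat.beq (Nat.land c (Nat.lor oct0 15777)) 0)
    (by decide +kernel) ((msmul_mem_octads_iff g).mp hc)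
  rw [Bool.not_eq_true', beq_false_iff, Ne, ← toSet_disjoint_iff _ (isOct_lt hn), toSet_lor,
    Finset.disjoint_union_right] at h3
  exact h3 ⟨((disjoint_msmul g).mp h1).symm, (disjoint_msmul g).mp h2⟩

theorem conn : (blockGraph octads).Connected := by
  have : Nonempty octads := ⟨⟨_, oct0_mem⟩⟩
  refine ⟨fun a b => ?_⟩
  rcases card_inter_octads a.2 b.2 with h | h | h | h
  · exact (adj_iff.mpr (Finset.disjoint_iff_inter_eq_empty.mpr (Finset.card_eq_zero.mp h))).reachable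
  · exact (walk3 h).elim fun w _ => ⟨w⟩
  · exact (walk2 h).elim fun w _ => ⟨w⟩
  · rw [Subtype.ext h]

/-- In the graph on the 759 octads of the length-24 code in which two octads are adjacent when they are disjoint, the graph is connected (of diameter 3) and two distinct octads are at distance 1, 2 or 3 exactly when they meet in 0, 4 or 2 points respectively. -/
theorem result (o o' : Finset Cfsg.GolayPt) (ho : o ∈ Cfsg.octads) (ho' : o' ∈ Cfsg.octads) (hne : o ≠ o') : (Cfsg.blockGraph Cfsg.octads).Connected ∧ ((Cfsg.blockGraph Cfsg.octads).dist ⟨o, ho⟩ ⟨o', ho'⟩ = 1 ↔ (o ∩ o').card = 0) ∧ ((Cfsg.blockGraph Cfsg.octads).dist ⟨o, ho⟩ ⟨o', ho'⟩ = 2 ↔ (o ∩ o').card = 4) ∧ ((Cfsg.blockGraph Cfsg.octads).dist ⟨o, ho⟩ ⟨o', ho'⟩ = 3 ↔ (o ∩ o').card = 2) := by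
  have h0 : (blockGraph octads).dist ⟨o, ho⟩ ⟨o', ho'⟩ ≠ 0 := fun h =>
    hne (congrArg Subtype.val (conn.dist_eq_zero_iff.mp h))
  have h1 : (blockGraph octads).dist ⟨o, ho⟩ ⟨o', ho'⟩ = 1 ↔ (o ∩ o').card = 0 := by
    rw [SimpleGraph.dist_eq_one_iff_adj, adj_iff, Finset.disjoint_iff_inter_eq_empty,
      Finset.card_eq_zero]
  have h2 : (o ∩ o').card = 4 → (blockGraph octads).dist ⟨o, ho⟩ ⟨o', ho'⟩ = 2 := fun h => by
    obtain ⟨w, hw⟩ := walk2 (a := ⟨o, ho⟩) (b := ⟨o', ho'⟩) h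
    have := SimpleGraph.dist_le w
    omega
  have h3 : (o ∩ o').card = 2 → (blockGraph octads).dist ⟨o, ho⟩ ⟨o', ho'⟩ = 3 := fun h => by
    obtain ⟨w, hw⟩ := walk3 (a := ⟨o, ho⟩) (b := ⟨o', ho'⟩) h
    have h4 := SimpleGraph.dist_le w
    have h5 : (blockGraph octads).dist ⟨o, ho⟩ ⟨o', ho'⟩ ≠ 2 := fun h5 => by
      obtain ⟨w', hw'⟩ := (conn.preconnected ⟨o, ho⟩ ⟨o', ho'⟩).exists_walk_length_eq_dist
      rw [h5] at hw'
      have e1 := w'.adj_getVert_succ (i := 0) (by omega)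
      have e2 := w'.adj_getVert_succ (i := 1) (by omega)
      rw [w'.getVert_zero] at e1
      rw [show 1 + 1 = w'.length by omega, w'.getVert_length] at e2
      exact no2 ho ho' (w'.getVert 1).2 h (adj_iff.mp e1) (adj_iff.mp e2)
    omega
  refine ⟨conn, h1, ⟨fun h => ?_, h2⟩, ⟨fun h => ?_, h3⟩⟩ <;>
    rcases card_inter_octads ho ho' with h4 | h4 | h4 | h4 <;> first | exact absurd h4 hne | omega

end Cfsg.Agent.S5609
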