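import Cfsg.Statements.S5610
import Cfsg.Agent.H42.Decomp

set_option autoImplicit false
set_option maxRecDepth 1000000
open scoped Pointwise
open Cfsg

namespace Cfsg.Agent.S5610

open Cfsg.Agent.H42

theorem cls1 : Classes GO trios (fun x => (MulAction.orbit GO x).ncard)
    (decReps (famDec 3) [(2402701715425661395200, 15, 15), (2362080938057826935040, 420, 420), (2362080943076328149130, 3360, 3360)]) :=
  classes_size_trio inM_gensO GO GO_eq _ (by decide +kernel) (by decide +kernel)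
    (by decide) (by decide)

theorem cls2 : Classes GO sextets (fun x => (MulAction.orbit GO x).ncard)
    (decReps (famDec 6) [(11150382242010895008167239022564679587348520, 35, 35), (11150480600348833388627021870329969961339940, 840, 840), (11150398192745892532567903276847130220724640, 896, 896)]) :=
  classes_size_sext inM_gensO GO GO_eq _ (by decide +kernel) (by decide +kernel)
    (by decide) (by decide)

/-- The stabiliser of an octad in the group of the length-24 code has exactly three orbits on the 3795 trios, of sizes 15, 420 and 3360, and exactly three orbits on the 1771 sextets, of sizes 35, 840 and 896. -/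
theorem result (o : Finset Cfsg.GolayPt) (ho : o ∈ Cfsg.octads) : (∃ X₁ ∈ Cfsg.trios, ∃ X₂ ∈ Cfsg.trios, ∃ X₃ ∈ Cfsg.trios, (MulAction.orbit ↥(MulAction.stabilizer Cfsg.M24 o) X₁).ncard = 15 ∧ (MulAction.orbit ↥(MulAction.stabilizer Cfsg.M24 o) X₂).ncard = 420 ∧ (MulAction.orbit ↥(MulAction.stabilizer Cfsg.M24 o) X₃).ncard = 3360 ∧ Cfsg.trios = MulAction.orbit ↥(MulAction.stabilizer Cfsg.M24 o) X₁ ∪ MulAction.orbit ↥(MulAction.stabilizer Cfsg.M24 o) X₂ ∪ MulAction.orbit ↥(MulAction.stabilizer Cfsg.M24 o) X₃) ∧ (∃ Y₁ ∈ Cfsg.sextets, ∃ Y₂ ∈ Cfsg.sextets, ∃ Y₃ ∈ Cfsg.sextets, (MulAction.orbit ↥(MulAction.stabilizer Cfsg.M24 o) Y₁).ncard = 35 ∧ (MulAction.orbit ↥(MulAction.stabilizer Cfsg.M24 o) Y₂).ncard = 840 ∧ (MulAction.orbit ↥(MulAction.stabilizer Cfsg.M24 o) Y₃).ncard = 896 ∧ Cfsg.sextets = MulAction.orbit ↥(MulAction.stabilizer Cfsg.M24 o) Y₁ ∪ MulAction.orbit ↥(MulAction.stabilizer Cfsg.M24 o) Y₂ ∪ MulAction.orbit ↥(MulAction.stabilizer Cfsg.M24 o) Y₃) := by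
  obtain ⟨g, rfl⟩ := exists_smul_oct0 ho
  exact ⟨(cls1.stab_smul g (fun _ => msmul_mem_trios_iff g)).exists3,
    (cls2.stab_smul g (fun _ => msmul_mem_sextets_iff g)).exists3⟩

end Cfsg.Agent.S5610
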