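import Cfsg.Statements.S5611
import Cfsg.Agent.H42.Decomp

set_option autoImplicit false
set_option maxRecDepth 1000000
open scoped Pointwise
open Cfsg

namespace Cfsg.Agent.S5611

open Cfsg.Agent.H42

theorem cls1 : Classes GS octads (fun x => (MulAction.orbit GS x).ncard)
    (decReps (toSet) [(416040, 15, 15), (10558, 360, 360), (5279, 384, 384)]) :=
  classes_size_oct inM_gensS GS GS_eq _ (by decide +kernel) (by decide +kernel)
    (by decide) (by decide)

theorem cls2 : Classes GS trios (fun x => (MulAction.orbit GS x).ncard)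
    (decReps (famDec 3) [(2402701721035962091200, 15, 15), (2362978578609961058565, 180, 180), (2362978561705054675200, 720, 720), (2362080938057826935040, 2880, 2880)]) :=
  classes_size_trio inM_gensS GS GS_eq _ (by decide +kernel) (by decide +kernel)
    (by decide) (by decide)

/-- The stabiliser of a sextet in the group of the length-24 code has exactly three orbits on the 759 octads, of sizes 15, 360 and 384, and exactly four orbits on the 3795 trios, of sizes 15, 180, 720 and 2880. -/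
theorem result (S : Finset (Finset Cfsg.GolayPt)) (hS : S ∈ Cfsg.sextets) : (∃ X₁ ∈ Cfsg.octads, ∃ X₂ ∈ Cfsg.octads, ∃ X₃ ∈ Cfsg.octads, (MulAction.orbit ↥(MulAction.stabilizer Cfsg.M24 S) X₁).ncard = 15 ∧ (MulAction.orbit ↥(MulAction.stabilizer Cfsg.M24 S) X₂).ncard = 360 ∧ (MulAction.orbit ↥(MulAction.stabilizer Cfsg.M24 S) X₃).ncard = 384 ∧ Cfsg.octads = MulAction.orbit ↥(MulAction.stabilizer Cfsg.M24 S) X₁ ∪ MulAction.orbit ↥(MulAction.stabilizer Cfsg.M24 S) X₂ ∪ MulAction.orbit ↥(MulAction.stabilizer Cfsg.M24 S) X₃) ∧ (∃ Y₁ ∈ Cfsg.trios, ∃ Y₂ ∈ Cfsg.trios, ∃ Y₃ ∈ Cfsg.trios, ∃ Y₄ ∈ Cfsg.trios, (MulAction.orbit ↥(MulAction.stabilizer Cfsg.M24 S) Y₁).ncard = 15 ∧ (MulAction.orbit ↥(MulAction.stabilizer Cfsg.M24 S) Y₂).ncard = 180 ∧ (MulAction.orbit ↥(MulAction.stabilizer Cfsg.M24 S) Y₃).ncard = 720 ∧ (MulAction.orbit ↥(MulAction.stabilizer Cfsg.M24 S) Y₄).ncard = 2880 ∧ Cfsg.trios = MulAction.orbit ↥(MulAction.stabilizer Cfsg.M24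 S) Y₁ ∪ MulAction.orbit ↥(MulAction.stabilizer Cfsg.M24 S) Y₂ ∪ MulAction.orbit ↥(MulAction.stabilizer Cfsg.M24 S) Y₃ ∪ MulAction.orbit ↥(MulAction.stabilizer Cfsg.M24 S) Y₄) := by
  obtain ⟨g, rfl⟩ := exists_smul_sext0 hS
  exact ⟨(cls1.stab_smul g (fun _ => msmul_mem_octads_iff g)).exists3,
    (cls2.stab_smul g (fun _ => msmul_mem_trios_iff g)).exists4⟩

end Cfsg.Agent.S5611
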