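import Cfsg.Statements.S5612
import Cfsg.Agent.H42.Decomp

set_option autoImplicit false
set_option maxRecDepth 1000000
open scoped Pointwise
open Cfsg

namespace Cfsg.Agent.S5612

open Cfsg.Agent.H42

theorem cls1 : Classes GT octads (fun x => (MulAction.orbit GT x).ncard)
    (decReps (toSet) [(1351424, 3, 3), (52005, 84, 84), (5279, 672, 672)]) :=
  classes_size_oct inM_gensT GT GT_eq _ (by decide +kernel) (by decide +kernel)
    (by decide) (by decide)

theorem cls2 : Classes GT sextets (fun x => (MulAction.orbit GT x).ncard)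
    (decReps (famDec 6) [(11150382242010895008167239022564679587348520, 7, 7), (11150387722154438044499046504969320890639680, 84, 84), (11150480600348833388627021870329969961339940, 336, 336), (11150398192745892532567903276847130220724640, 1344, 1344)]) :=
  classes_size_sext inM_gensT GT GT_eq _ (by decide +kernel) (by decide +kernel)
    (by decide) (by decide)

/-- The stabiliser of a trio in the group of the length-24 code has exactly three orbits on the 759 octads, of sizes 3, 84 and 672, and exactly four orbits on the 1771 sextets, of sizes 7, 84, 336 and 1344. -/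
theorem result (T : Finset (Finset Cfsg.GolayPt)) (hT : T ∈ Cfsg.trios) : (∃ X₁ ∈ Cfsg.octads, ∃ X₂ ∈ Cfsg.octads, ∃ X₃ ∈ Cfsg.octads, (MulAction.orbit ↥(MulAction.stabilizer Cfsg.M24 T) X₁).ncard = 3 ∧ (MulAction.orbit ↥(MulAction.stabilizer Cfsg.M24 T) X₂).ncard = 84 ∧ (MulAction.orbit ↥(MulAction.stabilizer Cfsg.M24 T) X₃).ncard = 672 ∧ Cfsg.octads = MulAction.orbit ↥(MulAction.stabilizer Cfsg.M24 T) X₁ ∪ MulAction.orbit ↥(MulAction.stabilizer Cfsg.M24 T) X₂ ∪ MulAction.orbit ↥(MulAction.stabilizer Cfsg.M24 T) X₃) ∧ (∃ Y₁ ∈ Cfsg.sextets, ∃ Y₂ ∈ Cfsg.sextets, ∃ Y₃ ∈ Cfsg.sextets, ∃ Y₄ ∈ Cfsg.sextets, (MulAction.orbit ↥(MulAction.stabilizer Cfsg.M24 T) Y₁).ncard = 7 ∧ (MulAction.orbit ↥(MulAction.stabilizer Cfsg.M24 T) Y₂).ncard = 84 ∧ (MulAction.orbit ↥(MulAction.stabilizer Cfsg.M24 T) Y₃).ncard = 336 ∧ (MulAction.orbit ↥(MulAction.stabilizer Cfsg.M24 T) Y₄).ncard = 1344 ∧ Cfsg.sextets = MulAction.orbit ↥(MulAction.stabilizer Cfsg.M24 T) Y₁ ∪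 MulAction.orbit ↥(MulAction.stabilizer Cfsg.M24 T) Y₂ ∪ MulAction.orbit ↥(MulAction.stabilizer Cfsg.M24 T) Y₃ ∪ MulAction.orbit ↥(MulAction.stabilizer Cfsg.M24 T) Y₄) := by
  obtain ⟨g, rfl⟩ := exists_smul_trio0 hT
  exact ⟨(cls1.stab_smul g (fun _ => msmul_mem_octads_iff g)).exists3,
    (cls2.stab_smul g (fun _ => msmul_mem_sextets_iff g)).exists4⟩

end Cfsg.Agent.S5612
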