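import Cfsg.Statements.S5614
import Cfsg.Agent.H42.Six
import Cfsg.Agent.S5613

set_option autoImplicit false
set_option maxRecDepth 1000000
open scoped Pointwise
open Cfsg

namespace Cfsg.Agent.S5614

open Cfsg.Agent.H42

/-- In the group of the length-24 code, the joint stabiliser of two octads meeting in exactly two points is isomorphic to the symmetric group of degree 6. -/
theorem result (o o' : Finset Cfsg.GolayPt) (ho : o ∈ Cfsg.octads) (ho' : o' ∈ Cfsg.octads) (h₂ : (o ∩ o').card = 2) : Nonempty (↥(MulAction.stabilizer Cfsg.M24 o ⊓ MulAction.stabilizer Cfsg.M24 o') ≃* Equiv.Perm (Fin 6)) := by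
  have hc : (o \ o').card = 6 := by
    have := Finset.card_sdiff_add_card_inter o o'
    rw [ho.2] at this
    omega
  refine equiv_perm_of_faithful (o \ o') hc _ (fun g hg => ?_) (fun g hg h => ?_)
    (by rw [(S5613.result o o' ho ho').2.2 h₂]; rfl)
  · show g • (o \ o') = o \ o'
    rw [Finset.smul_finset_sdiff, hg.1, hg.2]
  · have h0 : toSet 2019456 ∈ octads := toSet_mem_octads (by decide +kernel)
    obtain ⟨a, rfl, rfl⟩ := exists_smul_octad_pair' oct5_mem h0 ho ho'
      (by rw [h₂, card_toSet_inter _ (by norm_num)]; decide +kernel)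
    have h1 : a⁻¹ * g * a ∈ fixS 31 := mem_fixS.mpr fun p hp => by
      rw [mul_smul, mul_smul, h, inv_smul_smul]
      rw [← Finset.smul_finset_sdiff, msmul_mem_msmul, ← toSet_sdiff]
      exact (toSet_subset_iff _ (by norm_num)).mpr (by decide) hp
    have h2 : a⁻¹ * g * a ∈ MulAction.stabilizer M24 (toSet 2019456) := by
      rw [MulAction.mem_stabilizer_iff, mul_smul, mul_smul, show g • a • toSet 2019456 = _ from hg.2,
        inv_smul_smul]
    have h3 : a⁻¹ * g * a ∈ MulAction.stabilizer M24 (pt 10) := by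
      rw [MulAction.mem_stabilizer_iff, mul_smul, mul_smul, h, inv_smul_smul]
      rw [← Finset.smul_finset_sdiff, msmul_mem_msmul, ← toSet_sdiff, pt_mem_toSet (by norm_num)]
      decide
    obtain ⟨y, hy, e, hp⟩ := forall_K5 (p := fun y => Bool.or (Nat.beq y pid)
      (!(Bool.and (Nat.beq (app y 10) 10) (Nat.beq (img y 2019456) 2019456)))) (by decide +kernel) h1
    rw [← e, toM_mem_stabilizer_toSet hy (by norm_num)] at h2
    rw [← e, toM_mem_stabilizer_pt hy (by norm_num)] at h3
    simp only [h2, h3, Nat.beq_refl, Bool.and_self, Bool.not_true, Bool.or_false, beq_iff] at hp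
    rw [hp, toM_pid] at e
    calc g = a * (a⁻¹ * g * a) * a⁻¹ := by group
      _ = 1 := by rw [← e]; group

end Cfsg.Agent.S5614
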