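import Cfsg.Statements.S5615
import Cfsg.Agent.H42.More

set_option autoImplicit false
set_option maxRecDepth 1000000
open scoped Pointwise
open Cfsg

namespace Cfsg.Agent.S5615

open Cfsg.Agent.H42

/-- The trios through the standard octad. -/
noncomputable def A : Finset (Finset (Finset GolayPt)) :=
  (Set.toFinite {T | T ∈ trios ∧ toSet oct0 ∈ T}).toFinset

theorem mem_A {T : Finset (Finset GolayPt)} : T ∈ A ↔ T ∈ trios ∧ toSet oct0 ∈ T := by
  simp [A]

theorem mem_fam {k c n : ℕ} (hn : n < 2 ^ 24) :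
    toSet n ∈ famDec k c ↔ anyB (fun i => Nat.beq (fld 24 c i) n) k = true := by
  simp only [mem_famDec, anyB_iff, beq_iff, toSet_eq_iff (fld24_lt _ _) hn]

theorem ncard_A : {T | T ∈ trios ∧ toSet oct0 ∈ T}.ncard = 15 := by
  rw [← orbit_trio0, orbit_M24_eq]
  exact (encFam 3).ncard_orbit_filter (gens := gens24) inM_gens24 (x0 := trio0) famOk_trio0
    (fuel := 3800) (p := fun c => anyB (fun i => Nat.beq (fld 24 c i) oct0) 3)
    ((fastFam 3 gens24 (fun a => orbCnt a trio0 3800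
      (fun c => anyB (fun i => Nat.beq (fld 24 c i) oct0) 3) 15)).trans (by decide +kernel))
    (fun T => toSet oct0 ∈ T) (fun y _ => mem_fam oct0_lt)

theorem card_A : A.card = 15 := by
  rw [← ncard_A, A, Set.ncard_eq_toFinset_card]

theorem two_trans (x y : Fin 2 → Finset (Finset GolayPt)) (hx : Function.Injective x)
    (hx' : ∀ i, x i ∈ A) (hy : Function.Injective y) (hy' : ∀ i, y i ∈ A) :
    ∃ g ∈ GO, ∀ i, g • x i = y i := by
  have hv : ∀ i < 2, isTrio (fld 72 11346438075753439747745976091418004702470400 i) = true := by decide +kernel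
  have h := (encPi (encFam 3) 72 2 (fun _ h => (famOk_iff.mp h).1)).card_inf_stabilizer_le
    (gens := gensO) inM_gensO GO gensO_mem (x0 := 11346438075753439747745976091418004702470400)
    ⟨by decide +kernel, fun i hi => isTrio_famOk (hv i hi)⟩ 250 (n := 210) (m := 1536)
    (by norm_num) (by decide +kernel) (by rw [card_stab_octad oct0_mem])
  refine exists_smul_tuple_of_card GO A (fun g hg T hT => mem_A.mpr ⟨msmul_mem_trios g (mem_A.mp hT).1,
    (show g • toSet oct0 = _ from hg) ▸ Finset.smul_mem_smul_finset (mem_A.mp hT).2⟩)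
    ((encPi (encFam 3) 72 2 (fun _ h => (famOk_iff.mp h).1)).dec 11346438075753439747745976091418004702470400)
    ((encFam 3).dec_injective (fun i : Fin 2 => fld 72 11346438075753439747745976091418004702470400 i)
      (fun i => isTrio_famOk (hv i i.2)) (by decide +kernel))
    (fun i => mem_A.mpr ⟨famDec_mem_trios (hv i i.2), (mem_fam oct0_lt).mpr (by
      revert i; decide +kernel)⟩) ?_ x y hx hx' hy hy'
  rw [card_A, card_stab_octad oct0_mem]
  exact (Nat.mul_le_mul_left _ h).trans (by decide)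

theorem fix_trios {o : Finset GolayPt} (ho : o ∈ octads) {g : M24} (hg : ∀ p ∈ o, g • p = p)
    {T : Finset (Finset GolayPt)} (hT : T ∈ trios) (hoT : o ∈ T) : g • T = T := by
  obtain ⟨o', ho', hne⟩ := Finset.exists_mem_ne (show 1 < T.card by rw [hT.1]; norm_num) o
  have h1 : g • o = o := msmul_eq_of_forall hg
  have h2 := msmul_mem_trios g hT
  have h3 : o ∈ g • T := h1 ▸ Finset.smul_mem_smul_finset hoT
  obtain ⟨a, rfl, rfl⟩ := exists_smul_octad_pair' oct0_mem (toSet_mem_octads (n := 1351424)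
    (by decide +kernel)) ho (hT.2.1 o' ho') (by
      rw [Finset.disjoint_iff_inter_eq_empty.mp (hT.2.2 _ hoT _ ho' hne.symm),
        card_toSet_inter _ oct0_lt]
      decide +kernel)
  have h4 : T = a • famDec 3 trio0 := by
    have h5 := msmul_mem_trios a trio0_mem
    rw [trio_eq hT hoT ho' hne.symm, trio_eq h5
      (Finset.smul_mem_smul_finset ((mem_fam oct0_lt).mpr (by decide +kernel)))
      (Finset.smul_mem_smul_finset ((mem_fam (n := 1351424) (by norm_num)).mpr (by decide +kernel)))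
      hne.symm]
  have h5 : a⁻¹ * g * a ∈ fixS oct0 := mem_fixS.mpr fun p hp => by
    rw [mul_smul, mul_smul, hg _ ((msmul_mem_msmul a).mpr hp), inv_smul_smul]
  rw [fixS_oct0_eq.1] at h5
  have h6 : (a⁻¹ * g * a) • famDec 3 trio0 = famDec 3 trio0 :=
    gen_le GT (allL_fix_fam inM_gensE16 (by decide +kernel)) h5
  rw [mul_smul, mul_smul, inv_smul_eq_iff] at h6
  rw [h4, h6]

theorem fix_pts {g : M24} (h1 : g • toSet oct0 = toSet oct0)
    (h2 : ∀ T ∈ trios, toSet oct0 ∈ T → g • T = T) : ∀ p ∈ toSet oct0, g • p = p := by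
  obtain ⟨k, hk, e⟩ := fixing_octad_transitive oct0_mem (q := pt 4) (q' := g • pt 4) pt4_notMem_oct0
    (fun h => pt4_notMem_oct0 ((smul_mem_iff_of_mem_stabilizer h1).mp h))
  have h3 : (k⁻¹ * g) • pt 4 = pt 4 := by rw [mul_smul, ← e, inv_smul_smul]
  have h4 : ∀ T ∈ trios, toSet oct0 ∈ T → (k⁻¹ * g) • T = T := fun T hT h => by
    rw [mul_smul, h2 T hT h, inv_smul_eq_iff, fix_trios oct0_mem hk hT h]
  have h5 : ∀ c ∈ [7903248, 2460752, 1584464, 5538256, 8536111], (k⁻¹ * g) • toSet c = toSet c := by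
    intro c hc
    have h6 : ∀ c ∈ [7903248, 2460752, 1584464, 5538256, 8536111], c = oct0 ∨
        (isOct c = true ∧ Nat.land oct0 c = 0 ∧ tb c 4 = true) := by decide +kernel
    rcases h6 c hc with rfl | ⟨h7, h8, h9⟩
    · rw [mul_smul, h1, inv_smul_eq_iff, msmul_eq_of_forall hk]
    · have hT := mk_mem_trios oct0_mem (toSet_mem_octads h7) ((toSet_disjoint_iff c oct0_lt).mpr h8)
      have h10 := h4 _ hT (by simp)
      have h11 : pt 4 ∈ toSet c := (pt_mem_toSet (by norm_num)).mpr h9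
      refine trio_eq_of_mem hT (h10 ▸ Finset.smul_mem_smul_finset (by simp)) (by simp) ?_ h11
      rw [← h3, msmul_mem_msmul]
      exact h11
  have h5' : ∀ c ∈ [3152, 294992, 1048912, 1574928, 1584464, 2131984, 2460752, 5275664, 5538256, 7903248, 8536111], (k⁻¹ * g) • toSet c = toSet c := by
    intro c hc
    have h6 : ∀ c ∈ [3152, 294992, 1048912, 1574928, 1584464, 2131984, 2460752, 5275664, 5538256, 7903248, 8536111], ∃ a ∈ [7903248, 2460752, 1584464, 5538256, 8536111], ∃ b ∈ [7903248, 2460752, 1584464, 5538256, 8536111],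
        c = Nat.land a b := by decide +kernel
    obtain ⟨a, ha, b, hb, rfl⟩ := h6 c hc
    rw [toSet_land, msmul_inter, h5 a ha, h5 b hb]
  have h6 : Nat.card (Subgroup.zpowers (k⁻¹ * g)) ≤ 1 := card_le_of_fixBd [3152, 294992, 1048912, 1574928, 1584464, 2131984, 2460752, 5275664, 5538256, 7903248, 8536111] _
    (fun x hx c hc => (Subgroup.zpowers_le_of_mem (H := MulAction.stabilizer M24 (toSet c))
      (h5' c hc)) hx) [(6, 3152, 294992),
    (8, 1048912, 8873967),
    (10, 3152, 8873967),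
    (11, 3152, 3152),
    (13, 1584464, 8873967),
    (15, 294992, 2131984),
    (0, 39257, 175681),
    (1, 36294, 69395),
    (2, 10558, 36294),
    (3, 5279, 10558),
    (5, 10558, 10558),
    (7, 5279, 18147),
    (9, 18147, 69395),
    (12, 5279, 5279),
    (14, 18147, 18147),
    (16, 69395, 69395),
    (17, 133817, 133817),
    (18, 262637, 262637),
    (19, 525274, 525274),
    (20, 1048912, 1048912),
    (21, 2101096, 2101096),
    (22, 4196943, 4196943),
    (23, 8391797, 8391797)] 16 1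
    (Subgroup.zpowers_le_of_mem (mem_fixS.mpr fun p hp => by
      rw [show (16 : ℕ) = Nat.pow 2 4 from rfl, toSet_pow (by norm_num), Finset.mem_singleton] at hp
      rw [hp, h3])) one_ne_zero (by decide +kernel)
  have h7 := Subgroup.zpowers_eq_bot.mp (Subgroup.eq_bot_of_card_le _ h6)
  rw [← inv_mul_eq_one.mp h7]
  exact hk

/-- An octad of the length-24 code lies in exactly 15 trios; the stabiliser of the octad in the code's group acts doubly transitively on these 15 trios, and the kernel of this action is the pointwise stabiliser of the octad. -/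
theorem result (o : Finset Cfsg.GolayPt) (ho : o ∈ Cfsg.octads) : {T : Finset (Finset Cfsg.GolayPt) | T ∈ Cfsg.trios ∧ o ∈ T}.ncard = 15 ∧ (∀ T₁ T₂ T₁' T₂' : Finset (Finset Cfsg.GolayPt), T₁ ∈ Cfsg.trios → T₂ ∈ Cfsg.trios → T₁' ∈ Cfsg.trios → T₂' ∈ Cfsg.trios → o ∈ T₁ → o ∈ T₂ → o ∈ T₁' → o ∈ T₂' → T₁ ≠ T₂ → T₁' ≠ T₂' → ∃ g ∈ Cfsg.M24, g • o = o ∧ g • T₁ = T₁' ∧ g • T₂ = T₂') ∧ ∀ g ∈ Cfsg.M24, g • o = o → ((∀ T ∈ Cfsg.trios, o ∈ T → g • T = T) ↔ ∀ p ∈ o, g p = p) := by
  obtain ⟨a, rfl⟩ := exists_smul_oct0 ho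
  refine ⟨?_, fun T₁ T₂ T₁' T₂' h1 h2 h3 h4 h5 h6 h7 h8 h9 h10 => ?_, fun g hg hgo =>
    ⟨fun h p hp => ?_, fun h T hT hoT => fix_trios ho (g := ⟨g, hg⟩) h hT hoT⟩⟩
  · rw [ncard_eq_of_smul a {T | T ∈ trios ∧ toSet oct0 ∈ T} _ (fun x => by
      simp only [Set.mem_ofPred_eq, msmul_mem_trios_iff, Finset.smul_mem_smul_finset_iff]), ncard_A]
  · have key : ∀ T ∈ trios, a • toSet oct0 ∈ T → a⁻¹ • T ∈ A := fun T hT h =>
      mem_A.mpr ⟨msmul_mem_trios _ hT, Finset.mem_inv_smul_finset_iff.mpr h⟩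
    obtain ⟨g, hg, e⟩ := two_trans ![a⁻¹ • T₁, a⁻¹ • T₂] ![a⁻¹ • T₁', a⁻¹ • T₂']
      (injective_two fun e => h9 (MulAction.injective _ e))
      (fun i => by fin_cases i; exacts [key _ h1 h5, key _ h2 h6])
      (injective_two fun e => h10 (MulAction.injective _ e))
      (fun i => by fin_cases i; exacts [key _ h3 h7, key _ h4 h8])
    have e0 : g • a⁻¹ • T₁ = a⁻¹ • T₁' := e 0
    have e1 : g • a⁻¹ • T₂ = a⁻¹ • T₂' := e 1
    refine ⟨(a * g * a⁻¹ : M24), (a * g * a⁻¹).2, (conj_mem_stab1 a _ g).mp hg, ?_, ?_⟩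
    · show (a * g * a⁻¹) • T₁ = T₁'
      rw [mul_smul, mul_smul, e0, smul_inv_smul]
    · show (a * g * a⁻¹) • T₂ = T₂'
      rw [mul_smul, mul_smul, e1, smul_inv_smul]
  · obtain ⟨p, rfl⟩ := MulAction.surjective a p
    have := fix_pts (g := a⁻¹ * ⟨g, hg⟩ * a) (by
      rw [mul_smul, mul_smul, inv_smul_eq_iff]; exact hgo) (fun T hT hoT => by
      rw [mul_smul, mul_smul, inv_smul_eq_iff]
      exact h _ (msmul_mem_trios a hT) (Finset.smul_mem_smul_finset hoT)) p
      ((msmul_mem_msmul a).mp hp)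
    rwa [mul_smul, mul_smul, inv_smul_eq_iff] at this

end Cfsg.Agent.S5615
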