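import Cfsg.Statements.S5616
import Cfsg.Agent.H42.More

set_option autoImplicit false
set_option maxRecDepth 1000000
open scoped Pointwise
open Cfsg

namespace Cfsg.Agent.S5616

open Cfsg.Agent.H42

/-- The invariant. -/
def inv (Y : Finset GolayPt) (S : Finset (Finset GolayPt)) : ℕ :=
  (S.filter fun t => (t ∩ Y).Nonempty).card

theorem inv_smul (g : M24) (Y : Finset GolayPt) (S : Finset (Finset GolayPt)) :
    inv (g • Y) (g • S) = inv Y S := by
  unfold inv
  rw [← Finset.card_smul_finset g (S.filter _)]
  congr 1
  ext t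
  obtain ⟨t, rfl⟩ := MulAction.surjective g t
  simp only [Finset.mem_filter, Finset.smul_mem_smul_finset_iff, ← msmul_inter,
    Finset.smul_finset_nonempty]

theorem cls : Classes GD3 sextets (inv (toSet triad0)) (decReps (famDec 6) [(11150382242010895008167239022564679587348520, 21, 1), (11150390273924957568958677707029106114209920, 630, 2), (11150410160827573949350680478152798159274050, 1120, 3)]) :=
  (encFam 6).classes (gens := gensD3) inM_gensD3 GD3 gensD3_mem sextets (Set.toFinite _)
    (fun g _ _ hx => msmul_mem_sextets g hx) _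
    (fun g hg x _ => by rw [← inv_smul g _ x, show g • toSet triad0 = _ from hg]) _
    (fun r hr => by
      have h := repsChkF_spec (p := isSext)
        (f := fun c => cnt (fun i => !Nat.beq (Nat.land (fld 24 c i) triad0) 0) 6)
        (show repsChkF _ _ [(11150382242010895008167239022564679587348520, 21, 1), (11150390273924957568958677707029106114209920, 630, 2), (11150410160827573949350680478152798159274050, 1120, 3)] = true by decide +kernel) hr
      refine ⟨isSext_famOk h.1, famDec_mem_sextets h.1, ?_⟩
      rw [← h.2]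
      exact card_filter_famDec (isSext_famOk h.1) _ (fun n => !Nat.beq (Nat.land n triad0) 0)
        fun n hn => by
          rw [Finset.nonempty_iff_ne_empty, ← toSet_land, Ne, toSet_eq_empty_iff (land_lt _ hn),
            Bool.not_eq_true', beq_false_iff])
    1800 (sizesChk_fam (by decide +kernel)) (by decide) (by rw [sextets_ncard]; decide)

/-- Let Y be a set of 3 of the 24 points. The sextets of the length-24 code whose tetrads meeting Y number 1, 2 or 3 are respectively 21, 630 and 1120 in number, and two sextets with the same number of tetrads meeting Y are conjugate under the setwise stabiliser of Y in the code's group. -/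
theorem result (Y : Finset Cfsg.GolayPt) (hY : Y.card = 3) : {S : Finset (Finset Cfsg.GolayPt) | S ∈ Cfsg.sextets ∧ (S.filter fun t => (t ∩ Y).Nonempty).card = 1}.ncard = 21 ∧ {S : Finset (Finset Cfsg.GolayPt) | S ∈ Cfsg.sextets ∧ (S.filter fun t => (t ∩ Y).Nonempty).card = 2}.ncard = 630 ∧ {S : Finset (Finset Cfsg.GolayPt) | S ∈ Cfsg.sextets ∧ (S.filter fun t => (t ∩ Y).Nonempty).card = 3}.ncard = 1120 ∧ ∀ S S' : Finset (Finset Cfsg.GolayPt), S ∈ Cfsg.sextets → S' ∈ Cfsg.sextets → (S.filter fun t => (t ∩ Y).Nonempty).card = (S'.filter fun t => (t ∩ Y).Nonempty).card → ∃ g ∈ Cfsg.M24, g • Y = Y ∧ g • S = S' := by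
  obtain ⟨a, rfl⟩ := exists_smul_triad0 hY
  have c := cls.transport a _ sextets (inv (a • toSet triad0)) (conj_mem_stab1 a _)
    (fun x => msmul_mem_sextets_iff a) (fun x => inv_smul a _ x)
  refine ⟨c.ncard_of (v := 1) (by simp [decReps]) (fun x => Iff.rfl),
    c.ncard_of (v := 2) (by simp [decReps]) (fun x => Iff.rfl),
    c.ncard_of (v := 3) (by simp [decReps]) (fun x => Iff.rfl), fun S S' h1 h2 h => ?_⟩
  obtain ⟨g, hg, e⟩ := c.exists_smul h1 h2 h
  exact ⟨g, g.2, hg, e⟩

end Cfsg.Agent.S5616
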