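import Cfsg.Statements.S5617
import Cfsg.Agent.H42.Decomp

set_option autoImplicit false
set_option maxRecDepth 1000000
open scoped Pointwise
open Cfsg

namespace Cfsg.Agent.S5617

open Cfsg.Agent.H42

theorem cls : Classes GDD sextets (fun x => (MulAction.orbit GDD x).ncard)
    (decReps (famDec 6) [(11150419558403180716445210652446611810058640, 396, 396), (11150423486532947792874164732049264467837760, 495, 495), (11150382242010895008167239022564679587348520, 880, 880)]) :=
  classes_size_sext inM_gensDD GDD GDD_eq _ (by decide +kernel) (by decide +kernel)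
    (by decide) (by decide)

/-- The setwise stabiliser, in the group of the length-24 code, of a complementary pair of dodecads has exactly three orbits on the 1771 sextets, of sizes 396, 495 and 880. -/
theorem result (d : Finset Cfsg.GolayPt) (hd : d ∈ Cfsg.dodecads) : ∃ X₁ ∈ Cfsg.sextets, ∃ X₂ ∈ Cfsg.sextets, ∃ X₃ ∈ Cfsg.sextets, (MulAction.orbit ↥(MulAction.stabilizer Cfsg.M24 ({d, Finset.univ \ d} : Finset (Finset Cfsg.GolayPt))) X₁).ncard = 396 ∧ (MulAction.orbit ↥(MulAction.stabilizer Cfsg.M24 ({d, Finset.univ \ d} : Finset (Finset Cfsg.GolayPt))) X₂).ncard = 495 ∧ (MulAction.orbit ↥(MulAction.stabilizer Cfsg.M24 ({d, Finset.univ \ d} : Finset (Finset Cfsg.GolayPt))) X₃).ncard = 880 ∧ Cfsg.sextets = MulAction.orbit ↥(MulAction.stabilizer Cfsg.M24 ({d, Finset.univ \ d} : Finset (Finset Cfsg.GolayPt))) X₁ ∪ MulAction.orbit ↥(MulAction.stabilizer Cfsg.M24 ({d, Finset.univ \ d} : Finset (Finset Cfsg.GolayPt))) X₂ ∪ MulAction.orbit ↥(MulAction.stabilizer Cfsg.M24 ({d, Finset.univ \ d} : Finset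 (Finset Cfsg.GolayPt))) X₃ := by
  obtain ⟨g, rfl⟩ := exists_smul_dod0 hd
  rw [← Finset.compl_eq_univ_sdiff, ← msmul_pair, ← famDec_dpair0]
  exact (cls.stab_smul g (fun _ => msmul_mem_sextets_iff g)).exists3

end Cfsg.Agent.S5617
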