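import Cfsg.Statements.S5618
import Cfsg.Agent.H42.Six

set_option autoImplicit false
set_option maxRecDepth 1000000
open scoped Pointwise
open Cfsg

namespace Cfsg.Agent.S5618

open Cfsg.Agent.H42

/-- For a dodecad d of the length-24 code and a hexad C on it (a 6-point intersection of d with an octad): the joint stabiliser of d and C in the code's group is isomorphic to the symmetric group of degree 6, and it acts faithfully both on the six points of C and on the six points of d outside C. -/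
theorem result (d : Finset Cfsg.GolayPt) (hd : d ∈ Cfsg.dodecads) (C : Finset Cfsg.GolayPt) (hC : C ∈ Cfsg.hexadsOn d) : Nonempty (↥(MulAction.stabilizer Cfsg.M24 d ⊓ MulAction.stabilizer Cfsg.M24 C) ≃* Equiv.Perm (Fin 6)) ∧ (∀ g ∈ MulAction.stabilizer Cfsg.M24 d ⊓ MulAction.stabilizer Cfsg.M24 C, (∀ p ∈ C, ((g : ↥Cfsg.M24) : Equiv.Perm Cfsg.GolayPt) p = p) → g = 1) ∧ ∀ g ∈ MulAction.stabilizer Cfsg.M24 d ⊓ MulAction.stabilizer Cfsg.M24 C, (∀ p ∈ d \ C, ((g : ↥Cfsg.M24) : Equiv.Perm Cfsg.GolayPt) p = p) → g = 1 := by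
  have hf : ∀ g ∈ MulAction.stabilizer M24 d ⊓ MulAction.stabilizer M24 C,
      (∀ p ∈ C, g • p = p) → g = 1 :=
    fun g hg h => dodecad_fix_set hd (by rw [hC.1]; norm_num) (hexad_subset hC) hg.1 h
  refine ⟨?_, hf, fun g hg h => dodecad_fix_set hd
    (by rw [(sdiff_mem_hexadsOn hd hC).1]; norm_num) Finset.sdiff_subset hg.1 h⟩
  refine equiv_perm_of_faithful C hC.1 _ inf_le_right hf ?_
  rw [← hC.1, ← card_perm_finset]
  apply Nat.card_le_card_of_surjective (resHom C _ inf_le_right)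
  intro σ
  obtain ⟨g, hg, h1, h2⟩ := hexad_transitive hd hC hC σ
  exact ⟨⟨g, hg, h1⟩, Equiv.ext fun p => Subtype.ext (h2 p)⟩

end Cfsg.Agent.S5618
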