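import Cfsg.Statements.S5620
import Cfsg.Agent.H42.More

set_option autoImplicit false
set_option maxRecDepth 1000000
open scoped Pointwise
open Cfsg

namespace Cfsg.Agent.S5620

open Cfsg.Agent.H42

theorem mem_conj {k x : Equiv.Perm GolayPt} {H : Subgroup (Equiv.Perm GolayPt)} :
    x ∈ MulAut.conj k • H ↔ k⁻¹ * x * k ∈ H := by
  rw [Subgroup.mem_pointwise_smul_iff_inv_smul_mem]
  simp

/-- An involution interchanging the dodecad and its complement. -/
def t : ℕ := 3980917061641628199418002693379415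

theorem inM_t : inM t = true := by decide +kernel

theorem t_dod : toM t • toSet dod0 = (toSet dod0)ᶜ := by
  rw [toM_smul_toSet inM_t, ← toSet_compl, show img t dod0 = Nat.xor dod0 16777215 by decide +kernel]

theorem t_pt : toM t • pt 0 = pt 23 := by
  rw [toM_smul_pt inM_t (by norm_num), show app t 0 = 23 by decide +kernel]

theorem conj_eq : MulAut.conj (toM t : Equiv.Perm GolayPt) • Spor.M11 =
    Spor.M12 ⊓ MulAction.stabilizer (Equiv.Perm GolayPt) (none : GolayPt) := by
  have key : ∀ x : M24, (toM t)⁻¹ * x * toM t ∈ G11 ↔ x ∈ G12 ⊓ G23 := fun x => by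
    rw [conj_mem_stab2 (toM t), t_dod, t_pt,
      show toM t * ((toM t)⁻¹ * x * toM t) * (toM t)⁻¹ = x by group]
    simp only [Subgroup.mem_inf, MulAction.mem_stabilizer_iff, msmul_compl, compl_inj_iff]
  generalize toM t = u at key ⊢
  ext x
  rw [mem_conj]
  constructor
  · intro h
    have hx : x ∈ M24 := by
      have := M24.mul_mem (M24.mul_mem u.2 h.1.1) (M24.inv_mem u.2)
      simpa [mul_assoc] using this
    have := (key ⟨x, hx⟩).mp (by rw [G11, toSet_dod0]; exact ⟨h.1.2, h.2⟩)
    rw [G12, toSet_dod0] at this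
    exact ⟨⟨hx, this.1⟩, this.2⟩
  · intro h
    have := (key ⟨x, h.1.1⟩).mpr (by rw [G12, toSet_dod0]; exact ⟨h.1.2, h.2⟩)
    exact (equiv11 ⟨_, this⟩).2

/-- Generators. -/
def gens : List ℕ := [969281342039534018000043634602550802, 970492586873663191993277092922405440]

theorem inM_gens : ∀ g ∈ gens, inM g = true := inM_of_allL (by decide +kernel)

/-- Inside the stabiliser of the dodecad of squares (a Mathieu group of degree 12), the stabiliser of the residue 0 (a point of the dodecad) and the stabiliser of the extra point (a point outside the dodecad) are isomorphic but not conjugate; conjugation by a suitable element of the code's group that maps the dodecad of squares onto its complement carries the first onto the second. -/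
theorem result : Nonempty (↥(Cfsg.Spor.M12 ⊓ MulAction.stabilizer (Equiv.Perm Cfsg.GolayPt) (none : Cfsg.GolayPt)) ≃* ↥Cfsg.Spor.M11) ∧ (¬ ∃ k ∈ Cfsg.Spor.M12, MulAut.conj k • Cfsg.Spor.M11 = Cfsg.Spor.M12 ⊓ MulAction.stabilizer (Equiv.Perm Cfsg.GolayPt) (none : Cfsg.GolayPt)) ∧ ∃ g ∈ Cfsg.M24, g • Cfsg.Spor.squareDodecad = Finset.univ \ Cfsg.Spor.squareDodecad ∧ MulAut.conj g • Cfsg.Spor.M11 = Cfsg.Spor.M12 ⊓ MulAction.stabilizer (Equiv.Perm Cfsg.GolayPt) (none : Cfsg.GolayPt) := by
  refine ⟨?_, ?_, toM t, (toM t).2, ?_, conj_eq⟩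
  · rw [← conj_eq]
    exact ⟨(Subgroup.equivSMul _ _).symm⟩
  · rintro ⟨k, hk, e⟩
    have hk' : (⟨k, hk.1⟩ : M24) ∈ G12 := by rw [G12, toSet_dod0]; exact hk.2
    have h1 : (⟨k, hk.1⟩ : M24) • pt 0 ∈ toSet dod0 :=
      smul_mem_of_mem_stabilizer hk' (pt_mem_dod0 (by norm_num) (by decide))
    obtain ⟨i, hi, ei⟩ : ∃ i < 24, pt i = (⟨k, hk.1⟩ : M24) • pt 0 := ⟨_, idx_lt _, pt_idx _⟩
    rw [← ei, pt_mem_toSet hi] at h1
    have h2 : ∀ i < 24, tb dod0 i = true → ∃ g ∈ gens, app g i ≠ i := by decide +kernel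
    obtain ⟨g, hg, h3⟩ := h2 i hi h1
    have h4 : (toM g : Equiv.Perm GolayPt) ∈ MulAut.conj k • Spor.M11 := by
      rw [e]
      refine ⟨⟨(toM g).2, ?_⟩, allL_fix_pt inM_gens (i := 23) (by norm_num) (by decide +kernel) g hg⟩
      have := allL_fix_set inM_gens dod0_lt (by decide +kernel) g hg
      rwa [toSet_dod0] at this
    have h5 : k⁻¹ ((toM g : Equiv.Perm GolayPt) (k (pt 0))) = pt 0 := (mem_conj.mp h4).2
    have h6 : toM g • pt i = pt i := by
      rw [ei]
      exact (Equiv.Perm.inv_eq_iff_eq).mp h5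
    exact h3 ((toM_mem_stabilizer_pt (inM_gens g hg) hi).mp h6)
  · have := t_dod
    rw [toSet_dod0] at this
    exact this

end Cfsg.Agent.S5620
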