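import Cfsg.Statements.S5624
import Cfsg.Agent.H45.Code

set_option autoImplicit false
open Cfsg

namespace Cfsg.Agent.S5624

/-- Let C be a self-dual binary code of length 24 with minimum weight at least 8 (a 12-dimensional subspace of the 24-dimensional space over the field with two elements, any two of whose words have dot product zero, with no non-zero word of weight below 8 — an abstract extended binary Golay code). Then C is spanned, as a vector space over the field with two elements, by its words of weight 8. -/
theorem result (C : Submodule (ZMod 2) (Fin 24 → ZMod 2)) (hdim : Module.finrank (ZMod 2) C = 12) (horth : ∀ v ∈ C, ∀ w ∈ C, ∑ i, v i * w i = 0) (hmin : ∀ w ∈ C, w ≠ 0 → 8 ≤ hammingNorm w) : Submodule.span (ZMod 2) {w : Fin 24 → ZMod 2 | w ∈ C ∧ hammingNorm w = 8} = C := by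
  have hD := H45.golayLike_of_code (Fintype.card_fin 24) C hdim horth hmin
  apply le_antisymm
  · rw [Submodule.span_le]
    exact fun w hw => hw.1
  · intro w hw
    rw [← H45.ind_support w]
    refine hD.induction (fun a => H45.ind a ∈ Submodule.span (ZMod 2)
      {w : Fin 24 → ZMod 2 | w ∈ C ∧ hammingNorm w = 8}) ?_ ?_ _ (H45.support_mem_supports_iff.2 hw)
    · rw [H45.ind_empty]; exact Submodule.zero_mem _
    · intro a _ o ho ho8 h
      have h2 : H45.ind o ∈ Submodule.span (ZMod 2)
          {w : Fin 24 → ZMod 2 | w ∈ C ∧ hammingNorm w = 8} :=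
        Submodule.subset_span ⟨H45.mem_supports_iff.1 ho, by rwa [H45.hammingNorm_ind]⟩
      have h3 := Submodule.add_mem _ h h2
      rwa [← H45.ind_symmDiff, symmDiff_symmDiff_cancel_right] at h3

end Cfsg.Agent.S5624
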