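import Cfsg.Statements.S5628
import Cfsg.Agent.H45.Plane4
import Cfsg.Agent.H45.Aut

set_option autoImplicit false
open Cfsg

namespace Cfsg.Agent.S5628

/-- In a projective plane of order 4 (a Steiner system S(2, 5, 21)), every permutation of the six points of a hyperoval (a 6-set met by no line in more than two points) is the restriction of exactly one automorphism of the plane. In particular the stabiliser of a hyperoval in the automorphism group is isomorphic to the symmetric group of degree 6 acting faithfully on the hyperoval. -/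
theorem result {α : Type*} [Fintype α] [DecidableEq α] (hα : Fintype.card α = 21) (L : Set (Finset α)) (hL : Cfsg.IsSteinerSystem 2 5 L) (H : Finset α) (hH : (H.card = 6 ∧ ∀ l ∈ L, (l ∩ H).card ≤ 2)) (σ : Equiv.Perm ↥H) : ∃! g : Equiv.Perm α, g ∈ Cfsg.setSystemAut L ∧ ∀ p : ↥H, g p = σ p := by
  let u : Fin 6 ≃ H := (Finset.equivFinOfCardEq hH.1).symm
  have him : ∀ τ : Equiv.Perm H, Finset.univ.image (fun i => (τ (u i) : α)) = H := by
    intro τ
    ext p
    simp only [Finset.mem_image, Finset.mem_univ, true_and]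
    constructor
    · rintro ⟨i, rfl⟩; exact (τ (u i)).2
    · intro hp; exact ⟨u.symm (τ.symm ⟨p, hp⟩), by simp⟩
  have hinj : ∀ τ : Equiv.Perm H, Function.Injective (fun i => (τ (u i) : α)) := fun τ =>
    Subtype.val_injective.comp (τ.injective.comp u.injective)
  obtain ⟨e, he1, he2⟩ := H45.exists_std21h hα hL _ (hinj 1) (by rw [him]; exact hH.2)
  obtain ⟨e', he1', he2'⟩ := H45.exists_std21h hα hL _ (hinj σ) (by rw [him]; exact hH.2)
  have h1 : ∀ p : H, (e.trans e'.symm) p = σ p := by
    intro p
    obtain ⟨i, rfl⟩ := u.surjective p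
    have := he1 i
    simp only [Equiv.Perm.coe_one, id_eq] at this
    rw [Equiv.trans_apply, this, ← he1', Equiv.symm_apply_apply]
  have h2 := H45.exists_aut_of_std he2 he2'
  refine ⟨_, ⟨h2, h1⟩, fun g hg => ?_⟩
  have h3 := H45.eq_one_of_fix_hyperoval hα hL hH
    (H45.mem_aut_iff.1 (mul_mem (inv_mem h2) hg.1)) (fun p hp => by
      rw [Equiv.Perm.mul_apply, hg.2 ⟨p, hp⟩, ← h1 ⟨p, hp⟩]
      exact Equiv.symm_apply_apply _ _)
  exact (inv_mul_eq_one.1 h3).symm

end Cfsg.Agent.S5628
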