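import Cfsg.Statements.S5648
import Cfsg.Agent.H27.AltQuad

set_option autoImplicit false
open Cfsg

namespace Cfsg.Agent.S5648

/-- Over the field with 2 elements and for m ≥ 7, let D be a decomposition of F^(2m) into t pairwise orthogonal non-degenerate 2-dimensional subspaces for the standard alternating form (t = m ≥ 2). Then the elements of Sp_2m(2) permuting the members of D form a subgroup that is not maximal: some subgroup lies strictly between it and Sp_2m(2). -/
theorem result {F : Type*} [Field F] [Fintype F] (m : ℕ) (hm : 7 ≤ m) (hq : Fintype.card F = 2) {t : ℕ} (D : Fin t → Submodule F (Fin m ⊕ Fin m → F)) (hD : Cfsg.Geo.IsNondegenerateMDecomposition (Cfsg.sympForm m F) 2 D) : ∃ K : Subgroup (Matrix.GeneralLinearGroup (Fin m ⊕ Fin m) F), Cfsg.Geo.decompositionStabilizer D ⊓ Cfsg.spGL m F < K ∧ K < Cfsg.spGL m F := by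
  rw [H27.sympForm_eq_fun] at hD
  have hD' := H27.orthDecomp_of_geo hD
  have ht : 3 ≤ t := by
    have h2 := hD'.finrank_eq_sum H27.jBilin_isAlt.isRefl
    simp [hD.decomp.finrank_eq] at h2
    omega
  obtain ⟨Q, -, h1, h2⟩ := hD'.exists_between_of_two H27.jBilin_nondegenerate H27.jBilin_isAlt
    (H27.eq_zero_or_one_of_card_eq_two hq) hD.decomp.finrank_eq (by simpa using ht)
  refine H27.exists_between_of_comap _ (H27.isomToGL_injective _) (H27.range_isomToGL_jBilin m) _ _ ?_ h2
  rwa [H27.comap_decompositionStabilizer]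

end Cfsg.Agent.S5648
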