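import Cfsg.Statements.S5656
import Cfsg.Agent.H31.Q2NonMax

set_option autoImplicit false
open Cfsg

namespace Cfsg.Agent.S5656

open Cfsg.Agent.H31

/-- Let F be the field with 4 elements (q = 2) and n ≥ 13. Let D be a decomposition of F^n into t pairwise orthogonal 2-dimensional subspaces, each non-degenerate for the standard unitary form Σ u_i v_i². Then the elements of SU_n(2) permuting the members of D form a subgroup that is not maximal: some subgroup lies strictly between it and SU_n(2). -/
theorem result {F : Type*} [Field F] [Fintype F] (n : ℕ) (hF : Fintype.card F = 4) (hn : 13 ≤ n) {t : ℕ} (D : Fin t → Submodule F (Fin n → F)) (hD : Cfsg.Geo.IsNondegenerateMDecomposition (Cfsg.hermForm n F 2) 2 D) : ∃ K : Subgroup (Matrix.GeneralLinearGroup (Fin n) F), Cfsg.Geo.decompositionStabilizer D ⊓ (Cfsg.GU n F 2 ⊓ Cfsg.Geo.specialLinear (Fin n) F) < K ∧ K < (Cfsg.GU n F 2 ⊓ Cfsg.Geo.specialLinear (Fin n) F) := by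
  have hF' : Fintype.card F = 2 ^ 2 := hF
  have hq : ∀ a : F, frobQ hF' a = a → a = 0 ∨ a = 1 := fun a ha => by
    have h : a * (a - 1) = 0 := by
      have : a ^ 2 = a := ha
      linear_combination this
    exact (mul_eq_zero.1 h).imp id sub_eq_zero.1
  have ht := hD.decomp.two_le
  refine exists_between_SU_of hF'
    (H' := (Cfsg.Geo.decompositionStabilizer D).comap (glEquiv (Fin n) F).symm.toMonoidHom)
    (fun g => by simp) ?_
  refine (isHerm_hermB hF' n).exists_between_planes hq D
    (fun i => nondegOn_of_isNondegenerateOn (hermB_eq hF') (hD.nondegenerate i))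
    hD.decomp.finrank_eq (fun i j hij u hu v hv => ?_) (i₀ := ⟨0, by omega⟩) (i₁ := ⟨1, by omega⟩)
    (by simp) ?_
  · rw [hermB_eq]; exact hD.orthogonal j i hij.symm v hv u hu
  · rintro g ⟨τ, hτ⟩ i
    refine ⟨τ i, fun v hv => ?_⟩
    rw [← hτ i]
    exact ⟨v, hv, glEquiv_symm_mulVec g v⟩

end Cfsg.Agent.S5656
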