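import Cfsg.Statements.S5662
import Cfsg.Agent.H25.Symplectic
import Cfsg.Agent.H27.GeoSymp
-- import your own Cfsg.Agent.* helpers here

set_option autoImplicit false
open Cfsg

namespace Cfsg.Agent.S5662

/-- Subgroup structure of the finite symplectic groups. Let F be a finite field and m ≥ 2 with (m, |F|) ≠ (2, 2), and let Sp_2m(F) be the group of invertible matrices preserving the standard alternating form on F^(2m). Let H be a subgroup of Sp_2m(F) whose product with the scalar matrices ±1 is not all of Sp_2m(F) (H does not cover PSp_2m(F)). Then either H is contained in a member of one of the eight geometric classes of subgroups of Sp_2m(F) (with the conditions built into InSymplecticClass), or H is in the residual class: modulo scalars it is almost simple, and the perfect preimage of its socle acts absolutely irreducibly, is realisable over no proper subfield, and fixes no non-degenerate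 quadratic form and no non-degenerate unitary form on F^(2m). -/
theorem result {F : Type*} [Field F] [Fintype F] (m : ℕ) (hm : 2 ≤ m) (hex : ¬ (m = 2 ∧ Fintype.card F = 2)) (H : Subgroup (Matrix.GeneralLinearGroup (Fin m ⊕ Fin m) F)) (hH : H ≤ Cfsg.spGL m F) (hproper : H ⊔ (Cfsg.Geo.scalars (Fin m ⊕ Fin m) F ⊓ Cfsg.spGL m F) ≠ Cfsg.spGL m F) : (∃ M : Subgroup (Matrix.GeneralLinearGroup (Fin m ⊕ Fin m) F), Cfsg.Geo.InSymplecticClass m F M ∧ H ≤ M) ∨ Cfsg.Geo.InSymplecticResidualClass H := by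
  have hf := H27.isSymplecticForm_sympForm (F := F) m
  have hc : Fintype.card (Fin m ⊕ Fin m) = 2 * m := by simp [two_mul]
  have hI : H ≤ H25.isom (Cfsg.sympForm m F) := hH
  rcases H25.symplectic_structure (by omega) hf (hI.trans H25.isom_le_sim) with
    ⟨W, h1, h2, h3⟩ | ⟨W, h1, h2, h3, h4⟩ | ⟨t, k, D, h1, h2⟩ | ⟨k, D, h1, h2, h3, h4, h5⟩ |
    ⟨F₀, r, P, ζ, h1, h2, h3, h4, h5⟩ | ⟨R', R, k, -, -, h1, h2, -, h3, h4, h5, h6, h7, h8, h9⟩ |
    ⟨Q, h1, h2, h3, h4⟩ | ⟨r, K, h1, -, h2, h3, h4, h5⟩ | ⟨K, h1, h2, h3, h4, h5⟩ |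
    ⟨n₁, n₂, e, P, f₁, f₂, h1, -, h2, h3, h4, h5, h6⟩ |
    ⟨k, t, e, P, f₁, h1, -, h2, h3, h4, h5, h6, h7⟩ | h
  · exact Or.inl ⟨_, Or.inl (Or.inl ⟨W, h1, h2, rfl⟩), le_inf h3 hH⟩
  · exact Or.inl ⟨_, Or.inl (Or.inr (Or.inl ⟨W, h1, h2, by omega, rfl⟩)), le_inf h4 hH⟩
  · exact Or.inl ⟨_, Or.inl (Or.inr (Or.inr (Or.inl ⟨t, k, D, h1, rfl⟩))), le_inf h2 hH⟩
  · obtain rfl : k = m := by omega
    exact Or.inl ⟨_, Or.inl (Or.inr (Or.inr (Or.inr (Or.inl ⟨D, h1, h3, h4, rfl⟩)))), le_inf h5 hH⟩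
  · exact Or.inl ⟨_, Or.inl (Or.inr (Or.inr (Or.inr (Or.inr (Or.inl
      ⟨F₀, r, P, ζ, h1, h2, h3, h4, rfl⟩))))), le_inf h5 hH⟩
  · exact Or.inl ⟨_, Or.inl (Or.inr (Or.inr (Or.inr (Or.inr (Or.inr (Or.inl
      ⟨R, _, k, h3, H25.absIrr_of_galg_eq_top h1, h2.trans H25.isom_le_sim, h4, h5, rfl, h6, h7, h8,
        rfl⟩)))))), le_inf h9 hH⟩
  · exact Or.inl ⟨_, Or.inl (Or.inr (Or.inr (Or.inr (Or.inr (Or.inr (Or.inr
      ⟨Q, h1, h2, h3, rfl⟩)))))), le_inf h4 hH⟩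
  · exact Or.inl ⟨_, Or.inr (Or.inl ⟨r, K, h1, h2, h3, h4, rfl⟩), le_inf h5 hH⟩
  · exact Or.inl ⟨_, Or.inr (Or.inr (Or.inl ⟨K, h1, h2, h3, h4, rfl⟩)), le_inf h5 hH⟩
  · exact Or.inl ⟨_, Or.inr (Or.inr (Or.inr (Or.inl
      ⟨n₁, n₂, e, P, f₁, f₂, h1, h2, h3, h4, h5, rfl⟩))), le_inf h6 hH⟩
  · exact Or.inl ⟨_, Or.inr (Or.inr (Or.inr (Or.inr
      ⟨k, t, e, P, f₁, h1, h2, h3, h4, h5, h6, rfl⟩))), le_inf h7 hH⟩
  · exact Or.inr h

end Cfsg.Agent.S5662
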