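import Cfsg.Statements.S5667
import Cfsg.Agent.H27.TenGeo

set_option autoImplicit false
open Cfsg

namespace Cfsg.Agent.S5667

open Module TensorProduct Cfsg.Geo H27

section

variable {F U W : Type*} [Field F] [Fintype F] [AddCommGroup U] [Module F U] [AddCommGroup W]
  [Module F W]

theorem three_facts (hq : Fintype.card F = 3) :
    (3 : F) = 0 ∧ ∀ x : F, x = 0 ∨ x = 1 ∨ x = -1 := by
  refine ⟨by exact_mod_cast hq ▸ FiniteField.cast_card_eq_zero F, fun x => ?_⟩
  have h := FiniteField.pow_card x
  rw [hq] at h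
  have : x * ((x - 1) * (x + 1)) = 0 := by linear_combination h
  simpa [sub_eq_zero, add_eq_zero_iff_eq_neg] using this

theorem exists_frame (hq : Fintype.card F = 3) {h : LinearMap.BilinForm F W}
    (hs : ∀ x y, h x y = h y x) (hn : h.Nondegenerate) (h3 : finrank F W = 3) :
    ∃ (b : Basis (Fin 3) F W) (d : F), d ≠ 0 ∧ ∀ i j, h (b i) (b j) = if i = j then d else 0 := by
  obtain ⟨h0, hx⟩ := three_facts hq
  have h2 : (2 : F) ≠ 0 := fun h => one_ne_zero (α := F) (by linear_combination h0 - h)
  have : FiniteDimensional F W := Module.finite_of_finrank_pos (by omega)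
  have := invertibleOfNonzero h2
  suffices ∃ (w : Fin 3 → W) (d : F), d ≠ 0 ∧ ∀ i j, h (w i) (w j) = if i = j then d else 0 by
    obtain ⟨w, d, hd, hw⟩ := this
    have hl : LinearIndependent F w := LinearMap.BilinForm.linearIndependent_of_iIsOrtho (B := h)
      (fun i j hij => by simp [Function.onFun, hw, hij])
      (fun i => by simp [hw, hd])
    exact ⟨basisOfLinearIndependentOfCardEqFinrank hl (by simp [h3]), d, hd, by simpa using hw⟩
  obtain ⟨v₀, hv₀⟩ := LinearMap.BilinForm.exists_orthogonal_basis (B := h) ⟨hs⟩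
  let v := v₀.reindex (finCongr h3)
  have hv : ∀ i j, i ≠ j → h (v i) (v j) = 0 := fun i j hij => by
    simp only [v, Basis.reindex_apply]
    exact hv₀ ((finCongr h3).symm.injective.ne hij)
  have hd : ∀ i, h (v i) (v i) = 1 ∨ h (v i) (v i) = -1 := fun i =>
    (hx _).resolve_left (by
      simp only [v, Basis.reindex_apply]
      exact LinearMap.BilinForm.iIsOrtho.not_isOrtho_basis_self_of_nondegenerate hv₀ hn _)
  have key : ∀ i j k, i ≠ j → i ≠ k → j ≠ k → h (v i) (v i) = h (v j) (v j) →
      ∃ (w : Fin 3 → W) (d : F), d ≠ 0 ∧ ∀ i j, h (w i) (w j) = if i = j then d else 0 := by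
    intro i j k hij hik hjk e
    have hk : h (v k) (v k) ≠ 0 := by rcases hd k with h | h <;> simp [h]
    by_cases e' : h (v i) (v i) = h (v k) (v k)
    · refine ⟨![v i, v j, v k], _, hk, fun a b => ?_⟩
      fin_cases a <;> fin_cases b <;>
        simp [hv _ _ hij, hv _ _ hik, hv _ _ hjk, hv _ _ hij.symm, hv _ _ hik.symm,
          hv _ _ hjk.symm, ← e, e']
    · have e2 : h (v k) (v k) = h (v i) (v i) + h (v i) (v i) := by
        rcases hd i with h1 | h1 <;> rcases hd k with h2 | h2 <;> rw [h1, h2] at e' ⊢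
        · exact absurd rfl e'
        · linear_combination -h0
        · linear_combination h0
        · exact absurd rfl e'
      refine ⟨![v i + v j, v i - v j, v k], _, hk, fun a b => ?_⟩
      fin_cases a <;> fin_cases b <;>
        simp [hv _ _ hij, hv _ _ hik, hv _ _ hjk, hv _ _ hij.symm, hv _ _ hik.symm,
          hv _ _ hjk.symm, ← e, e2]
  rcases hd 0 with a | a <;> rcases hd 1 with b | b <;> rcases hd 2 with c | c
  all_goals first
    | exact key 0 1 2 (by decide) (by decide) (by decide) (a.trans b.symm)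
    | exact key 0 2 1 (by decide) (by decide) (by decide) (a.trans c.symm)
    | exact key 1 2 0 (by decide) (by decide) (by decide) (b.trans c.symm)

/-- A similarity of a three-dimensional orthogonal space over the field with three elements
permutes the lines of the orthogonal frame with equal norms. -/
theorem frame_perm (hq : Fintype.card F = 3) {h : LinearMap.BilinForm F W} (b : Basis (Fin 3) F W)
    {d : F} (hd : d ≠ 0) (hb : ∀ i j, h (b i) (b j) = if i = j then d else 0) (β : End F W) {μ : F}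
    (hβ : ∀ x y, μ * h (β x) (β y) = h x y) (i : Fin 3) : ∃ (j : Fin 3) (c : F), β (b i) = c • b j := by
  obtain ⟨h0, hx⟩ := three_facts hq
  let A := LinearMap.toMatrix b b β
  have hA : ∀ i, β (b i) = ∑ j, A j i • b j := fun i => by
    simp [A, LinearMap.toMatrix_apply]
  have h1 : μ • (A.transpose * A) = 1 := by
    ext i j
    have := hβ (b i) (b j)
    rw [hA, hA, hb] at this
    simp only [map_sum, map_smul, LinearMap.sum_apply, LinearMap.smul_apply, hb, smul_eq_mul,
      mul_ite, mul_zero, Finset.sum_ite_eq', Finset.mem_univ, if_true] at this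
    simp only [Matrix.smul_apply, Matrix.mul_apply, Matrix.transpose_apply, smul_eq_mul,
      Matrix.one_apply]
    apply mul_right_cancel₀ hd
    rw [ite_mul, one_mul, zero_mul, ← this, mul_assoc, Finset.sum_mul]
    exact congrArg _ (Finset.sum_congr rfl fun k _ => by ring)
  have h2 : μ = 1 := by
    have := congrArg Matrix.det h1
    rw [Matrix.det_smul, Matrix.det_mul, Matrix.det_transpose, Matrix.det_one, Fintype.card_fin]
      at this
    rcases hx μ with h | h | h <;> rcases hx A.det with h' | h' | h' <;> rw [h, h'] at this <;>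
      first | exact h | (exfalso; revert this; ring_nf; simp; done) | linear_combination h + this
  have h3 : A 0 i * A 0 i + A 1 i * A 1 i + A 2 i * A 2 i = 1 := by
    simpa [h2, Matrix.mul_apply, Fin.sum_univ_three] using congrFun (congrFun h1 i) i
  have hsq : ∀ x : F, x ≠ 0 → x * x = 1 := fun x hx0 => by
    rcases (hx x).resolve_left hx0 with h | h <;> simp [h]
  rw [hA, Fin.sum_univ_three]
  by_cases a0 : A 0 i = 0 <;> by_cases a1 : A 1 i = 0 <;> by_cases a2 : A 2 i = 0
  · exact ⟨0, 0, by simp [a0, a1, a2]⟩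
  · exact ⟨2, A 2 i, by simp [a0, a1]⟩
  · exact ⟨1, A 1 i, by simp [a0, a2]⟩
  · rw [a0, hsq _ a1, hsq _ a2] at h3
    exact absurd (by linear_combination h3) (one_ne_zero (α := F))
  · exact ⟨0, A 0 i, by simp [a1, a2]⟩
  · rw [a1, hsq _ a0, hsq _ a2] at h3
    exact absurd (by linear_combination h3) (one_ne_zero (α := F))
  · rw [a2, hsq _ a0, hsq _ a1] at h3
    exact absurd (by linear_combination h3) (one_ne_zero (α := F))
  · rw [hsq _ a0, hsq _ a1, hsq _ a2] at h3
    exact absurd (by linear_combination h0 - h3) (one_ne_zero (α := F))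

theorem main (hq : Fintype.card F = 3) [FiniteDimensional F U] [Nontrivial U]
    {f : LinearMap.BilinForm F U} (hf : f.Nondegenerate) (hA : f.IsAlt)
    {h : LinearMap.BilinForm F W} (hs : ∀ x y, h x y = h y x) (hn : h.Nondegenerate)
    (h3 : finrank F W = 3) (X : Subgroup (isomGroup (tB f h)))
    (hX : ∀ g, g ∈ X ↔ ∃ α β, g.1.toLinearMap = TensorProduct.map α β) :
    ∃ M, X < M ∧ M ≠ ⊤ := by
  have : FiniteDimensional F W := Module.finite_of_finrank_pos (by omega)
  obtain ⟨b, d, hd, hb⟩ := exists_frame hq hs hn h3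
  have hb0 := b.ne_zero
  have hT : (tB f h).IsAlt := fun p => by
    have h2 : (2 : F) ≠ 0 := fun h => one_ne_zero (α := F)
      (by linear_combination (three_facts hq).1 - h)
    have := tB_flip (f := f) (h := h) (ε := -1)
      (fun x y w w' => by rw [hs w w', ← hA.neg_eq x y]; ring) p p
    exact (mul_eq_zero.1 (by linear_combination this : 2 * tB f h p p = 0)).resolve_left h2
  let D : Fin 3 → Submodule F (U ⊗[F] W) := fun i =>
    LinearMap.range ((TensorProduct.mk F U W).flip (b i))
  have hDm : ∀ i p, p ∈ D i ↔ ∃ u, u ⊗ₜ b i = p := fun i p => Iff.rfl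
  have hD : OrthDecomp (tB f h) D := by
    refine ⟨fun i => Submodule.disjoint_def.2 ?_, ?_, eq_top_iff.2 fun p _ => ?_⟩
    · rintro _ ⟨u, rfl⟩ hu
      have : u = 0 := hf.2 u fun y => by
        simpa [hb, hd] using hu _ ((hDm i _).2 ⟨y, rfl⟩)
      simp [this]
    · rintro i j hij _ ⟨u, rfl⟩ _ ⟨v, rfl⟩
      simp [hb, hij]
    · induction p using TensorProduct.induction_on with
      | zero => exact Submodule.zero_mem _
      | add p q hp hq => exact Submodule.add_mem _ (hp trivial) (hq trivial)
      | tmul u w =>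
        rw [← b.sum_repr w, tmul_sum]
        exact Submodule.sum_mem _ fun i _ => Submodule.mem_iSup_of_mem i
          ((hDm i _).2 ⟨b.repr w i • u, by rw [smul_tmul]⟩)
  obtain ⟨u, hu⟩ := exists_ne (0 : U)
  obtain ⟨x, hx⟩ := exists_apply_eq_one' hf hu
  have hx' : f u x = -1 := by rw [← hA.neg_eq, hx]
  refine ⟨decompStab _ D, lt_of_le_of_ne (fun g hg => ?_) fun e => ?_,
    hD.decompStab_ne_top (tB_nondegenerate hf hn) hT fun i e => tmul_ne_zero hf hu (hb0 i)
      ((Submodule.eq_bot_iff _).1 e _ ((hDm i _).2 ⟨u, rfl⟩))⟩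
  · obtain ⟨α, β, hg⟩ := (hX g).1 hg
    have hg' : ∀ y w, g.1 (y ⊗ₜ w) = α y ⊗ₜ β w := fun y w => LinearMap.congr_fun hg (y ⊗ₜ w)
    refine hD.mem_decompStab_of_forall (k := finrank F U) finrank_pos (fun i => ?_) ?_
    · exact LinearMap.finrank_range_of_inj fun y y' e => tmul_right_inj hn (hb0 i) e
    · rintro i _ ⟨y, rfl⟩
      obtain ⟨j, c, e⟩ := frame_perm hq b hd hb β (μ := f (α x) (α u)) (fun w w' => by
        have := g.2 (x ⊗ₜ w) (u ⊗ₜ w')
        rwa [hg', hg', tB_tmul, tB_tmul, hx, one_mul] at this) i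
      exact ⟨j, (hDm j _).2 ⟨c • α y, by rw [smul_tmul, ← e]; exact (hg' _ _).symm⟩⟩
  · obtain ⟨α, β, hg⟩ := (hX _).1 (e ▸ hD.isoTv_mem_decompStab hT ((hDm 0 _).2 ⟨u, rfl⟩) 1)
    have h1 := LinearMap.congr_fun hg (x ⊗ₜ b 0)
    have h2 := LinearMap.congr_fun hg (x ⊗ₜ b 1)
    rw [LinearEquiv.coe_coe, coe_isoTv, altTv_apply, tB_tmul, hx, hb, TensorProduct.map_tmul]
      at h1 h2
    have h3 := congrArg (cL f W x) h1
    have h4 := congrArg (cL f W x) h2
    have h5 := congrArg (cL f W u) h2
    simp only [map_add, map_smul, cL_tmul, hx, hx', hA.self_eq_zero, zero_smul, one_smul,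
      if_true, one_ne_zero, if_false, mul_zero, add_zero, zero_add, one_mul] at h3 h4 h5
    rw [(smul_eq_zero.1 h4.symm).resolve_right fun h => hb0 1 (by simpa [h] using h5),
      zero_smul] at h3
    simp [hd, hb0] at h3

end

/-- Over the field with 3 elements and for m ≥ 7, suppose the standard alternating form on F^(2m) is similar, through P and e, to the tensor product of a non-degenerate symplectic form f₁ on F^(n₁) and a non-degenerate symmetric bilinear form f₂ on F^3. Then the elements of Sp_2m(3) in the stabiliser of this tensor decomposition form a subgroup that is not maximal: some subgroup lies strictly between it and Sp_2m(3). -/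
theorem result {F : Type*} [Field F] [Fintype F] (m : ℕ) (hm : 7 ≤ m) (hq : Fintype.card F = 3) (n₁ : ℕ) (e : (Fin m ⊕ Fin m) ≃ Fin n₁ × Fin 3) (P : Matrix.GeneralLinearGroup (Fin m ⊕ Fin m) F) (f₁ : (Fin n₁ → F) → (Fin n₁ → F) → F) (f₂ : (Fin 3 → F) → (Fin 3 → F) → F) (hf₁ : Cfsg.Geo.IsSymplecticForm f₁) (hf₂ : Cfsg.Geo.IsSymmetricForm f₂) (hT : Cfsg.Geo.IsTensorFormStructure id (Cfsg.sympForm m F) f₁ f₂ e P) : ∃ K : Subgroup (Matrix.GeneralLinearGroup (Fin m ⊕ Fin m) F), Cfsg.Geo.tensorProductSubgroup n₁ 3 e P ⊓ Cfsg.spGL m F < K ∧ K < Cfsg.spGL m F := by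
  have hne : Nonempty (Fin m ⊕ Fin m) := ⟨Sum.inl ⟨0, by omega⟩⟩
  obtain ⟨c, hc, h⟩ := exists_tenFrame_form hf₁.bilinear hf₂.bilinear hT
  have hnd := geoBilin_nondegenerate hf₁.bilinear hf₁.nondegenerate
  have : Nonempty (Fin n₁) := ⟨(e (Sum.inl ⟨0, by omega⟩)).1⟩
  let ψ := isomGroupCongr (B' := jBilin (Fin m) F) (tenFrame e P)
    fun p q => (sympForm_eq_jBilin m _ _).symm.trans (h p q)
  obtain ⟨M, h1, h2⟩ := main hq (f := c • geoBilin hf₁.bilinear)
    ⟨fun x hx => hnd.1 x fun y => by simpa [hc] using hx y,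
      fun x hx => hnd.2 x fun y => by simpa [hc] using hx y⟩
    (fun x => by simp [geoBilin_apply, hf₁.alternating]) (h := geoBilin hf₂.bilinear) hf₂.symm
    (geoBilin_nondegenerate hf₂.bilinear hf₂.nondegenerate) (by simp)
    ((tensorProductSubgroup n₁ 3 e P).comap ((isomToGL (jBilin (Fin m) F)).comp ψ.toMonoidHom))
    fun g => by
      rw [Subgroup.mem_comap, mem_tensorProductSubgroup_iff]
      refine exists_congr fun α => exists_congr fun β => ?_
      rw [LinearMap.ext_iff]
      refine forall_congr' fun p => ?_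
      rw [MonoidHom.comp_apply, isomToGL_mulVec, MulEquiv.coe_toMonoidHom, isomGroupCongr_apply,
        LinearEquiv.symm_apply_apply]
      exact (tenFrame e P).injective.eq_iff
  exact exists_between_of_comap ((isomToGL (jBilin (Fin m) F)).comp ψ.toMonoidHom)
    ((isomToGL_injective _).comp ψ.injective)
    (by rw [MonoidHom.range_comp, MonoidHom.range_eq_top.2 ψ.surjective, ← MonoidHom.range_eq_map,
      range_isomToGL_jBilin]) _ M h1 h2

end Cfsg.Agent.S5667
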