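import Cfsg.Statements.S5671
import Cfsg.Agent.H31.Q2NonMax
import Cfsg.Agent.H25.FormTensor

set_option autoImplicit false
open Cfsg

namespace Cfsg.Agent.S5671

open Cfsg.Agent.H31

/-- Let F be the field with 4 elements (q = 2) and n = 2 n₂ ≥ 13. Suppose the standard unitary form Σ u_i v_i² on F^n is similar, through P and e, to the tensor product of non-degenerate unitary forms f₁ on F^2 and f₂ on F^(n₂). Then the elements of SU_n(2) in the stabiliser of this tensor decomposition form a subgroup that is not maximal: some subgroup lies strictly between it and SU_n(2). -/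
theorem result {F : Type*} [Field F] [Fintype F] (n : ℕ) (hF : Fintype.card F = 4) (hn : 13 ≤ n) (n₂ : ℕ) (e : Fin n ≃ Fin 2 × Fin n₂) (P : Matrix.GeneralLinearGroup (Fin n) F) (f₁ : (Fin 2 → F) → (Fin 2 → F) → F) (f₂ : (Fin n₂ → F) → (Fin n₂ → F) → F) (hf₁ : Cfsg.Geo.IsUnitaryFormPow 2 f₁) (hf₂ : Cfsg.Geo.IsUnitaryFormPow 2 f₂) (hT : Cfsg.Geo.IsTensorFormStructure (fun x : F => x ^ 2) (Cfsg.hermForm n F 2) f₁ f₂ e P) : ∃ K : Subgroup (Matrix.GeneralLinearGroup (Fin n) F), Cfsg.Geo.tensorProductSubgroup 2 n₂ e P ⊓ (Cfsg.GU n F 2 ⊓ Cfsg.Geo.specialLinear (Fin n) F) < K ∧ K < (Cfsg.GU n F 2 ⊓ Cfsg.Geo.specialLinear (Fin n) F) := by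
  have hF' : Fintype.card F = 2 ^ 2 := hF
  have hq : ∀ a : F, frobQ hF' a = a → a = 0 ∨ a = 1 := fun a ha => by
    have h : a * (a - 1) = 0 := by
      have : a ^ 2 = a := ha
      linear_combination this
    exact (mul_eq_zero.1 h).imp id sub_eq_zero.1
  have hn2 : 2 ≤ n₂ := by
    have := Fintype.card_congr e
    simp only [Fintype.card_fin, Fintype.card_prod] at this
    omega
  obtain ⟨B₁, h₁, hB₁⟩ := exists_isHerm_of_isUnitaryFormPow hF' hf₁
  obtain ⟨B₂, h₂, hB₂⟩ := exists_isHerm_of_isUnitaryFormPow hF' hf₂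
  obtain ⟨c, hc, hT⟩ := hT
  let τ : F ≃+* F := RingEquiv.ofBijective (frobQ hF')
    (Function.Involutive.bijective (isInvol_frobQ hF').invol)
  have sq : ∀ {k : ℕ} {f : (Fin k → F) → (Fin k → F) → F}, Cfsg.Geo.IsUnitaryFormPow 2 f →
      H25.Sesq τ f := fun hf =>
    ⟨hf.add_left, hf.smul_left, fun v x y => by
      rw [hf.herm, hf.add_left, add_pow_q hF', ← hf.herm, ← hf.herm], fun c v x => by
      rw [hf.herm, hf.smul_left, mul_pow, ← hf.herm]; rfl⟩
  refine exists_between_SU_of hF'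
    (H' := (Cfsg.Geo.tensorProductSubgroup 2 n₂ e P).comap (glEquiv (Fin n) F).symm.toMonoidHom)
    (fun g => by simp) ?_
  refine (isHerm_hermB hF' n).exists_between_tensor hq h₁ h₂ (by simp) (by simpa using hn2)
    (fun u y => H25.frameEquiv e P (H25.pure2 u y)) (fun u y y' => ?_) (fun k u y => ?_)
    (fun k u y => ?_) hc (fun u y u' y' => ?_) ?_
  · rw [← map_add]; congr 1; funext p; simp [H25.pure2, mul_add]
  · rw [← map_smul]; congr 1; funext p; simp [H25.pure2, mul_left_comm]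
  · rw [← map_smul]; congr 1; funext p; simp [H25.pure2, mul_assoc]
  · rw [hermB_eq, H25.frameEquiv_apply, H25.frameEquiv_apply, hT, hB₁, hB₂]
    congr 1
    have := H25.formOfGram_eq (σ := τ)
      (Matrix.kroneckerMap (· * ·) (Cfsg.Geo.gramMatrix f₁) (Cfsg.Geo.gramMatrix f₂))
      (H25.pure2 u' y') (H25.pure2 u y)
    rw [H25.form_kron_pure2, ← (sq hf₁).eq_form, ← (sq hf₂).eq_form] at this
    exact this
  · intro g hg
    obtain ⟨a, b, hab⟩ := (H25.mem_tensorProductSubgroup e P _).1 hg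
    refine ⟨fun u => (a : Matrix _ _ F).mulVec u, fun y => (b : Matrix _ _ F).mulVec y,
      fun u y => ?_⟩
    rw [← glEquiv_symm_mulVec, ← H25.kron_mulVec_pure2, ← H25.conjT_mulVec, ← hab]
    rfl

end Cfsg.Agent.S5671
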