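import Cfsg.Statements.S5673
import Cfsg.Agent.H25.OMax
-- import your own Cfsg.Agent.* helpers here

set_option autoImplicit false
open Cfsg

namespace Cfsg.Agent.S5673

/-- Subgroup structure of the odd-dimensional orthogonal groups. Let F be a finite field of odd order and m ≥ 3, let Q be the standard quadratic form x₀² + Σ x_i y_i on F^(2m+1), and let Ω be the commutator subgroup of its isometry group, viewed inside GL_(2m+1)(F). Let H be a subgroup of Ω whose product with the scalar matrices in Ω is not all of Ω. Then either H is contained in a member of one of the geometric classes of subgroups of the isometry group (with the conditions built into InOrthogonalOddClass), or H is in the residual class: modulo scalars it is almost simple, and the perfect preimage of its socle acts absolutely irreducibly, is realisable over no proper subfield, and fixes no non-degenerate unitary form. -/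
theorem result {F : Type*} [Field F] [Fintype F] (hodd : Odd (Fintype.card F)) (m : ℕ) (hm : 3 ≤ m) (H : Subgroup (Matrix.GeneralLinearGroup (Unit ⊕ (Fin m ⊕ Fin m)) F)) (hH : H ≤ Cfsg.Geo.omegaGL (Cfsg.quadFormOdd m F)) (hproper : H ⊔ (Cfsg.Geo.scalars (Unit ⊕ (Fin m ⊕ Fin m)) F ⊓ Cfsg.Geo.omegaGL (Cfsg.quadFormOdd m F)) ≠ Cfsg.Geo.omegaGL (Cfsg.quadFormOdd m F)) : (∃ M : Subgroup (Matrix.GeneralLinearGroup (Unit ⊕ (Fin m ⊕ Fin m)) F), Cfsg.Geo.InOrthogonalOddClass m F M ∧ H ≤ M) ∨ Cfsg.Geo.InOrthogonalResidualClass H := by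
  have hQ := H25.isNQF_quadFormOdd (F := F) m hodd
  have hc := H25.card_odd_index m
  have hn : Odd (Fintype.card (Unit ⊕ (Fin m ⊕ Fin m))) := ⟨m, hc⟩
  have h2 := H25.two_ne_zero_of_odd hodd
  have hI := hH.trans (H25.omegaGL_le _)
  have hS := hI.trans (H25.isometryGroup_le_sim _)
  by_cases hirr : H25.Irr H
  swap
  · rcases (H25.sq_polar hQ).reducible_cases hS hirr with ⟨W, h1, h3, h4⟩ | ⟨W, h1, h0, h3, -, h4⟩
    · exact Or.inl ⟨_, Or.inl ⟨W, h1, H25.ts_of_polar hQ h2 h3, rfl⟩, le_inf h4 hI⟩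
    · exact Or.inl ⟨_, Or.inr (Or.inl ⟨W, h1, h0, h3, rfl⟩), le_inf h4 hI⟩
  rcases H25.OSet.oCase ⟨hQ, by omega, Or.inl hn, by omega, hirr, hI,
    hH.trans (H25.omegaGL_le_specialLinear _)⟩ with
    ⟨t, k, D, h1, h3, h4⟩ | ⟨k, D, h1, -⟩ | ⟨F₀, r, P, ζ, h1, h3, h4, h5, h6⟩ |
    ⟨r, K, h1, -, h3, -, -, h6, h9, h10⟩ | ⟨K, -, h3, -⟩ |
    ⟨a, b, e, P, f₁, f₂, -, h3, h4, -, -, h6, h9, h10, h11⟩ |
    ⟨e, -⟩ | ⟨k, t, e, P, f₁, -, h3, h4, h5, h6, h9, h10⟩ | hr
  · by_cases hk : k = 1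
    · subst hk
      refine Or.inl ⟨_, ?_, le_inf h4 hI⟩
      iterate 3 right
      exact Or.inl ⟨t, D, h3 rfl, h1, rfl⟩
    · refine Or.inl ⟨_, ?_, le_inf h4 hI⟩
      iterate 2 right
      exact Or.inl ⟨t, k, D, by have := h1.decomp.decomp.pos; omega, h1, rfl⟩
  · omega
  · obtain ⟨P', h7, h8⟩ := H25.SubCase.one_of_odd hQ h2 hn (H25.quadRat_quadFormOdd m) h1 h3 h4 h5
    refine Or.inl ⟨_, ?_, le_inf (h8 ▸ h6 : H ≤ Cfsg.Geo.subfieldSubgroup F₀ P') hI⟩
    iterate 6 right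
    exact Or.inl ⟨F₀, r, P', h1, h3, h7, rfl⟩
  · refine Or.inl ⟨_, ?_, le_inf h10 hI⟩
    iterate 4 right
    exact Or.inl ⟨r, K, h1, by omega, h6, h9, rfl⟩
  · exact (Nat.not_even_iff_odd.2 hn h3).elim
  · refine Or.inl ⟨_, ?_, le_inf h11 hI⟩
    iterate 5 right
    exact Or.inl ⟨a, b, e, P, f₁, f₂, h3, h4, h6, h9, h10, rfl⟩
  · have := H25.card_eq_mul_of_equiv e
    omega
  · refine Or.inl ⟨_, ?_, le_inf h10 hI⟩
    iterate 7 right
    exact ⟨k, t, e, P, f₁, h3, h4, h5, h6, h9, rfl⟩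
  · exact Or.inr hr

end Cfsg.Agent.S5673
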