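import Cfsg.Statements.S5677
import Cfsg.Agent.H30.DecBig

set_option autoImplicit false
open Cfsg

namespace Cfsg.Agent.S5677

/-- Let F be a finite field of odd order q, m ≥ 6, Q the standard quadratic form on F^(2m+1) and Ω the commutator subgroup of its isometry group. Let D be a decomposition of F^(2m+1) into t ≥ 2 pairwise orthogonal, pairwise Q-isometric subspaces of equal dimension k > 1 on which the polar form is non-degenerate. Unless q = 3 and k = 3, the elements of Ω permuting the members of D form a maximal subgroup of Ω. -/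
theorem result {F : Type*} [Field F] [Fintype F] (hodd : Odd (Fintype.card F)) (m : ℕ) (hm : 6 ≤ m) {t : ℕ} (k : ℕ) (hk : 1 < k) (D : Fin t → Submodule F (Unit ⊕ (Fin m ⊕ Fin m) → F)) (hD : Cfsg.Geo.IsOrthogonalMDecomposition (Cfsg.quadFormOdd m F) k D) (hex : ¬ (Fintype.card F = 3 ∧ k = 3)) : Cfsg.Geo.IsMaximalIn (Cfsg.Geo.omegaGL (Cfsg.quadFormOdd m F)) (Cfsg.Geo.decompositionStabilizer D ⊓ Cfsg.Geo.omegaGL (Cfsg.quadFormOdd m F)) := by
  have hQ := H30.qOdd_nondegenerate (H30.two_ne_zero_iff_odd_card.2 hodd) m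
  have hn := (H30.oDec_of_geo (Q := H30.qOdd F m) hD.decomp).finrank_eq_mul
    hD.decomp.decomp.finrank_eq
  rw [H30.finrank_pi'] at hn
  simp only [Fintype.card_sum, Fintype.card_unique, Fintype.card_fin] at hn
  have ht2 := hD.decomp.decomp.two_le
  have hodd' : Odd (t * k) := ⟨m, by omega⟩
  obtain ⟨⟨a, ha⟩, b, hb⟩ := Nat.odd_mul.1 hodd'
  refine H30.omega_c2_three_le (H30.isNondegenerateQuadraticForm_of hQ) hD (by omega)
    (by omega) (fun h => ⟨hodd, fun h' => hex ⟨h', h⟩⟩) (by omega)

end Cfsg.Agent.S5677
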