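import Cfsg.Statements.S5680
import Cfsg.Agent.H77.C3TMain

set_option autoImplicit false
open Cfsg

namespace Cfsg.Agent.S5680

open Cfsg.Agent.H77

/-- Let F be a finite field of odd order, m ≥ 6, Q the standard quadratic form on F^(2m+1) and Ω the commutator subgroup of its isometry group. Let K be a subfield of the algebra of (2m+1) × (2m+1) matrices over F containing the scalars, of prime degree r over F with r ≠ 2m + 1, whose elements are self-adjoint for the polar form of Q. Then the elements of Ω normalising K form a maximal subgroup of Ω. -/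
theorem result {F : Type*} [Field F] [Fintype F] (hodd : Odd (Fintype.card F)) (m : ℕ) (hm : 6 ≤ m) (r : ℕ) (hr : r.Prime) (hrn : 2 * m + 1 ≠ r) (K : Subalgebra F (Matrix (Unit ⊕ (Fin m ⊕ Fin m)) (Unit ⊕ (Fin m ⊕ Fin m)) F)) (hK : Cfsg.Geo.IsFieldSubalgebra r K) (hsa : Cfsg.Geo.IsSelfAdjointFor (QuadraticMap.polar (Cfsg.quadFormOdd m F)) K) : Cfsg.Geo.IsMaximalIn (Cfsg.Geo.omegaGL (Cfsg.quadFormOdd m F)) (Cfsg.Geo.subalgebraNormalizer K ⊓ Cfsg.Geo.omegaGL (Cfsg.quadFormOdd m F)) := by
  have h2 := H30.two_ne_zero_iff_odd_card.2 hodd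
  have hQ := H30.isNondegenerateQuadraticForm_of (H30.qOdd_nondegenerate h2 m)
  have hcard : Fintype.card (Unit ⊕ (Fin m ⊕ Fin m)) = 2 * m + 1 := by simp; omega
  by_cases h : 3 * r < Fintype.card (Unit ⊕ (Fin m ⊕ Fin m))
  · exact H26.omega_c3_orth h2 hQ hr h hK hsa
  obtain ⟨k, hk⟩ : ∃ k, r * k = 2 * m + 1 := by
    let _ : Field K := (H27.isField_of_isFieldSubalgebra hK).toField
    let _ := H27.homModule K.val
    have := H27.homModule_isScalarTower K.val
    have hdim := Module.finrank_mul_finrank F K (Unit ⊕ (Fin m ⊕ Fin m) → F)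
    rw [hK.finrank_eq, H26.finrank_pi_card, hcard] at hdim
    exact ⟨_, hdim⟩
  have h3 : k ≤ 3 := by
    by_contra h3
    have := Nat.mul_le_mul_left r (show 4 ≤ k by omega)
    have := hr.pos
    omega
  refine H77.omega_c3_three h2 hQ hr ?_ ?_ hK hsa <;> interval_cases k <;> omega

end Cfsg.Agent.S5680
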