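import Cfsg.Statements.S5684
import Cfsg.Agent.H27.OPM
import Cfsg.Agent.H30.OrthMatrix

set_option autoImplicit false
open Cfsg

namespace Cfsg.Agent.S5684

/-- Let F be a finite field of odd order q, m ≥ 6, Q the standard quadratic form on F^(2m+1) and Ω the commutator subgroup of its isometry group. Suppose the polar form of Q is similar, through a change of basis P and a bijection of index sets e, to the t-fold tensor power (t ≥ 2) of a non-degenerate symmetric bilinear form f₁ on F^k with k ≥ 3 and (q, k) ≠ (3, 3). Then the elements of Ω in the stabiliser of this decomposition form a maximal subgroup of Ω. -/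
theorem result {F : Type*} [Field F] [Fintype F] (hodd : Odd (Fintype.card F)) (m : ℕ) (hm : 6 ≤ m) (k t : ℕ) (hk : 3 ≤ k) (ht : 2 ≤ t) (hex : ¬ (Fintype.card F = 3 ∧ k = 3)) (e : (Unit ⊕ (Fin m ⊕ Fin m)) ≃ (Fin t → Fin k)) (P : Matrix.GeneralLinearGroup (Unit ⊕ (Fin m ⊕ Fin m)) F) (f₁ : (Fin k → F) → (Fin k → F) → F) (hf₁ : Cfsg.Geo.IsSymmetricForm f₁) (hT : Cfsg.Geo.IsTensorPowerFormStructure id (QuadraticMap.polar (Cfsg.quadFormOdd m F)) f₁ e P) : Cfsg.Geo.IsMaximalIn (Cfsg.Geo.omegaGL (Cfsg.quadFormOdd m F)) (Cfsg.Geo.tensorWreathSubgroup k t e P ⊓ Cfsg.Geo.omegaGL (Cfsg.quadFormOdd m F)) := by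
  refine H27.isMaximalIn_tensorWreath_oo hodd (H30.isNondegenerateQuadraticForm_of
    (H30.qOdd_nondegenerate (H27.two_ne_zero_of_odd hodd) m)) hk ht hex (fun h4 _ => ?_) e P hf₁ hT
  have h := Fintype.card_congr e
  simp only [Fintype.card_sum, Fintype.card_unit, Fintype.card_fin, Fintype.card_fun, h4] at h
  have : 2 ∣ 4 ^ t := Dvd.dvd.pow (by norm_num) (by omega)
  omega

end Cfsg.Agent.S5684
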