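import Cfsg.Statements.S5784
import Cfsg.Agent.H32.CertU43
import Cfsg.Agent.H32.PairStd

set_option autoImplicit false
open Cfsg

namespace Cfsg.Agent.S5784

/-- Every maximal subgroup of SU_4(q) is of one of the listed geometric types or lies in the residual class. Let F be the field with q² elements, f the standard unitary form Σ u_i v_i^q on F^4, and H a maximal subgroup of SU_4(q) (inside GL_4(F)). Then H is the intersection with SU_4(q) of one of: the stabiliser of a non-zero subspace on which f vanishes; the stabiliser of a non-degenerate 1-space; for q ≠ 3, the stabiliser of a decomposition into four mutually orthogonal non-degenerate 1-spaces; for q ≥ 3, of a decomposition into two orthogonal non-degenerate 2-spaces; for q ≥ 4, of a decomposition into two totally isotropic 2-spaces; a subfield group of odd prime index whose F₀-structure carries f; a subfield group of index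 2 whose F₀-structure carries ζ f, vanishing on pairs (u, u), for some non-zero ζ with ζ + ζ^q = 0; for q odd, a subfield group of index 2 whose F₀-structure carries f; for q = p ≡ 3 mod 4 prime, the normaliser of an absolutely irreducible symplectic-type 2-group of exponent 4, order 64 and centre of order 4 inside the similarity group of f — or else H lies in the residual class of the unitary case. -/
theorem result {F : Type*} [Field F] [Fintype F] (q : ℕ) (hF : Fintype.card F = q ^ 2) (H : Subgroup (Matrix.GeneralLinearGroup (Fin 4) F)) (hH : Cfsg.Geo.IsMaximalIn (Cfsg.GU 4 F q ⊓ Cfsg.Geo.specialLinear (Fin 4) F) H) :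
    (∃ W : Submodule F (Fin 4 → F), W ≠ ⊥ ∧ Cfsg.Geo.IsTotallySingularFor (Cfsg.hermForm 4 F q) W ∧ H = Cfsg.Geo.subspaceStabilizer W ⊓ (Cfsg.GU 4 F q ⊓ Cfsg.Geo.specialLinear (Fin 4) F)) ∨
    (∃ W : Submodule F (Fin 4 → F), W ≠ ⊥ ∧ Cfsg.Geo.IsNondegenerateOn (Cfsg.hermForm 4 F q) W ∧ 2 * Module.finrank F W < 4 ∧ H = Cfsg.Geo.subspaceStabilizer W ⊓ (Cfsg.GU 4 F q ⊓ Cfsg.Geo.specialLinear (Fin 4) F)) ∨
    (q ≠ 3 ∧ ∃ D : Fin 4 → Submodule F (Fin 4 → F), Cfsg.Geo.IsNondegenerateMDecomposition (Cfsg.hermForm 4 F q) 1 D ∧ H = Cfsg.Geo.decompositionStabilizer D ⊓ (Cfsg.GU 4 F q ⊓ Cfsg.Geo.specialLinear (Fin 4) F)) ∨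
    (3 ≤ q ∧ ∃ D : Fin 2 → Submodule F (Fin 4 → F), Cfsg.Geo.IsNondegenerateMDecomposition (Cfsg.hermForm 4 F q) 2 D ∧ H = Cfsg.Geo.decompositionStabilizer D ⊓ (Cfsg.GU 4 F q ⊓ Cfsg.Geo.specialLinear (Fin 4) F)) ∨
    (4 ≤ q ∧ ∃ D : Fin 2 → Submodule F (Fin 4 → F), Cfsg.Geo.IsMDecomposition 2 D ∧ (∀ i, Cfsg.Geo.IsTotallySingularFor (Cfsg.hermForm 4 F q) (D i)) ∧ H = Cfsg.Geo.decompositionStabilizer D ⊓ (Cfsg.GU 4 F q ⊓ Cfsg.Geo.specialLinear (Fin 4) F)) ∨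
    (∃ (F₀ : Subfield F) (r : ℕ) (P : Matrix.GeneralLinearGroup (Fin 4) F), r.Prime ∧ Odd r ∧ Fintype.card F = Nat.card F₀ ^ r ∧ Cfsg.Geo.IsFormRationalStructure (Cfsg.hermForm 4 F q) F₀ 1 P ∧ H = Cfsg.Geo.subfieldSubgroup F₀ P ⊓ (Cfsg.GU 4 F q ⊓ Cfsg.Geo.specialLinear (Fin 4) F)) ∨
    (∃ (F₀ : Subfield F) (P : Matrix.GeneralLinearGroup (Fin 4) F) (ζ : F), Fintype.card F = Nat.card F₀ ^ 2 ∧ ζ ≠ 0 ∧ ζ + ζ ^ q = 0 ∧ Cfsg.Geo.IsFormRationalStructure (Cfsg.hermForm 4 F q) F₀ ζ P ∧ (∀ u : Fin 4 → F, (∀ i, u i ∈ F₀) → (Cfsg.hermForm 4 F q) (Matrix.mulVec (P : Matrix (Fin 4) (Fin 4) F) u) (Matrix.mulVec (P : Matrix (Fin 4) (Fin 4) F) u) = 0) ∧ H = Cfsg.Geo.subfieldSubgroup F₀ P ⊓ (Cfsg.GU 4 F q ⊓ Cfsg.Geo.specialLinear (Fin 4) F)) ∨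
    (Odd q ∧ ∃ (F₀ : Subfield F) (P : Matrix.GeneralLinearGroup (Fin 4) F), Fintype.card F = Nat.card F₀ ^ 2 ∧ Cfsg.Geo.IsFormRationalStructure (Cfsg.hermForm 4 F q) F₀ 1 P ∧ H = Cfsg.Geo.subfieldSubgroup F₀ P ⊓ (Cfsg.GU 4 F q ⊓ Cfsg.Geo.specialLinear (Fin 4) F)) ∨
    (∃ (p : ℕ) (R : Subgroup (Matrix.GeneralLinearGroup (Fin 4) F)), p.Prime ∧ q = p ∧ p % 4 = 3 ∧ Cfsg.Geo.IsSymplecticTypeGroup 2 R ∧ Cfsg.Geo.ActsAbsolutelyIrreducibly (Cfsg.Geo.matrixSet R) ∧ R ≤ Cfsg.Geo.similarityGroup (Cfsg.hermForm 4 F q) ∧ Nat.card R = 64 ∧ Nat.card (Subgroup.center R) = 4 ∧ H = Cfsg.Geo.subgroupNormalizer R ⊓ (Cfsg.GU 4 F q ⊓ Cfsg.Geo.specialLinear (Fin 4) F)) ∨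
    Cfsg.Geo.InUnitaryResidualClass H := by
  have hc : Fintype.card (Fin 4) = 4 := Fintype.card_fin 4
  obtain ⟨σ, hU⟩ := H25.exists_uMax hF (H31.isUnitaryFormPow_hermForm hF 4) (by omega) hH
  rcases hU.suMax (by omega) with
    ⟨W, h1, h2, h3⟩ | ⟨W, h1, h2, h3, h4⟩ | ⟨t, k, D, h1, h2, h3, h4, h5, h6⟩ |
    ⟨k, D, hI, h2, h3, h4, h5⟩ | ⟨F₀, r, P, h1, h2, h3, h4, h5⟩ | ⟨F₀, P, hI, h1, h2, h3, h4⟩ |
    ⟨F₀, P, ζ, h1, h2, h3, h4, h5, h6, h7⟩ |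
    ⟨r, R, p, d, k, h1, h2, h3, h4, h5, h6, h7, h8, h9, h10, h11, h12, h13, h14⟩ |
    ⟨R, k, h1, h2, h3, h4, h5, h6, h7, h8, h9⟩ | ⟨r, K, hI, h1, h2, h3, h4, h5, h6⟩ |
    ⟨a, b, e, P, f₁, f₂, h1, h2, h3, h4, h5, h6, h7, h8⟩ | ⟨e, P, f₁, h1, h2, h3, h4, h5⟩ | h
  · exact Or.inl ⟨W, h1, h2, h3⟩
  · exact Or.inr (Or.inl ⟨W, h1, h2, by omega, h4⟩)
  · rw [hc] at h4
    have ht : t ≤ 4 := by nlinarith
    have : (t = 4 ∧ k = 1) ∨ (t = 2 ∧ k = 2) := by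
      interval_cases t <;> omega
    rcases this with ⟨rfl, rfl⟩ | ⟨rfl, rfl⟩
    · by_cases h7 : q = 3
      · subst h7
        exact (H32.Cert.U43.not_max hF h1 hH (h6.le.trans inf_le_left)).elim
      iterate 2 right
      exact Or.inl ⟨h7, D, h1, h6⟩
    · iterate 3 right
      exact Or.inl ⟨h5 rfl, D, h1, h6⟩
  · obtain rfl : k = 2 := by omega
    by_cases h7 : 4 ≤ q
    · iterate 4 right
      exact Or.inl ⟨h7, D, h3, h4, h5⟩
    obtain ⟨P, ζ, h8, h9, h10⟩ := H32.su4_pair hF (by omega) hU.sq hU.ne hU.pow hc h3 h4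
      hU.max.1.le (h5.le.trans inf_le_left)
    have h11 := H25.card_fixedSub hU.ne hU.sq.invol
    have h12 := H25.eq_inf_of_max hU.max h10 (hU.qs.not_le_subfield' le_rfl h11 P)
    rcases hU.sq.index_two_cases (by omega) hI hU.le h8 h9 h10 with ⟨h13, h14⟩ | ⟨-, h13, h14⟩
    · iterate 7 right
      have h15 := H25.odd_of_two_ne_zero h13
      rw [hF] at h15
      exact Or.inl ⟨(Nat.odd_pow_iff two_ne_zero).1 h15, _, P, h11, h14, h12⟩
    · iterate 6 right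
      exact Or.inl ⟨_, P, ζ, h11, h8, hU.pow ζ ▸ h13, h9, h14, h12⟩
  · iterate 5 right
    exact Or.inl ⟨F₀, r, P, h1, h2, h3, h4, h5⟩
  · iterate 7 right
    exact Or.inl ⟨h1, F₀, P, h2, h3, h4⟩
  · iterate 6 right
    exact Or.inl ⟨F₀, P, ζ, h2, h3, h4, h5, h6, h7⟩
  · obtain ⟨rfl, -⟩ := H25.eq_of_pow_eq_prime_pow (j := 2) Nat.prime_two h1.prime (by norm_num) (hc.symm.trans h3)
    exact absurd h2 (by decide)
  · obtain rfl : k = 2 := (H25.eq_of_pow_eq_prime_pow (j := 2) Nat.prime_two Nat.prime_two (by norm_num) (hc.symm.trans h2)).2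
    iterate 8 right
    exact Or.inl ⟨q, R, h3, rfl, h4, h5, H25.absIrr_of_galg_eq_top h1.galg_top, h6, h7, h8, h9⟩
  · rw [hc] at h3
    obtain rfl : r = 2 := (Nat.prime_dvd_prime_iff_eq h1 Nat.prime_two).1
      (h1.dvd_of_dvd_pow (n := 2) h3)
    exact absurd h2 (by decide)
  · rw [hc] at h3
    nlinarith
  · omega
  · iterate 9 right
    exact h

end Cfsg.Agent.S5784
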