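import Cfsg.Statements.S5796
import Cfsg.Agent.H32.CertU52

set_option autoImplicit false
open Cfsg

namespace Cfsg.Agent.S5796

/-- Every maximal subgroup of SU_5(q) is of one of the listed geometric types or lies in the residual class. Let F be the field with q² elements (characteristic p), f the standard unitary form Σ u_i v_i^q on F^5, and H a maximal subgroup of SU_5(q) (inside GL_5(F)). Then H is the intersection with SU_5(q) of one of: the stabiliser of a non-zero totally isotropic subspace; the stabiliser of a non-degenerate 1-space or 2-space; the stabiliser of a decomposition into five mutually orthogonal non-degenerate 1-spaces; for q ≥ 3, the normaliser of an adjoint-closed degree-5 subfield of the matrix algebra; a subfield group of odd prime index whose F₀-structure carries f; for q odd, a subfield group of index 2 whose F₀-structure carries f; for q = p ≡ 4 mod 5 or q = p²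 with p ≡ 2, 3 mod 5, the normaliser of an absolutely irreducible 5-group of exponent 5, order 125 and centre of order 5 with all characteristic abelian subgroups cyclic inside the similarity group of f — or else H lies in the residual class of the unitary case. -/
theorem result {F : Type*} [Field F] [Fintype F] (q : ℕ) (hF : Fintype.card F = q ^ 2) (H : Subgroup (Matrix.GeneralLinearGroup (Fin 5) F)) (hH : Cfsg.Geo.IsMaximalIn (Cfsg.GU 5 F q ⊓ Cfsg.Geo.specialLinear (Fin 5) F) H) :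
    (∃ W : Submodule F (Fin 5 → F), W ≠ ⊥ ∧ Cfsg.Geo.IsTotallySingularFor (Cfsg.hermForm 5 F q) W ∧ H = Cfsg.Geo.subspaceStabilizer W ⊓ (Cfsg.GU 5 F q ⊓ Cfsg.Geo.specialLinear (Fin 5) F)) ∨
    (∃ W : Submodule F (Fin 5 → F), W ≠ ⊥ ∧ Cfsg.Geo.IsNondegenerateOn (Cfsg.hermForm 5 F q) W ∧ 2 * Module.finrank F W < 5 ∧ H = Cfsg.Geo.subspaceStabilizer W ⊓ (Cfsg.GU 5 F q ⊓ Cfsg.Geo.specialLinear (Fin 5) F)) ∨
    (∃ D : Fin 5 → Submodule F (Fin 5 → F), Cfsg.Geo.IsNondegenerateMDecomposition (Cfsg.hermForm 5 F q) 1 D ∧ H = Cfsg.Geo.decompositionStabilizer D ⊓ (Cfsg.GU 5 F q ⊓ Cfsg.Geo.specialLinear (Fin 5) F)) ∨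
    (3 ≤ q ∧ ∃ K : Subalgebra F (Matrix (Fin 5) (Fin 5) F), Cfsg.Geo.IsFieldSubalgebra 5 K ∧ Cfsg.Geo.IsAdjointClosedFor (Cfsg.hermForm 5 F q) K ∧ H = Cfsg.Geo.subalgebraNormalizer K ⊓ (Cfsg.GU 5 F q ⊓ Cfsg.Geo.specialLinear (Fin 5) F)) ∨
    (∃ (F₀ : Subfield F) (r : ℕ) (P : Matrix.GeneralLinearGroup (Fin 5) F), r.Prime ∧ Odd r ∧ Fintype.card F = Nat.card F₀ ^ r ∧ Cfsg.Geo.IsFormRationalStructure (Cfsg.hermForm 5 F q) F₀ 1 P ∧ H = Cfsg.Geo.subfieldSubgroup F₀ P ⊓ (Cfsg.GU 5 F q ⊓ Cfsg.Geo.specialLinear (Fin 5) F)) ∨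
    (Odd q ∧ ∃ (F₀ : Subfield F) (P : Matrix.GeneralLinearGroup (Fin 5) F), Fintype.card F = Nat.card F₀ ^ 2 ∧ Cfsg.Geo.IsFormRationalStructure (Cfsg.hermForm 5 F q) F₀ 1 P ∧ H = Cfsg.Geo.subfieldSubgroup F₀ P ⊓ (Cfsg.GU 5 F q ⊓ Cfsg.Geo.specialLinear (Fin 5) F)) ∨
    (∃ (p : ℕ) (R : Subgroup (Matrix.GeneralLinearGroup (Fin 5) F)), p.Prime ∧ CharP F p ∧ ((q = p ∧ p % 5 = 4) ∨ (q = p ^ 2 ∧ (p % 5 = 2 ∨ p % 5 = 3))) ∧ Cfsg.Geo.IsSymplecticTypeGroup 5 R ∧ Cfsg.Geo.ActsAbsolutelyIrreducibly (Cfsg.Geo.matrixSet R) ∧ R ≤ Cfsg.Geo.similarityGroup (Cfsg.hermForm 5 F q) ∧ Nat.card R = 125 ∧ Nat.card (Subgroup.center R) = 5 ∧ H = Cfsg.Geo.subgroupNormalizer R ⊓ (Cfsg.GU 5 F q ⊓ Cfsg.Geo.specialLinear (Fin 5) F)) ∨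
    Cfsg.Geo.InUnitaryResidualClass H := by
  have hc : Fintype.card (Fin 5) = 5 := Fintype.card_fin 5
  obtain ⟨σ, hU⟩ := H25.exists_uMax hF (H31.isUnitaryFormPow_hermForm hF 5) (by omega) hH
  rcases hU.suMax (by omega) with
    ⟨W, h1, h2, h3⟩ | ⟨W, h1, h2, h3, h4⟩ | ⟨t, k, D, h1, h2, h3, h4, h5, h6⟩ |
    ⟨k, D, hI, h2, h3, h4, h5⟩ | ⟨F₀, r, P, h1, h2, h3, h4, h5⟩ | ⟨F₀, P, hI, h1, h2, h3, h4⟩ |
    ⟨F₀, P, ζ, h1, h2, h3, h4, h5, h6, h7⟩ |
    ⟨r, R, p, d, k, h1, h2, h3, h4, h5, h6, h7, h8, h9, h10, h11, h12, h13, h14⟩ |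
    ⟨R, k, h1, h2, h3, h4, h5, h6, h7, h8, h9⟩ | ⟨r, K, hI, h1, h2, h3, h4, h5, h6⟩ |
    ⟨a, b, e, P, f₁, f₂, h1, h2, h3, h4, h5, h6, h7, h8⟩ | ⟨e, P, f₁, h1, h2, h3, h4, h5⟩ | h
  · exact Or.inl ⟨W, h1, h2, h3⟩
  · exact Or.inr (Or.inl ⟨W, h1, h2, by omega, h4⟩)
  · rw [hc] at h4
    have ht : t ≤ 5 := by nlinarith
    have : (t = 5 ∧ k = 1) := by
      interval_cases t <;> omega
    obtain ⟨rfl, rfl⟩ := this
    iterate 2 right
    exact Or.inl ⟨D, h1, h6⟩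
  · omega
  · iterate 4 right
    exact Or.inl ⟨F₀, r, P, h1, h2, h3, h4, h5⟩
  · iterate 5 right
    exact Or.inl ⟨h1, F₀, P, h2, h3, h4⟩
  · rw [hc] at h1
    exact absurd h1 (by decide)
  · obtain ⟨rfl, rfl⟩ := H25.eq_of_pow_eq_prime_pow (by norm_num : Nat.Prime 5) h1.prime (by norm_num : 0 < 1) (hc.symm.trans h3)
    have ho := H25.order_five (Nat.mod_lt p (by norm_num)) h6 h8 h9
    iterate 6 right
    refine Or.inl ⟨p, R, h4, h5, ?_, h10, H25.absIrr_of_galg_eq_top h1.galg_top, h11.trans H25.isom_le_sim, h12, h13, h14⟩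
    rcases ho with ⟨rfl, ho⟩ | ⟨rfl, ho⟩
    · exact Or.inl ⟨by rw [h7, pow_one], ho⟩
    · exact Or.inr ⟨h7, ho⟩
  · have := (H25.eq_of_pow_eq_prime_pow (by norm_num : Nat.Prime 5) Nat.prime_two (by norm_num : 0 < 1) (hc.symm.trans h2)).1
    omega
  · rw [hc] at h3
    obtain rfl : r = 5 := (Nat.prime_dvd_prime_iff_eq h1 (by norm_num)).1 h3
    rcases hU.two_le.lt_or_eq with hq | rfl
    · iterate 3 right
      exact Or.inl ⟨hq, K, h4, h5, h6⟩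
    · exact (H32.Cert.U52.not_max hF h4 h5 hH (h6.le.trans inf_le_left)).elim
  · rw [hc] at h3
    have ha : a ≤ 2 := by nlinarith
    interval_cases a; omega
  · omega
  · iterate 7 right
    exact h

end Cfsg.Agent.S5796
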