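import Cfsg.Statements.S5802
import Cfsg.Agent.H32.CertU62
import Cfsg.Agent.H32.CertU62E

set_option autoImplicit false
open Cfsg

namespace Cfsg.Agent.S5802

/-- Every maximal subgroup of SU_6(q) is of one of the listed geometric types or lies in the residual class. Let F be the field with q² elements, f the standard unitary form Σ u_i v_i^q on F^6, and H a maximal subgroup of SU_6(q) (inside GL_6(F)). Then H is the intersection with SU_6(q) of one of: the stabiliser of a non-zero totally isotropic subspace; the stabiliser of a non-degenerate 1- or 2-space; for q ≥ 3, the stabiliser of a decomposition into six mutually orthogonal non-degenerate 1-spaces; for q ≥ 3, of a decomposition into three mutually orthogonal non-degenerate 2-spaces; of a decomposition into two orthogonal non-degenerate 3-spaces; of a decomposition into two totally isotropic 3-spaces; for q ≥ 3, the normaliser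 of an adjoint-closed degree-3 subfield of the matrix algebra; for q ≥ 3, the stabiliser of a tensor decomposition of f into unitary forms on F^2 and F^3; a subfield group of odd prime index whose F₀-structure carries f; a subfield group of index 2 and symplectic type; for q odd, a subfield group of index 2 and orthogonal type — or else H lies in the residual class of the unitary case. -/
theorem result {F : Type*} [Field F] [Fintype F] (q : ℕ) (hF : Fintype.card F = q ^ 2) (H : Subgroup (Matrix.GeneralLinearGroup (Fin 6) F)) (hH : Cfsg.Geo.IsMaximalIn (Cfsg.GU 6 F q ⊓ Cfsg.Geo.specialLinear (Fin 6) F) H) :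
    (∃ W : Submodule F (Fin 6 → F), W ≠ ⊥ ∧ Cfsg.Geo.IsTotallySingularFor (Cfsg.hermForm 6 F q) W ∧ H = Cfsg.Geo.subspaceStabilizer W ⊓ (Cfsg.GU 6 F q ⊓ Cfsg.Geo.specialLinear (Fin 6) F)) ∨
    (∃ W : Submodule F (Fin 6 → F), W ≠ ⊥ ∧ Cfsg.Geo.IsNondegenerateOn (Cfsg.hermForm 6 F q) W ∧ 2 * Module.finrank F W < 6 ∧ H = Cfsg.Geo.subspaceStabilizer W ⊓ (Cfsg.GU 6 F q ⊓ Cfsg.Geo.specialLinear (Fin 6) F)) ∨
    (3 ≤ q ∧ ∃ D : Fin 6 → Submodule F (Fin 6 → F), Cfsg.Geo.IsNondegenerateMDecomposition (Cfsg.hermForm 6 F q) 1 D ∧ H = Cfsg.Geo.decompositionStabilizer D ⊓ (Cfsg.GU 6 F q ⊓ Cfsg.Geo.specialLinear (Fin 6) F)) ∨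
    (3 ≤ q ∧ ∃ D : Fin 3 → Submodule F (Fin 6 → F), Cfsg.Geo.IsNondegenerateMDecomposition (Cfsg.hermForm 6 F q) 2 D ∧ H = Cfsg.Geo.decompositionStabilizer D ⊓ (Cfsg.GU 6 F q ⊓ Cfsg.Geo.specialLinear (Fin 6) F)) ∨
    (∃ D : Fin 2 → Submodule F (Fin 6 → F), Cfsg.Geo.IsNondegenerateMDecomposition (Cfsg.hermForm 6 F q) 3 D ∧ H = Cfsg.Geo.decompositionStabilizer D ⊓ (Cfsg.GU 6 F q ⊓ Cfsg.Geo.specialLinear (Fin 6) F)) ∨
    (∃ D : Fin 2 → Submodule F (Fin 6 → F), Cfsg.Geo.IsMDecomposition 3 D ∧ (∀ i, Cfsg.Geo.IsTotallySingularFor (Cfsg.hermForm 6 F q) (D i)) ∧ H = Cfsg.Geo.decompositionStabilizer D ⊓ (Cfsg.GU 6 F q ⊓ Cfsg.Geo.specialLinear (Fin 6) F)) ∨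
    (3 ≤ q ∧ ∃ K : Subalgebra F (Matrix (Fin 6) (Fin 6) F), Cfsg.Geo.IsFieldSubalgebra 3 K ∧ Cfsg.Geo.IsAdjointClosedFor (Cfsg.hermForm 6 F q) K ∧ H = Cfsg.Geo.subalgebraNormalizer K ⊓ (Cfsg.GU 6 F q ⊓ Cfsg.Geo.specialLinear (Fin 6) F)) ∨
    (3 ≤ q ∧ ∃ (e : Fin 6 ≃ Fin 2 × Fin 3) (P : Matrix.GeneralLinearGroup (Fin 6) F) (f₁ : (Fin 2 → F) → (Fin 2 → F) → F) (f₂ : (Fin 3 → F) → (Fin 3 → F) → F), Cfsg.Geo.IsUnitaryFormPow q f₁ ∧ Cfsg.Geo.IsUnitaryFormPow q f₂ ∧ Cfsg.Geo.IsTensorFormStructure (fun x : F => x ^ q) (Cfsg.hermForm 6 F q) f₁ f₂ e P ∧ H = Cfsg.Geo.tensorProductSubgroup 2 3 e P ⊓ (Cfsg.GU 6 F q ⊓ Cfsg.Geo.specialLinear (Fin 6) F)) ∨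
    (∃ (F₀ : Subfield F) (r : ℕ) (P : Matrix.GeneralLinearGroup (Fin 6) F), r.Prime ∧ Odd r ∧ Fintype.card F = Nat.card F₀ ^ r ∧ Cfsg.Geo.IsFormRationalStructure (Cfsg.hermForm 6 F q) F₀ 1 P ∧ H = Cfsg.Geo.subfieldSubgroup F₀ P ⊓ (Cfsg.GU 6 F q ⊓ Cfsg.Geo.specialLinear (Fin 6) F)) ∨
    (∃ (F₀ : Subfield F) (P : Matrix.GeneralLinearGroup (Fin 6) F) (ζ : F), Fintype.card F = Nat.card F₀ ^ 2 ∧ ζ ≠ 0 ∧ ζ + ζ ^ q = 0 ∧ Cfsg.Geo.IsFormRationalStructure (Cfsg.hermForm 6 F q) F₀ ζ P ∧ (∀ u : Fin 6 → F, (∀ i, u i ∈ F₀) → (Cfsg.hermForm 6 F q) (Matrix.mulVec (P : Matrix (Fin 6) (Fin 6) F) u) (Matrix.mulVec (P : Matrix (Fin 6) (Fin 6) F) u) = 0) ∧ H = Cfsg.Geo.subfieldSubgroup F₀ P ⊓ (Cfsg.GU 6 F q ⊓ Cfsg.Geo.specialLinear (Fin 6) F)) ∨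
    (Odd q ∧ ∃ (F₀ : Subfield F) (P : Matrix.GeneralLinearGroup (Fin 6) F), Fintype.card F = Nat.card F₀ ^ 2 ∧ Cfsg.Geo.IsFormRationalStructure (Cfsg.hermForm 6 F q) F₀ 1 P ∧ H = Cfsg.Geo.subfieldSubgroup F₀ P ⊓ (Cfsg.GU 6 F q ⊓ Cfsg.Geo.specialLinear (Fin 6) F)) ∨
    Cfsg.Geo.InUnitaryResidualClass H := by
  have hc : Fintype.card (Fin 6) = 6 := Fintype.card_fin 6
  obtain ⟨σ, hU⟩ := H25.exists_uMax hF (H31.isUnitaryFormPow_hermForm hF 6) (by omega) hH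
  rcases hU.suMax (by omega) with
    ⟨W, h1, h2, h3⟩ | ⟨W, h1, h2, h3, h4⟩ | ⟨t, k, D, h1, h2, h3, h4, h5, h6⟩ |
    ⟨k, D, hI, h2, h3, h4, h5⟩ | ⟨F₀, r, P, h1, h2, h3, h4, h5⟩ | ⟨F₀, P, hI, h1, h2, h3, h4⟩ |
    ⟨F₀, P, ζ, h1, h2, h3, h4, h5, h6, h7⟩ |
    ⟨r, R, p, d, k, h1, h2, h3, h4, h5, h6, h7, h8, h9, h10, h11, h12, h13, h14⟩ |
    ⟨R, k, h1, h2, h3, h4, h5, h6, h7, h8, h9⟩ | ⟨r, K, hI, h1, h2, h3, h4, h5, h6⟩ |
    ⟨a, b, e, P, f₁, f₂, h1, h2, h3, h4, h5, h6, h7, h8⟩ | ⟨e, P, f₁, h1, h2, h3, h4, h5⟩ | h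
  · exact Or.inl ⟨W, h1, h2, h3⟩
  · exact Or.inr (Or.inl ⟨W, h1, h2, by omega, h4⟩)
  · rw [hc] at h4
    have ht : t ≤ 6 := by nlinarith
    have : (t = 6 ∧ k = 1) ∨ (t = 3 ∧ k = 2) ∨ (t = 2 ∧ k = 3) := by
      interval_cases t <;> omega
    rcases this with ⟨rfl, rfl⟩ | ⟨rfl, rfl⟩ | ⟨rfl, rfl⟩
    · rcases hU.two_le.lt_or_eq with hq | rfl
      · iterate 2 right
        exact Or.inl ⟨hq, D, h1, h6⟩
      · exact (H32.Cert.U62.not_max hF h1 hH (h6.le.trans inf_le_left)).elim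
    · iterate 3 right
      exact Or.inl ⟨h5 rfl, D, h1, h6⟩
    · iterate 4 right
      exact Or.inl ⟨D, h1, h6⟩
  · obtain rfl : k = 3 := by omega
    iterate 5 right
    exact Or.inl ⟨D, h3, h4, h5⟩
  · iterate 8 right
    exact Or.inl ⟨F₀, r, P, h1, h2, h3, h4, h5⟩
  · iterate 10 right
    exact Or.inl ⟨h1, F₀, P, h2, h3, h4⟩
  · iterate 9 right
    exact Or.inl ⟨F₀, P, ζ, h2, h3, h4, h5, h6, h7⟩
  · exact (H25.not_prime_pow h1.prime Nat.prime_two Nat.prime_three (by decide) (by decide)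
      (by decide) (hc.symm.trans h3)).elim
  · exact (H25.not_prime_pow Nat.prime_two Nat.prime_two Nat.prime_three (by decide) (by decide)
      (by decide) (hc.symm.trans h2)).elim
  · rw [hc] at h3
    have hr : r ≤ 6 := Nat.le_of_dvd (by norm_num) h3
    obtain rfl : r = 3 := by
      interval_cases r <;> first | rfl | (norm_num at h1; done) | (norm_num at h3; done) | exact absurd h2 (by decide)
    rcases hU.two_le.lt_or_eq with hq | rfl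
    · iterate 6 right
      exact Or.inl ⟨hq, K, h4, h5, h6⟩
    · exact (H32.Cert.U62E.not_max hF h4 h5 hH (h6.le.trans inf_le_left)).elim
  · rw [hc] at h3
    have ha : a ≤ 2 := by nlinarith
    obtain rfl : a = 2 := by omega
    obtain rfl : b = 3 := by omega
    iterate 7 right
    exact Or.inl ⟨h4 rfl, e, P, f₁, f₂, h5, h6, h7, h8⟩
  · omega
  · iterate 11 right
    exact h

end Cfsg.Agent.S5802
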