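import Cfsg.Statements.S5805
import Cfsg.Agent.H25.SpMax
-- import your own Cfsg.Agent.* helpers here

set_option autoImplicit false
open Cfsg

namespace Cfsg.Agent.S5805

/-- Every maximal subgroup of Sp_6(q) is of one of the listed geometric types or lies in the residual class. Let F be a finite field with q elements, f the standard alternating form on F^6 (coordinates Fin 3 ⊕ Fin 3), and H a maximal subgroup of Sp_6(F) (inside GL_6(F)). Then H is the intersection with Sp_6(F) of one of: the stabiliser of a non-zero totally isotropic subspace; the stabiliser of a non-degenerate 2-space; for q ≥ 3, the stabiliser of a decomposition into three mutually orthogonal non-degenerate 2-spaces; for q odd, of a decomposition into two totally isotropic 3-spaces; the normaliser of a degree-3 subfield K of the matrix algebra, self-adjoint with f(k v, v) = 0; for q odd, the normaliser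 of a degree-2 subfield closed under adjoints but not self-adjoint; for q odd, q ≥ 5, the stabiliser of a tensor decomposition of f into an alternating form on F^2 and a symmetric form on F^3; a subfield group (|F| = |F₀|^r, r prime) whose F₀-structure carries a non-zero multiple of f; for q even, the similarity group of a non-degenerate quadratic form polarising to f — or else H lies in the residual class of the symplectic case. -/
theorem result {F : Type*} [Field F] [Fintype F] (H : Subgroup (Matrix.GeneralLinearGroup (Fin 3 ⊕ Fin 3) F)) (hH : Cfsg.Geo.IsMaximalIn (Cfsg.spGL 3 F) H) :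
    (∃ W : Submodule F (Fin 3 ⊕ Fin 3 → F), W ≠ ⊥ ∧ Cfsg.Geo.IsTotallySingularFor (Cfsg.sympForm 3 F) W ∧ H = Cfsg.Geo.subspaceStabilizer W ⊓ Cfsg.spGL 3 F) ∨
    (∃ W : Submodule F (Fin 3 ⊕ Fin 3 → F), W ≠ ⊥ ∧ Cfsg.Geo.IsNondegenerateOn (Cfsg.sympForm 3 F) W ∧ Module.finrank F W < 3 ∧ H = Cfsg.Geo.subspaceStabilizer W ⊓ Cfsg.spGL 3 F) ∨
    (3 ≤ Fintype.card F ∧ ∃ D : Fin 3 → Submodule F (Fin 3 ⊕ Fin 3 → F), Cfsg.Geo.IsNondegenerateMDecomposition (Cfsg.sympForm 3 F) 2 D ∧ H = Cfsg.Geo.decompositionStabilizer D ⊓ Cfsg.spGL 3 F) ∨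
    (Odd (Fintype.card F) ∧ ∃ D : Fin 2 → Submodule F (Fin 3 ⊕ Fin 3 → F), Cfsg.Geo.IsMDecomposition 3 D ∧ (∀ i, Cfsg.Geo.IsTotallySingularFor (Cfsg.sympForm 3 F) (D i)) ∧ H = Cfsg.Geo.decompositionStabilizer D ⊓ Cfsg.spGL 3 F) ∨
    (∃ K : Subalgebra F (Matrix (Fin 3 ⊕ Fin 3) (Fin 3 ⊕ Fin 3) F), Cfsg.Geo.IsFieldSubalgebra 3 K ∧ Cfsg.Geo.IsSelfAdjointFor (Cfsg.sympForm 3 F) K ∧ (∀ k ∈ K, ∀ v : (Fin 3 ⊕ Fin 3 → F), (Cfsg.sympForm 3 F) (Matrix.mulVec k v) v = 0) ∧ H = Cfsg.Geo.subalgebraNormalizer K ⊓ Cfsg.spGL 3 F) ∨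
    (Odd (Fintype.card F) ∧ ∃ K : Subalgebra F (Matrix (Fin 3 ⊕ Fin 3) (Fin 3 ⊕ Fin 3) F), Cfsg.Geo.IsFieldSubalgebra 2 K ∧ Cfsg.Geo.IsAdjointClosedFor (Cfsg.sympForm 3 F) K ∧ ¬ Cfsg.Geo.IsSelfAdjointFor (Cfsg.sympForm 3 F) K ∧ H = Cfsg.Geo.subalgebraNormalizer K ⊓ Cfsg.spGL 3 F) ∨
    (Odd (Fintype.card F) ∧ 5 ≤ Fintype.card F ∧ ∃ (e : (Fin 3 ⊕ Fin 3) ≃ Fin 2 × Fin 3) (P : Matrix.GeneralLinearGroup (Fin 3 ⊕ Fin 3) F) (f₁ : (Fin 2 → F) → (Fin 2 → F) → F) (f₂ : (Fin 3 → F) → (Fin 3 → F) → F), Cfsg.Geo.IsSymplecticForm f₁ ∧ Cfsg.Geo.IsSymmetricForm f₂ ∧ Cfsg.Geo.IsTensorFormStructure id (Cfsg.sympForm 3 F) f₁ f₂ e P ∧ H = Cfsg.Geo.tensorProductSubgroup 2 3 e P ⊓ Cfsg.spGL 3 F) ∨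
    (∃ (F₀ : Subfield F) (r : ℕ) (P : Matrix.GeneralLinearGroup (Fin 3 ⊕ Fin 3) F) (ζ : F), r.Prime ∧ Fintype.card F = Nat.card F₀ ^ r ∧ ζ ≠ 0 ∧ Cfsg.Geo.IsFormRationalStructure (Cfsg.sympForm 3 F) F₀ ζ P ∧ H = Cfsg.Geo.subfieldSubgroup F₀ P ⊓ Cfsg.spGL 3 F) ∨
    (¬ Odd (Fintype.card F) ∧ ∃ Q : (Fin 3 ⊕ Fin 3 → F) → F, Cfsg.Geo.IsNondegenerateQuadraticForm Q ∧ (∀ u v : (Fin 3 ⊕ Fin 3 → F), QuadraticMap.polar Q u v = (Cfsg.sympForm 3 F) u v) ∧ H = Cfsg.Geo.quadSimilarityGroup Q ⊓ Cfsg.spGL 3 F) ∨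
    Cfsg.Geo.InSymplecticResidualClass H := by
  have hc := H25.card_sum_self 3
  rcases H25.sp_max (by omega) (by omega) hH with
    ⟨W, h1, h2, h3⟩ | ⟨W, h1, h2, h3, h4, h5, h6⟩ | ⟨t, k, D, h1, h2, h3, h4, h5, h6, h7⟩ |
    ⟨k, D, h1, h2, h3, h4, h5⟩ |
    ⟨F₀, r, P, ζ, h1, h2, h3, h4, h5⟩ | ⟨R, k, h1, h2, h3, h4, h5, h6, h7, h8, h9, h10⟩ |
    ⟨Q, h1, h2, h3, h4⟩ | ⟨r, K, h1, h2, h3, h4, h5, h6⟩ | ⟨K, h1, h2, h3, h4, h5⟩ |
    ⟨a, b, e, P, f₁, f₂, h1, h2, h3, h4, h5, h6, h7, h8, h9, h10, h11⟩ |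
    ⟨e, P, f₁, h1, h2, h3, h4, h5, h6⟩ | h
  · exact Or.inl ⟨W, h1, h2, h3⟩
  · exact Or.inr (Or.inl ⟨W, h1, h2, by omega, h6⟩)
  · rw [hc] at h5
    have ht : t ≤ 6 := by nlinarith
    obtain ⟨rfl, rfl⟩ : t = 3 ∧ k = 2 := by
      obtain ⟨j, rfl⟩ := h4
      interval_cases t <;> omega
    iterate 2 right
    exact Or.inl ⟨h6 rfl, D, h1, h7⟩
  · obtain rfl : k = 3 := by omega
    iterate 3 right
    exact Or.inl ⟨h1, D, h3, h4, h5⟩
  · iterate 7 right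
    exact Or.inl ⟨F₀, r, P, ζ, h1, h2, h3, h4, h5⟩
  · exfalso
    rw [hc] at h3
    have : (3 : ℕ) ∣ 2 ^ k := h3 ▸ ⟨2, rfl⟩
    exact absurd (Nat.prime_three.dvd_of_dvd_pow this) (by norm_num)
  · iterate 8 right
    exact Or.inl ⟨h1, Q, h2, h3, h4⟩
  · rw [hc] at h2
    obtain rfl : r = 3 := (Nat.prime_dvd_prime_iff_eq h1 Nat.prime_three).1
      (Nat.dvd_of_mul_dvd_mul_left two_pos h2)
    iterate 4 right
    exact Or.inl ⟨K, h3, h4, h5, h6⟩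
  · iterate 5 right
    exact Or.inl ⟨h1, K, h2, h3, h4, h5⟩
  · rw [hc] at h5
    have ha : a ≤ 2 := by nlinarith
    obtain rfl : a = 2 := by omega
    obtain rfl : b = 3 := by omega
    iterate 6 right
    exact Or.inl ⟨h1, h6 rfl, e, P, f₁, f₂, h8, h9, h10, h11⟩
  · omega
  · iterate 9 right
    exact h

end Cfsg.Agent.S5805
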