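import Cfsg.Statements.S5811
import Cfsg.Agent.H25.SuMax
-- import your own Cfsg.Agent.* helpers here

set_option autoImplicit false
open Cfsg

namespace Cfsg.Agent.S5811

/-- Every maximal subgroup of SU_7(q) is of one of the listed geometric types or lies in the residual class. Let F be the field with q² elements (characteristic p), f the standard unitary form Σ u_i v_i^q on F^7, and H a maximal subgroup of SU_7(q) (inside GL_7(F)). Then H is the intersection with SU_7(q) of one of: the stabiliser of a non-zero totally isotropic subspace; the stabiliser of a non-degenerate 1-, 2- or 3-space; the stabiliser of a decomposition into seven mutually orthogonal non-degenerate 1-spaces; the normaliser of an adjoint-closed degree-7 subfield of the matrix algebra; a subfield group of odd prime index whose F₀-structure carries f; for q odd, a subfield group of index 2 whose F₀-structure carries f; for q = p prime with p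 ≡ 6 mod 7, or q = p³ with p ≡ 3 or 5 mod 7, the normaliser of an absolutely irreducible 7-group R of exponent 7, order 343 and centre of order 7, all of whose characteristic abelian subgroups are cyclic, contained in the similarity group of f — or else H lies in the residual class of the unitary case (modulo scalars H is almost simple, with absolutely irreducible perfect socle preimage realisable over no proper subfield and fixing no non-degenerate quadratic or symplectic form). -/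
theorem result {F : Type*} [Field F] [Fintype F] (q : ℕ) (hF : Fintype.card F = q ^ 2) (H : Subgroup (Matrix.GeneralLinearGroup (Fin 7) F)) (hH : Cfsg.Geo.IsMaximalIn (Cfsg.GU 7 F q ⊓ Cfsg.Geo.specialLinear (Fin 7) F) H) :
    (∃ W : Submodule F (Fin 7 → F), W ≠ ⊥ ∧ Cfsg.Geo.IsTotallySingularFor (Cfsg.hermForm 7 F q) W ∧ H = Cfsg.Geo.subspaceStabilizer W ⊓ (Cfsg.GU 7 F q ⊓ Cfsg.Geo.specialLinear (Fin 7) F)) ∨
    (∃ W : Submodule F (Fin 7 → F), W ≠ ⊥ ∧ Cfsg.Geo.IsNondegenerateOn (Cfsg.hermForm 7 F q) W ∧ 2 * Module.finrank F W < 7 ∧ H = Cfsg.Geo.subspaceStabilizer W ⊓ (Cfsg.GU 7 F q ⊓ Cfsg.Geo.specialLinear (Fin 7) F)) ∨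
    (∃ D : Fin 7 → Submodule F (Fin 7 → F), Cfsg.Geo.IsNondegenerateMDecomposition (Cfsg.hermForm 7 F q) 1 D ∧ H = Cfsg.Geo.decompositionStabilizer D ⊓ (Cfsg.GU 7 F q ⊓ Cfsg.Geo.specialLinear (Fin 7) F)) ∨
    (∃ K : Subalgebra F (Matrix (Fin 7) (Fin 7) F), Cfsg.Geo.IsFieldSubalgebra 7 K ∧ Cfsg.Geo.IsAdjointClosedFor (Cfsg.hermForm 7 F q) K ∧ H = Cfsg.Geo.subalgebraNormalizer K ⊓ (Cfsg.GU 7 F q ⊓ Cfsg.Geo.specialLinear (Fin 7) F)) ∨
    (∃ (F₀ : Subfield F) (r : ℕ) (P : Matrix.GeneralLinearGroup (Fin 7) F), r.Prime ∧ Odd r ∧ Fintype.card F = Nat.card F₀ ^ r ∧ Cfsg.Geo.IsFormRationalStructure (Cfsg.hermForm 7 F q) F₀ 1 P ∧ H = Cfsg.Geo.subfieldSubgroup F₀ P ⊓ (Cfsg.GU 7 F q ⊓ Cfsg.Geo.specialLinear (Fin 7) F)) ∨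
    (Odd q ∧ ∃ (F₀ : Subfield F) (P : Matrix.GeneralLinearGroup (Fin 7) F), Fintype.card F = Nat.card F₀ ^ 2 ∧ Cfsg.Geo.IsFormRationalStructure (Cfsg.hermForm 7 F q) F₀ 1 P ∧ H = Cfsg.Geo.subfieldSubgroup F₀ P ⊓ (Cfsg.GU 7 F q ⊓ Cfsg.Geo.specialLinear (Fin 7) F)) ∨
    (∃ (p : ℕ) (R : Subgroup (Matrix.GeneralLinearGroup (Fin 7) F)), p.Prime ∧ CharP F p ∧ ((q = p ∧ p % 7 = 6) ∨ (q = p ^ 3 ∧ (p % 7 = 3 ∨ p % 7 = 5))) ∧ Cfsg.Geo.IsSymplecticTypeGroup 7 R ∧ Cfsg.Geo.ActsAbsolutelyIrreducibly (Cfsg.Geo.matrixSet R) ∧ R ≤ Cfsg.Geo.similarityGroup (Cfsg.hermForm 7 F q) ∧ Nat.card R = 343 ∧ Nat.card (Subgroup.center R) = 7 ∧ H = Cfsg.Geo.subgroupNormalizer R ⊓ (Cfsg.GU 7 F q ⊓ Cfsg.Geo.specialLinear (Fin 7) F)) ∨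
    Cfsg.Geo.InUnitaryResidualClass H := by
  have hc : Fintype.card (Fin 7) = 7 := Fintype.card_fin 7
  obtain ⟨σ, hU⟩ := H25.exists_uMax hF (H31.isUnitaryFormPow_hermForm hF 7) (by omega) hH
  rcases hU.suMax (by omega) with
    ⟨W, h1, h2, h3⟩ | ⟨W, h1, h2, h3, h4⟩ | ⟨t, k, D, h1, h2, h3, h4, h5, h6⟩ |
    ⟨k, D, hI, h2, h3, h4, h5⟩ | ⟨F₀, r, P, h1, h2, h3, h4, h5⟩ | ⟨F₀, P, hI, h1, h2, h3, h4⟩ |
    ⟨F₀, P, ζ, h1, h2, h3, h4, h5, h6, h7⟩ |
    ⟨r, R, p, d, k, h1, h2, h3, h4, h5, h6, h7, h8, h9, h10, h11, h12, h13, h14⟩ |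
    ⟨R, k, h1, h2, h3, h4, h5, h6, h7, h8, h9⟩ | ⟨r, K, hI, h1, h2, h3, h4, h5, h6⟩ |
    ⟨a, b, e, P, f₁, f₂, h1, h2, h3, h4, h5, h6, h7, h8⟩ | ⟨e, P, f₁, h1, h2, h3, h4, h5⟩ | h
  · exact Or.inl ⟨W, h1, h2, h3⟩
  · exact Or.inr (Or.inl ⟨W, h1, h2, by omega, h4⟩)
  · rw [hc] at h4
    have ht : t ≤ 7 := by nlinarith
    have : (t = 7 ∧ k = 1) := by
      interval_cases t <;> omega
    obtain ⟨rfl, rfl⟩ := this
    iterate 2 right
    exact Or.inl ⟨D, h1, h6⟩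
  · omega
  · iterate 4 right
    exact Or.inl ⟨F₀, r, P, h1, h2, h3, h4, h5⟩
  · iterate 5 right
    exact Or.inl ⟨h1, F₀, P, h2, h3, h4⟩
  · rw [hc] at h1
    exact absurd h1 (by decide)
  · obtain ⟨rfl, rfl⟩ := H25.eq_of_pow_eq_prime_pow (by norm_num : Nat.Prime 7) h1.prime (by norm_num : 0 < 1) (hc.symm.trans h3)
    have ho := H25.order_seven (Nat.mod_lt p (by norm_num)) h6 h8 h9
    iterate 6 right
    refine Or.inl ⟨p, R, h4, h5, ?_, h10, H25.absIrr_of_galg_eq_top h1.galg_top, h11.trans H25.isom_le_sim, h12, h13, h14⟩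
    rcases ho with ⟨rfl, ho⟩ | ⟨rfl, ho⟩
    · exact Or.inl ⟨by rw [h7, pow_one], ho⟩
    · exact Or.inr ⟨h7, ho⟩
  · have := (H25.eq_of_pow_eq_prime_pow (by norm_num : Nat.Prime 7) Nat.prime_two (by norm_num : 0 < 1) (hc.symm.trans h2)).1
    omega
  · rw [hc] at h3
    have hr : r ≤ 7 := Nat.le_of_dvd (by norm_num) h3
    obtain rfl : r = 7 := by
      interval_cases r <;> first | rfl | (norm_num at h1; done) | (norm_num at h3; done) | exact absurd h2 (by decide)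
    iterate 3 right
    exact Or.inl ⟨K, h4, h5, h6⟩
  · rw [hc] at h3
    have ha : a ≤ 3 := by nlinarith
    interval_cases a <;> omega
  · omega
  · iterate 7 right
    exact h

end Cfsg.Agent.S5811
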