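import Cfsg.Statements.S5814
import Cfsg.Agent.H25.OMax
-- import your own Cfsg.Agent.* helpers here

set_option autoImplicit false
open Cfsg

namespace Cfsg.Agent.S5814

/-- Every maximal subgroup of Ω_7(q), q odd, is of one of the listed geometric types or lies in the residual class. Let F be a finite field of odd order q, Q the standard quadratic form x₀² + Σ x_i y_i on F^7 (coordinates Unit ⊕ (Fin 3 ⊕ Fin 3)), Ω the commutator subgroup of its isometry group, and H a maximal subgroup of Ω (inside GL_7(F)). Then H is the intersection with Ω of one of: the stabiliser of a non-zero totally singular subspace; the stabiliser of a non-zero non-degenerate subspace of even dimension (not a plus-type plane when q = 3); for q prime, the stabiliser of a decomposition into seven pairwise orthogonal, pairwise isometric non-degenerate 1-spaces; a subfield group (|F| = |F₀|^r, r prime) whose F₀-structure carries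 Q — or else H lies in the residual class of the orthogonal case (modulo scalars H is almost simple, with absolutely irreducible perfect socle preimage realisable over no proper subfield and fixing no non-degenerate unitary form). -/
theorem result {F : Type*} [Field F] [Fintype F] (hodd : Odd (Fintype.card F)) (H : Subgroup (Matrix.GeneralLinearGroup (Unit ⊕ (Fin 3 ⊕ Fin 3)) F)) (hH : Cfsg.Geo.IsMaximalIn (Cfsg.Geo.omegaGL (Cfsg.quadFormOdd 3 F)) H) :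
    (∃ W : Submodule F (Unit ⊕ (Fin 3 ⊕ Fin 3) → F), W ≠ ⊥ ∧ Cfsg.Geo.IsTotallySingularQuad (Cfsg.quadFormOdd 3 F) W ∧ H = Cfsg.Geo.subspaceStabilizer W ⊓ Cfsg.Geo.omegaGL (Cfsg.quadFormOdd 3 F)) ∨
    (∃ W : Submodule F (Unit ⊕ (Fin 3 ⊕ Fin 3) → F), W ≠ ⊥ ∧ Even (Module.finrank F W) ∧ Cfsg.Geo.IsNondegenerateOn (QuadraticMap.polar (Cfsg.quadFormOdd 3 F)) W ∧ ¬ (Fintype.card F = 3 ∧ Module.finrank F W = 2 ∧ Cfsg.Geo.IsPlusTypeOn (Cfsg.quadFormOdd 3 F) W) ∧ H = Cfsg.Geo.subspaceStabilizer W ⊓ Cfsg.Geo.omegaGL (Cfsg.quadFormOdd 3 F)) ∨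
    ((Fintype.card F).Prime ∧ ∃ D : Fin 7 → Submodule F (Unit ⊕ (Fin 3 ⊕ Fin 3) → F), Cfsg.Geo.IsOrthogonalMDecomposition (Cfsg.quadFormOdd 3 F) 1 D ∧ H = Cfsg.Geo.decompositionStabilizer D ⊓ Cfsg.Geo.omegaGL (Cfsg.quadFormOdd 3 F)) ∨
    (∃ (F₀ : Subfield F) (r : ℕ) (P : Matrix.GeneralLinearGroup (Unit ⊕ (Fin 3 ⊕ Fin 3)) F), r.Prime ∧ Fintype.card F = Nat.card F₀ ^ r ∧ Cfsg.Geo.IsQuadFormRationalStructure (Cfsg.quadFormOdd 3 F) F₀ P ∧ H = Cfsg.Geo.subfieldSubgroup F₀ P ⊓ Cfsg.Geo.omegaGL (Cfsg.quadFormOdd 3 F)) ∨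
    Cfsg.Geo.InOrthogonalResidualClass H := by
  have hQ := H25.isNQF_quadFormOdd (F := F) 3 hodd
  have hc : Fintype.card (Unit ⊕ (Fin 3 ⊕ Fin 3)) = 7 := H25.card_odd_index 3
  have hn : Odd (Fintype.card (Unit ⊕ (Fin 3 ⊕ Fin 3))) := by rw [hc]; decide
  rcases H25.o_max hQ (by omega) (by omega) (by omega) hH with
    ⟨W, h1, h2, h3, h4⟩ | ⟨W, h1, h2, h3, h4, h5, h6, h7, h8, h9⟩ |
    ⟨k, D, h1, h2, h3, h4, h5, h6, h7⟩ | ⟨v, h1, h2, h3⟩ |
    ⟨t, k, D, h1, h2, h3, h4, h5, h6, h7, h8, h9, h10, h11⟩ | ⟨k, D, h1, h2, h3, h4, h5, h6⟩ |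
    ⟨F₀, r, P, ζ, h1, h2, h3, h4, h5, h6⟩ | ⟨r, K, h1, h2, h3, h4, h5, h6, h7, h8⟩ |
    ⟨K, h1, h2, h3, h4, h5, h6, h7⟩ | ⟨e, P, f₁, f₂, h1, h2, h3, h4, h5, h6, h7, h8, h9⟩ |
    ⟨e, P, f₁, f₂, h1, h2, h3, h4, h5, h6, h7, h8⟩ | ⟨e, P, f₁, h1, h2, h3, h4, h5⟩ | h
  · exact Or.inl ⟨W, h1, h2, h4⟩
  · exact Or.inr (Or.inl (H25.exists_even_nd hQ hn (by omega) h1 h2 h3 h5 h7 h9))
  · omega
  · exact (h1 hodd).elim
  · rw [hc] at h4
    have ht : t ≤ 7 := by nlinarith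
    obtain ⟨rfl, rfl⟩ : t = 7 ∧ k = 1 := by interval_cases t <;> omega
    iterate 2 right
    exact Or.inl ⟨h5 rfl, D, h1, h11⟩
  · omega
  · obtain ⟨P', h7, h8⟩ := H25.SubCase.one_of_odd hQ (H25.two_ne_zero_of_odd hodd) hn
      (H25.quadRat_quadFormOdd 3) h1 h2 h3 h5
    iterate 3 right
    exact Or.inl ⟨F₀, r, P', h1, h2, h7, h8 ▸ h6⟩
  · rw [hc] at h2 h3
    exact (h3 ((Nat.prime_dvd_prime_iff_eq h1 (by norm_num)).1 h2)).elim
  · exact (Nat.not_even_iff_odd.2 hn h2).elim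
  · omega
  · omega
  · omega
  · iterate 4 right
    exact h

end Cfsg.Agent.S5814
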