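import Cfsg.Statements.S5826
import Cfsg.Agent.H25.OMax
-- import your own Cfsg.Agent.* helpers here

set_option autoImplicit false
open Cfsg

namespace Cfsg.Agent.S5826

/-- Every maximal subgroup of Ω_8^-(q) is of one of the listed geometric types or lies in the residual class. Let F be a finite field with q elements, Q a non-degenerate quadratic form on F^8 of minus type (no totally singular 4-space), Ω the commutator subgroup of its isometry group, and H a maximal subgroup of Ω (inside GL_8(F)). Then H is the intersection with Ω of one of: the stabiliser of a non-zero totally singular subspace; for q odd, the stabiliser of a non-degenerate subspace of odd dimension; the stabiliser of a non-degenerate 2-space of minus type; for q ≥ 4, the stabiliser of a non-degenerate 2-space of plus type; the stabiliser of a non-degenerate 4-space; for q even, the stabiliser of the span of a non-singular vector; the normaliser of a degree-2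 subfield of the matrix algebra; a subfield group of odd prime index whose F₀-structure carries a non-zero multiple of Q — or else H lies in the residual class of the orthogonal case (modulo scalars H is almost simple, with absolutely irreducible perfect socle preimage realisable over no proper subfield and fixing no non-degenerate unitary form). -/
theorem result {F : Type*} [Field F] [Fintype F] (Q : (Fin 8 → F) → F) (hQ : Cfsg.Geo.IsNondegenerateQuadraticForm Q) (hminus : ¬ Cfsg.Geo.IsPlusTypeOn Q ⊤) (H : Subgroup (Matrix.GeneralLinearGroup (Fin 8) F)) (hH : Cfsg.Geo.IsMaximalIn (Cfsg.Geo.omegaGL Q) H) :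
    (∃ W : Submodule F (Fin 8 → F), W ≠ ⊥ ∧ Cfsg.Geo.IsTotallySingularQuad Q W ∧ H = Cfsg.Geo.subspaceStabilizer W ⊓ Cfsg.Geo.omegaGL Q) ∨
    (Odd (Fintype.card F) ∧ ∃ W : Submodule F (Fin 8 → F), W ≠ ⊥ ∧ W ≠ ⊤ ∧ Odd (Module.finrank F W) ∧ Cfsg.Geo.IsNondegenerateOn (QuadraticMap.polar Q) W ∧ H = Cfsg.Geo.subspaceStabilizer W ⊓ Cfsg.Geo.omegaGL Q) ∨
    (∃ W : Submodule F (Fin 8 → F), Module.finrank F W = 2 ∧ Cfsg.Geo.IsNondegenerateOn (QuadraticMap.polar Q) W ∧ ¬ Cfsg.Geo.IsPlusTypeOn Q W ∧ H = Cfsg.Geo.subspaceStabilizer W ⊓ Cfsg.Geo.omegaGL Q) ∨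
    (4 ≤ Fintype.card F ∧ ∃ W : Submodule F (Fin 8 → F), Module.finrank F W = 2 ∧ Cfsg.Geo.IsNondegenerateOn (QuadraticMap.polar Q) W ∧ Cfsg.Geo.IsPlusTypeOn Q W ∧ H = Cfsg.Geo.subspaceStabilizer W ⊓ Cfsg.Geo.omegaGL Q) ∨
    (∃ W : Submodule F (Fin 8 → F), Module.finrank F W = 4 ∧ Cfsg.Geo.IsNondegenerateOn (QuadraticMap.polar Q) W ∧ H = Cfsg.Geo.subspaceStabilizer W ⊓ Cfsg.Geo.omegaGL Q) ∨
    (¬ Odd (Fintype.card F) ∧ ∃ v : (Fin 8 → F), Q v ≠ 0 ∧ H = Cfsg.Geo.subspaceStabilizer (Submodule.span F {v}) ⊓ Cfsg.Geo.omegaGL Q) ∨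
    (∃ K : Subalgebra F (Matrix (Fin 8) (Fin 8) F), Cfsg.Geo.IsFieldSubalgebra 2 K ∧ H = Cfsg.Geo.subalgebraNormalizer K ⊓ Cfsg.Geo.omegaGL Q) ∨
    (∃ (F₀ : Subfield F) (r : ℕ) (P : Matrix.GeneralLinearGroup (Fin 8) F) (ζ : F), r.Prime ∧ Odd r ∧ Fintype.card F = Nat.card F₀ ^ r ∧ ζ ≠ 0 ∧ Cfsg.Geo.IsQuadFormRationalStructure (fun v : Fin 8 → F => ζ * Q v) F₀ P ∧ H = Cfsg.Geo.subfieldSubgroup F₀ P ⊓ Cfsg.Geo.omegaGL Q) ∨
    Cfsg.Geo.InOrthogonalResidualClass H := by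
  have hc : Fintype.card (Fin 8) = 8 := Fintype.card_fin _
  have hn : Even (Fintype.card (Fin 8)) := by rw [hc]; decide
  rcases H25.o_max hQ (by omega) (by omega) (fun _ => hminus) hH with
    ⟨W, h1, h2, h3, h4⟩ | ⟨W, h1, h2, h3, h4, h5, h6, h7, h8, h9⟩ |
    ⟨k, D, h1, h2, h3, h4, h5, h6, h7⟩ | ⟨v, h1, h2, h3⟩ |
    ⟨t, k, D, h1, h2, h3, h4, h5, h6, h7, h8, h9, h10, h11⟩ | ⟨k, D, h1, h2, h3, h4, h5, h6⟩ |
    ⟨F₀, r, P, ζ, h1, h2, h3, h4, h5, h6⟩ | ⟨r, K, h1, h2, h3, h4, h5, h6, h7, h8⟩ |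
    ⟨K, h1, h2, h3, h4, h5, h6, h7⟩ | ⟨e, P, f₁, f₂, h1, h2, h3, h4, h5, h6, h7, h8, h9⟩ |
    ⟨e, P, f₁, f₂, h1, h2, h3, h4, h5, h6, h7, h8⟩ | ⟨e, P, f₁, h1, h2, h3, h4, h5⟩ | h
  · exact Or.inl ⟨W, h1, h2, h4⟩
  · rw [hc] at h5 h8
    rcases Nat.even_or_odd (Module.finrank F W) with he | ho
    swap
    · refine Or.inr (Or.inl ⟨h6 ho, W, h1, h2, ho, h3, h9⟩)
    obtain ⟨j, hj⟩ := he
    by_cases hd : Module.finrank F W = 2
    · by_cases hp : Cfsg.Geo.IsPlusTypeOn Q W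
      · iterate 3 right
        exact Or.inl ⟨h7 hd hp, W, hd, h3, hp, h9⟩
      · iterate 2 right
        exact Or.inl ⟨W, hd, h3, hp, h9⟩
    iterate 4 right
    exact Or.inl ⟨W, by omega, h3, h9⟩
  · obtain ⟨j, hj⟩ := h1
    omega
  · iterate 5 right
    exact Or.inl ⟨h1, v, h2, h3⟩
  · exfalso
    rw [hc] at h4
    have ht : t ≤ 8 := by nlinarith
    have he : Even t := by rw [Nat.even_iff]; interval_cases t <;> omega
    rcases Nat.even_or_odd k with hk | hk
    · exact hminus (H25.plus_of_even_even hQ h1 hk he)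
    · exact hminus ((H25.plus_iff_of_even hQ (H25.two_ne_zero_of_odd (h6 hk)) h1 he (m := 4) hc).2
        ⟨1, by norm_num⟩)
  · exact (hminus h2).elim
  · iterate 7 right
    exact Or.inl ⟨F₀, r, P, ζ, h1, h4 hn hminus, h2, h3, h5, h6⟩
  · rw [hc] at h2
    obtain rfl : r = 2 := (Nat.prime_dvd_prime_iff_eq h1 Nat.prime_two).1
      (h1.dvd_of_dvd_pow (n := 3) h2)
    iterate 6 right
    exact Or.inl ⟨K, h6, h8⟩
  · iterate 6 right
    exact Or.inl ⟨K, h3, h7⟩
  · omega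
  · omega
  · omega
  · iterate 8 right
    exact h

end Cfsg.Agent.S5826
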