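import Cfsg.Statements.S5876
import Cfsg.Agent.H25.Commutative

set_option autoImplicit false
open Cfsg

namespace Cfsg.Agent.S5876

open Matrix
open scoped commutatorElement

/-- A finite soluble group has a self-centralizing normal subgroup of class at most two. -/
lemma exists_classTwo {G : Type*} [Group G] [Finite G] [Group.IsSolvable G] :
    ∃ B : Subgroup G, B.Normal ∧ (∀ x ∈ B, ∀ y ∈ B, ∀ z ∈ B, Commute ⁅x, y⁆ z) ∧
      ∀ g : G, (∀ x ∈ B, Commute g x) → g ∈ B := by
  classical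
  let P : Subgroup G → Prop := fun B => B.Normal ∧ ∀ x ∈ B, ∀ y ∈ B, ∀ z ∈ B, Commute ⁅x, y⁆ z
  have hbot : P ⊥ := ⟨inferInstance, fun x hx y hy z hz => by
    rw [Subgroup.mem_bot.1 hz]; exact Commute.one_right _⟩
  obtain ⟨B, hB⟩ : ∃ B, Maximal P B := exists_maximal_of_wellFoundedGT P ⟨⊥, hbot⟩
  obtain ⟨hBn, hB2⟩ := hB.prop
  refine ⟨B, hBn, hB2, ?_⟩
  let D : Subgroup G := Subgroup.centralizer (B : Set G)
  haveI hDn : D.Normal := Subgroup.normal_centralizer
  have hD : ∀ g, g ∈ D ↔ ∀ x ∈ B, Commute g x := fun g => by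
    simp only [D, Subgroup.mem_centralizer_iff]
    exact ⟨fun h x hx => (h x hx).symm, fun h x hx => (h x hx).symm⟩
  let E : ℕ → Subgroup G := fun k => Nat.rec D (fun _ X => ⁅X, X⁆) k
  have hE0 : E 0 = D := rfl
  have hEs : ∀ k, E (k + 1) = ⁅E k, E k⁆ := fun k => rfl
  clear_value E
  have hEn : ∀ k, (E k).Normal := by
    intro k
    induction k with
    | zero => rw [hE0]; exact hDn
    | succ k ih => rw [hEs]; exact @Subgroup.commutator_normal _ _ _ _ ih ih
  have hED : ∀ k, E k ≤ D := by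
    intro k
    induction k with
    | zero => exact hE0.le
    | succ k ih => rw [hEs]; haveI := hEn k; exact (Subgroup.commutator_le_left _ _).trans ih
  have hEd : ∀ k, E k ≤ derivedSeries G k := by
    intro k
    induction k with
    | zero => exact le_top
    | succ k ih => rw [hEs, derivedSeries_succ]; exact Subgroup.commutator_mono ih ih
  have key : ∀ k, E (k + 1) ≤ B → E k ≤ B := by
    intro k hk
    haveI := hEn k
    have hP : P (E k ⊔ B) := by
      refine ⟨Subgroup.sup_normal _ _, ?_⟩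
      intro x hx y hy z hz
      obtain ⟨e, he, b, hb, rfl⟩ := Subgroup.mem_sup_of_normal_right.1 hx
      obtain ⟨e', he', b', hb', rfl⟩ := Subgroup.mem_sup_of_normal_right.1 hy
      obtain ⟨e'', he'', b'', hb'', rfl⟩ := Subgroup.mem_sup_of_normal_right.1 hz
      have h1 := (hD e).1 (hED k he)
      have h2 := (hD e').1 (hED k he')
      have h3 := (hD e'').1 (hED k he'')
      have hc : ⁅e, e'⁆ ∈ E (k + 1) := hEs k ▸ Subgroup.commutator_mem_commutator he he'
      have hbb : ⁅b, b'⁆ ∈ B := by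
        rw [commutatorElement_def]
        exact B.mul_mem (B.mul_mem (B.mul_mem hb hb') (B.inv_mem hb)) (B.inv_mem hb')
      have heq : ⁅e * b, e' * b'⁆ = ⁅e, e'⁆ * ⁅b, b'⁆ := by
        have a1 : b * e' = e' * b := (h2 b hb).symm.eq
        have a2 : ∀ c ∈ B, c * e⁻¹ = e⁻¹ * c := fun c hc => (h1 c hc).inv_left.symm.eq
        have a3 : ∀ c ∈ B, c * e'⁻¹ = e'⁻¹ * c := fun c hc => (h2 c hc).inv_left.symm.eq
        have hbbb : b * b' * b⁻¹ ∈ B := B.mul_mem (B.mul_mem hb hb') (B.inv_mem hb)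
        calc ⁅e * b, e' * b'⁆ = e * (b * e') * b' * b⁻¹ * e⁻¹ * b'⁻¹ * e'⁻¹ := by
              rw [commutatorElement_def]; group
          _ = e * e' * ((b * b' * b⁻¹) * e⁻¹) * b'⁻¹ * e'⁻¹ := by rw [a1]; group
          _ = e * e' * e⁻¹ * ((b * b' * b⁻¹ * b'⁻¹) * e'⁻¹) := by rw [a2 _ hbbb]; group
          _ = _ := by
              rw [a3 _ (B.mul_mem hbbb (B.inv_mem hb')), commutatorElement_def,
                commutatorElement_def]; group
      rw [heq]
      refine Commute.mul_left (Commute.mul_right (h3 _ (hk hc)).symm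
        ((hD _).1 (hED _ hc) _ hb'')) (Commute.mul_right (h3 _ hbb).symm (hB2 b hb b' hb' _ hb''))
    exact le_sup_left.trans (hB.le_of_ge hP le_sup_right)
  obtain ⟨m, hm⟩ := Group.IsSolvable.solvable (G := G)
  have hall : ∀ j, j ≤ m → E (m - j) ≤ B := by
    intro j
    induction j with
    | zero => intro _; exact (hEd m).trans (by rw [hm]; exact bot_le)
    | succ j ih =>
      intro hj
      apply key
      have : m - (j + 1) + 1 = m - j := by omega
      rw [this]
      exact ih (by omega)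
  intro g hg
  have := hall m le_rfl
  rw [Nat.sub_self, hE0] at this
  exact this ((hD g).2 hg)

variable {F : Type*} [Field F] {n : ℕ}

/-- The fixed space. -/
abbrev fs (g : GL (Fin n) F) : Submodule F (Fin n → F) :=
  Module.End.eigenspace (Matrix.toLin' (g : Matrix (Fin n) (Fin n) F)) 1

lemma mem_fs {g : GL (Fin n) F} {v : Fin n → F} :
    v ∈ fs g ↔ (g : Matrix (Fin n) (Fin n) F) *ᵥ v = v := by
  rw [fs, Module.End.mem_eigenspace_iff, one_smul, Matrix.toLin'_apply]

lemma fs_conj (g x : GL (Fin n) F) :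
    fs (x * g⁻¹ * x⁻¹) = (fs g).map (Matrix.toLin' (x : Matrix (Fin n) (Fin n) F)) := by
  ext v
  constructor
  · intro h
    rw [mem_fs] at h
    refine ⟨((x⁻¹ : GL (Fin n) F) : Matrix (Fin n) (Fin n) F) *ᵥ v, ?_, ?_⟩
    · rw [SetLike.mem_coe, mem_fs]
      conv_lhs => rw [← h]
      rw [mulVec_mulVec, mulVec_mulVec, ← Units.val_mul, ← Units.val_mul]
      congr 2
      group
    · rw [Matrix.toLin'_apply, mulVec_mulVec, ← Units.val_mul, mul_inv_cancel, Units.val_one,
        one_mulVec]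
  · rintro ⟨w, hw, rfl⟩
    rw [SetLike.mem_coe, mem_fs] at hw
    rw [mem_fs, Matrix.toLin'_apply]
    conv_lhs => rw [← hw]
    rw [mulVec_mulVec, mulVec_mulVec, ← Units.val_mul, ← Units.val_mul]
    congr 2
    group

lemma two_mul_le (g x : GL (Fin n) F) :
    2 * Module.finrank F (fs g) ≤ n + Module.finrank F (fs ⁅g, x⁆) := by
  have h1 := Submodule.finrank_sup_add_finrank_inf_eq (fs g) (fs (x * g⁻¹ * x⁻¹))
  have h2 : Module.finrank F (fs (x * g⁻¹ * x⁻¹)) = Module.finrank F (fs g) := by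
    rw [fs_conj, H25.finrank_map_gl]
  have h3 : Module.finrank F ↥(fs g ⊔ fs (x * g⁻¹ * x⁻¹)) ≤ n := by
    have := Submodule.finrank_le (fs g ⊔ fs (x * g⁻¹ * x⁻¹))
    simpa using this
  have h4 : fs g ⊓ fs (x * g⁻¹ * x⁻¹) ≤ fs ⁅g, x⁆ := by
    intro v hv
    have a := mem_fs.1 hv.1
    have b := mem_fs.1 hv.2
    rw [mem_fs]
    have : ⁅g, x⁆ = g * (x * g⁻¹ * x⁻¹) := by rw [commutatorElement_def]; group
    rw [this, Units.val_mul, ← mulVec_mulVec, b, a]
  have h5 := Submodule.finrank_mono h4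
  omega

/-- Fixed-point spaces in primitive soluble linear groups. Let F be a finite field and G a soluble subgroup of GL_n(F) that acts irreducibly on F^n and primitively (G preserves no decomposition of F^n into two or more independent subspaces of equal dimension). Then every non-identity element g of G has fixed-point space {v : g v = v} of dimension at most 3n/4. -/
theorem result {F : Type*} [Field F] [Fintype F] {n : ℕ} (G : Subgroup (Matrix.GeneralLinearGroup (Fin n) F)) (hsol : IsSolvable G) (hirr : Cfsg.Geo.ActsIrreducibly (Cfsg.Geo.matrixSet G)) (hprim : ∀ (m t : ℕ) (D : Fin t → Submodule F (Fin n → F)), 2 ≤ t → Cfsg.Geo.IsMDecomposition m D → ¬ G ≤ Cfsg.Geo.decompositionStabilizer D) (g : Matrix.GeneralLinearGroup (Fin n) F) (hg : g ∈ G) (hg1 : g ≠ 1) :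
    4 * Module.finrank F (Module.End.eigenspace (Matrix.toLin' (g : Matrix (Fin n) (Fin n) F)) 1) ≤ 3 * n := by
  classical
  change 4 * Module.finrank F (fs g) ≤ 3 * n
  haveI : Finite (Matrix.GeneralLinearGroup (Fin n) F) := inferInstance
  haveI : Group.IsSolvable G := hsol
  obtain ⟨B, hBn, hB2, hBc⟩ := exists_classTwo (G := G)
  have hI : H25.Irr G := H25.irr_iff.2 hirr
  -- the centre of `B` acts semiregularly
  let Z : Subgroup G := B ⊓ Subgroup.centralizer (B : Set G)
  have hZn : Z.Normal := by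
    haveI := hBn
    haveI : (Subgroup.centralizer (B : Set G)).Normal := Subgroup.normal_centralizer
    exact Subgroup.normal_inf_normal _ _
  have hZ : ∀ z : G, z ∈ B → (∀ x ∈ B, Commute z x) → z ∈ Z := fun z hz h =>
    ⟨hz, (Subgroup.mem_centralizer_iff).2 (fun x hx => (h x hx).symm)⟩
  have hsemi : ∀ z : G, z ∈ Z → z ≠ 1 → Module.finrank F (fs (z : GL (Fin n) F)) = 0 := by
    intro z hz hz1
    let A : Subgroup (GL (Fin n) F) := Z.map G.subtype
    have hA : H25.Nrm G (H25.galg A) := by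
      apply H25.nrm_galg
      rintro y hy _ ⟨x, hx, rfl⟩
      exact Subgroup.mem_map.2 ⟨(⟨y, hy⟩ : G) * x * (⟨y, hy⟩ : G)⁻¹, hZn.conj_mem x hx _, rfl⟩
    have hcomm : ∀ a ∈ H25.galg A, ∀ b ∈ H25.galg A, a * b = b * a := by
      intro a ha b hb
      apply H25.commute_galg _ hb
      intro y hy
      symm
      apply H25.commute_galg _ ha
      intro x hx
      obtain ⟨x, hx, rfl⟩ := hx
      obtain ⟨y, hy, rfl⟩ := hy
      have := (Subgroup.mem_centralizer_iff.1 hx.2) y hy.1
      exact congrArg (fun u : G => ((u : GL (Fin n) F) : Matrix (Fin n) (Fin n) F)) this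
    rcases H25.Nrm.field_or_idem hI hA hcomm with h | ⟨t, e, ht, he, hP⟩
    · have hmem : ((z : GL (Fin n) F) : Matrix (Fin n) (Fin n) F) - 1 ∈ H25.galg A :=
        Subalgebra.sub_mem _ (H25.coe_mem_galg ⟨z, hz, rfl⟩) (Subalgebra.one_mem _)
      have hne : ((z : GL (Fin n) F) : Matrix (Fin n) (Fin n) F) - 1 ≠ 0 := by
        intro h0
        apply hz1
        apply Subtype.ext
        apply Units.ext
        exact sub_eq_zero.1 h0
      obtain ⟨y, hy, hy1⟩ := h _ hmem hne
      rw [hcomm _ hmem _ hy] at hy1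
      rw [Submodule.finrank_eq_zero, eq_bot_iff]
      intro v hv
      rw [mem_fs] at hv
      rw [Submodule.mem_bot, ← one_mulVec v, ← hy1, ← mulVec_mulVec, sub_mulVec, hv, one_mulVec,
        sub_self, mulVec_zero]
    · exfalso
      have hX : ∀ y ∈ G, ∀ i, ∃ j, H25.cj y (e i) = e j := by
        intro y hy i
        obtain ⟨j, hj⟩ := (hP _).1 (((hP _).2 ⟨i, rfl⟩).cj hA hy)
        exact ⟨j, hj.symm⟩
      obtain ⟨m, hm⟩ := he.exists_isMDecomposition ht hI hX
      exact hprim m t _ ht hm (he.le_decompositionStabilizer hX)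
  have hcB : ∀ (y x : G), x ∈ B → ⁅y, x⁆ ∈ B := fun y x hx => by
    rw [commutatorElement_def]
    exact B.mul_mem (hBn.conj_mem x hx y) (B.inv_mem hx)
  have hhalf : ∀ y : G, y ∈ B → y ≠ 1 → 2 * Module.finrank F (fs (y : GL (Fin n) F)) ≤ n := by
    intro y hy hy1
    by_cases hc : ∀ x ∈ B, Commute y x
    · rw [hsemi y (hZ y hy hc) hy1]; omega
    · push Not at hc
      obtain ⟨x, hx, hxy⟩ := hc
      have h0 := hsemi ⁅y, x⁆ (hZ _ (hcB y x hx) (hB2 y hy x hx))
        (fun h => hxy (commutatorElement_eq_one_iff_commute.1 h))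
      have h1 := two_mul_le (y : GL (Fin n) F) (x : GL (Fin n) F)
      have h2 : ((⁅y, x⁆ : G) : GL (Fin n) F) = ⁅(y : GL (Fin n) F), (x : GL (Fin n) F)⁆ := rfl
      rw [h2] at h0
      omega
  have hg1' : (⟨g, hg⟩ : G) ≠ 1 := fun h => hg1 (congrArg Subtype.val h)
  by_cases hc : ∀ x ∈ B, Commute (⟨g, hg⟩ : G) x
  · have := hhalf _ (hBc _ hc) hg1'
    change 2 * Module.finrank F (fs g) ≤ n at this
    omega
  · push Not at hc
    obtain ⟨x, hx, hxy⟩ := hc
    have h0 := hhalf _ (hcB ⟨g, hg⟩ x hx)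
      (fun h => hxy (commutatorElement_eq_one_iff_commute.1 h))
    have h1 := two_mul_le g (x : GL (Fin n) F)
    have h2 : ((⁅(⟨g, hg⟩ : G), x⁆ : G) : GL (Fin n) F) = ⁅g, (x : GL (Fin n) F)⁆ := rfl
    rw [h2] at h0
    omega

end Cfsg.Agent.S5876
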