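import Cfsg.Statements.S5877
import Cfsg.Agent.H28.EsEig
import Cfsg.Agent.H25.ESGroup

set_option autoImplicit false
open Cfsg

namespace Cfsg.Agent.S5877

open Matrix Cfsg.Geo H25 H28.Ee
open scoped commutatorElement

/-- Eigenspaces of elements normalising an absolutely irreducible extraspecial group. Let F be a finite field, r a prime, and R ≤ GL_n(F) an absolutely irreducible extraspecial r-group (an r-group whose centre equals its derived subgroup and has order r) of exponent r or 4. Let g ∈ GL_n(F) normalise the product of R with the scalar matrices, have prime order ϖ and not be scalar, and let W be the eigenspace of g for any c ∈ F (W may be the zero subspace). Then dim W ≤ 3n/4 if ϖ = 2, dim W ≤ 2n/3 if ϖ = 3, and dim W ≤ n/2 if ϖ > 3; moreover if ϖ = 3 and 3 does not divide n then dim W ≤ n/2. -/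
theorem result {F : Type*} [Field F] [Fintype F] {n r ϖ : ℕ} (R : Subgroup (Matrix.GeneralLinearGroup (Fin n) F)) (hr : r.Prime) (hR : IsPGroup r R) (hZ : Nat.card (Subgroup.center R) = r) (hext : commutator R = Subgroup.center R) (hexp : Monoid.exponent R = r ∨ Monoid.exponent R = 4) (hirr : Cfsg.Geo.ActsAbsolutelyIrreducibly (Cfsg.Geo.matrixSet R)) (g : Matrix.GeneralLinearGroup (Fin n) F) (hg : g ∈ Cfsg.Geo.subgroupNormalizer (R ⊔ Cfsg.Geo.scalars (Fin n) F)) (hϖ : ϖ.Prime) (hord : orderOf g = ϖ) (hns : g ∉ Cfsg.Geo.scalars (Fin n) F) (c : F) :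
    (ϖ = 2 → 4 * Module.finrank F (Module.End.eigenspace (Matrix.toLin' (g : Matrix (Fin n) (Fin n) F)) c) ≤ 3 * n) ∧
    (ϖ = 3 → 3 * Module.finrank F (Module.End.eigenspace (Matrix.toLin' (g : Matrix (Fin n) (Fin n) F)) c) ≤ 2 * n) ∧
    (3 < ϖ → 2 * Module.finrank F (Module.End.eigenspace (Matrix.toLin' (g : Matrix (Fin n) (Fin n) F)) c) ≤ n) ∧
    (ϖ = 3 → ¬ 3 ∣ n → 2 * Module.finrank F (Module.End.eigenspace (Matrix.toLin' (g : Matrix (Fin n) (Fin n) F)) c) ≤ n) := by
  classical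
  by_cases h0 : Module.End.eigenspace (Matrix.toLin' (g : Matrix (Fin n) (Fin n) F)) c = ⊥
  · rw [h0, finrank_bot]; simp
  obtain ⟨v, hv, v0⟩ := (Submodule.ne_bot_iff _).1 h0
  rw [Module.End.mem_eigenspace_iff] at hv
  have : Nonempty (Fin n) := by
    by_contra h
    rw [not_nonempty_iff] at h
    exact v0 (Subsingleton.elim _ _)
  let ρ : GL (Fin n) F →* Module.End F (Fin n → F) :=
    (Matrix.toLinAlgEquiv' (R := F) (n := Fin n)).toMonoidHom.comp (Units.coeHom _)
  have hρ : ∀ x w, ρ x w = (x : Matrix (Fin n) (Fin n) F) *ᵥ w := fun _ _ => rfl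
  have c0 : c ≠ 0 := by
    rintro rfl
    exact v0 ((ap_inv (ρ := ρ) (a := g) (hv.trans (zero_smul _ _))).symm.trans (map_zero _))
  have ht := galg_eq_top_of_absIrr hirr
  have hc : ∀ x ∈ R, ∀ y ∈ R, ∃ c : Fˣ, c ^ r = 1 ∧ ⁅x, y⁆ = scal (Fin n) c := fun x hx y hy => by
    have h1 : ⁅(⟨x, hx⟩ : R), ⟨y, hy⟩⁆ ∈ Subgroup.center R :=
      hext ▸ Subgroup.commutator_mem_commutator (Subgroup.mem_top _) (Subgroup.mem_top _)
    obtain ⟨c, hc⟩ := mem_scalars_of_galg_eq_top ht (a := ⁅x, y⁆) fun z hz =>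
      (congrArg Subtype.val (Subgroup.mem_center_iff.1 h1 ⟨z, hz⟩)).symm
    have h2 := pow_card_eq_one' (x := (⟨_, h1⟩ : Subgroup.center R))
    rw [hZ] at h2
    refine ⟨c, scal_injective (ι := Fin n) ?_, hc.symm⟩
    rw [map_pow, map_one, show scal (Fin n) c = ⁅x, y⁆ from hc]
    exact congrArg (fun t : Subgroup.center R => (t.1 : GL (Fin n) F)) h2
  have hD : D ρ (scal (Fin n)) r (R ⊔ scalars (Fin n) F) :=
    ⟨hr, scal_mulVec, fun c => scalars_le_center (scal_mem c), scal_injective, fun x hx y hy => by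
      obtain ⟨x, hx', a, rfl⟩ := mem_sup_scalars.1 hx
      obtain ⟨y, hy', b, rfl⟩ := mem_sup_scalars.1 hy
      rw [commutator_mul_scal]
      exact hc x hx' y hy', fun a ha => (mem_scalars_of_galg_eq_top ht fun y hy =>
        commutatorElement_eq_one_iff_mul_comm.1 (ha y (Subgroup.mem_sup_left hy))).imp
          fun _ e => e.symm⟩
  let g' := g * scal (Fin n) (Units.mk0 c c0)⁻¹
  have e1 : ∀ w, ρ g' w = w ↔ (g : Matrix (Fin n) (Fin n) F) *ᵥ w = c • w := fun w => by
    rw [ap_mul, hD.sc, map_smul, hρ, Units.val_inv_eq_inv_val, Units.val_mk0, inv_smul_eq_iff₀ c0]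
  have e2 : Module.End.eigenspace (Matrix.toLin' (g : Matrix (Fin n) (Fin n) F)) c = Fx ρ g' :=
    Submodule.ext fun w => by rw [Module.End.mem_eigenspace_iff, mem_Fx, e1]; rfl
  have h1 : ∀ x ∈ R ⊔ scalars (Fin n) F, g' * x * g'⁻¹ ∈ R ⊔ scalars (Fin n) F := fun x hx => by
    rw [show g' * x * g'⁻¹ = g * x * g⁻¹ by
      rw [mul_assoc g, ← (commute_scal _ x).eq]; simp only [g']; group]
    exact (Subgroup.mem_normalizer_iff.1 hg x).1 hx
  have h2 : ∀ d, g' ≠ scal (Fin n) d := fun d e =>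
    hns (eq_mul_inv_of_mul_eq e ▸ mul_mem (scal_mem _) (inv_mem (scal_mem _)))
  have h3 : g' ^ ϖ = 1 := hD.one_of v0 (pow_mem ((e1 v).2 hv) ϖ) (c := (Units.mk0 c c0)⁻¹ ^ ϖ) (by
    rw [(commute_scal _ g).mul_pow, ← hord, pow_orderOf_eq_one, one_mul, map_pow])
  have b1 := hD.bound h1 h2
  have b2 := fun ho hc => hD.coprime h1 h2 h3 ho hc
  have b3 := hD.same h1 h2
  have b4 : r ∣ n := by
    obtain ⟨x, hx, y, hy, e⟩ : ∃ x ∈ R, ∃ y ∈ R, x * y ≠ y * x := by
      by_contra! h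
      have : commutator R = ⊥ := by
        rw [commutator_eq_bot_iff_center_eq_top, eq_top_iff]
        exact fun x _ => Subgroup.mem_center_iff.2 fun y => Subtype.ext (h _ y.2 _ x.2)
      rw [← hext, this, Subgroup.card_bot] at hZ
      exact hr.one_lt.ne hZ
    simpa using hD.dvd (Subgroup.mem_sup_left hx) fun d e' => e (e' ▸ (commute_scal d y).eq.symm)
  rw [e2]
  simp only [Module.finrank_fintype_fun_eq_card, Fintype.card_fin] at b1 b2 b3
  have r2 := hr.two_le
  have k3 : r ≠ 3 → ϖ = 3 → 2 * Module.finrank F (Fx ρ g') ≤ n := fun h e =>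
    b2 (by rw [e]; decide) ((Nat.coprime_primes hϖ hr).2 (by omega))
  refine ⟨fun _ => by nlinarith, fun e => ?_, fun e => ?_, fun e h => k3 (fun e' => h (e' ▸ b4)) e⟩
  · by_cases h : r = 3
    · rw [h] at b1; omega
    · have := k3 h e; omega
  · by_cases h : ϖ = r
    · exact b3 (h ▸ h3) (h ▸ hϖ.five_le_of_ne_two_of_ne_three (by omega) (by omega))
    · exact b2 (hϖ.odd_of_ne_two (by omega)) ((Nat.coprime_primes hϖ hr).2 h)

end Cfsg.Agent.S5877
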