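import Cfsg.Statements.S5941
import Cfsg.Agent.H29.Maximal

set_option autoImplicit false
open Cfsg

namespace Cfsg.Agent.S5941

/-- Let K and F be finite fields of odd characteristic with #F = (#K)². Then PSL_2(F) has a maximal subgroup isomorphic to PGL_2(K). -/
theorem result {F K : Type*} [Field F] [Fintype F] [Field K] [Fintype K] (q : ℕ) (hK : Fintype.card K = q) (hF : Fintype.card F = q ^ 2) (hq : Odd q) : ∃ H : Subgroup (Matrix.ProjectiveSpecialLinearGroup (Fin 2) F), IsCoatom H ∧ Nonempty (H ≃* Matrix.ProjGenLinGroup (Fin 2) K) := by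
  rw [← Nat.card_eq_fintype_card] at hF hK
  subst hK
  obtain ⟨f⟩ := H29.exists_ringHom_of_card hF
  have h1 : 1 < Nat.card K := Finite.one_lt_card
  have h2 := H29.PGLsub_inf_L_covBy f.fieldRange
    (by rw [H29.card_fieldRange]; rw [Nat.odd_iff] at hq; omega) Nat.prime_two
    (by rw [H29.card_fieldRange, hF])
  rw [H29.PGLsub_fieldRange, inf_eq_left.2 ((H29.PGLsub_le_L_iff_even f
    ((H29.odd_card_iff_of_ringHom f).1 hq) hF).2 even_two)] at h2
  exact H29.exists_coatom_of_covBy h2 ⟨(H29.PGLsubEquiv f).symm⟩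

end Cfsg.Agent.S5941
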