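import Cfsg.Statements.S5944

set_option autoImplicit false
open Cfsg

namespace Cfsg.Agent.S5944

/-- For n ≠ 4, every proper subgroup of the symmetric group S_n other than the alternating group A_n has index at least n. -/
theorem result (n : ℕ) (hn : n ≠ 4) (H : Subgroup (Equiv.Perm (Fin n))) (hH : H ≠ ⊤) (hA : H ≠ alternatingGroup (Fin n)) : n ≤ H.index := by
  classical
  have h1 : H.index ≠ 1 := fun h => hH (Subgroup.index_eq_one.1 h)
  have h2 : H.index ≠ 2 := fun h => hA (Equiv.Perm.eq_alternatingGroup_of_index_eq_two h)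
  have h0 : H.index ≠ 0 := Subgroup.index_ne_zero_of_finite
  by_cases h5 : 5 ≤ n
  · by_contra hlt
    push Not at hlt
    have hcore : H.normalCore ≠ ⊥ := by
      intro hb
      have hinj : Function.Injective (MulAction.toPermHom (Equiv.Perm (Fin n)) (Equiv.Perm (Fin n) ⧸ H)) := by
        rw [← MonoidHom.ker_eq_bot_iff, ← Subgroup.normalCore_eq_ker, hb]
      have hle := Nat.card_le_card_of_injective _ hinj
      rw [Nat.card_perm, Nat.card_perm, Nat.card_eq_fintype_card, Fintype.card_fin] at hle
      have : (Nat.card (Equiv.Perm (Fin n) ⧸ H)).factorial < n.factorial :=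
        (Nat.factorial_lt (Nat.pos_of_ne_zero h0)).2 hlt
      omega
    have hle : alternatingGroup (Fin n) ≤ H.normalCore :=
      Equiv.Perm.alternatingGroup_le_of_normal (by simpa using h5)
        ((Subgroup.nontrivial_iff_ne_bot _).2 hcore)
    have hdvd := Subgroup.index_dvd_of_le (hle.trans H.normalCore_le)
    haveI : Nontrivial (Fin n) := Fin.nontrivial_iff_two_le.2 (by omega)
    rw [alternatingGroup.index_eq_two] at hdvd
    have := Nat.le_of_dvd two_pos hdvd
    omega
  · omega

end Cfsg.Agent.S5944
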