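import Cfsg.Statements.S5945
import Cfsg.Agent.H33.SymSix

set_option autoImplicit false
open Cfsg

namespace Cfsg.Agent.S5945

/-- The symmetric group S_6 has exactly 12 subgroups of index 6; each of them is isomorphic to S_5, and at least one of them is not the stabilizer of any point. -/
theorem result : Nat.card {H : Subgroup (Equiv.Perm (Fin 6)) // H.index = 6} = 12 ∧ (∀ H : Subgroup (Equiv.Perm (Fin 6)), H.index = 6 → Nonempty (H ≃* Equiv.Perm (Fin 5))) ∧ ∃ H : Subgroup (Equiv.Perm (Fin 6)), H.index = 6 ∧ ∀ a : Fin 6, H ≠ MulAction.stabilizer (Equiv.Perm (Fin 6)) a := by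
  have h6 : Fintype.card (Fin 6) = 6 := Fintype.card_fin 6
  obtain ⟨β, hβ⟩ := H33.exists_outer_six h6
  have hidx : ∀ y : Fin 6, (MulAction.stabilizer (Equiv.Perm (Fin 6)) y).index = 6 := by
    intro y
    rw [MulAction.index_stabilizer_of_transitive, Nat.card_eq_fintype_card, h6]
  have hidx' : ∀ y : Fin 6, ((MulAction.stabilizer (Equiv.Perm (Fin 6)) y).comap β.toMonoidHom).index = 6 := by
    intro y
    rw [Subgroup.index_comap_of_surjective _ β.surjective, hidx]
  have hiso : ∀ y : Fin 6, Nonempty (MulAction.stabilizer (Equiv.Perm (Fin 6)) y ≃* Equiv.Perm (Fin 5)) := by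
    intro y
    obtain ⟨e⟩ : Nonempty ({x // x ≠ y} ≃ Fin 5) := Fintype.card_eq.1 (by simp)
    exact ⟨(H33.permStabilizerEquiv y).symm.trans e.permCongrHom⟩
  refine ⟨?_, fun H hH => ?_, (MulAction.stabilizer _ 0).comap β.toMonoidHom, hidx' 0,
    fun a => (H33.stabilizer_ne_comap_outer (by omega) β hβ _ _).symm⟩
  · let F : Fin 6 ⊕ Fin 6 → {H : Subgroup (Equiv.Perm (Fin 6)) // H.index = 6} :=
      Sum.elim (fun y => ⟨_, hidx y⟩) (fun y => ⟨_, hidx' y⟩)
    have hF : Function.Bijective F := by
      constructor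
      · rintro (y | y) (y' | y') h
        · exact congrArg _ (H33.stabilizer_perm_injective (by omega) (congrArg Subtype.val h))
        · exact absurd (congrArg Subtype.val h) (H33.stabilizer_ne_comap_outer (by omega) β hβ _ _)
        · exact absurd (congrArg Subtype.val h).symm (H33.stabilizer_ne_comap_outer (by omega) β hβ _ _)
        · exact congrArg _ (H33.stabilizer_perm_injective (by omega)
            (Subgroup.comap_injective (f := β.toMonoidHom) β.surjective (congrArg Subtype.val h)))
      · rintro ⟨H, hH⟩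
        obtain ⟨y, rfl | rfl⟩ := H33.eq_stabilizer_or_of_index_six h6 β hβ H hH
        · exact ⟨Sum.inl y, rfl⟩
        · exact ⟨Sum.inr y, rfl⟩
    rw [← Nat.card_eq_of_bijective F hF]
    simp
  · obtain ⟨y, rfl | rfl⟩ := H33.eq_stabilizer_or_of_index_six h6 β hβ H hH
    · exact hiso y
    · obtain ⟨e⟩ := hiso y
      refine ⟨MulEquiv.trans ?_ e⟩
      rw [Subgroup.comap_equiv_eq_map_symm']
      exact (β.symm.subgroupMap _).symm

end Cfsg.Agent.S5945
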