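import Cfsg.Statements.S5950
import Cfsg.Agent.H77.ElusSL

set_option autoImplicit false
open scoped MatrixGroups
open Cfsg

namespace Cfsg.Agent.S5950

open Cfsg.Agent.H77

/-- Elements of prime order of PSL_n(q) fixing no decomposition `F^n = U ⊕ W` with `dim U = m`. Here `T = PSL_n(F)` for a field `F` with `q = p^f` elements (`n ≥ 2`, `(n, q) ≠ (2, 2), (2, 3)`); an element of `T` of prime order `r` is represented by a matrix `x` of determinant 1 with `x^r` scalar and `x` not scalar; `i` denotes the multiplicative order of `q` modulo `r` (when `r ≠ p`), and `(a)_r` the `r`-part of `a`. Let `n ≥ 3`, `1 ≤ m < n/2`, and let `r` be a prime dividing the number of such decompositions (unordered pairs `{U, W}` of complementary subspaces with `dim U = m`; since `m ≠ n − m` these are the ordered pairs with `dim U = m`). Then every element of `T` of order `r` fixes such a pair (fixes both `U` and `W` for some complementary `U, W` with `dim U = m`) if and only if one of: (i) `r = p > 2` and every partition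 of `n` into parts of size at most `p` contains, as a sub-multiset, a partition of `m`; (ii) `r = p = 2` and `n` is odd or `m` is even; (iii) `r ≠ p`, `i = 1`, and `r ∣ m` or `(q−1)_r ≥ (n)_r` (with `q ≡ 1 (mod 4)` required when `r = 2` and `n` is even); (iv) `r ≠ p`, `2 ≤ i ≤ m` and `n mod i ≥ m mod i`. -/
theorem result {F : Type*} [Field F] [Fintype F] {p : ℕ} [Fact p.Prime] [CharP F p] {q : ℕ} (hq : Fintype.card F = q)
    (n m : ℕ) (hn : 3 ≤ n) (hm : 1 ≤ m) (hmn : 2 * m < n)
    (r : ℕ) [Fact r.Prime]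
    (hrΩ : r ∣ Nat.card {P : Submodule F (Fin n → F) × Submodule F (Fin n → F) // IsCompl P.1 P.2 ∧ Module.finrank F ↥P.1 = m}) :
    (∀ x : Matrix.SpecialLinearGroup (Fin n) F,
      (∃ c : F, ((x ^ r : Matrix.SpecialLinearGroup (Fin n) F) : Matrix (Fin n) (Fin n) F) = c • (1 : Matrix (Fin n) (Fin n) F)) →
      (∀ c : F, (x : Matrix (Fin n) (Fin n) F) ≠ c • (1 : Matrix (Fin n) (Fin n) F)) →
      ∃ U W : Submodule F (Fin n → F), IsCompl U W ∧ Module.finrank F ↥U = m ∧
        U.map (Matrix.toLin' (x : Matrix (Fin n) (Fin n) F)) ≤ U ∧ W.map (Matrix.toLin' (x : Matrix (Fin n) (Fin n) F)) ≤ W) ↔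
    ((r = p ∧ 2 < p ∧ (∀ μ : Multiset ℕ, (∀ a ∈ μ, 0 < a ∧ a ≤ p) → μ.sum = n → ∃ ν : Multiset ℕ, ν ≤ μ ∧ ν.sum = m)) ∨
     (r = p ∧ p = 2 ∧ (Odd n ∨ Even m)) ∨
     (r ≠ p ∧
      ((orderOf (q : ZMod r) = 1 ∧ (r ∣ m ∨ (padicValNat r n ≤ padicValNat r (q - 1) ∧ (r = 2 → Even n → q % 4 = 1)))) ∨
       (2 ≤ orderOf (q : ZMod r) ∧ orderOf (q : ZMod r) ≤ m ∧ m % orderOf (q : ZMod r) ≤ n % orderOf (q : ZMod r))))) := by
  subst hq
  have hr : r.Prime := Fact.out
  refine (forall_sl_iff (p := p) (AlgebraicClosure F)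
    (R' := fun s => ∃ t ≤ s, H76.Adm (Fintype.card F : ℤ) m t) fun x _ =>
      (hasJ_ujord _ (Matrix.SpecialLinearGroup.toGL x)).exists_isCompl_iff m).trans ?_
  by_cases hrp : r = p
  · subst hrp
    rw [forall_pElt_char_le_iff (by omega)]
    rcases hr.eq_two_or_odd' with rfl | h2
    · rw [forall_two_le_iff (by omega)]
      simp
    · have : 2 < r := lt_of_le_of_ne hr.two_le (by rintro rfl; exact absurd h2 (by decide))
      simp [this, this.ne']
  have h1 := lt_of_dvd_card_compl hrp hrΩ
  have hD := orderOf_zmod_pos (natCast_card_ne_zero' (F := F) hrp)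
  rw [forall_pElt_le_iff hr hrp card_ne_one' (by simpa using hD) (by omega) (by omega),
    noB_natCast Fintype.card_pos]
  simp only [Int.cast_natCast, Module.finrank_fin_fun] at h1 ⊢
  generalize orderOf (Fintype.card F : ZMod r) = D at *
  have h2 : n < D → n % D = n := Nat.mod_eq_of_lt
  have h3 : m < D → m % D = m := Nat.mod_eq_of_lt
  simp only [hrp, ne_eq, not_false_eq_true, true_and, false_and, false_or]
  refine or_congr_right (and_congr_right fun _ => ?_)
  omega

end Cfsg.Agent.S5950
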