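import Cfsg.Statements.S5951
import Cfsg.Agent.H77.ElusSL

set_option autoImplicit false
open scoped MatrixGroups
open Cfsg

namespace Cfsg.Agent.S5951

open Cfsg.Agent.H77

/-- Elements of prime order of PSL_n(q) fixing no pair of subspaces `U < W` with `dim U = m`, `dim W = n − m`. Here `T = PSL_n(F)` for a field `F` with `q = p^f` elements (`n ≥ 2`, `(n, q) ≠ (2, 2), (2, 3)`); an element of `T` of prime order `r` is represented by a matrix `x` of determinant 1 with `x^r` scalar and `x` not scalar; `i` denotes the multiplicative order of `q` modulo `r` (when `r ≠ p`), and `(a)_r` the `r`-part of `a`. Let `1 ≤ m < n/2` and let `r` be a prime dividing the number of such pairs. Then every element of `T` of order `r` fixes such a pair (both `U` and `W`) if and only if `r ≠ p` and either (i) `i = 1` and (`r ∣ m`, or `(q−1)_r ≥ (n)_r` with `q ≡ 1 (mod 4)` required when `r = 2` and `n` is even), or (ii) `2 ≤ i ≤ m` and `n mod i ≥ 2 (m mod i)`. -/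
theorem result {F : Type*} [Field F] [Fintype F] {p : ℕ} [Fact p.Prime] [CharP F p] {q : ℕ} (hq : Fintype.card F = q)
    (n m : ℕ) (hn : 2 ≤ n) (hT : (n, q) ≠ (2, 2) ∧ (n, q) ≠ (2, 3)) (hm : 1 ≤ m) (hmn : 2 * m < n)
    (r : ℕ) [Fact r.Prime]
    (hrΩ : r ∣ Nat.card {P : Submodule F (Fin n → F) × Submodule F (Fin n → F) //
        P.1 ≤ P.2 ∧ Module.finrank F ↥P.1 = m ∧ Module.finrank F ↥P.2 = n - m}) :
    (∀ x : Matrix.SpecialLinearGroup (Fin n) F,
      (∃ c : F, ((x ^ r : Matrix.SpecialLinearGroup (Fin n) F) : Matrix (Fin n) (Fin n) F) = c • (1 : Matrix (Fin n) (Fin n) F)) →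
      (∀ c : F, (x : Matrix (Fin n) (Fin n) F) ≠ c • (1 : Matrix (Fin n) (Fin n) F)) →
      ∃ U W : Submodule F (Fin n → F), U ≤ W ∧ Module.finrank F ↥U = m ∧ Module.finrank F ↥W = n - m ∧
        U.map (Matrix.toLin' (x : Matrix (Fin n) (Fin n) F)) ≤ U ∧ W.map (Matrix.toLin' (x : Matrix (Fin n) (Fin n) F)) ≤ W) ↔
    (r ≠ p ∧
      ((orderOf (q : ZMod r) = 1 ∧ (r ∣ m ∨ (padicValNat r n ≤ padicValNat r (q - 1) ∧ (r = 2 → Even n → q % 4 = 1)))) ∨
       (2 ≤ orderOf (q : ZMod r) ∧ orderOf (q : ZMod r) ≤ m ∧ 2 * (m % orderOf (q : ZMod r)) ≤ n % orderOf (q : ZMod r)))) := by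
  subst hq
  have hr : r.Prime := Fact.out
  obtain ⟨hrp, h1⟩ := lt_of_dvd_card_flag (F := F) (p := p) (V := Fin n → F) (m := m) (r := r)
    (by simp; omega) (by simpa using hrΩ)
  have hD := orderOf_zmod_pos (natCast_card_ne_zero' (F := F) hrp)
  refine (forall_sl_iff (p := p) (AlgebraicClosure F)
    (R' := fun s => ∃ t u, t + u ≤ s ∧ H76.Adm (Fintype.card F : ℤ) m t ∧
      H76.Adm (Fintype.card F : ℤ) m u) fun x hx => by
      simpa using (hasJ_ujord _ (Matrix.SpecialLinearGroup.toGL x)).exists_flag_iff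
        (isSemisimple_of_pk hr hrp (hasJ_ujord _ _) hx.pk) (m := m) (by simp; omega)).trans ?_
  rw [forall_pElt_two_le_iff hr hrp card_ne_one' (by simpa using hD) (by omega) (by omega),
    noB_natCast Fintype.card_pos]
  simp only [Int.cast_natCast, Module.finrank_fin_fun] at h1 ⊢
  generalize orderOf (Fintype.card F : ZMod r) = D at *
  have h2 : n < D → n % D = n := Nat.mod_eq_of_lt
  have h3 : m < D → m % D = m := Nat.mod_eq_of_lt
  simp only [hrp, ne_eq, not_false_eq_true, true_and]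
  refine or_congr_right (and_congr_right fun _ => ?_)
  omega

end Cfsg.Agent.S5951
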