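import Cfsg.Statements.S5952
import Cfsg.Agent.H32.SubDim

set_option autoImplicit false
open Cfsg

namespace Cfsg.Agent.S5952

/-- Which dimensions of invariant subspaces a semisimple linear map has. Let `V` be a finite-dimensional vector space over a field `F` and `f` an invertible semisimple linear map of `V`. Suppose `V` is the internal direct sum of the fixed space `C_V(f)` (the eigenspace for 1) and subspaces `U_1, …, U_s`, each `f`-invariant of dimension `a ≥ 1` on which `f` acts irreducibly (no `f`-invariant subspaces other than 0 and `U_j`). Let `0 < m < dim V` and `ℓ = m mod a`. Then `f` leaves some `m`-dimensional subspace invariant if and only if `dim C_V(f) ≥ m`, or `a ≤ m` and `dim C_V(f) ≥ ℓ`. -/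
theorem result {F V : Type*} [Field F] [AddCommGroup V] [Module F V]
    [FiniteDimensional F V] (f : V →ₗ[F] V) (hf : Function.Bijective f) (hss : Module.End.IsSemisimple f)
    {s a : ℕ} (ha : 1 ≤ a) (U : Fin s → Submodule F V)
    (hUinv : ∀ j, (U j).map f ≤ U j) (hUdim : ∀ j, Module.finrank F ↥(U j) = a)
    (hUirr : ∀ j, ∀ W : Submodule F V, W ≤ U j → W.map f ≤ W → W = ⊥ ∨ W = U j)
    (hdec : DirectSum.IsInternal (fun o : Option (Fin s) => o.elim (Module.End.eigenspace f 1) U))
    (m : ℕ) (hm : 0 < m) (hmV : m < Module.finrank F V) :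
    (∃ W : Submodule F V, Module.finrank F ↥W = m ∧ W.map f ≤ W) ↔
    (m ≤ Module.finrank F ↥(Module.End.eigenspace f 1) ∨
      (a ≤ m ∧ m % a ≤ Module.finrank F ↥(Module.End.eigenspace f 1))) := by
  classical
  set C := Module.End.eigenspace f 1 with hC
  have hCmem : ∀ x, x ∈ C ↔ f x = x := fun x => by
    rw [hC, Module.End.mem_eigenspace_iff, one_smul]
  have hind := hdec.submodule_iSupIndep
  have htop := hdec.submodule_iSup_eq_top
  have hUind : iSupIndep U := hind.comp (Option.some_injective _)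
  have hdisj : Disjoint C (⨆ j, U j) := by
    refine (hind none).mono_right (iSup_le fun j => ?_)
    exact le_iSup₂_of_le (f := fun (o : Option (Fin s)) (_ : o ≠ none) => (o.elim C U :
      Submodule F V)) (some j) (Option.some_ne_none j) le_rfl
  have hsup : C ⊔ ⨆ j, U j = ⊤ := by
    rw [← htop, iSup_option]
    rfl
  have hinvS : ∀ S : Finset (Fin s), (⨆ j ∈ S, U j).map f ≤ ⨆ j ∈ S, U j := fun S => by
    simp only [Submodule.map_iSup]
    exact iSup₂_mono fun j _ => hUinv j
  have hdimS : ∀ S : Finset (Fin s), Module.finrank F ↥(⨆ j ∈ S, U j) = S.card * a := by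
    intro S
    rw [H32.finrank_biSup_of_iSupIndep hUind]
    simp [hUdim]
  have huniv : (⨆ j ∈ (Finset.univ : Finset (Fin s)), U j) = ⨆ j, U j := by simp
  have hV : Module.finrank F V = Module.finrank F C + s * a := by
    have := H32.finrank_sup_of_disjoint hdisj
    rw [hsup, finrank_top, ← huniv, hdimS] at this
    simpa using this
  constructor
  · rintro ⟨W, hWm, hWf⟩
    let g : V →ₗ[F] V := f - LinearMap.id
    have hg : ∀ x, g x = f x - x := fun x => rfl
    have h1 : W.map g ≤ ⨆ j ∈ (Finset.univ : Finset (Fin s)), U j := by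
      rintro _ ⟨x, -, rfl⟩
      have hx : x ∈ C ⊔ ⨆ j, U j := hsup ▸ Submodule.mem_top
      obtain ⟨c, hc, u, hu, rfl⟩ := Submodule.mem_sup.1 hx
      rw [map_add, hg c, (hCmem c).1 hc, sub_self, zero_add, hg]
      rw [← huniv] at hu
      exact Submodule.sub_mem _ (hinvS _ ⟨u, hu, rfl⟩) hu
    have h2 : (W.map g).map f ≤ W.map g := by
      rintro _ ⟨_, ⟨x, hx, rfl⟩, rfl⟩
      exact ⟨f x, hWf ⟨x, hx, rfl⟩, by rw [hg, hg, map_sub]⟩
    obtain ⟨k, hk⟩ := H32.dvd_finrank_of_le_biSup f hUind hUinv hUirr (a := a)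
      (fun j => by rw [hUdim]) _ _ h1 h2
    have h3 := LinearMap.finrank_range_add_finrank_ker (g.domRestrict W)
    rw [LinearMap.range_domRestrict, hk, hWm] at h3
    have h4 : Module.finrank F (LinearMap.ker (g.domRestrict W)) ≤ Module.finrank F C := by
      rw [← Submodule.finrank_map_subtype_eq]
      apply Submodule.finrank_mono
      rintro _ ⟨x, hx, rfl⟩
      exact (hCmem _).2 (sub_eq_zero.1 hx)
    rcases Nat.eq_zero_or_pos k with rfl | hk0
    · left; omega
    · right
      refine ⟨h3 ▸ (Nat.le_mul_of_pos_right a hk0).trans (Nat.le_add_right _ _), ?_⟩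
      rw [← h3, Nat.mul_add_mod]
      exact (Nat.mod_le _ _).trans h4
  · intro h
    obtain ⟨k, i, hk, hi, hki⟩ : ∃ k i, k ≤ s ∧ i ≤ Module.finrank F C ∧ m = i + k * a := by
      rcases h with h | ⟨h1, h2⟩
      · exact ⟨0, m, Nat.zero_le _, h, by simp⟩
      · by_cases hs : m / a ≤ s
        · exact ⟨m / a, m % a, hs, h2, by rw [mul_comm, Nat.mod_add_div]⟩
        · have : s * a ≤ m := (Nat.mul_le_mul_right a (by omega)).trans (Nat.div_mul_le_self m a)
          exact ⟨s, m - s * a, le_rfl, by omega, by omega⟩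
    obtain ⟨S, -, hS⟩ := Finset.exists_subset_card_eq (s := (Finset.univ : Finset (Fin s)))
      (n := k) (by simpa using hk)
    obtain ⟨X, hXC, hX⟩ := H32.exists_le_finrank_eq C hi
    refine ⟨X ⊔ ⨆ j ∈ S, U j, ?_, ?_⟩
    · rw [H32.finrank_sup_of_disjoint (hdisj.mono hXC (iSup₂_le fun j _ => le_iSup U j)), hX,
        hdimS, hS, hki]
    · rw [Submodule.map_sup]
      refine sup_le_sup ?_ (hinvS S)
      rintro _ ⟨x, hx, rfl⟩
      rw [(hCmem x).1 (hXC hx)]
      exact hx

end Cfsg.Agent.S5952
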