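import Cfsg.Statements.S5953
import Cfsg.Agent.H77.ElusSU

set_option autoImplicit false
open scoped MatrixGroups
open Cfsg

namespace Cfsg.Agent.S5953

open Cfsg.Agent.H77

/-- Elements of prime order of PSU_n(q) with no fixed totally isotropic `m`-space. Here `T = PSU_n(q)` (`n ≥ 3`, `(n, q) ≠ (3, 2)`), realised through the matrices of determinant 1 over the field `F` with `q²` elements preserving the Hermitian form `h(u, v) = Σ u_i v_i^q`; an element of `T` of prime order `r` is such a matrix `x` with `x^r` scalar and `x` not scalar. For `r ≠ p` let `i` be the multiplicative order of `q` modulo `r`, `b = i/2` for `i` even and `b = i` for `i` odd, `c = i, i/2, 2i` according as `i ≡ 0, 2 (mod 4)` or `i` odd, and write `k = n mod c`, `ℓ = m mod b`, `ℓ' = m mod c`, `n' = ⌊n/b⌋`, `m' = ⌊m/b⌋`, `s = (r−1)/b`; `(a)_r` is the `r`-part of `a`. Let `1 ≤ m ≤ n/2` and let `r` be a prime dividing the number of totally isotropic `m`-spaces. Then every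 element of `T` of order `r` fixes a totally isotropic `m`-space if and only if either (i) `r = 2`, `p ≠ 2`, and (`m < n/2` or `(q+1)_2 ≤ (n)_2`); or (ii) `r ≠ p`, `r > 2`, `b ≤ m`, `k ≥ 2ℓ`, and either `i ≢ 2 (mod 4)`, or `i ≡ 2 (mod 4)`, `n' − 2m' ≥ s` and (`i > 2`, or `i = 2` and (`r ∣ m` or `(q+1)_r ≥ (n)_r`)). -/
theorem result {F : Type*} [Field F] [Fintype F] {p : ℕ} [Fact p.Prime] [CharP F p] {q : ℕ} (hq : Fintype.card F = q ^ 2)
    (n m : ℕ) (hn : 3 ≤ n) (hT : (n, q) ≠ (3, 2)) (hm : 1 ≤ m) (hmn : 2 * m ≤ n)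
    (r : ℕ) [Fact r.Prime]
    (hrΩ : r ∣ Nat.card {W : Submodule F (Fin n → F) // Module.finrank F ↥W = m ∧ (∀ u ∈ W, ∀ v ∈ W, Cfsg.hermForm n F q u v = 0)})
    (i b c : ℕ) (hi : i = orderOf (q : ZMod r)) (hb : b = if Even i then i / 2 else i)
    (hc : c = if i % 4 = 0 then i else if i % 4 = 2 then i / 2 else 2 * i) :
    (∀ x : Matrix.SpecialLinearGroup (Fin n) F, x ∈ Cfsg.SU n F q →
      (∃ z : F, ((x ^ r : Matrix.SpecialLinearGroup (Fin n) F) : Matrix (Fin n) (Fin n) F) = z • (1 : Matrix (Fin n) (Fin n) F)) →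
      (∀ z : F, (x : Matrix (Fin n) (Fin n) F) ≠ z • (1 : Matrix (Fin n) (Fin n) F)) →
      ∃ W : Submodule F (Fin n → F), Module.finrank F ↥W = m ∧ (∀ u ∈ W, ∀ v ∈ W, Cfsg.hermForm n F q u v = 0) ∧
        W.map (Matrix.toLin' (x : Matrix (Fin n) (Fin n) F)) ≤ W) ↔
    ((r = 2 ∧ p ≠ 2 ∧ (2 * m < n ∨ padicValNat 2 (q + 1) ≤ padicValNat 2 n)) ∨
     (r ≠ p ∧ 2 < r ∧ b ≤ m ∧ 2 * (m % b) ≤ n % c ∧
       (i % 4 ≠ 2 ∨ (i % 4 = 2 ∧ (r - 1) / b + 2 * (m / b) ≤ n / b ∧
         (2 < i ∨ (i = 2 ∧ (r ∣ m ∨ padicValNat r n ≤ padicValNat r (q + 1)))))))) := by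
  have hr : r.Prime := Fact.out
  have hB := H76.isEForm_hermB hq n
  have hq2 := H31.two_le_of_card_sq hq
  have hti : ∀ W : Submodule F (Fin n → F), (∀ u ∈ W, ∀ v ∈ W, Cfsg.hermForm n F q u v = 0) ↔
      H31.TotIso (H31.hermB hq n) W := fun W => by
    simp only [H31.hermForm_eq hq]
    exact ⟨fun h u hu v hv => h v hv u hu, fun h u hu v hv => h v hv u hu⟩
  simp only [hti] at hrΩ ⊢
  obtain ⟨hrp, h1⟩ := herm_lt_of_dvd_card_totIso (p := p) hq (fun _ => rfl)
    (H31.isHerm_hermB hq n) (by simpa using hmn) hrΩ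
  refine (forall_su_iff (p := p) (AlgebraicClosure F) hq
    (R' := fun s => ∃ t, t + t.map (H76.frob (-(q : ℤ))) ≤ s ∧ H76.Adm ((-(q : ℤ)) ^ 2) m t)
      fun x hx hx' => by
      rw [← card_cast_eq hq]
      exact (hasJ_sl (AlgebraicClosure F) x).exists_totIso_iff
          (dualLaw_frobQ _ hq) hB (pres_of_mem_SU hq hx)
          (isSemisimple_of_pk hr hrp (hasJ_sl _ x) hx'.pk) (freeD_frobQ hq _) m).trans ?_
  have h0 := neg_q_ne_zero hq hrp
  rcases eq_or_ne r 2 with rfl | hr2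
  · have h2 : orderOf ((-(q : ℤ) : ℤ) : ZMod 2) = 1 := orderOf_zmod_two h0
    rw [forall_pElt_ti_two hrp (dvd_sub_one_iff.mpr h2) (by omega) (by omega) hmn,
      H76.natAbs_neg_sub_one]
    simp [Ne.symm hrp]
  have h2 : 0 < i := hi ▸ orderOf_zmod_pos (by simpa using h0)
  have h3 : orderOf ((-(q : ℤ) : ℤ) : ZMod r) = c := by
    rw [Int.cast_neg, Int.cast_natCast, orderOf_neg_eq (zmod_two_ne_zero hr2) (hi ▸ h2), ← hi, hc]
  rw [h3, Module.finrank_fin_fun] at h1
  have h6 : n < c → n % c = n := Nat.mod_eq_of_lt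
  have h7 : m < b → m % b = m := Nat.mod_eq_of_lt
  simp only [hrp, hr2, false_and, false_or, true_and, ne_eq, not_false_eq_true,
    lt_of_le_of_ne hr.two_le hr2.symm]
  simp only [Nat.even_iff] at hb
  by_cases h4 : i % 4 = 2
  · have h5 : c = b := by rw [hc, hb]; split_ifs <;> omega
    subst h5
    rcases eq_or_ne i 2 with rfl | h8
    · have h9 : c = 1 := by simpa using hc
      subst h9
      rw [forall_pElt_ti_one hr hrp hr2 (dvd_sub_one_iff.mpr h3) (by omega) hm hmn, noB_neg]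
      simp [hr2, hm, Nat.mod_one]
    · rw [forall_pElt_ti_odd hr hrp h3 (by rw [Nat.odd_iff, hc]; split_ifs <;> omega)
        (by rw [hc]; split_ifs <;> omega) hmn]
      simp only [h4, h8, show 2 < i by omega, not_true_eq_false, true_or, and_true, true_and,
        false_or]
      omega
  · have h5 : c = 2 * b := by rw [hc, hb]; split_ifs <;> omega
    subst h5
    rw [forall_pElt_ti_even hr hrp (by rw [hb]; split_ifs <;> omega) h3 hmn]
    simp only [h4, not_false_eq_true, true_or, and_true]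
    omega

end Cfsg.Agent.S5953
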