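import Cfsg.Statements.S5954
import Cfsg.Agent.H77.ElusSU

set_option autoImplicit false
open scoped MatrixGroups
open Cfsg

namespace Cfsg.Agent.S5954

open Cfsg.Agent.H77

/-- Elements of prime order of PSU_n(q) with no fixed nondegenerate `m`-space. Here `T = PSU_n(q)` (`n ≥ 3`, `(n, q) ≠ (3, 2)`), realised through the matrices of determinant 1 over the field `F` with `q²` elements preserving the Hermitian form `h(u, v) = Σ u_i v_i^q`; an element of `T` of prime order `r` is such a matrix `x` with `x^r` scalar and `x` not scalar. For `r ≠ p` let `i` be the multiplicative order of `q` modulo `r`, `b = i/2` for `i` even and `b = i` for `i` odd, `c = i, i/2, 2i` according as `i ≡ 0, 2 (mod 4)` or `i` odd, and write `k = n mod c`, `ℓ = m mod b`, `ℓ' = m mod c`, `n' = ⌊n/b⌋`, `m' = ⌊m/b⌋`, `s = (r−1)/b`; `(a)_r` is the `r`-part of `a`. Let `1 ≤ m < n/2` and let `r` be a prime dividing the number of nondegenerate `m`-spaces. Then every element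 of `T` of order `r` fixes a nondegenerate `m`-space if and only if one of: (i) `r = p > 2` and every partition of `n` into parts of size at most `p` contains (as a sub-multiset) a partition of `m`; (ii) `r = p = 2` and (`n` is odd or `m` is even); (iii) `r = 2 ≠ p` and (`n` is odd, or `m` is even, or `(q+1)_2 ≥ (n)_2` and `q ≡ 3 (mod 4)`); (iv) `r ≠ p`, `r > 2`, and either `i ≠ 2`, `c ≤ m` and `k ≥ ℓ'`, or `i = 2` and (`r ∣ m` or `(q+1)_r ≥ (n)_r`). -/
theorem result {F : Type*} [Field F] [Fintype F] {p : ℕ} [Fact p.Prime] [CharP F p] {q : ℕ} (hq : Fintype.card F = q ^ 2)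
    (n m : ℕ) (hn : 3 ≤ n) (hT : (n, q) ≠ (3, 2)) (hm : 1 ≤ m) (hmn : 2 * m < n)
    (r : ℕ) [Fact r.Prime]
    (hrΩ : r ∣ Nat.card {W : Submodule F (Fin n → F) // Module.finrank F ↥W = m ∧ (∀ u ∈ W, u ≠ 0 → ∃ v ∈ W, Cfsg.hermForm n F q u v ≠ 0)})
    (i b c : ℕ) (hi : i = orderOf (q : ZMod r)) (hb : b = if Even i then i / 2 else i)
    (hc : c = if i % 4 = 0 then i else if i % 4 = 2 then i / 2 else 2 * i) :
    (∀ x : Matrix.SpecialLinearGroup (Fin n) F, x ∈ Cfsg.SU n F q →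
      (∃ z : F, ((x ^ r : Matrix.SpecialLinearGroup (Fin n) F) : Matrix (Fin n) (Fin n) F) = z • (1 : Matrix (Fin n) (Fin n) F)) →
      (∀ z : F, (x : Matrix (Fin n) (Fin n) F) ≠ z • (1 : Matrix (Fin n) (Fin n) F)) →
      ∃ W : Submodule F (Fin n → F), Module.finrank F ↥W = m ∧ (∀ u ∈ W, u ≠ 0 → ∃ v ∈ W, Cfsg.hermForm n F q u v ≠ 0) ∧
        W.map (Matrix.toLin' (x : Matrix (Fin n) (Fin n) F)) ≤ W) ↔
    ((r = p ∧ 2 < p ∧ (∀ μ : Multiset ℕ, (∀ a ∈ μ, 0 < a ∧ a ≤ p) → μ.sum = n → ∃ ν : Multiset ℕ, ν ≤ μ ∧ ν.sum = m)) ∨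
     (r = p ∧ p = 2 ∧ (Odd n ∨ Even m)) ∨
     (r = 2 ∧ p ≠ 2 ∧ (Odd n ∨ Even m ∨ (padicValNat 2 n ≤ padicValNat 2 (q + 1) ∧ q % 4 = 3))) ∨
     (r ≠ p ∧ 2 < r ∧ ((i ≠ 2 ∧ c ≤ m ∧ m % c ≤ n % c) ∨ (i = 2 ∧ (r ∣ m ∨ padicValNat r n ≤ padicValNat r (q + 1)))))) := by
  have hr : r.Prime := Fact.out
  have hB := H76.isEForm_hermB hq n
  have hq2 := H31.two_le_of_card_sq hq
  simp only [H31.hermForm_eq hq, nondegOn_iff_flip hB] at hrΩ ⊢
  refine (forall_su_iff (p := p) (AlgebraicClosure F) hq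
    (R' := fun s => ∃ t ≤ s, H76.Adm (-(q : ℤ)) m t) fun x hx _ => by
      simpa only [adm_neg_iff hq] using
        (hasJ_ujord _ (Matrix.SpecialLinearGroup.toGL x)).exists_nondeg_iff
          (dualLaw_frobQ _ hq) hB (pres_of_mem_SU hq hx) (freeD_frobQ hq _) m).trans ?_
  by_cases hrp : r = p
  · subst hrp
    rw [forall_pElt_char_le_iff (by omega)]
    rcases hr.eq_two_or_odd' with rfl | h2
    · rw [forall_two_le_iff (by omega)]
      simp
    · have : 2 < r := lt_of_le_of_ne hr.two_le (by rintro rfl; exact absurd h2 (by decide))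
      simp [this, this.ne']
  have h1 := herm_lt_of_dvd_card_nondeg hq (fun _ => rfl) (H31.isHerm_hermB hq n) hrp hrΩ
  have h0 := neg_q_ne_zero hq hrp
  rw [forall_pElt_le_iff hr hrp (by omega) (orderOf_zmod_pos h0) (by omega) (by omega), noB_neg]
  rcases eq_or_ne r 2 with rfl | hr2
  · have h2 : orderOf ((-(q : ℤ) : ℤ) : ZMod 2) = 1 := orderOf_zmod_two h0
    have h3 : Odd n → padicValNat 2 n = 0 := fun h => padicValNat.eq_zero_of_not_dvd h.not_two_dvd_nat
    rw [h2]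
    simp only [hrp, Ne.symm hrp, false_and, false_or, true_and, ne_eq, not_false_eq_true,
      lt_self_iff_false, and_false, or_false, Nat.not_ofNat_le_one, forall_const,
      ← even_iff_two_dvd]
    rcases Nat.even_or_odd n with h | h
    · simp [h, Nat.not_odd_iff_even.mpr h]
    · simp [h, h3 h, Nat.not_even_iff_odd.mpr h]
  have h2 : 0 < i := hi ▸ orderOf_zmod_pos (by simpa using h0)
  have h3 : orderOf ((-(q : ℤ) : ℤ) : ZMod r) = c := by
    rw [Int.cast_neg, Int.cast_natCast, orderOf_neg_eq (zmod_two_ne_zero hr2) (hi ▸ h2), ← hi, hc]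
  rw [h3] at h1 ⊢
  rw [Module.finrank_fin_fun] at h1
  have h4 : c = 1 ↔ i = 2 := by rw [hc]; split_ifs <;> omega
  have h5 : 0 < c := h3 ▸ orderOf_zmod_pos h0
  have h6 : n < c → n % c = n := Nat.mod_eq_of_lt
  have h7 : m < c → m % c = m := Nat.mod_eq_of_lt
  simp only [hrp, hr2, false_and, false_or, true_and, ne_eq, not_false_eq_true, h4,
    lt_of_le_of_ne hr.two_le hr2.symm, IsEmpty.forall_iff, and_true]
  rw [or_comm]
  refine or_congr_left ?_
  omega

end Cfsg.Agent.S5954
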