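import Cfsg.Statements.S5955
import Cfsg.Agent.H77.ElusSp

set_option autoImplicit false
open scoped MatrixGroups
open Cfsg

namespace Cfsg.Agent.S5955

open Cfsg.Agent.H77

/-- Elements of prime order of PSp_n(q) with no fixed totally isotropic `m`-space. Here `T = PSp_n(q)` with `n = 2d ≥ 4`, `(n, q) ≠ (4, 2)`, realised through the symplectic matrices over the field `F` with `q` elements (preserving the standard alternating form); an element of `T` of prime order `r` is such a matrix `x` with `x^r` scalar and `x` not scalar. For `r ≠ p` let `i` be the multiplicative order of `q` modulo `r`, `c = i` for `i` even and `c = 2i` for `i` odd, and write `k = n mod c`, `ℓ = m mod i`, `ℓ' = m mod c`, `n' = ⌊n/i⌋`, `m' = ⌊m/i⌋`, `t = (r−1)/i`. Let `1 ≤ m ≤ n/2` and let `r` be a prime dividing the number of totally isotropic `m`-spaces. Then every element of `T` of order `r` fixes a totally isotropic `m`-space if and only if either (i) `r = 2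 ≠ p` and (`m` is even or `q ≡ 1 (mod 4)`); or (ii) `r ≠ p`, `r > 2`, `i ≤ m`, `k ≥ 2ℓ`, and (`i` is odd or `n' − 2m' ≥ t`). -/
theorem result {F : Type*} [Field F] [Fintype F] {p : ℕ} [Fact p.Prime] [CharP F p] {q : ℕ} (hq : Fintype.card F = q)
    (d m : ℕ) (hd : 2 ≤ d) (hT : (d, q) ≠ (2, 2)) (hm : 1 ≤ m) (hmd : m ≤ d)
    (r : ℕ) [Fact r.Prime]
    (hrΩ : r ∣ Nat.card {W : Submodule F (Fin d ⊕ Fin d → F) // Module.finrank F ↥W = m ∧ (∀ u ∈ W, ∀ v ∈ W, Cfsg.sympForm d F u v = 0)})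
    (i c : ℕ) (hi : i = orderOf (q : ZMod r)) (hc : c = if Even i then i else 2 * i) :
    (∀ x : ↥(Matrix.symplecticGroup (Fin d) F),
      (∃ z : F, ((x ^ r : ↥(Matrix.symplecticGroup (Fin d) F)) : Matrix (Fin d ⊕ Fin d) (Fin d ⊕ Fin d) F) = z • (1 : Matrix (Fin d ⊕ Fin d) (Fin d ⊕ Fin d) F)) →
      (∀ z : F, (x : Matrix (Fin d ⊕ Fin d) (Fin d ⊕ Fin d) F) ≠ z • (1 : Matrix (Fin d ⊕ Fin d) (Fin d ⊕ Fin d) F)) →
      ∃ W : Submodule F (Fin d ⊕ Fin d → F), Module.finrank F ↥W = m ∧ (∀ u ∈ W, ∀ v ∈ W, Cfsg.sympForm d F u v = 0) ∧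
        W.map (Matrix.toLin' (x : Matrix (Fin d ⊕ Fin d) (Fin d ⊕ Fin d) F)) ≤ W) ↔
    ((r = 2 ∧ p ≠ 2 ∧ (Even m ∨ q % 4 = 1)) ∨
     (r ≠ p ∧ 2 < r ∧ i ≤ m ∧ 2 * (m % i) ≤ (2 * d) % c ∧ (Odd i ∨ (r - 1) / i + 2 * (m / i) ≤ (2 * d) / i))) := by
  have hr : r.Prime := Fact.out
  have hB := H76.isEForm_jBilin (F := F) (Fin d)
  have ha := H27.jBilin_isAlt (l := Fin d) (F := F)
  have hn := H79.finrank_sum_self (F := F) d
  have := nontrivial_sum_fun (F := F) (d := d) (by omega)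
  subst hq
  simp only [totIso_jBilin_iff] at hrΩ ⊢
  obtain ⟨hrp, h1⟩ := alt_lt_of_dvd_card_ti (p := p) hB ha (by omega) hrΩ
  refine (forall_sp_iff (R := fun f => ∃ W : Submodule F (Fin d ⊕ Fin d → F),
    Module.finrank F W = m ∧ H31.TotIso (H27.jBilin (Fin d) F) W ∧ W.map f ≤ W)).trans ?_
  rcases eq_or_ne r 2 with rfl | hr2
  · have h2 : (2 : F) ≠ 0 := by simpa using natCast_ne_zero_of_ne (F := F) hrp
    rw [forall_two_iff hB h2 fun _ => id]
    simp only [Ne.symm hrp, true_and, ne_eq, not_false_eq_true, lt_self_iff_false, false_and,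
      and_false, or_false]
    have key : ∀ f, H76.Pres (H27.jBilin (Fin d) F) f → f ^ 2 = (-1 : F) • 1 →
        ((∃ W : Submodule F (Fin d ⊕ Fin d → F), Module.finrank F W = m ∧
          H31.TotIso (H27.jBilin (Fin d) F) W ∧ W.map f ≤ W) ↔ Even m ∨ Fintype.card F % 4 = 1) := by
      intro f h3 h4
      obtain ⟨a, a', h5, h6⟩ := exists_freeStr_four hB h3 hrp h4
      have h7 := h6.dim
      have h8 := h6.ti m
      simp only [le_top, true_and] at h8
      simp only [Submodule.map_le_iff_le_comap, and_comm (a := Module.finrank F _ = m), and_assoc]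
      refine Iff.trans h8 ?_
      rw [finrank_top, hn] at h7
      split_ifs at h5 h7 ⊢ with h9
      · simp [TP, cOf] at h5 h7
        exact iff_of_true ⟨m, by omega, by omega⟩ (Or.inr h9)
      · simp only [TP, cOf, even_two, if_true] at h5 h7
        obtain ⟨j, h10, h11⟩ := h5
        rw [or_iff_left h9]
        exact ⟨fun ⟨b, _, h⟩ => ⟨b, by omega⟩, fun ⟨b, h⟩ => ⟨b, by omega, by omega⟩⟩
    obtain ⟨f, h3, h4⟩ := alt_exists_sq_eq_neg hB ha hrp
    exact ⟨fun h => (key f h3 h4).mp (h.2 f h3 h4), fun h => ⟨fun f h3 h4 _ _ =>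
      alt_exists_ti_invol hB ha h3 h2 h4 (by omega), fun f h3 h4 => (key f h3 h4).mpr h⟩⟩
  rw [forall_odd_iff hB (hr.odd_of_ne_two hr2) (M' := H76.Pres _) (fun f h => ⟨h, h, fun _ => h.neg⟩)
    (fun _ h _ => h) (fun f => by simp only [map_neg_le_iff, imp_self]),
    alt_forall_prime_iff hB ha hrp hr2 (R' := fun k _ a' => ∃ b ≤ a', ∃ e, 2 * e ≤ k ∧
      m = e + orderOf (Fintype.card F : ZMod r) * b) fun f a a' h2 h3 h4 =>
      h4.alt_ti_iff hB ha h2 (isSemisimple_of_pow_eq_one hrp h3),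
    arith_ti_sp (orderOf_zmod_pos (natCast_card_ne_zero' hrp))
      (orderOf_zmod_lt (natCast_card_ne_zero' hrp)) (by omega) h1, hn, ← hi, show cOf i = c from hc.symm]
  simp [hr2, hrp, lt_of_le_of_ne hr.two_le hr2.symm]

end Cfsg.Agent.S5955
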