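import Cfsg.Statements.S5956
import Cfsg.Agent.H77.ElusSp

set_option autoImplicit false
open scoped MatrixGroups
open Cfsg

namespace Cfsg.Agent.S5956

open Cfsg.Agent.H77

/-- Elements of prime order of PSp_n(q) with no fixed nondegenerate `m`-space. Here `T = PSp_n(q)` with `n = 2d ≥ 4`, `(n, q) ≠ (4, 2)`, realised through the symplectic matrices over the field `F` with `q` elements (preserving the standard alternating form); an element of `T` of prime order `r` is such a matrix `x` with `x^r` scalar and `x` not scalar. For `r ≠ p` let `i` be the multiplicative order of `q` modulo `r`, `c = i` for `i` even and `c = 2i` for `i` odd, and write `k = n mod c`, `ℓ = m mod i`, `ℓ' = m mod c`, `n' = ⌊n/i⌋`, `m' = ⌊m/i⌋`, `t = (r−1)/i`. Let `m` be even with `2 ≤ m < n/2` and let `r` be a prime dividing the number of nondegenerate `m`-spaces. Then every element of `T` of order `r` fixes a nondegenerate `m`-space if and only if one of: (i) `r = p > 2` and every partition of `n` into parts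 of size at most `p` in which every odd part has even multiplicity contains (as a sub-multiset) a partition of `m` in which every odd part has even multiplicity; (ii) `r = p = 2` and (`n ≡ 2 (mod 4)` or `m ≡ 0 (mod 4)`); (iii) `r = 2 ≠ p`; (iv) `r ≠ p`, `r > 2`, `c ≤ m` and `k ≥ ℓ'`. -/
theorem result {F : Type*} [Field F] [Fintype F] {p : ℕ} [Fact p.Prime] [CharP F p] {q : ℕ} (hq : Fintype.card F = q)
    (d m : ℕ) (hd : 2 ≤ d) (hT : (d, q) ≠ (2, 2)) (hm : 2 ≤ m) (hme : Even m) (hmd : m < d)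
    (r : ℕ) [Fact r.Prime]
    (hrΩ : r ∣ Nat.card {W : Submodule F (Fin d ⊕ Fin d → F) // Module.finrank F ↥W = m ∧ (∀ u ∈ W, u ≠ 0 → ∃ v ∈ W, Cfsg.sympForm d F u v ≠ 0)})
    (i c : ℕ) (hi : i = orderOf (q : ZMod r)) (hc : c = if Even i then i else 2 * i) :
    (∀ x : ↥(Matrix.symplecticGroup (Fin d) F),
      (∃ z : F, ((x ^ r : ↥(Matrix.symplecticGroup (Fin d) F)) : Matrix (Fin d ⊕ Fin d) (Fin d ⊕ Fin d) F) = z • (1 : Matrix (Fin d ⊕ Fin d) (Fin d ⊕ Fin d) F)) →
      (∀ z : F, (x : Matrix (Fin d ⊕ Fin d) (Fin d ⊕ Fin d) F) ≠ z • (1 : Matrix (Fin d ⊕ Fin d) (Fin d ⊕ Fin d) F)) →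
      ∃ W : Submodule F (Fin d ⊕ Fin d → F), Module.finrank F ↥W = m ∧ (∀ u ∈ W, u ≠ 0 → ∃ v ∈ W, Cfsg.sympForm d F u v ≠ 0) ∧
        W.map (Matrix.toLin' (x : Matrix (Fin d ⊕ Fin d) (Fin d ⊕ Fin d) F)) ≤ W) ↔
    ((r = p ∧ 2 < p ∧ (∀ μ : Multiset ℕ, (∀ a ∈ μ, 0 < a ∧ a ≤ p) → (∀ a : ℕ, Odd a → Even (μ.count a)) → μ.sum = 2 * d →
        ∃ ν : Multiset ℕ, ν ≤ μ ∧ ν.sum = m ∧ ∀ a : ℕ, Odd a → Even (ν.count a))) ∨
     (r = p ∧ p = 2 ∧ ((2 * d) % 4 = 2 ∨ m % 4 = 0)) ∨
     (r = 2 ∧ p ≠ 2) ∨
     (r ≠ p ∧ 2 < r ∧ c ≤ m ∧ m % c ≤ (2 * d) % c)) := by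
  have hr : r.Prime := Fact.out
  have hB := H76.isEForm_jBilin (F := F) (Fin d)
  have ha := H27.jBilin_isAlt (l := Fin d) (F := F)
  have hn := H79.finrank_sum_self (F := F) d
  have := nontrivial_sum_fun (F := F) (d := d) (by omega)
  subst hq
  simp only [nondegOn_jBilin_iff] at hrΩ ⊢
  refine (forall_sp_iff (R := fun f => ∃ W : Submodule F (Fin d ⊕ Fin d → F),
    Module.finrank F W = m ∧ H31.NondegOn (H27.jBilin (Fin d) F) W ∧ W.map f ≤ W)).trans ?_
  rcases eq_or_ne r 2 with rfl | hr2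
  · rcases eq_or_ne p 2 with rfl | hp2
    · have h2 : (2 : F) = 0 := CharP.cast_eq_zero F 2
      rw [forall_two_char_iff hB h2 fun _ => id]
      simp only [true_and, ne_eq, not_true_eq_false, lt_self_iff_false, false_and,
        and_false, or_false, false_or]
      constructor
      · intro h
        by_contra h3
        obtain ⟨U, -, h4, h5⟩ := alt_exists_ti_le hB ha (ef_nondegOn_top hB) (m := d)
          (by rw [finrank_top, hn])
        obtain ⟨t, h6, h7, h8, h9⟩ := H79.exists_invol_alt h2 hB.nondegenerate ha U h4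
          (by rw [h5, Nat.even_iff]; omega)
        have h10 : H76.Pres (H27.jBilin (Fin d) F) (t : Module.End F _) := h6
        have h11 : LinearMap.range ((t : Module.End F _) - 1) = U := h8
        obtain ⟨W, h12, h13, h14⟩ := h t h10 (by rw [pow_two]; exact congrArg LinearEquiv.toLinearMap h7)
          (fun h => by rw [h, sub_self, LinearMap.range_zero] at h11; subst h11; simp at h5; omega)
        replace h14 : ∀ x ∈ W, (t : Module.End F _) x ∈ W := fun x hx => h14 ⟨x, hx, rfl⟩
        have h15 := finrank_range_eq_add hB h10 h13 h14 1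
        have h16 := even_finrank_map_of_alt hB h13 h14 fun v _ => by simpa [ha v] using h9 v
        have h17 : ∀ X : Submodule F (Fin d ⊕ Fin d → F), H31.NondegOn (H27.jBilin (Fin d) F) X →
            (∀ x ∈ X, (t : Module.End F _) x ∈ X) →
            2 * Module.finrank F (X.map ((t : Module.End F _) - 1)) ≤ Module.finrank F X :=
          fun X hX hX' => two_mul_le_of_ti_le hB hX
            (fun x hx y hy => h4 _ (h11 ▸ LinearMap.map_le_range hx) _ (h11 ▸ LinearMap.map_le_range hy))
            (Submodule.map_le_iff_le_comap.mpr fun x hx => X.sub_mem (hX' x hx) hx)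
        have h18 := h17 _ h13 h14
        have h19 := h17 _ (ef_nondegOn_perp hB h13) (ef_perp_inv hB h10 h14)
        have h20 := ef_finrank_add_perp hB W
        rw [pow_one, h11] at h15
        rw [Nat.even_iff] at h16 hme
        omega
      · intro h f h3 h4 _
        obtain ⟨U, -, h5, h6, h7⟩ := exists_nd_two hB ha h3 (pow_char_eq_one_iff.mp h4)
          (ef_nondegOn_top hB) (by simp) (by simp [hn]) hme (by rw [finrank_top]; omega)
          (by rw [finrank_top]; omega)
        exact ⟨U, h7, h5, Submodule.map_le_iff_le_comap.mpr h6⟩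
    · have h2 : (2 : F) ≠ 0 := by simpa using natCast_ne_zero_of_ne (F := F) hp2.symm
      rw [forall_two_iff hB h2 fun _ => id]
      refine iff_of_true ⟨fun f h3 h4 _ _ => alt_exists_nd_invol hB ha h3 h2 h4 hme (by omega),
        fun f h3 h4 => ?_⟩ (by simp [hp2])
      obtain ⟨a, a', -, h6⟩ := exists_freeStr_four hB h3 hp2.symm h4
      have h7 := h6.dim
      have h8 : cOf (if Fintype.card F % 4 = 1 then 1 else 2) = 2 := by split_ifs <;> rfl
      obtain ⟨b, rfl⟩ := hme
      rw [finrank_top, hn, h8] at h7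
      obtain ⟨U, -, h9, h10, h11⟩ := h6.exists_nd b (by omega)
      exact ⟨U, by rw [h11, h8, two_mul], h9, Submodule.map_le_iff_le_comap.mpr h10⟩
  have h2r := lt_of_le_of_ne hr.two_le hr2.symm
  rw [forall_odd_iff hB (hr.odd_of_ne_two hr2) (M' := H76.Pres _) (fun f h => ⟨h, h, fun _ => h.neg⟩)
    (fun _ h _ => h) (fun f => by simp only [map_neg_le_iff, imp_self])]
  by_cases hrp : r = p
  · subst hrp
    simp only [hr2, h2r, true_and, ne_eq, not_true_eq_false, false_and, or_false]
    have h2 : (2 : F) ≠ 0 := fun h => hr2 ((H76.two_eq_zero_iff F r).mp h)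
    constructor
    · intro h μ h3 h4 h5
      by_cases h6 : ∃ e ∈ μ, e ≠ 1
      · obtain ⟨f, h7, h8⟩ := exists_pres_alt (L := AlgebraicClosure F) hB ha (s := udata 1 μ)
          (hn ▸ h5 ▸ (fadm_udata_iff fun e he => (h3 e he).1).mpr fun e he =>
            h4 e (Nat.not_even_iff_odd.mp he))
        obtain ⟨W, rfl, h9, h10⟩ := h f h7 (h8.pow_char_eq_one fun e he => (h3 e he).2) (h8.ne_one h6)
        obtain ⟨t, h11⟩ := exists_hasJOn (L := AlgebraicClosure F) h8.isUnit
          (fun x hx => h10 ⟨x, hx, rfl⟩ : ∀ x ∈ W, f x ∈ W)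
        have h12 := h11.le_of_nondegOn hB h7 (hasJOn_top.mpr h8) h9 le_top
        have h13 := eq_udata (α := 1) fun x hx => (mem_udata.mp (Multiset.mem_of_le h12 hx)).1
        refine ⟨t.map Prod.snd, by simpa using Multiset.map_le_map (f := Prod.snd) h12, h11.wt_eq,
          fun e he => ?_⟩
        exact h11.even_count_alt hB ha h7 h9 h13 (Nat.not_even_iff_odd.mpr he)
      · push Not at h6
        obtain ⟨ν, h7, h8⟩ := exists_le_sum_of_forall_eq_one h6 (m := m) (by omega)
        refine ⟨ν, h7, h8, fun e _ => ?_⟩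
        rw [Multiset.eq_replicate_card.mpr fun e he => h6 e (Multiset.mem_of_le h7 he)] at h8 ⊢
        rw [Multiset.count_replicate]
        split_ifs
        · simpa [← h8] using hme
        · simp
    · intro h f h3 h4 _
      obtain ⟨μ, h5, h6, h7⟩ := exists_hasJ_udata (L := AlgebraicClosure F)
        (hB.sep.isUnit_of_pres h3) h4
      obtain ⟨ν, h8, h9, h10⟩ := h μ h6 (fun e he => by
        simpa using (hasJOn_top.mpr h5).even_count_alt hB ha h3 (ef_nondegOn_top hB) (by simp)
          (Nat.not_even_iff_odd.mpr he)) (h7.trans hn)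
      obtain ⟨U, -, h11, h12⟩ := (hasJOn_top.mpr h5).exists_nd_udata h2 hB h3 (ef_nondegOn_top hB) h8
        fun e he => h10 _ (Even.add_one (by
          by_contra h; rw [(Nat.not_even_iff_odd.mp h).neg_one_pow] at he
          exact h2 (by linear_combination he)))
      exact ⟨U, by simpa [h9] using h12.wt_eq.symm, h11, h12.map_le⟩
  have h1 := alt_lt_of_dvd_card_nd (p := p) hB ha hrp hme hrΩ
  rw [alt_forall_prime_iff hB ha hrp hr2 (R' := fun k a _ => ∃ b ≤ a, ∃ e ≤ k, Even e ∧
      m = e + cOf (orderOf (Fintype.card F : ZMod r)) * b) fun f a a' h2 h3 h4 =>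
      h4.alt_nd_iff hB ha h2 (isSemisimple_of_pow_eq_one hrp h3)]
  have h2 := arith_nd_sp (cOf_pos (orderOf_zmod_pos (natCast_card_ne_zero' hrp))) (even_cOf _) hme
    (by omega) h1
  rw [hn, ← hi, show cOf i = c from hc.symm] at h2 ⊢
  simp only [hr2, hrp, h2r, false_and, false_or, ne_eq, not_false_eq_true, true_and, ← h2]
  refine ⟨fun h k a h3 h4 => ?_, fun h k a _ h3 h4 _ => h k a h3 h4⟩
  obtain ⟨a', h5⟩ := exists_tp (N := r) (i := i)
    (fun _ => hi ▸ orderOf_zmod_lt (natCast_card_ne_zero' hrp)) a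
  exact h k a a' h3 h4 h5

end Cfsg.Agent.S5956
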