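import Cfsg.Statements.S5957
import Cfsg.Agent.H77.ElusImp2

set_option autoImplicit false
open scoped MatrixGroups
open Cfsg

namespace Cfsg.Agent.S5957

open Cfsg.Agent.H77

/-- Involutions of PSL_n(q) and imprimitive subgroups. Here `T = PSL_n(F)` for a field `F` with `q = p^f` elements (`n ≥ 2`, `(n, q) ≠ (2, 2), (2, 3)`), `n = a·t` with `t ≥ 2`, and Ω is the set of direct-sum decompositions of `F^n` into `t` subspaces of dimension `a` (unordered; their number is the number of ordered ones divided by `t!`), whose stabilizers are the imprimitive subgroups of type GL_a(q) ≀ S_t (maximal except in some small cases; maximality is not assumed); an element of `T` of prime order `r` (a matrix `x` of determinant 1 with `x^r` scalar, `x` not scalar) fixes a point of Ω when it permutes the summands of some such decomposition. If the number of such decompositions is even, then every involution of `T` stabilizes one of them (the action is 2-elusive). -/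
theorem result {F : Type*} [Field F] [Fintype F] {p : ℕ} [Fact p.Prime] [CharP F p] {q : ℕ} (hq : Fintype.card F = q)
    (n a t : ℕ) (hn : 2 ≤ n) (hT : (n, q) ≠ (2, 2) ∧ (n, q) ≠ (2, 3)) (hat : n = a * t) (ha : 1 ≤ a) (ht : 2 ≤ t)
    (hΩ : 2 ∣ Nat.card {D : Fin t → Submodule F (Fin n → F) // Cfsg.Geo.IsMDecomposition a D} / Nat.factorial t)
    (x : Matrix.SpecialLinearGroup (Fin n) F)
    (hx1 : ∃ z : F, ((x ^ 2 : Matrix.SpecialLinearGroup (Fin n) F) : Matrix (Fin n) (Fin n) F) = z • (1 : Matrix (Fin n) (Fin n) F))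
    (hx2 : ∀ z : F, (x : Matrix (Fin n) (Fin n) F) ≠ z • (1 : Matrix (Fin n) (Fin n) F)) :
    ∃ D : Fin t → Submodule F (Fin n → F), Cfsg.Geo.IsMDecomposition a D ∧
        ∃ σ : Equiv.Perm (Fin t), ∀ j, (D j).map (Matrix.toLin' (x : Matrix (Fin n) (Fin n) F)) = D (σ j) := by
  subst hq
  revert x
  refine (forall_sl_iff (p := p) (AlgebraicClosure F)
    (R' := fun s => ImpD p 2 (Fintype.card F : ℤ) a t s) fun x hx => ?_).mpr fun s hs _ => ?_
  · obtain ⟨z, hz⟩ := (pk_ujord_iff _ _ _).mp hx.pk
    exact (exists_decomp_iff ha ht (by simp [hat])).trans ((hasJ_sl _ x).imp_iff Nat.prime_two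
      ((toLin'_pow_eq_smul_iff _ 2 z).mpr hz) ha (by omega) (by simp [hat]))
  subst hat
  have : CharP (AlgebraicClosure F) p := inferInstance
  rcases eq_or_ne 2 p with rfl | hp2
  · exact impD_two_char rfl ha hs
  · obtain ⟨k, hk⟩ := odd_card_cast (F := F) hp2
    exact impD_of_dvd Nat.prime_two hp2 ⟨k, by rw [hk]; simp⟩ hs.adm hs.pk

end Cfsg.Agent.S5957
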