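import Cfsg.Statements.S5960
import Cfsg.Agent.H77.ElusImpSp

set_option autoImplicit false
open scoped MatrixGroups
open Cfsg

namespace Cfsg.Agent.S5960

open Cfsg.Agent.H77

/-- Involutions of PSp_n(q) and imprimitive subgroups. Here `T = PSp_n(q)`, `n = 2d ≥ 4`, `(n, q) ≠ (4, 2)`, realised through the symplectic matrices over the field `F` with `q` elements and the standard alternating form; `n = a·t` with `a` even and `t ≥ 2`, and Ω is the (nonempty) set of orthogonal decompositions of `F^n` into `t` nondegenerate subspaces of dimension `a` (unordered; counted as ordered ones divided by `t!`), whose stabilizers are the imprimitive subgroups of type Sp_a(q) ≀ S_t (maximality is not assumed); an element of `T` of prime order `r` (a symplectic matrix `x` with `x^r` scalar, `x` not scalar) fixes a point of Ω when it permutes the summands of some such decomposition. If the number of such decompositions is even, then every involution of `T` stabilizes one of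 them (the action is 2-elusive). -/
theorem result {F : Type*} [Field F] [Fintype F] {p : ℕ} [Fact p.Prime] [CharP F p] {q : ℕ} (hq : Fintype.card F = q)
    (d : ℕ) (hd : 2 ≤ d) (hT : (d, q) ≠ (2, 2))
    (a t : ℕ) (hat : 2 * d = a * t) (ha : 2 ≤ a) (hae : Even a) (ht : 2 ≤ t) (hΩ : 2 ∣ Nat.card {D : Fin t → Submodule F (Fin d ⊕ Fin d → F) // (Cfsg.Geo.IsMDecomposition a D ∧ (∀ j, ∀ u ∈ D j, u ≠ 0 → ∃ v ∈ D j, Cfsg.sympForm d F u v ≠ 0) ∧
          (∀ j j', j ≠ j' → ∀ u ∈ D j, ∀ v ∈ D j', Cfsg.sympForm d F u v = 0))} / Nat.factorial t)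
    (x : ↥(Matrix.symplecticGroup (Fin d) F))
    (hx1 : ∃ z : F, ((x ^ 2 : ↥(Matrix.symplecticGroup (Fin d) F)) : Matrix (Fin d ⊕ Fin d) (Fin d ⊕ Fin d) F) = z • (1 : Matrix (Fin d ⊕ Fin d) (Fin d ⊕ Fin d) F))
    (hx2 : ∀ z : F, (x : Matrix (Fin d ⊕ Fin d) (Fin d ⊕ Fin d) F) ≠ z • (1 : Matrix (Fin d ⊕ Fin d) (Fin d ⊕ Fin d) F)) :
    ∃ D : Fin t → Submodule F (Fin d ⊕ Fin d → F), (Cfsg.Geo.IsMDecomposition a D ∧ (∀ j, ∀ u ∈ D j, u ≠ 0 → ∃ v ∈ D j, Cfsg.sympForm d F u v ≠ 0) ∧
          (∀ j j', j ≠ j' → ∀ u ∈ D j, ∀ v ∈ D j', Cfsg.sympForm d F u v = 0)) ∧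
        ∃ σ : Equiv.Perm (Fin t), ∀ j, (D j).map (Matrix.toLin' (x : Matrix (Fin d ⊕ Fin d) (Fin d ⊕ Fin d) F)) = D (σ j) := by
  have hB := H76.isEForm_jBilin (F := F) (Fin d)
  have hA := H27.jBilin_isAlt (l := Fin d) (F := F)
  have hn := H79.finrank_sum_self (F := F) d
  have := nontrivial_sum_fun (F := F) (d := d) (by omega)
  simp only [nondegOn_jBilin_iff, le_perp_jBilin_iff]
  rw [exists_decomp_iff' (N := H31.NondegOn (H27.jBilin (Fin d) F))
    (R := fun U W => W ≤ H31.perp (H27.jBilin (Fin d) F) U) (by omega) ht (by simp; omega)]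
  revert x
  refine (forall_sp_iff (R := fun f => OImp (H27.jBilin (Fin d) F) a f ⊤ t)).mpr ?_
  rcases eq_or_ne 2 p with rfl | hp2
  · have h2 : (2 : F) = 0 := CharP.cast_eq_zero F 2
    exact (forall_two_char_iff hB h2 fun _ => id).mpr fun f h3 h4 _ =>
      oImp_of_sq_two hB hA h3 h2 (by rwa [← sq]) (pow_char_eq_one_iff.mp h4) hae (by omega)
        (ef_nondegOn_top hB) (fun _ _ => trivial) (by simp; omega)
  · have := Fact.mk Nat.prime_two
    have h2 : (2 : F) ≠ 0 := by simpa using natCast_ne_zero_of_ne (F := F) hp2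
    exact (forall_two_iff hB h2 fun _ => id).mpr
      ⟨fun f h3 h4 _ _ => oImp_of_sq_odd hB hA h3 hp2 (Or.inl h4) hae (hn.trans hat),
        fun f h3 h4 => oImp_of_sq_odd hB hA h3 hp2 (Or.inr h4) hae (hn.trans hat)⟩

end Cfsg.Agent.S5960
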