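import Cfsg.Statements.S5962
import Cfsg.Agent.H77.ElusPol

set_option autoImplicit false
open scoped MatrixGroups
open Cfsg

namespace Cfsg.Agent.S5962

open Cfsg.Agent.H77

/-- Involutions of PSp_n(q), q odd, and the subgroups GL_{n/2}(q).2. Here `T = PSp_n(q)`, `n = 2d ≥ 4`, `q` odd, realised through the symplectic matrices over the field `F` with `q` elements; Ω is the set of unordered pairs `{U, W}` of complementary totally isotropic `d`-spaces (`F^n = U ⊕ W`), whose stabilizers are the subgroups of type GL_d(q).2 (maximal except in some small cases; maximality is not assumed); an element of `T` of prime order `r` (a symplectic matrix `x` with `x^r` scalar, `x` not scalar) fixes such a pair when it fixes or interchanges `U` and `W`. If the number of such pairs is even, every involution of `T` fixes one of them (the action is 2-elusive). -/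
theorem result {F : Type*} [Field F] [Fintype F] {p : ℕ} [Fact p.Prime] [CharP F p] {q : ℕ} (hq : Fintype.card F = q)
    (d : ℕ) (hd : 2 ≤ d) (hT : (d, q) ≠ (2, 2)) (hodd : Odd q)
    (hΩ : 2 ∣ Nat.card {P : Submodule F (Fin d ⊕ Fin d → F) × Submodule F (Fin d ⊕ Fin d → F) // IsCompl P.1 P.2 ∧ (∀ u ∈ P.1, ∀ v ∈ P.1, Cfsg.sympForm d F u v = 0) ∧ (∀ u ∈ P.2, ∀ v ∈ P.2, Cfsg.sympForm d F u v = 0)} / 2)
    (x : ↥(Matrix.symplecticGroup (Fin d) F))
    (hx1 : ∃ z : F, ((x ^ 2 : ↥(Matrix.symplecticGroup (Fin d) F)) : Matrix (Fin d ⊕ Fin d) (Fin d ⊕ Fin d) F) = z • (1 : Matrix (Fin d ⊕ Fin d) (Fin d ⊕ Fin d) F))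
    (hx2 : ∀ z : F, (x : Matrix (Fin d ⊕ Fin d) (Fin d ⊕ Fin d) F) ≠ z • (1 : Matrix (Fin d ⊕ Fin d) (Fin d ⊕ Fin d) F)) :
    ∃ U W : Submodule F (Fin d ⊕ Fin d → F), IsCompl U W ∧ (∀ u ∈ U, ∀ v ∈ U, Cfsg.sympForm d F u v = 0) ∧ (∀ u ∈ W, ∀ v ∈ W, Cfsg.sympForm d F u v = 0) ∧
        ((U.map (Matrix.toLin' (x : Matrix (Fin d ⊕ Fin d) (Fin d ⊕ Fin d) F)) = U ∧ W.map (Matrix.toLin' (x : Matrix (Fin d ⊕ Fin d) (Fin d ⊕ Fin d) F)) = W) ∨
         (U.map (Matrix.toLin' (x : Matrix (Fin d ⊕ Fin d) (Fin d ⊕ Fin d) F)) = W ∧ W.map (Matrix.toLin' (x : Matrix (Fin d ⊕ Fin d) (Fin d ⊕ Fin d) F)) = U)) := by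
  have hB := H76.isEForm_jBilin (F := F) (Fin d)
  have hA := H27.jBilin_isAlt (l := Fin d) (F := F)
  have := nontrivial_sum_fun (F := F) (d := d) (by omega)
  have h2 : (2 : F) ≠ 0 := fun h => by
    obtain rfl := (H76.two_eq_zero_iff F p).mp h
    exact hodd.not_two_dvd_nat (hq ▸ Nat.card_eq_fintype_card (α := F) ▸ char_dvd_natCard F 2)
  simp only [totIso_jBilin_iff]
  revert x
  refine (forall_sp_iff (R := fun f => ∃ U W, IsCompl U W ∧ H31.TotIso (H27.jBilin (Fin d) F) U ∧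
    H31.TotIso (H27.jBilin (Fin d) F) W ∧
      ((U.map f = U ∧ W.map f = W) ∨ (U.map f = W ∧ W.map f = U)))).mpr ?_
  exact (forall_two_iff hB h2 fun _ => id).mpr
    ⟨fun f h3 h4 _ _ => (pol_of_sq_eq_one hB hA h3 h2 h4).spec hB,
      fun f h3 h4 => (pol_of_sq_eq_neg hB hA h3 h2 h4).spec hB⟩

end Cfsg.Agent.S5962
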