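import Cfsg.Statements.S5964
import Cfsg.Agent.H77.ElusSub

set_option autoImplicit false
open scoped MatrixGroups
open Cfsg

namespace Cfsg.Agent.S5964

open Cfsg.Agent.H77

/-- Involutions of PSL_n(q) and subfield subgroups. Here `T = PSL_n(F)` for a field `F` with `q = p^f` elements (`n ≥ 2`, `(n, q) ≠ (2, 2), (2, 3)`), `F₀` is the subfield with `q₀` elements where `q = q₀^k` for a prime `k`, and `H` is the subgroup of matrices of determinant 1 lying in the subfield group of `F₀` (invertible matrices over `F₀` times scalars) — a maximal subgroup of type GL_n(q₀) (the case `n = 2`, `q₀ = 2` is excluded); Ω is the set of `T`-conjugates of `H` (cosets of `H`), so an element of `T` of prime order `r` (a matrix `x` of determinant 1 with `x^r` scalar, `x` not scalar) fixes a point of Ω when some conjugate of `x` by a matrix of determinant 1 lies in `H`. Suppose the index of `H` is even. Then every involution of `T` is conjugate in `T` into `H` if and only if either `q` is even, or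 `k = 2` and `(n)_2 ≤ (q − 1)_2`. (For `q` odd and `k` odd the index of `H` is odd, so that case does not arise.) -/
theorem result {F : Type*} [Field F] [Fintype F] {p : ℕ} [Fact p.Prime] [CharP F p] {q : ℕ} (hq : Fintype.card F = q)
    (n : ℕ) (hn : 2 ≤ n) (hT : (n, q) ≠ (2, 2) ∧ (n, q) ≠ (2, 3))
    (F₀ : Subfield F) (k q₀ : ℕ) (hk : k.Prime) (hF₀ : Nat.card ↥F₀ = q₀) (hqk : q = q₀ ^ k) (hC5 : ¬ (n = 2 ∧ q₀ = 2)) (hΩ : 2 ∣ ((Cfsg.Geo.subfieldSubgroup F₀ 1).comap (Matrix.SpecialLinearGroup.toGL : Matrix.SpecialLinearGroup (Fin n) F →* GL (Fin n) F)).index) :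
    (∀ x : Matrix.SpecialLinearGroup (Fin n) F,
      (∃ z : F, ((x ^ 2 : Matrix.SpecialLinearGroup (Fin n) F) : Matrix (Fin n) (Fin n) F) = z • (1 : Matrix (Fin n) (Fin n) F)) →
      (∀ z : F, (x : Matrix (Fin n) (Fin n) F) ≠ z • (1 : Matrix (Fin n) (Fin n) F)) →
      ∃ P : Matrix.SpecialLinearGroup (Fin n) F, P⁻¹ * x * P ∈ ((Cfsg.Geo.subfieldSubgroup F₀ 1).comap (Matrix.SpecialLinearGroup.toGL : Matrix.SpecialLinearGroup (Fin n) F →* GL (Fin n) F))) ↔
    (Odd q → (k = 2 ∧ padicValNat 2 n ≤ padicValNat 2 (q - 1))) := by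
  subst hq
  rw [forall_sl_conj_iff (p := p) (AlgebraicClosure F) Nat.prime_two (Or.inl rfl)
    fun x _ => exists_mem_subfield_iff hF₀ x]
  by_cases hp2 : 2 = p
  · subst hp2
    exact iff_of_true (fun s hs _ => hs.twA_char) fun h => absurd
      (Int.natCast_dvd_natCast.mp (H76.char_dvd_card F 2)) h.not_two_dvd_nat
  have h1 : Odd (Fintype.card F) := (Int.odd_coe_nat _).mp (odd_card_cast hp2)
  have h2 : Odd q₀ := (Nat.odd_pow_iff hk.ne_zero).mp (hqk ▸ h1)
  obtain ⟨i, -, -, -, h3⟩ := exists_of_dvd_index_subfield (by omega) hF₀ hqk Nat.prime_two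
    h2.not_two_dvd_nat hΩ
  obtain rfl := (Nat.prime_dvd_prime_iff_eq Nat.prime_two hk).mp
    (h3 (h2.natCast.pow.sub_odd odd_one).two_dvd)
  rw [forall_twA_two_iff hp2 (by exact_mod_cast hqk) h2.natCast card_ne_one' (by omega),
    H76.natAbs_sub_one Fintype.card_pos]
  simp [h1]

end Cfsg.Agent.S5964
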