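import Cfsg.Statements.S5965
import Cfsg.Agent.H77.ElusSub

set_option autoImplicit false
open scoped MatrixGroups
open Cfsg

namespace Cfsg.Agent.S5965

open Cfsg.Agent.H77

/-- Elements of odd prime order r ≠ p of PSL_n(q) and subfield subgroups. Here `T = PSL_n(F)` for a field `F` with `q = p^f` elements (`n ≥ 2`, `(n, q) ≠ (2, 2), (2, 3)`), `F₀` is the subfield with `q₀` elements where `q = q₀^k` for a prime `k`, and `H` is the subgroup of matrices of determinant 1 lying in the subfield group of `F₀` (invertible matrices over `F₀` times scalars) — a maximal subgroup of type GL_n(q₀) (the case `n = 2`, `q₀ = 2` is excluded); Ω is the set of `T`-conjugates of `H` (cosets of `H`), so an element of `T` of prime order `r` (a matrix `x` of determinant 1 with `x^r` scalar, `x` not scalar) fixes a point of Ω when some conjugate of `x` by a matrix of determinant 1 lies in `H`. Let `r ≠ p` be an odd prime dividing the index of `H`, with `(n, r) ≠ (6, 3)` and,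 when `r = k` divides `q₀ − 1`, with `(n)_r ≤ (q − 1)_r`. Then every element of `T` of order `r` is conjugate in `T` into `H` if and only if `r = k`, or `k = 2`, `r = n ∈ {3, 5}` and `(q₀ + 1)_r = r`. The two excluded cases, `(n, r) = (6, 3)` and `r = k ∣ q₀ − 1` with `(n)_r > (q − 1)_r`, are ones where this criterion can fail, so they are left out. -/
theorem result {F : Type*} [Field F] [Fintype F] {p : ℕ} [Fact p.Prime] [CharP F p] {q : ℕ} (hq : Fintype.card F = q)
    (n : ℕ) (hn : 2 ≤ n) (hT : (n, q) ≠ (2, 2) ∧ (n, q) ≠ (2, 3))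
    (F₀ : Subfield F) (k q₀ : ℕ) (hk : k.Prime) (hF₀ : Nat.card ↥F₀ = q₀) (hqk : q = q₀ ^ k) (hC5 : ¬ (n = 2 ∧ q₀ = 2)) (r : ℕ) [Fact r.Prime] (hr2 : r ≠ 2) (hrp : r ≠ p) (hgap : ¬ (n = 6 ∧ r = 3)) (hgapk : r = k → r ∣ q₀ - 1 → padicValNat r n ≤ padicValNat r (q - 1)) (hΩ : r ∣ ((Cfsg.Geo.subfieldSubgroup F₀ 1).comap (Matrix.SpecialLinearGroup.toGL : Matrix.SpecialLinearGroup (Fin n) F →* GL (Fin n) F)).index) :
    (∀ x : Matrix.SpecialLinearGroup (Fin n) F,
      (∃ z : F, ((x ^ r : Matrix.SpecialLinearGroup (Fin n) F) : Matrix (Fin n) (Fin n) F) = z • (1 : Matrix (Fin n) (Fin n) F)) →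
      (∀ z : F, (x : Matrix (Fin n) (Fin n) F) ≠ z • (1 : Matrix (Fin n) (Fin n) F)) →
      ∃ P : Matrix.SpecialLinearGroup (Fin n) F, P⁻¹ * x * P ∈ ((Cfsg.Geo.subfieldSubgroup F₀ 1).comap (Matrix.SpecialLinearGroup.toGL : Matrix.SpecialLinearGroup (Fin n) F →* GL (Fin n) F))) ↔
    (r = k ∨ (k = 2 ∧ r = n ∧ (n = 3 ∨ n = 5) ∧ padicValNat r (q₀ + 1) = 1)) := by
  subst hq
  have hr : r.Prime := Fact.out
  rw [forall_sl_conj_iff (p := p) (AlgebraicClosure F) hr (Or.inr hrp)
    fun x _ => exists_mem_subfield_iff hF₀ x]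
  have h0 : 2 ≤ q₀ := hF₀ ▸ Finite.one_lt_card
  by_cases h1 : r = k
  · subst h1
    refine iff_of_true (fun s => twA_of_prime Fact.out hr hrp (by exact_mod_cast hqk)
      fun h => ⟨⟨card_ne_one', by omega⟩, ?_, fun h => absurd h hr2⟩) (Or.inl rfl)
    rw [H76.natAbs_sub_one Fintype.card_pos]
    exact hgapk rfl (by rwa [Int.natCast_dvd, H76.natAbs_sub_one (by omega)] at h)
  have h2 : ¬ r ∣ q₀ := fun h => not_dvd_card_of_ne (F := F) hrp (hqk ▸ dvd_pow h hk.ne_zero)
  obtain ⟨i, h3, h4, h5, h6⟩ := exists_of_dvd_index_subfield (by omega) hF₀ hqk hr h2 hΩ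
  rw [forall_twA_odd_iff hr hrp hr2 hk (by exact_mod_cast hqk) card_ne_one' (by exact_mod_cast h2)
    hgap (by omega) h4 hn (by omega) h5
    fun h => h1 ((Nat.prime_dvd_prime_iff_eq hr hk).mp (h6 h)),
    show ((q₀ : ℤ) + 1).natAbs = q₀ + 1 by omega]
  omega

end Cfsg.Agent.S5965
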