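import Cfsg.Statements.S5966
import Cfsg.Agent.H77.ElusSub

set_option autoImplicit false
open scoped MatrixGroups
open Cfsg

namespace Cfsg.Agent.S5966

open Cfsg.Agent.H77

open Module in
theorem isSquare_det_of_commute {F V : Type*} [Field F] [AddCommGroup V] [Module F V]
    [FiniteDimensional F V] {N z : End F V} (h : LinearMap.range N = LinearMap.ker N)
    (hz : z * N = N * z) : IsSquare (LinearMap.det z) := by
  have h0 : ∀ v, z (N v) = N (z v) := fun v => congrArg (· v) hz
  have h1 : LinearMap.ker N ≤ (LinearMap.ker N).comap z := fun v hv => by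
    rw [Submodule.mem_comap, LinearMap.mem_ker, ← h0, LinearMap.mem_ker.mp hv, map_zero]
  let e := N.quotKerEquivRange.trans (LinearEquiv.ofEq _ _ h)
  have h2 : z.restrict h1 = e.toLinearMap ∘ₗ (LinearMap.ker N).mapQ _ z h1 ∘ₗ e.symm.toLinearMap := by
    ext x
    obtain ⟨x, rfl⟩ := e.surjective x
    obtain ⟨v, rfl⟩ := Submodule.Quotient.mk_surjective _ x
    rw [LinearMap.comp_apply, LinearMap.comp_apply, LinearEquiv.coe_coe, LinearEquiv.coe_coe,
      e.symm_apply_apply]
    exact h0 v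
  rw [LinearMap.det_eq_det_mul_det _ z h1, h2, LinearMap.det_conj]
  exact ⟨_, rfl⟩

open Module H76 in
theorem isSquare_det {F L : Type*} [Field F] [Fintype F] [CharP F 3] [Field L] [Algebra F L]
    [IsAlgClosed L] [Algebra.IsAlgebraic F L] {n m : ℕ} {u z : GL (Fin n) F}
    (hu : ujord L u = udata 1 (Multiset.replicate m 2)) (hz : z * u = u * z) :
    IsSquare (z : Matrix (Fin n) (Fin n) F).det := by
  classical
  have h1 := hu ▸ hasJ_ujord L u
  have h2 := h1.finrank_ker_pow 1 2
  have h3 := h1.finrank_ker h1.pos 1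
  have h4 := h1.wt_eq
  have h5 := LinearMap.finrank_range_add_finrank_ker
    (Matrix.toLin' (u : Matrix (Fin n) (Fin n) F) - (1 : F) • 1)
  simp only [udata, Multiset.map_replicate, Units.val_one, map_one, if_true, min_self,
    Multiset.sum_replicate, smul_eq_mul, wt_replicate] at h2 h4
  rw [Multiset.filter_eq_self.mpr fun x hx => by simp [(mem_udata.mp hx).1], udata,
    Multiset.card_map, Multiset.card_replicate] at h3
  rw [← LinearMap.det_toLin']
  refine isSquare_det_of_commute (N := Matrix.toLin' (u : Matrix (Fin n) (Fin n) F) - (1 : F) • 1)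
    (Submodule.eq_of_le_of_finrank_eq (LinearMap.range_le_ker_iff.mpr ?_) (by omega)) ?_
  · exact (sq _).symm.trans (LinearMap.ker_eq_top.mp
      (Submodule.eq_top_of_finrank_eq (h2.trans h4)))
  · rw [mul_sub, sub_mul, one_smul, mul_one, one_mul, End.mul_eq_comp, End.mul_eq_comp,
      ← Matrix.toLin'_mul, ← Matrix.toLin'_mul, ← Units.val_mul, hz, Units.val_mul]

theorem norm_eq_pow {F : Type*} [Field F] [Fintype F] {F₀ : Subfield F} {k q₀ : ℕ}
    (hF₀ : Nat.card F₀ = q₀) (hq : Fintype.card F = q₀ ^ k) (x : F) :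
    (Algebra.norm F₀ x : F) = x ^ ∑ i ∈ Finset.range k, q₀ ^ i := by
  have := Fintype.ofFinite F₀
  have h1 := Module.card_eq_pow_finrank (K := F₀) (V := F)
  rw [hq, ← hF₀, Nat.card_eq_fintype_card] at h1
  rw [Nat.pow_right_injective Fintype.one_lt_card h1, ← hF₀]
  exact FiniteField.algebraMap_norm_eq_pow_sum F₀ F x

/-- Elements of order 3 of PSL_n(q) in characteristic 3 and subfield subgroups. Here `T = PSL_n(F)` for a field `F` with `q` elements, `q` a power of 3 (`n ≥ 2`, `(n, q) ≠ (2, 2), (2, 3)`), `F₀` is the subfield with `q₀` elements where `q = q₀^k` for a prime `k`, and `H` is the subgroup of matrices of determinant 1 lying in the subfield group of `F₀` (invertible matrices over `F₀` times scalars) — a maximal subgroup of type GL_n(q₀) (the case `n = 2`, `q₀ = 2` is excluded); Ω is the set of `T`-conjugates of `H` (cosets of `H`), so an element of `T` of prime order `r` (a matrix `x` of determinant 1 with `x^r` scalar, `x` not scalar) fixes a point of Ω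 when some conjugate of `x` by a matrix of determinant 1 lies in `H`. Suppose 3 divides the index of `H`. Then every element of `T` of order 3 is conjugate in `T` into `H` if and only if `n` is odd, or `n` is even and `k > 2`. -/
theorem result {F : Type*} [Field F] [Fintype F] [CharP F 3] {q : ℕ} (hq : Fintype.card F = q)
    (n : ℕ) (hn : 2 ≤ n) (hT : (n, q) ≠ (2, 3))
    (F₀ : Subfield F) (k q₀ : ℕ) (hk : k.Prime) (hF₀ : Nat.card ↥F₀ = q₀) (hqk : q = q₀ ^ k) (hC5 : ¬ (n = 2 ∧ q₀ = 2)) (hΩ : 3 ∣ ((Cfsg.Geo.subfieldSubgroup F₀ 1).comap (Matrix.SpecialLinearGroup.toGL : Matrix.SpecialLinearGroup (Fin n) F →* GL (Fin n) F)).index) :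
    (∀ x : Matrix.SpecialLinearGroup (Fin n) F,
      (∃ z : F, ((x ^ 3 : Matrix.SpecialLinearGroup (Fin n) F) : Matrix (Fin n) (Fin n) F) = z • (1 : Matrix (Fin n) (Fin n) F)) →
      (∀ z : F, (x : Matrix (Fin n) (Fin n) F) ≠ z • (1 : Matrix (Fin n) (Fin n) F)) →
      ∃ P : Matrix.SpecialLinearGroup (Fin n) F, P⁻¹ * x * P ∈ ((Cfsg.Geo.subfieldSubgroup F₀ 1).comap (Matrix.SpecialLinearGroup.toGL : Matrix.SpecialLinearGroup (Fin n) F →* GL (Fin n) F))) ↔
    (Odd n ∨ (Even n ∧ 2 < k)) := by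
  subst hq
  let L := AlgebraicClosure F
  have := Fintype.ofFinite F₀
  have : Algebra.IsAlgebraic F₀ L := Algebra.IsAlgebraic.trans F₀ F L
  have : Nonempty (Fin n) := ⟨⟨0, by omega⟩⟩
  have h1 : Odd q₀ := (Nat.odd_pow_iff hk.ne_zero).mp (hqk ▸ (Int.odd_coe_nat _).mp
    (odd_card_cast (F := F) (p := 3) (by omega)))
  have hd : ∀ u : GL (Fin n) F₀, ((Matrix.GeneralLinearGroup.map F₀.subtype u : GL (Fin n) F) :
      Matrix (Fin n) (Fin n) F).det = (u : Matrix (Fin n) (Fin n) F₀).det := fun u =>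
    (F₀.subtype.map_det _).symm
  refine ⟨fun h => by_contra fun h2 => ?_, fun h x h2 h3 => ?_⟩
  · obtain ⟨⟨m, rfl⟩, rfl⟩ : Even n ∧ k = 2 := by
      have := hk.two_le
      rcases Nat.even_or_odd n with h | h <;> simp [h] at h2 ⊢
      omega
    have h3 : ∀ Q : ℤ, PElt 3 Q (m + m) 3 (udata (1 : Lˣ) (Multiset.replicate m 2)) := fun Q => by
      simpa [mul_two] using pElt_udata (p := 3) (μ := Multiset.replicate m 2) (one_zpow (α := Lˣ) Q)
        (fun e he => by rw [Multiset.eq_of_mem_replicate he]; omega)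
        ⟨2, Multiset.mem_replicate.mpr ⟨by omega, rfl⟩, by omega⟩
    obtain ⟨u, hu⟩ := H76.exists_ujord_eq (F := F₀) (n := Fin (m + m)) (by simpa using (h3 _).adm)
    obtain ⟨a, ha⟩ := FiniteField.exists_nonsquare (F := F) (by rw [ringChar.eq F 3]; omega)
    obtain ⟨g, hg⟩ := H76.gl_det_surjective (n := Fin (m + m))
      (Units.mk0 a (by rintro rfl; exact ha ⟨0, by simp⟩))
    have h4 := (ujord_conj (Matrix.GeneralLinearGroup.map (algebraMap F₀ F) u) g⁻¹).trans
      ((ujord_map u).trans hu)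
    obtain ⟨x, hx⟩ : _ ∈ (Matrix.SpecialLinearGroup.toGL (n := Fin (m + m)) (R := F)).range := by
      rw [H76.range_toGL]
      exact Units.ext ((H76.ddet_ujord_eq_one_iff _).mp (by rw [h4, ddet_udata, one_pow]))
    obtain ⟨h5, h6⟩ := (pElt_ujord_iff L _ ((hx ▸ h4) ▸ (h3 (Fintype.card F)).adm)).mp
      ((hx ▸ h4) ▸ h3 _)
    obtain ⟨P, hP⟩ := h x (by rwa [← map_pow] at h5) h6
    obtain ⟨y, z, h7, h8⟩ := H25.mem_subfieldSubgroup.mp hP
    obtain ⟨c, hc⟩ := (Geo.mem_scalars_iff z).mp h7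
    rw [map_mul, map_mul, map_inv, hx, one_mul, inv_one, mul_one] at h8
    have h9 := ujord_eq_twist (L := L) (x := Matrix.GeneralLinearGroup.map F₀.subtype y * z)
      (y := Matrix.GeneralLinearGroup.map (algebraMap F₀ F) y) (c := (c⁻¹ : Fˣ))
      (by simp [hc, smul_smul]; rfl) (b := Units.map (algebraMap F L : F →* L) c⁻¹) rfl
    rw [← h8, ujord_conj, h4, ujord_map] at h9
    have h10 := (H76.adm_ujord (L := L) y).frob_mem_one (h9 ▸ H76.mem_twist (x := ((1 : Lˣ), 2))
      (mem_udata.mpr ⟨rfl, Multiset.mem_replicate.mpr ⟨show m ≠ 0 by omega, rfl⟩⟩))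
    rw [h9, mem_twist_iff, mem_udata] at h10
    obtain ⟨b, hb⟩ := exists_algebraMap_eq (F := F₀) (d := Units.map (algebraMap F L : F →* L) c)
      (by simpa [mul_inv_eq_one] using (mul_inv_eq_one.mp (by simpa using h10.1)).symm)
    have h11 : (b : F) = c := (algebraMap F L).injective hb
    obtain ⟨y', hy'⟩ : IsUnit (b • (y : Matrix (Fin (m + m)) (Fin (m + m)) F₀)) :=
      y.isUnit.smul (Units.mk0 b fun h => c.ne_zero (by rw [← h11, h]; rfl))
    obtain ⟨w, hw⟩ := exists_conj_of_ujord_eq (L := L) (x := u) (y := y') (by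
      rw [ujord_eq_twist hy' hb.symm, h9, twist_twist, ← map_mul, mul_inv_cancel, map_one,
        twist_one, hu])
    have h12 : Matrix.GeneralLinearGroup.map F₀.subtype y * z =
        Matrix.GeneralLinearGroup.map (algebraMap F₀ F) y' := by
      ext i j
      simp [hc, hy', ← h11]
      rfl
    rw [h12, ← hw, map_mul, map_mul, map_inv] at h8
    have h13 := isSquare_det (z := Matrix.GeneralLinearGroup.map (algebraMap F₀ F) w *
      (Matrix.SpecialLinearGroup.toGL P)⁻¹ * g) ((ujord_map u).trans hu) (by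
        simpa [mul_assoc] using congrArg (fun t => Matrix.GeneralLinearGroup.map
          (algebraMap F₀ F) w * t * (Matrix.SpecialLinearGroup.toGL P)⁻¹ * g) h8)
    obtain ⟨t, ht⟩ := FiniteField.norm_surjective F₀ F
      (w⁻¹ : GL (Fin (m + m)) F₀).1.det
    have h14 := h13.mul (Even.isSquare_pow (n := ∑ i ∈ Finset.range 2, q₀ ^ i)
      (by simpa [Finset.sum_range_succ] using odd_one.add_odd h1) t)
    rw [← norm_eq_pow hF₀ hqk, ht, ← hd, ← Matrix.det_mul, ← Units.val_mul,
      ← Matrix.GeneralLinearGroup.val_det_apply, map_mul, map_mul, map_mul, map_inv, map_inv,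
      map_inv, hg, show Matrix.GeneralLinearGroup.det (Matrix.SpecialLinearGroup.toGL P) = 1 from
      Units.ext P.2, inv_one, mul_one, mul_comm] at h14
    erw [inv_mul_cancel_left] at h14
    exact ha h14
  have h4 := (pElt_ujord_iff (p := 3) (r := 3) L (Matrix.SpecialLinearGroup.toGL x)
    (H76.adm_ujord _)).mpr ⟨by rwa [← map_pow], h3⟩
  have h5 := (exists_mem_subfield_iff hF₀ _).mpr h4.twA_char
  obtain ⟨α, μ, -, h6, h7, h8, -⟩ := h4.exists_udata
  by_cases h9 : ∃ e ∈ μ, e ≠ 2
  · obtain ⟨e, h9, h10⟩ := h9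
    refine (exists_sl_conj_iff x (z := (α, e)) (h6 ▸ mem_udata.mpr ⟨rfl, h9⟩) fun c => ?_).mpr h5
    obtain rfl | rfl : e = 1 ∨ e = 3 := by have := h7 e h9; omega
    exacts [⟨c, pow_one c⟩, exists_units_pow_char c]
  push Not at h9
  rw [Multiset.eq_replicate_card.mpr h9, Multiset.sum_replicate, Fintype.card_fin, smul_eq_mul] at h8
  obtain ⟨j, hj⟩ : Odd (∑ i ∈ Finset.range k, q₀ ^ i) := by
    rw [Finset.odd_sum_iff_odd_card_odd, Finset.filter_true_of_mem fun _ _ => h1.pow,
      Finset.card_range]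
    exact hk.odd_of_ne_two (by obtain ⟨j, hj⟩ | h := h <;> omega)
  obtain ⟨y, h10, h11⟩ := h5
  obtain ⟨g, rfl⟩ := exists_conj_of_ujord_eq h11
  obtain ⟨u, hu⟩ := H76.gl_det_surjective (n := Fin n)
    (Units.map (Algebra.norm F₀ : F →* F₀) (Matrix.GeneralLinearGroup.det g))
  obtain ⟨e, he⟩ := Multiset.card_pos_iff_exists_mem.mp (show 0 < Multiset.card μ by omega)
  obtain ⟨g', h12, h13⟩ := exists_conj_det _ (g * Matrix.GeneralLinearGroup.map F₀.subtype u)
    (z := (α, e)) (h6 ▸ (mem_udata (x := (α, e))).mpr ⟨rfl, he⟩) (Matrix.GeneralLinearGroup.det g ^ (j + 1))⁻¹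
  refine exists_sl_conj_mem (g := g') ?_ ?_
  · have h14 : Matrix.GeneralLinearGroup.det (Matrix.GeneralLinearGroup.map F₀.subtype u) =
        Matrix.GeneralLinearGroup.det g ^ (2 * j + 1) := Units.ext (by
      rw [Matrix.GeneralLinearGroup.val_det_apply, hd, ← Matrix.GeneralLinearGroup.val_det_apply,
        hu, ← hj, Units.val_pow_eq_pow_val]
      exact norm_eq_pow hF₀ hqk _)
    rw [h13, map_mul, h14, h9 e he]
    group
  · have h14 := map_mem_subfieldSubgroup u
    convert mul_mem (mul_mem (inv_mem h14) h10) h14 using 1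
    rw [h12]
    group

end Cfsg.Agent.S5966
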