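import Cfsg.Statements.S5967
import Cfsg.Agent.H77.ElusSim

set_option autoImplicit false
open scoped MatrixGroups
open Cfsg

namespace Cfsg.Agent.S5967

open Cfsg.Agent.H77

/-- Involutions of PSL_n(q) and the symplectic-type subgroups. Here `T = PSL_n(F)` for a field `F` with `q` elements, `n ≥ 4` even, `f` is a nondegenerate alternating form on `F^n`, and `H` is the subgroup of matrices of determinant 1 preserving `f` up to a scalar — a maximal subgroup of type Sp_n(q); Ω is the set of `T`-conjugates of `H` (cosets of `H`), so an element of `T` of prime order `r` (a matrix `x` of determinant 1 with `x^r` scalar, `x` not scalar) fixes a point of Ω when some conjugate of `x` by a matrix of determinant 1 preserves `f` up to a scalar. Suppose the index of `H` is even. Then every involution of `T` is conjugate in `T` into `H` if and only if `(q − 1)_2 ≤ (n)_2`. -/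
theorem result {F : Type*} [Field F] [Fintype F] {p : ℕ} [Fact p.Prime] [CharP F p] {q : ℕ} (hq : Fintype.card F = q)
    (n : ℕ) (hn : 4 ≤ n) (he : Even n) (f : (Fin n → F) → (Fin n → F) → F) (hf : Cfsg.Geo.IsSymplecticForm f)
    (hΩ : 2 ∣ ((Cfsg.Geo.similarityGroup f).comap (Matrix.SpecialLinearGroup.toGL : Matrix.SpecialLinearGroup (Fin n) F →* GL (Fin n) F)).index) :
    (∀ x : Matrix.SpecialLinearGroup (Fin n) F,
      (∃ z : F, ((x ^ 2 : Matrix.SpecialLinearGroup (Fin n) F) : Matrix (Fin n) (Fin n) F) = z • (1 : Matrix (Fin n) (Fin n) F)) →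
      (∀ z : F, (x : Matrix (Fin n) (Fin n) F) ≠ z • (1 : Matrix (Fin n) (Fin n) F)) →
      ∃ P : Matrix.SpecialLinearGroup (Fin n) F, P⁻¹ * x * P ∈ ((Cfsg.Geo.similarityGroup f).comap (Matrix.SpecialLinearGroup.toGL : Matrix.SpecialLinearGroup (Fin n) F →* GL (Fin n) F))) ↔
    padicValNat 2 (q - 1) ≤ padicValNat 2 n := by
  classical
  subst hq
  let L := AlgebraicClosure F
  rw [forall_sl_conj_iff (p := p) L Nat.prime_two (Or.inl rfl)
    (R := fun s => ∃ h ∈ Geo.similarityGroup f, H76.ujord L h = s) fun _ _ => Iff.rfl]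
  by_cases hp2 : 2 = p
  · subst hp2
    refine iff_of_true (fun s hs _ => ?_) (by
      have := Int.natCast_dvd_natCast.mp (H76.char_dvd_card F 2)
      have := Fintype.card_pos (α := F)
      rw [padicValNat.eq_zero_of_not_dvd (by omega)]
      exact Nat.zero_le _)
    obtain ⟨α, μ, h1, rfl, h2, h3, -⟩ := hs.exists_udata
    refine exists_mem_sim_of_fadm hf h1 ?_
    rw [show H76.twist α⁻¹ (udata α μ) = udata 1 μ by simp [H76.twist, udata], Fintype.card_fin,
      ← h3, fadm_udata_iff fun e he => (h2 e he).1]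
    intro e h4
    by_cases h5 : e = 1
    · rw [eq_replicate_one_two h2] at h3
      obtain ⟨m, hm⟩ := he
      simp at h3
      exact ⟨m - μ.count 2, by subst h5; omega⟩
    · rw [Multiset.count_eq_zero.mpr fun h => by have := h2 e h; rw [Nat.even_iff] at h4; omega]
      exact Even.zero
  have h1 := odd_card_cast (F := F) hp2
  have h2 : (2 : ℤ) ∣ Fintype.card F - 1 := (h1.sub_odd odd_one).two_dvd
  have h3 := exists_pow_eq_neg_one_iff (L := L) (n := n) hp2 (card_ne_one' (F := F)) (by omega)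
  rw [H76.natAbs_sub_one Fintype.card_pos] at h3
  refine ⟨fun h => le_of_not_gt fun h4 => ?_, fun h s hs hd => ?_⟩
  · obtain ⟨d, h5, h6⟩ := h3.mpr h4
    obtain ⟨h7, h8⟩ := pElt_refl hp2 h2 h5 one_pos (n := n) (by omega)
    obtain ⟨x, hx, h9⟩ := h _ h7 (by rw [h8, h6]; simp)
    have h10 := (fadm_of_mem_sim hf hx h5 fun c hc => by_contra fun h10 => by
      have := count_le_of_tw hc d 1
      rw [h9, zpow_neg_one] at this
      simp only [Multiset.count_add, Multiset.count_replicate, Prod.mk.injEq, if_true,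
        if_neg fun h : d = c⁻¹ * d⁻¹ ∧ True => h10 h.1.symm] at this
      split_ifs at this <;> omega).par' (-1) (by simp) 1 (by decide)
    rw [h9] at h10
    simp [H76.twist, Multiset.count_replicate, (units_neg_one_ne_one (L := L) hp2).symm] at h10
  rcases unif_of_pk Fact.out Nat.prime_two hp2 h2 hs.adm hs.pk with h4 | h4
  · obtain ⟨y, hy, -⟩ := hs.exists_ne Fact.out Nat.prime_two hp2
    have h5 := per_one_iff.mp (h4.per y hy)
    have h6 : y.1⁻¹ ^ (Fintype.card F : ℤ) = y.1⁻¹ := by rw [inv_zpow, h5]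
    have h7 := hs.adm.twist h6
    have h8 : ∀ x ∈ H76.twist y.1⁻¹ s, x = (1, 1) ∨ x = (-1, 1) := fun x hx => by
      obtain ⟨z, hz, rfl⟩ := Multiset.mem_map.mp hx
      rcases units_eq_or_eq_neg (hs.pk.1 z hz y hy) with h | h <;> simp [h, h4.one z hz]
    refine exists_mem_sim_of_fadm hf h5 ?_
    have h9 := H76.ddet_twist y.1⁻¹ s
    generalize H76.twist y.1⁻¹ s = t at h7 h8 h9
    obtain ⟨a, b, rfl⟩ : ∃ a b, t = Multiset.replicate a (1, 1) + Multiset.replicate b (-1, 1) :=
      ⟨_, _, (Multiset.filter_add_not (· = (1, 1)) t).symm.trans (congrArg₂ _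
        (Multiset.eq_replicate_card.mpr fun x hx => (Multiset.mem_filter.mp hx).2)
        (Multiset.eq_replicate_card.mpr fun x hx => (h8 x (Multiset.mem_filter.mp hx).1).resolve_left
          (Multiset.mem_filter.mp hx).2))⟩
    have h10 := h7.wt_eq
    simp only [H76.wt_add, H76.wt_replicate, mul_one] at h10
    have h11 : Even b := by_contra fun h11 => (h3.mp ⟨_, h6, by
      simpa [hd, hs.adm.wt_eq, (Nat.not_even_iff_odd.mp h11).neg_one_pow] using h9.symm⟩).not_ge h
    have h12 : Even a := (Nat.even_add.mp (h10 ▸ he)).mpr h11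
    refine ⟨by rwa [Fintype.card_fin], by simp [H76.frob], fun α _ e _ => ?_⟩
    simp only [Multiset.count_add, Multiset.count_replicate]
    split_ifs <;> simp [h11, h12, h12.add h11]
  obtain ⟨y, hy, -⟩ := hs.exists_ne Fact.out Nat.prime_two hp2
  obtain ⟨z, hz⟩ := exists_algebraMap_eq (F := F) (pow_fixed_of_pk hs.adm hs.pk hy)
  have h5 : z ≠ 0 := by rintro rfl; exact (y.1 ^ 2).ne_zero (by rw [← hz, map_zero])
  obtain ⟨g, h6, h7⟩ := alt_exists_sim_sq (isEForm_geoBilin hf) hf.alternating z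
  obtain ⟨t, h8⟩ := exists_hasJ (L := L) (f := g) ((isUnit_pow_iff two_ne_zero).mp
    (h6 ▸ isUnit_one.smul (Units.mk0 z h5)))
  have h9 : ∀ x ∈ t, x.1 ^ 2 = y.1 ^ 2 := fun x hx =>
    Units.ext (((h8.pow_eq_smul_iff p 2 z).mp h6 x hx).1.trans hz)
  have h10 : H76.PK p t 2 := ⟨fun x hx w hw => (h9 x hx).trans (h9 w hw).symm,
    fun x hx => ((h8.pow_eq_smul_iff p 2 z).mp h6 x hx).2⟩
  have h11 := h8.adm.cast (Module.finrank_fin_fun F)
  refine exists_mem_sim (neg_ne_zero.mpr h5) h7 (h4.eq_of_pow_eq two_pos hp2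
    ((unif_of_pk Fact.out Nat.prime_two hp2 h2 h11 h10).resolve_left fun h12 => ?_)
    (fun x hx => hs.pk.1 x hx y hy) h9 ▸ h8)
  rcases Multiset.empty_or_exists_mem t with rfl | ⟨x, hx⟩
  · have := h11.wt_eq; simp at this; omega
  · exact (h4.per y hy).ne (by omega) (fixed_of_pow_eq h2 (h9 x hx).symm
      (per_one_iff.mp (h12.per x hx)))

end Cfsg.Agent.S5967
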