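import Cfsg.Statements.S5968
import Cfsg.Agent.H77.ElusSim

set_option autoImplicit false
open scoped MatrixGroups
open Cfsg

namespace Cfsg.Agent.S5968

open Cfsg.Agent.H77

/-- Derangements of odd prime order of PSL_n(q) on the cosets of a symplectic-type subgroup. Here `T = PSL_n(F)` for a field `F` with `q` elements, `n ≥ 4` even, `f` is a nondegenerate alternating form on `F^n`, and `H` is the subgroup of matrices of determinant 1 preserving `f` up to a scalar — a maximal subgroup of type Sp_n(q); Ω is the set of `T`-conjugates of `H` (cosets of `H`), so an element of `T` of prime order `r` (a matrix `x` of determinant 1 with `x^r` scalar, `x` not scalar) fixes a point of Ω when some conjugate of `x` by a matrix of determinant 1 preserves `f` up to a scalar. For every odd prime `r` dividing the index of `H`, with `(n, r) ≠ (6, 3)`, there is an element of `T` of order `r` with no conjugate in `H`. (For `n = 6`, `r = 3` this can fail: when `(q − 1)_3 = 3` every element of order 3 is conjugate into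 `H`.) -/
theorem result {F : Type*} [Field F] [Fintype F] {p : ℕ} [Fact p.Prime] [CharP F p] {q : ℕ} (hq : Fintype.card F = q)
    (n : ℕ) (hn : 4 ≤ n) (he : Even n) (f : (Fin n → F) → (Fin n → F) → F) (hf : Cfsg.Geo.IsSymplecticForm f)
    (r : ℕ) [Fact r.Prime] (hr2 : r ≠ 2) (hgap : ¬ (n = 6 ∧ r = 3)) (hΩ : r ∣ ((Cfsg.Geo.similarityGroup f).comap (Matrix.SpecialLinearGroup.toGL : Matrix.SpecialLinearGroup (Fin n) F →* GL (Fin n) F)).index) :
    ∃ x : Matrix.SpecialLinearGroup (Fin n) F,
      (∃ z : F, ((x ^ r : Matrix.SpecialLinearGroup (Fin n) F) : Matrix (Fin n) (Fin n) F) = z • (1 : Matrix (Fin n) (Fin n) F)) ∧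
      (∀ z : F, (x : Matrix (Fin n) (Fin n) F) ≠ z • (1 : Matrix (Fin n) (Fin n) F)) ∧
      ∀ P : Matrix.SpecialLinearGroup (Fin n) F, P⁻¹ * x * P ∉ ((Cfsg.Geo.similarityGroup f).comap (Matrix.SpecialLinearGroup.toGL : Matrix.SpecialLinearGroup (Fin n) F →* GL (Fin n) F)) := by
  classical
  subst hq
  have hr : r.Prime := Fact.out
  by_contra! h
  replace h := fun s => exists_mem_of_forall_sl (p := p) (L := AlgebraicClosure F) (s := s) h
  by_cases hrp : r = p
  · subst hrp
    have h1 := pElt_udata (p := r) (one_zpow (α := (AlgebraicClosure F)ˣ) (Fintype.card F))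
      (μ := 3 ::ₘ Multiset.replicate (n - 3) 1) (fun e he => by
        have := hr.two_le
        rcases Multiset.mem_cons.mp he with rfl | he
        · omega
        · rw [Multiset.eq_of_mem_replicate he]; omega) ⟨3, by simp, by simp⟩
    rw [show (3 ::ₘ Multiset.replicate (n - 3) 1).sum = n by simp; omega] at h1
    obtain ⟨x, hx, h2⟩ := h _ h1 (by rw [ddet_udata, one_pow])
    have h3 := (fadm_of_mem_sim hf hx (d := 1) (one_zpow _) fun c hc => by
      rw [h2] at hc
      simpa using (mem_udata.mp (mem_of_tw hc (x := (1, 3)) (mem_udata.mpr (by simp)))).1).par'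
        1 (one_pow 2) 3 (by decide)
    rw [h2, inv_one, twist_one] at h3
    simp [udata, Multiset.count_replicate] at h3
  replace h : ∀ s : Multiset ((AlgebraicClosure F)ˣ × ℕ), PElt p (Fintype.card F) n r s →
      H76.ddet s = 1 → Tw (Fintype.card F) (-1) s := fun s hs hd => by
    obtain ⟨x, ⟨c, hc⟩, rfl⟩ := h s hs hd
    exact ⟨_, units_map_zpow_card _, tw_of_sim (dualLaw_id _) (isEForm_geoBilin hf).sep hc⟩
  have h1 : ¬ (r : ℤ) ∣ -1 := fun h => hr.not_dvd_one (by exact_mod_cast dvd_neg.mp h)
  have h2 : ¬ (r : ℤ) ∣ -1 - 1 := fun h => hr2 ((Nat.prime_dvd_prime_iff_eq hr Nat.prime_two).mp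
    (by exact_mod_cast (dvd_neg (b := (2 : ℤ))).mp h))
  by_cases h3 : (r : ℤ) ∣ Fintype.card F - 1
  · have := necessary_of_forall_tw hr hrp hr2 h3 card_ne_one' h1 h2 (by omega) (by omega) h
    obtain ⟨m, rfl⟩ := he
    omega
  obtain ⟨i, h4, h5, h6⟩ := exists_of_dvd_index_sp hf he hr (not_dvd_card_of_ne hrp)
    (by rwa [index_comap_toGL] at hΩ)
  obtain ⟨s, h7, h8, h9⟩ := exists_not_tw_of_not_dvd (L := AlgebraicClosure F) hr hrp h3 h1 h4.pos
    h5 h6 (by rwa [h4.neg_one_pow])
  exact h9 (h s h7 h8)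

end Cfsg.Agent.S5968
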