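import Cfsg.Statements.S5969
import Cfsg.Agent.H77.ElusExt

set_option autoImplicit false
open scoped MatrixGroups
open Cfsg

namespace Cfsg.Agent.S5969

open Cfsg.Agent.H77

/-- Involutions of PSL_n(q) and extension-field subgroups of degree 2. Here `T = PSL_n(F)` for a field `F` with `q = p^f` elements (`n ≥ 2`, `(n, q) ≠ (2, 2), (2, 3)`), `k` is a prime dividing `n`, `K` is a subalgebra of the `n × n` matrices that is a field of degree `k` over `F` (an extension-field structure F_{q^k} on `F^n`), and `H` is the subgroup of matrices of determinant 1 normalizing `K` — a subgroup of type GL_{n/k}(q^k) (maximal except in some small cases; maximality is not assumed); Ω is the set of cosets of `H` in `T`, so an element of `T` of prime order `r` (a matrix `x` of determinant 1 with `x^r` scalar, `x` not scalar) fixes a point of Ω when some conjugate of `x` by a matrix of determinant 1 normalizes `K`. Take `k = 2` and suppose the index of `H` is even. Then every involution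 of `T` is conjugate in `T` into `H` if and only if `n = 2`, or `q` is odd and `(q − 1)_2 ≤ (n)_2`. -/
theorem result {F : Type*} [Field F] [Fintype F] {p : ℕ} [Fact p.Prime] [CharP F p] {q : ℕ} (hq : Fintype.card F = q)
    (n : ℕ) (hn : 2 ≤ n) (hT : (n, q) ≠ (2, 2) ∧ (n, q) ≠ (2, 3))
    (k : ℕ) (hk : k.Prime) (hkn : k ∣ n) (K : Subalgebra F (Matrix (Fin n) (Fin n) F)) (hK : Cfsg.Geo.IsFieldSubalgebra k K) (hk2 : k = 2) (hΩ : 2 ∣ ((Cfsg.Geo.subalgebraNormalizer K).comap (Matrix.SpecialLinearGroup.toGL : Matrix.SpecialLinearGroup (Fin n) F →* GL (Fin n) F)).index) :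
    (∀ x : Matrix.SpecialLinearGroup (Fin n) F,
      (∃ z : F, ((x ^ 2 : Matrix.SpecialLinearGroup (Fin n) F) : Matrix (Fin n) (Fin n) F) = z • (1 : Matrix (Fin n) (Fin n) F)) →
      (∀ z : F, (x : Matrix (Fin n) (Fin n) F) ≠ z • (1 : Matrix (Fin n) (Fin n) F)) →
      ∃ P : Matrix.SpecialLinearGroup (Fin n) F, P⁻¹ * x * P ∈ ((Cfsg.Geo.subalgebraNormalizer K).comap (Matrix.SpecialLinearGroup.toGL : Matrix.SpecialLinearGroup (Fin n) F →* GL (Fin n) F))) ↔
    (n = 2 ∨ (Odd q ∧ padicValNat 2 (q - 1) ≤ padicValNat 2 n)) := by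
  classical
  subst hq hk2
  let L := AlgebraicClosure F
  have : Nonempty (Fin n) := ⟨⟨0, by omega⟩⟩
  obtain ⟨E, _, _, _, _, _, h1, h2⟩ := exists_ext_ujord L hK
  have h0 := Module.finrank_fin_fun (n := n) F
  rw [forall_sl_conj_iff (p := p) L Nat.prime_two (Or.inl rfl)
    (R := fun s => ∃ f, Semi E f ∧ HasJ L f s) fun x _ => h2 _]
  by_cases hp2 : 2 = p
  · subst hp2
    rw [or_iff_left fun h => h.1.not_two_dvd_nat
      (Int.natCast_dvd_natCast.mp (H76.char_dvd_card F 2))]
    refine ⟨fun h => ?_, fun h s hs _ => ?_⟩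
    · obtain ⟨h3, h4⟩ := pElt_transvection (L := L) (p := 2) (Q := Fintype.card F) hn
      obtain ⟨f, h5, h6⟩ := h _ h3 h4
      have := h5.dvd_or_le h6.isUnit 1
      rw [h6.finrank_ker_tv hn, h1, h0] at this
      omega
    obtain ⟨α, μ, h3, rfl, h4, h5, e, h6, h7⟩ := hs.exists_udata
    obtain ⟨ν, rfl⟩ := Multiset.exists_cons_of_mem h6
    obtain rfl : e = 2 := by have := h4 e h6; omega
    obtain rfl : ν = 0 := Multiset.eq_zero_of_forall_notMem fun a ha => by
      have := (h4 a (Multiset.mem_cons_of_mem ha)).1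
      have := Multiset.single_le_sum (fun _ _ => Nat.zero_le _) a ha
      rw [Multiset.sum_cons] at h5
      omega
    obtain ⟨f, h8, -, h9⟩ := exists_semi_isO Nat.prime_two h1 (h0.trans h) h3 (isO_single α)
    exact ⟨f, h8, h9⟩
  have h3 := odd_card_cast (F := F) hp2
  have h4 : (2 : ℤ) ∣ Fintype.card F - 1 := (h3.sub_odd odd_one).two_dvd
  have h5 := exists_pow_eq_neg_one_iff (L := L) (n := n) hp2 (card_ne_one' (F := F)) (by omega)
  rw [H76.natAbs_sub_one Fintype.card_pos] at h5
  rw [and_iff_right ((Int.odd_coe_nat _).mp h3)]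
  refine ⟨fun h => or_iff_not_imp_right.mpr fun h6 => ?_, fun h s hs hd => ?_⟩
  · obtain ⟨d, h7, h8⟩ := h5.mpr (not_le.mp h6)
    obtain ⟨h9, h10⟩ := pElt_refl hp2 h4 h7 one_pos (n := n) (by omega)
    obtain ⟨f, h11, h12⟩ := h _ h9 (by rw [h10, h8]; simp)
    have := h12.dvd_or_le h11 (fun x hx => by
      rw [Multiset.eq_of_mem_replicate hx]; exact units_neg_ne_self hp2 d) h7
    rw [h1, h0] at this
    omega
  rcases unif_of_pk Fact.out Nat.prime_two hp2 h4 hs.adm hs.pk with h6 | h6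
  · obtain ⟨d, a, h7, h8, h9, rfl⟩ := hs.eq_refl hp2 h6
    rcases Nat.even_or_odd a with h10 | h10
    · obtain ⟨f, h11, h12⟩ := exists_kLin_refl (K := E) (V := Fin n → F) h7 (neg_zpow_eq h4 h7)
        (a := a) (by omega) (h1 ▸ h10.two_dvd)
      exact ⟨f, h11.semi, by rwa [h0] at h12⟩
    rw [(pElt_refl hp2 h4 h7 h8 h9).2, h10.neg_one_pow, neg_one_mul, neg_eq_iff_eq_neg] at hd
    obtain rfl := h.resolve_right (h5.mp ⟨d, h7, hd⟩).not_ge
    obtain rfl : a = 1 := by omega
    obtain ⟨f, h11, -, h12⟩ := exists_semi_isO Nat.prime_two h1 h0 h7 (isO_of_nodup two_pos hp2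
      (O := Multiset.replicate 1 (-d, 1) + Multiset.replicate (2 - 1) (d, 1))
      (by simpa using units_neg_ne_self hp2 d) (by simp) (by simp))
    exact ⟨f, h11, h12⟩
  · obtain ⟨f, h7, h8⟩ := exists_kLin_unif (V := Fin n → F) h1 hp2 (by rwa [h0]) hs.pk
    exact ⟨f, h7.semi, h8⟩

end Cfsg.Agent.S5969
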