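import Cfsg.Statements.S5970
import Cfsg.Agent.H77.ElusExt

set_option autoImplicit false
open scoped MatrixGroups
open Cfsg

namespace Cfsg.Agent.S5970

open Cfsg.Agent.H77

/-- Elements of order `n` of PSL_n(q), `n` prime, and the normalizer of a Singer cycle. Here `T = PSL_n(F)` for a field `F` with `q = p^f` elements (`n ≥ 2`, `(n, q) ≠ (2, 2), (2, 3)`), `k` is a prime dividing `n`, `K` is a subalgebra of the `n × n` matrices that is a field of degree `k` over `F` (an extension-field structure F_{q^k} on `F^n`), and `H` is the subgroup of matrices of determinant 1 normalizing `K` — a subgroup of type GL_{n/k}(q^k) (maximal except in some small cases; maximality is not assumed); Ω is the set of cosets of `H` in `T`, so an element of `T` of prime order `r` (a matrix `x` of determinant 1 with `x^r` scalar, `x` not scalar) fixes a point of Ω when some conjugate of `x` by a matrix of determinant 1 normalizes `K`. Take `k = n > 3` prime with `n ≠ p` (so `H` is the normalizer of a Singer cycle), and suppose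 `n` divides the index of `H`. Then every element of `T` of order `n` is conjugate in `T` into `H` if and only if the multiplicative order of `q` modulo `n` is `n − 1`. -/
theorem result {F : Type*} [Field F] [Fintype F] {p : ℕ} [Fact p.Prime] [CharP F p] {q : ℕ} (hq : Fintype.card F = q)
    (n : ℕ) (hn : 2 ≤ n) (hT : (n, q) ≠ (2, 2) ∧ (n, q) ≠ (2, 3))
    (k : ℕ) (hk : k.Prime) (hkn : k ∣ n) (K : Subalgebra F (Matrix (Fin n) (Fin n) F)) (hK : Cfsg.Geo.IsFieldSubalgebra k K) (hkn' : k = n) (hn3 : 3 < n) (hnp : n ≠ p) (hΩ : n ∣ ((Cfsg.Geo.subalgebraNormalizer K).comap (Matrix.SpecialLinearGroup.toGL : Matrix.SpecialLinearGroup (Fin n) F →* GL (Fin n) F)).index) :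
    (∀ x : Matrix.SpecialLinearGroup (Fin n) F,
      (∃ z : F, ((x ^ n : Matrix.SpecialLinearGroup (Fin n) F) : Matrix (Fin n) (Fin n) F) = z • (1 : Matrix (Fin n) (Fin n) F)) →
      (∀ z : F, (x : Matrix (Fin n) (Fin n) F) ≠ z • (1 : Matrix (Fin n) (Fin n) F)) →
      ∃ P : Matrix.SpecialLinearGroup (Fin n) F, P⁻¹ * x * P ∈ ((Cfsg.Geo.subalgebraNormalizer K).comap (Matrix.SpecialLinearGroup.toGL : Matrix.SpecialLinearGroup (Fin n) F →* GL (Fin n) F))) ↔
    orderOf (q : ZMod n) = n - 1 := by
  subst hq hkn'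
  let L := AlgebraicClosure F
  have : Nonempty (Fin k) := ⟨⟨0, by omega⟩⟩
  have := Fact.mk hk
  obtain ⟨E, _, _, _, _, _, h1, h2⟩ := exists_ext_ujord L hK
  have h0 := Module.finrank_fin_fun (n := k) F
  rw [forall_sl_conj_iff (p := p) L hk (Or.inr hnp)
    (R := fun s => ∃ f, Semi E f ∧ HasJ L f s) fun x _ => h2 _,
    ← Int.cast_natCast (R := ZMod k)]
  refine ⟨fun h => by_contra fun h3 => ?_, fun h s hs _ => ?_⟩
  · have h4 := natCast_card_ne_zero' (F := F) hnp
    have h5 := ZMod.orderOf_dvd_card_sub_one h4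
    rw [← Int.cast_natCast] at h4 h5
    obtain ⟨j, h6⟩ := h5
    have h7 : 2 * orderOf ((Fintype.card F : ℤ) : ZMod k) ≤ k - 1 := by
      rcases j with _ | _ | j
      · omega
      · omega
      · rw [h6, mul_add, mul_add]; omega
    have h8 : k ≠ 4 := by rintro rfl; exact absurd hk (by decide)
    obtain ⟨o, h9, h10, -, -, h11⟩ := exists_pElt_big (L := L) (n := k) hk hnp (by omega)
      (fun h => h4 ((ZMod.intCast_zmod_eq_zero_iff_dvd _ _).mpr h)) rfl (by omega)
    obtain ⟨f, h12, h13⟩ := h _ h9 h10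
    rcases h13.dvd_or_le h12 (fun x hx => (h11 x hx).2) (one_zpow _) with h14 | h14
    · have := Nat.le_of_dvd (by omega) h14
      omega
    · omega
  · obtain ⟨d, h3, h4⟩ := hs.isO_of_orderOf hk hnp (by omega) h
    obtain ⟨f, h5, -, h6⟩ := exists_semi_isO hk h1 h0 h3 h4
    exact ⟨f, h5, h6⟩

end Cfsg.Agent.S5970
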