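import Cfsg.Statements.S5971
import Cfsg.Agent.H77.ElusExt

set_option autoImplicit false
open scoped MatrixGroups
open Cfsg

namespace Cfsg.Agent.S5971

open Cfsg.Agent.H77

theorem nodup_of_three {A : Type*} [CommGroup A] {s : Multiset (A × ℕ)}
    (h1 : Multiset.card s = 3) (h2 : ∀ x ∈ s, x.2 = 1 ∧ x.1 ^ 3 = 1) (h3 : H76.ddet s = 1)
    (h4 : ∃ x ∈ s, ∃ y ∈ s, x.1 ≠ y.1) : s.Nodup := by
  classical
  rw [Multiset.nodup_iff_ne_cons_cons]
  rintro a t rfl
  obtain ⟨b, rfl⟩ := Multiset.card_eq_one.mp (show Multiset.card t = 1 by simpa using h1)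
  have h5 := h2 a (by simp)
  have h6 : b.1 = a.1 := mul_left_cancel (a := a.1 * a.1) (by
    rw [← pow_three', h5.2, ← h3]
    simp [H76.ddet, h5.1, (h2 b (by simp)).1, mul_assoc])
  simp [h6] at h4

/-- Elements of order 3 of PSL_3(q) and the normalizer of a Singer cycle. Here `T = PSL_n(F)` for a field `F` with `q = p^f` elements (`n ≥ 2`, `(n, q) ≠ (2, 2), (2, 3)`), `k` is a prime dividing `n`, `K` is a subalgebra of the `n × n` matrices that is a field of degree `k` over `F` (an extension-field structure F_{q^k} on `F^n`), and `H` is the subgroup of matrices of determinant 1 normalizing `K` — a subgroup of type GL_{n/k}(q^k) (maximal except in some small cases; maximality is not assumed); Ω is the set of cosets of `H` in `T`, so an element of `T` of prime order `r` (a matrix `x` of determinant 1 with `x^r` scalar, `x` not scalar) fixes a point of Ω when some conjugate of `x` by a matrix of determinant 1 normalizes `K`. Take `n = k = 3` and suppose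 3 divides the index of `H`. Then every element of `T` of order 3 is conjugate in `T` into `H` if and only if `q ≡ 4, 7` or `8 (mod 9)`. -/
theorem result {F : Type*} [Field F] [Fintype F] {p : ℕ} [Fact p.Prime] [CharP F p] {q : ℕ} (hq : Fintype.card F = q)
    (n : ℕ) (hn : n = 3) (k : ℕ) (hk : k.Prime) (hkn : k ∣ n) (K : Subalgebra F (Matrix (Fin n) (Fin n) F)) (hK : Cfsg.Geo.IsFieldSubalgebra k K) (hk3 : k = 3) (hΩ : 3 ∣ ((Cfsg.Geo.subalgebraNormalizer K).comap (Matrix.SpecialLinearGroup.toGL : Matrix.SpecialLinearGroup (Fin n) F →* GL (Fin n) F)).index) :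
    (∀ x : Matrix.SpecialLinearGroup (Fin n) F,
      (∃ z : F, ((x ^ 3 : Matrix.SpecialLinearGroup (Fin n) F) : Matrix (Fin n) (Fin n) F) = z • (1 : Matrix (Fin n) (Fin n) F)) →
      (∀ z : F, (x : Matrix (Fin n) (Fin n) F) ≠ z • (1 : Matrix (Fin n) (Fin n) F)) →
      ∃ P : Matrix.SpecialLinearGroup (Fin n) F, P⁻¹ * x * P ∈ ((Cfsg.Geo.subalgebraNormalizer K).comap (Matrix.SpecialLinearGroup.toGL : Matrix.SpecialLinearGroup (Fin n) F →* GL (Fin n) F))) ↔
    (q % 9 = 4 ∨ q % 9 = 7 ∨ q % 9 = 8) := by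
  subst hq hn hk3
  let L := AlgebraicClosure F
  obtain ⟨E, _, _, _, _, _, h1, h2⟩ := exists_ext_ujord L hK
  have h0 := Module.finrank_fin_fun (n := 3) F
  by_cases hp : 3 = p
  · subst hp
    refine iff_of_false (fun h => ?_) (by
      have := Int.natCast_dvd_natCast.mp (H76.char_dvd_card F 3)
      omega)
    obtain ⟨h3, h4⟩ := pElt_transvection (L := L) (p := 3) (Q := Fintype.card F) (n := 3) (by omega)
    obtain ⟨f, h5, h6⟩ := (h2 _).mp (exists_mem_of_forall_sl h h3 h4)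
    have := h5.dvd_or_le h6.isUnit 1
    rw [h6.finrank_ker_tv (by omega), h1, h0] at this
    omega
  have := Fact.mk hk
  have h3 := not_dvd_card_of_ne (F := F) hp
  rw [forall_sl_conj_iff (p := p) L hk (Or.inr hp)
    (R := fun s => ∃ f, Semi E f ∧ HasJ L f s) fun x _ => h2 _]
  have h4 := Fintype.card_pos (α := F)
  by_cases h5 : Fintype.card F % 3 = 2
  · have h6 : ¬ ((3 : ℕ) : ℤ) ∣ Fintype.card F - 1 := by omega
    have h7 := orderOf_zmod_lt (natCast_card_ne_zero' (F := F) hp)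
    have h8 := orderOf_card_pos (F := F) hp
    rw [← Int.cast_natCast (R := ZMod 3)] at h7
    refine iff_of_true (fun s hs _ => ?_) ?_
    · obtain ⟨d, h9, h10⟩ := hs.isO_of_orderOf hk hp (by omega)
        (by rw [dvd_sub_one_iff] at h6; omega)
      obtain ⟨f, h11, -, h12⟩ := exists_semi_isO hk h1 h0 h9 h10
      exact ⟨f, h11, h12⟩
    obtain ⟨c, O, h9, h10⟩ := exists_isO (L := L) p hk (one_ne_zero (α := F))
    obtain rfl : c = 1 ^ 3 := Units.ext (by simpa using h9)
    obtain ⟨f, h11, h12, h13⟩ := exists_semi_isO hk h1 h0 (one_zpow _) h10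
    obtain ⟨g, h14, rfl⟩ := (h2 _).mpr ⟨f, h11, h13⟩
    obtain ⟨x, rfl⟩ : g ∈ (Matrix.SpecialLinearGroup.toGL (n := Fin 3) (R := F)).range := by
      rw [H76.range_toGL]
      exact Units.ext ((H76.ddet_ujord_eq_one_iff _).mp (ddet_eq_one_of_not_dvd hk h6 h13.adm
        fun x hx => (h10.pow x hx).trans (one_pow 3)))
    have h15 := hasJ_ujord L (Matrix.SpecialLinearGroup.toGL x)
    have h16 : orderOf x = 3 := orderOf_eq_prime (Subtype.ext (by
      simpa using (toLin'_pow_eq_smul_iff _ 3 1).mp ((h15.pow_eq_smul_iff p 3 1).mpr fun y hy =>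
        ⟨by simpa using congrArg Units.val (h10.pow y hy),
          by simp [(((h10.ne hp).2 y).mp hy).1]⟩))) (by
      rintro rfl
      have h16 := (h10.ne hp).1
      rw [h15.unique (by simpa [← Module.End.one_eq_id] using hasJ_one)] at h16
      simp at h16)
    have h17 := Int.natCast_dvd_natCast.mpr (Nat.mul_dvd_mul hΩ
      (h16 ▸ Subgroup.orderOf_dvd_natCard _ (Subgroup.mem_comap.mpr h14)))
    obtain ⟨e, h18⟩ := card_SL_int (F := F) 2
    rw [Subgroup.index_mul_card, h18, Finset.prod_range_succ, Finset.prod_range_one] at h17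
    obtain ⟨j, h19⟩ : ∃ j : ℤ, (Fintype.card F : ℤ) = 3 * j + 2 := ⟨Fintype.card F / 3, by omega⟩
    have h20 : ∀ a : ℤ, IsCoprime ((3 * 3 : ℕ) : ℤ) (3 * a + 1) := fun a =>
      IsCoprime.mul_left (x := 3) (y := 3) ⟨-a, 1, by ring⟩ ⟨-a, 1, by ring⟩
    have h21 : IsCoprime ((3 * 3 : ℕ) : ℤ) (3 * j + 2) := by
      rw [← IsCoprime.neg_right_iff, show -(3 * j + 2) = 3 * (-j - 1) + 1 by ring]
      exact h20 _
    rw [h19, show ((3 * j + 2) ^ (0 + 2) - 1) * ((3 * j + 2) ^ (1 + 2) - 1) = (3 * j + 1) *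
      ((3 * (9 * j ^ 3 + 18 * j ^ 2 + 12 * j + 2) + 1) * (3 * j + 3)) by ring] at h17
    have := (h20 _).dvd_of_dvd_mul_left ((h20 _).dvd_of_dvd_mul_left
      (h21.pow_right.dvd_of_dvd_mul_left h17))
    omega
  have h6 : ((3 : ℕ) : ℤ) ∣ Fintype.card F - 1 := by omega
  refine ⟨fun h => by_contra fun h7 => ?_, fun h s hs hd => ?_⟩
  · obtain ⟨γ, hγ⟩ := H76.exists_units_orderOf_eq (L := L) p (m := 3 ^ 2) fun h =>
      hp ((Nat.prime_dvd_prime_iff_eq Fact.out hk).mp ((Fact.out : p.Prime).dvd_of_dvd_pow h)).symm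
    have h8 : γ ^ (Fintype.card F : ℤ) = γ := H76.zpow_eq_self_iff.mpr (by rw [hγ]; omega)
    have h9 : (γ ^ 2)⁻¹ ≠ γ := fun h => by
      rw [inv_eq_iff_mul_eq_one, ← pow_succ, ← orderOf_dvd_iff_pow_eq_one, hγ] at h
      omega
    have h10 : (γ ^ 2)⁻¹ ^ 3 = γ ^ 3 := by
      rw [inv_pow, inv_eq_iff_mul_eq_one, ← pow_mul, ← pow_add, ← orderOf_dvd_iff_pow_eq_one, hγ]
      rfl
    have h11 := ((unif_replicate (α := (γ ^ 2)⁻¹) (by
      rw [inv_zpow, ← zpow_natCast, ← zpow_mul, mul_comm, zpow_mul, h8, zpow_natCast]) 1).add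
      (unif_replicate h8 2))
    obtain ⟨f, h12, h13⟩ := h _ ((pElt_iff Fact.out hk hp).mpr ⟨h11.adm, h11.one, by simp [h10],
      by simp [h9]⟩) (by simp [sq])
    have := h13.dvd_or_le h12 (fun x hx => by rwa [Multiset.eq_of_mem_replicate hx]) h8
    rw [h1, h0] at this
    omega
  have h7 := (exists_sym_twist (Or.inl rfl) hp (by
    rw [H76.natAbs_sub_one h4]
    exact le_antisymm (Nat.le_of_lt_succ (lt_of_not_ge fun h7 => by
      have : 3 ^ 2 ∣ Fintype.card F - 1 := (padicValNat_dvd_iff_le (by omega)).mpr h7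
      omega)) (one_le_padicValNat_of_dvd (by omega) (by omega))) hs hd).1
  have h8 := (wt_eq_card fun x hx => (h7 x hx).1).symm.trans hs.adm.wt_eq
  obtain ⟨f, h9, -, h10⟩ := exists_semi_isO hk h1 h0 (one_zpow _) (isO_of_nodup hk.pos hp
    (nodup_of_three h8 h7 hd (hs.exists_ne Fact.out hk hp)) (by rwa [one_pow]) h8)
  exact ⟨f, h9, h10⟩

end Cfsg.Agent.S5971
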