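import Cfsg.Statements.S5972
import Cfsg.Agent.H28.EloAr2

set_option autoImplicit false
open scoped MatrixGroups
open Cfsg

namespace Cfsg.Agent.S5972

open Cfsg.Agent.H28 in
theorem ar₃ {h d ε m : ℕ} (h1 : h ≤ 1) (hd : 1 ≤ d) (h2 : m ≤ d) :
    AT2 h (2 * d + 1) ε m ↔ m < d ∨ h = 0 := by
  unfold AT2 TSx
  obtain rfl | rfl : h = 0 ∨ h = 1 := by omega
  · exact ⟨fun _ => Or.inr rfl, fun _ k _ _ => ⟨m - min m k, min m k, by omega⟩⟩
  · exact ⟨fun H => by obtain ⟨a, b, h⟩ := H 1 (by omega) (by omega); omega,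
      fun _ k _ _ => ⟨m - min m (k - 1), min m (k - 1), by omega⟩⟩

/-- Elements of prime order of Ω_n(q), n = 2d+1 ≥ 7, q odd, with no fixed totally singular `m`-space. Here `T = Ω_n(q)` is realised as the commutator subgroup of the isometry group of the quadratic form `x₀² + Σ xᵢyᵢ` over the field `F` with `q` elements (it has trivial centre, so its elements of prime order `r` are used directly); let `1 ≤ m ≤ d` and let `r` be a prime dividing the number of totally singular `m`-spaces. For `r ≠ p` let `i` be the multiplicative order of `q` modulo `r`, `c = i` for `i` even and `c = 2i` for `i` odd, and write `k = n mod c`, `ℓ = m mod i`, `n' = ⌊n/i⌋`, `m' = ⌊m/i⌋`, `t = (r−1)/i`. Then every element of `T` of order `r` fixes some totally singular `m`-space if and only if either (i) `r = 2` and (`m < (n−1)/2` or `q ≡ 1 (mod 4)`); or (ii) `r ≠ p` is odd, `i ≤ m`, `k > 2ℓ`, and (`i` is odd or `n' − 2m' ≥ t`). -/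
theorem result {F : Type*} [Field F] [Fintype F] {p : ℕ} [Fact p.Prime] [CharP F p] {q : ℕ} (hq : Fintype.card F = q) (hqodd : Odd q)
    (d m : ℕ) (hd : 3 ≤ d) (hm : 1 ≤ m) (hmd : m ≤ d)
    (r : ℕ) [Fact r.Prime]
    (hrΩ : r ∣ Nat.card {W : Submodule F (Unit ⊕ (Fin d ⊕ Fin d) → F) // Module.finrank F ↥W = m ∧ (∀ w ∈ W, Cfsg.quadFormOdd d F w = 0)})
    (i c : ℕ) (hi : i = orderOf (q : ZMod r)) (hc : c = if Even i then i else 2 * i) :
    (∀ x : GL (Unit ⊕ (Fin d ⊕ Fin d)) F, x ∈ Cfsg.Geo.omegaGL (Cfsg.quadFormOdd d F) → orderOf x = r →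
      ∃ W : Submodule F (Unit ⊕ (Fin d ⊕ Fin d) → F), Module.finrank F ↥W = m ∧ (∀ w ∈ W, Cfsg.quadFormOdd d F w = 0) ∧
        W.map (Matrix.toLin' (x : Matrix (Unit ⊕ (Fin d ⊕ Fin d)) (Unit ⊕ (Fin d ⊕ Fin d)) F)) ≤ W) ↔
    ((r = 2 ∧ (m < d ∨ q % 4 = 1)) ∨
     (r ≠ p ∧ 2 < r ∧ i ≤ m ∧ 2 * (m % i) < (2 * d + 1) % c ∧ (Odd i ∨ (r - 1) / i + 2 * (m / i) ≤ (2 * d + 1) / i))) := by
  open Cfsg.Agent.H28 Cfsg.Agent.H30 in
  subst hq hc
  have h2 := two_ne_zero_iff_odd_card.2 hqodd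
  have hQ := qOdd_nondegenerate h2 d
  rw [← coe_qOdd] at hrΩ ⊢
  simp only [← and_assoc (a := Module.finrank F _ = m)]
  rw [el_iff' hQ (by simp; omega) h2 (by simp [parity_simps])]
  have h0 : 2 * m < Module.finrank F (Unit ⊕ (Fin d ⊕ Fin d) → F) := by rw [finrank_odd]; omega
  obtain ⟨hrp, h5⟩ := ht_of_dvd (p := p) hQ hi.symm h0 hrΩ
  by_cases hr2 : r = 2
  · subst hr2
    rw [two_ts h2 hQ h0, finrank_odd, E2, ar₃ hh_le_one (by omega) hmd]
    have := Nat.odd_iff.1 hqodd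
    simp only [lt_self_iff_false, false_and, and_false, or_false, true_and]
    rcases hh_cases F with ⟨h, h'⟩ | ⟨h, h'⟩ <;> rw [h] <;> omega
  obtain ⟨h3, h4, h7, h6⟩ := el_ts_odd hQ hr2 hrp (m := m) hi.symm
  replace h5 := h5 hr2
  rw [finrank_odd] at h0 h5 h6
  rw [h6, ← cc, TT]
  have h12 := mod_mod_two (even_cc i) (2 * d + 1)
  rcases cc_ss i with ⟨h8, h9, h10, h11⟩ | ⟨h8, h9, h10, h11⟩ <;> rw [h10, h11] at h5 <;>
    rw [h10] at h12 ⊢ <;> simp only [hr2, hrp, h3, h8, h9, ne_eq, not_false_eq_true, false_and,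
      true_and, false_or, true_or, and_true, if_true, if_false]
  · rw [at_iff₃ h4 (h7 h8) h5 h0]
    omega
  · rw [at_iff₃' h4 h5 h0]
    omega

end Cfsg.Agent.S5972
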