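import Cfsg.Statements.S5973
import Cfsg.Agent.H28.EloAr2

set_option autoImplicit false
open scoped MatrixGroups
open Cfsg

namespace Cfsg.Agent.S5973

open Cfsg.Agent.H28 in
theorem ar₃ {h d m : ℕ} (h1 : h ≤ 1) (hd : 2 ≤ d) (h2 : m < d) :
    AT2 h (2 * d) 0 m ↔ m + 2 ≤ d ∨ h = 0 := by
  unfold AT2 TSx
  obtain rfl | rfl : h = 0 ∨ h = 1 := by omega
  · exact ⟨fun _ => Or.inr rfl, fun _ k _ _ => ⟨m - min m k, min m k, by omega⟩⟩
  · exact ⟨fun H => by obtain ⟨a, b, h⟩ := H 1 (by omega) (by omega); omega,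
      fun _ k _ _ => ⟨m - min m (k - 1), min m (k - 1), by omega⟩⟩

/-- Elements of prime order of PΩ⁺_n(q), n = 2d ≥ 8, with no fixed totally singular `m`-space, `m < n/2`. Here `T = PΩ⁺_n(q)` is realised through `Ω⁺_n(q)`, the commutator subgroup of the isometry group of the quadratic form `Σ xᵢyᵢ` over the field `F` with `q` elements; an element of `T` of prime order `r` is an element `x` of `Ω⁺_n(q)` with `x^r` scalar and `x` not scalar. Let `1 ≤ m < d` and let `r` be a prime dividing the number of totally singular `m`-spaces. For `r ≠ p` let `i` be the multiplicative order of `q` modulo `r`, `c = i` for `i` even and `c = 2i` for `i` odd, and write `k = n mod c`, `ℓ = m mod i`, `n' = ⌊n/i⌋`, `m' = ⌊m/i⌋`, `t = (r−1)/i`. Then every element of `T` of order `r` fixes some totally singular `m`-space if and only if one of: (i) `r = 2 ≠ p` and either `q ≡ 1 (mod 4)`, or `q ≡ 3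 (mod 4)`, `m ≤ n/2 − 2` and (`m` even or `n ≡ 2 (mod 4)`); (ii) `r ≠ p` odd, `i` odd, `i ≤ m` and `k ≥ 2ℓ`; (iii) `r ≠ p` odd, `i` even, `i ≤ m`, `n' − 2m' ≥ t`, and one of: `i ≥ 2ℓ`, `k = 0`, `n/i` odd and `n' − 2m' > t`; or `k ≥ 2ℓ` and `n'` even; or `k > 2ℓ` and `n'` odd. -/
theorem result {F : Type*} [Field F] [Fintype F] {p : ℕ} [Fact p.Prime] [CharP F p] {q : ℕ} (hq : Fintype.card F = q)
    (d m : ℕ) (hd : 4 ≤ d) (hm : 1 ≤ m) (hmd : m < d)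
    (r : ℕ) [Fact r.Prime]
    (hrΩ : r ∣ Nat.card {W : Submodule F (Fin d ⊕ Fin d → F) // Module.finrank F ↥W = m ∧ (∀ w ∈ W, Cfsg.quadFormPlus d F w = 0)})
    (i c : ℕ) (hi : i = orderOf (q : ZMod r)) (hc : c = if Even i then i else 2 * i) :
    (∀ x : GL (Fin d ⊕ Fin d) F, x ∈ Cfsg.Geo.omegaGL (Cfsg.quadFormPlus d F) →
      (∃ z : F, ((x ^ r : GL (Fin d ⊕ Fin d) F) : Matrix (Fin d ⊕ Fin d) (Fin d ⊕ Fin d) F) = z • (1 : Matrix (Fin d ⊕ Fin d) (Fin d ⊕ Fin d) F)) →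
      (∀ z : F, (x : Matrix (Fin d ⊕ Fin d) (Fin d ⊕ Fin d) F) ≠ z • (1 : Matrix (Fin d ⊕ Fin d) (Fin d ⊕ Fin d) F)) →
      ∃ W : Submodule F (Fin d ⊕ Fin d → F), Module.finrank F ↥W = m ∧ (∀ w ∈ W, Cfsg.quadFormPlus d F w = 0) ∧
        W.map (Matrix.toLin' (x : Matrix (Fin d ⊕ Fin d) (Fin d ⊕ Fin d) F)) ≤ W) ↔
    ((r = 2 ∧ p ≠ 2 ∧ (q % 4 = 1 ∨ (q % 4 = 3 ∧ m + 2 ≤ d ∧ (Even m ∨ (2 * d) % 4 = 2)))) ∨
     (r ≠ p ∧ 2 < r ∧ Odd i ∧ i ≤ m ∧ 2 * (m % i) ≤ (2 * d) % c) ∨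
     (r ≠ p ∧ 2 < r ∧ Even i ∧ i ≤ m ∧ (r - 1) / i + 2 * (m / i) ≤ (2 * d) / i ∧
       ((2 * (m % i) ≤ i ∧ (2 * d) % c = 0 ∧ Odd ((2 * d) / i) ∧ (r - 1) / i + 2 * (m / i) < (2 * d) / i) ∨
        (2 * (m % i) ≤ (2 * d) % c ∧ Even ((2 * d) / i)) ∨
        (2 * (m % i) < (2 * d) % c ∧ Odd ((2 * d) / i))))) := by
  open Cfsg.Agent.H28 Cfsg.Agent.H30 in
  subst hq hc
  have hQ := qPlus_nondegenerate (F := F) d
  rw [← coe_qPlus] at hrΩ ⊢
  simp only [← and_assoc (a := Module.finrank F _ = m)]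
  rw [el_iff hQ (by simp; omega)]
  have h0 : 2 * m < Module.finrank F (Fin d ⊕ Fin d → F) := by rw [finrank_plus]; omega
  obtain ⟨hrp, h5⟩ := ht_of_dvd (p := p) hQ hi.symm h0 hrΩ
  by_cases hr2 : r = 2
  · subst hr2
    have h1 := (odd_card_iff_char (F := F)).2 hrp.symm
    rw [two_ts ((two_eq_zero_iff_char (p := p)).not.2 hrp.symm) hQ h0, finrank_plus, E2, tpw_qPlus,
      ar₃ hh_le_one (by omega) hmd, Nat.even_iff]
    simp only [lt_self_iff_false, false_and, and_false, or_false, true_and]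
    rcases hh_cases F with ⟨h, h'⟩ | ⟨h, h'⟩ <;> rw [h] <;> omega
  obtain ⟨h3, h4, h7, h6⟩ := el_ts_odd hQ hr2 hrp (m := m) hi.symm
  replace h5 := h5 hr2
  rw [finrank_plus] at h0 h5 h6
  rw [tpw_qPlus] at h5 h6
  rw [h6, ← cc, TT]
  rcases cc_ss i with ⟨h8, h9, h10, h11⟩ | ⟨h8, h9, h10, h11⟩ <;> rw [h10, h11] at h5 <;>
    rw [h10] <;> simp only [hr2, hrp, h3, h8, h9, ne_eq, not_false_eq_true, false_and,
      true_and, false_or, or_false, and_true, if_true, if_false, Nat.even_iff (n := _ / i),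
      Nat.odd_iff (n := _ / i)]
  · rw [at_iff₃ h4 (h7 h8) h5 h0]
    omega
  · rw [at_iff₃' h4 h5 h0]
    omega

end Cfsg.Agent.S5973
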