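import Cfsg.Statements.S5974
import Cfsg.Agent.H28.EloInv

set_option autoImplicit false
open scoped MatrixGroups
open Cfsg

namespace Cfsg.Agent.S5974

/-- Elements of prime order of PΩ⁺_n(q), n = 2d ≥ 8, with no fixed nondegenerate hyperbolic `m`-space. Here `T = PΩ⁺_n(q)` is realised through `Ω⁺_n(q)`, the commutator subgroup of the isometry group of `Q = Σ xᵢyᵢ` over the field `F` with `q` elements; an element of `T` of prime order `r` is an element `x` of `Ω⁺_n(q)` with `x^r` scalar and `x` not scalar. A hyperbolic `m`-space is a subspace `W` of even dimension `m` on which the polar form of `Q` is nondegenerate and which contains a totally singular subspace of dimension `m/2`. Let `m` be even with `2 ≤ m < n/2`, and let `r` be a prime dividing the number of hyperbolic `m`-spaces, with `r = 2` or `r ≠ p`. For `r ≠ p` let `i` be the multiplicative order of `q` modulo `r`, `c = i` for `i` even and `c = 2i` for `i` odd, and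 write `k = n mod c`, `ℓ' = m mod c`. Then every element of `T` of order `r` fixes some hyperbolic `m`-space if and only if one of: (i) `r = 2` and (`n ≡ 2 (mod 4)`, or `m ≡ 0 (mod 4)`, or `q ≡ 1 (mod 4)`); (ii) `r ≠ p` odd, `i` odd, `c ≤ m` and `k ≥ ℓ'`; (iii) `r ≠ p` odd, `i` even, and either `k = 0` and (`n/i` odd, or `ℓ' = 0` and `m/i` even), or `i ≤ m` and (`k > ℓ' > 0`, or `k = ℓ' > 0` and `(n + m − 2k)/i` even, or `k > ℓ' = 0` and `m/i` even). -/
theorem result {F : Type*} [Field F] [Fintype F] {p : ℕ} [Fact p.Prime] [CharP F p] {q : ℕ} (hq : Fintype.card F = q)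
    (d m : ℕ) (hd : 4 ≤ d) (hm : 2 ≤ m) (hme : Even m) (hmd : m < d)
    (r : ℕ) [Fact r.Prime] (hr : r = 2 ∨ r ≠ p)
    (hrΩ : r ∣ Nat.card {W : Submodule F (Fin d ⊕ Fin d → F) // (Module.finrank F ↥W = m ∧ (∀ u ∈ W, u ≠ 0 → ∃ v ∈ W, QuadraticMap.polar (Cfsg.quadFormPlus d F) u v ≠ 0) ∧
          ∃ U : Submodule F (Fin d ⊕ Fin d → F), U ≤ W ∧ 2 * Module.finrank F ↥U = m ∧ ∀ u ∈ U, Cfsg.quadFormPlus d F u = 0)})
    (i c : ℕ) (hi : i = orderOf (q : ZMod r)) (hc : c = if Even i then i else 2 * i) :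
    (∀ x : GL (Fin d ⊕ Fin d) F, x ∈ Cfsg.Geo.omegaGL (Cfsg.quadFormPlus d F) →
      (∃ z : F, ((x ^ r : GL (Fin d ⊕ Fin d) F) : Matrix (Fin d ⊕ Fin d) (Fin d ⊕ Fin d) F) = z • (1 : Matrix (Fin d ⊕ Fin d) (Fin d ⊕ Fin d) F)) →
      (∀ z : F, (x : Matrix (Fin d ⊕ Fin d) (Fin d ⊕ Fin d) F) ≠ z • (1 : Matrix (Fin d ⊕ Fin d) (Fin d ⊕ Fin d) F)) →
      ∃ W : Submodule F (Fin d ⊕ Fin d → F), (Module.finrank F ↥W = m ∧ (∀ u ∈ W, u ≠ 0 → ∃ v ∈ W, QuadraticMap.polar (Cfsg.quadFormPlus d F) u v ≠ 0) ∧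
          ∃ U : Submodule F (Fin d ⊕ Fin d → F), U ≤ W ∧ 2 * Module.finrank F ↥U = m ∧ ∀ u ∈ U, Cfsg.quadFormPlus d F u = 0) ∧
        W.map (Matrix.toLin' (x : Matrix (Fin d ⊕ Fin d) (Fin d ⊕ Fin d) F)) ≤ W) ↔
    ((r = 2 ∧ ((2 * d) % 4 = 2 ∨ m % 4 = 0 ∨ q % 4 = 1)) ∨
     (r ≠ p ∧ 2 < r ∧ Odd i ∧ c ≤ m ∧ m % c ≤ (2 * d) % c) ∨
     (r ≠ p ∧ 2 < r ∧ Even i ∧
       (((2 * d) % c = 0 ∧ (Odd ((2 * d) / i) ∨ (m % c = 0 ∧ Even (m / i)))) ∨
        (i ≤ m ∧ ((m % c < (2 * d) % c ∧ 0 < m % c) ∨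
                  ((2 * d) % c = m % c ∧ 0 < m % c ∧ Even ((2 * d + m - 2 * ((2 * d) % c)) / i)) ∨
                  (0 < (2 * d) % c ∧ m % c = 0 ∧ Even (m / i))))))) := by
  open Cfsg.Agent.H28 Cfsg.Agent.H30 in
  subst hq hc
  have hQ := qPlus_nondegenerate (F := F) d
  have hn := finrank_plus (F := F) d
  rw [← coe_qPlus] at hrΩ ⊢
  simp only [plus_iff_ndt' hme] at hrΩ ⊢
  rw [el_iff hQ (by simp; omega)]
  have h0 := Nat.even_iff.1 hme
  by_cases hr2 : r = 2
  · subst hr2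
    simp only [lt_self_iff_false, false_and, and_false, or_false, true_and]
    have h1 := odd_card_iff_char (F := F) (p := p)
    by_cases h2 : (2 : F) = 0
    · rw [char_two_nd h2 hQ h0 (by omega) (by omega), hn, tpw_qPlus,
        ai_iff hd h0 (by omega) (by omega) (by omega) (by omega)]
      have := two_eq_zero_iff_char (p := p).1 h2
      omega
    · rw [two_nd h2 hQ (by omega) (by omega), hn, E2, tpw_qPlus]
      have := two_eq_zero_iff_char (p := p).not.1 h2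
      rcases hh_cases F with ⟨h, h'⟩ | ⟨h, h'⟩ <;> rw [h] <;> omega
  have hrp := hr.resolve_left hr2
  obtain ⟨h3, h4, h5, h6⟩ := el_nd_odd hQ hr2 hrp hi.symm (fun _ => hme) hrΩ
  rw [hn, tpw_qPlus] at h5 h6
  rw [h6, an_iff₃ (cc_pos h4) (ss_cases i) h5 (by omega) (by omega), ← cc]
  have h15 : m % i = 0 → i ≤ m := fun h => Nat.le_of_dvd (by omega) (Nat.dvd_of_mod_eq_zero h)
  have h14 := add_sub_div (n := 2 * d) (m := m) h4
  rcases cc_ss i with ⟨h8, h9, h10, h11⟩ | ⟨h8, h9, h10, h11⟩ <;>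
    simp only [hr2, hrp, h3, h8, h9, h10, h11, ne_eq, not_false_eq_true, false_and,
      true_and, false_or, or_false, Nat.odd_iff (n := _ / i), Nat.even_iff (n := _ / i)]
  · generalize (2 * d + m - 2 * (2 * d % i)) / i = X at *
    generalize 2 * d / i = N at *
    generalize m / i = M at *
    generalize 2 * d % i = k at *
    generalize m % i = l at *
    omega
  · generalize 2 * d % (2 * i) = k at *
    generalize m % (2 * i) = l at *
    omega

end Cfsg.Agent.S5974
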