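import Cfsg.Statements.S5975
import Cfsg.Agent.H77.ElusExtSp

set_option autoImplicit false
open scoped MatrixGroups
open scoped Matrix
open Cfsg

namespace Cfsg.Agent.S5975

open Cfsg.Agent.H77

/-- Elements of prime order of PSp_n(q) and the field-extension subgroups of type Sp_{n/k}(q^k). Here `T = PSp_{2d}(F)` for a field `F` with `q` elements (`d ≥ 2`, `(d, q) ≠ (2, 2)`), realised through the matrices preserving the standard alternating form `f`; `k` is a prime and `K` is a subalgebra of the `2d × 2d` matrices that is a field of degree `k` over `F` whose elements are self-adjoint for `f` and satisfy `f(a v, v) = 0` (so `F^{2d}` becomes a vector space over `K ≅ F_{q^k}` on which `f` is the trace of a `K`-bilinear alternating form); `H` is the subgroup of `T` normalizing `K` — the symplectic maps that are `K`-linear or `K`-semilinear, a subgroup of type Sp_{2d/k}(q^k) (maximality is not assumed). Ω is the set of cosets of `H` in `T`, so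 an element of `T` of prime order `r` (`x ∈ T` with `x^r` scalar, `x` not scalar) fixes a point of Ω exactly when some `T`-conjugate of `x` normalizes `K`. Let `r` be a prime dividing the index of `H`. Then every element of `T` of order `r` fixes a point of Ω if and only if `r = 2`, `d = 2`, `k = 2` and `q` is odd. -/
theorem result {F : Type*} [Field F] [Fintype F] {p : ℕ} [Fact p.Prime] [CharP F p] {q : ℕ} (hq : Fintype.card F = q)
    (d : ℕ) (hd : 2 ≤ d) (hT : (d, q) ≠ (2, 2)) (k : ℕ) (hk : k.Prime)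
    (K : Subalgebra F (Matrix (Fin d ⊕ Fin d) (Fin d ⊕ Fin d) F)) (hK : Cfsg.Geo.IsFieldSubalgebra k K)
    (hKf : Cfsg.Geo.IsSelfAdjointFor (Cfsg.sympForm d F) K) (hKalt : ∀ a ∈ K, ∀ v : Fin d ⊕ Fin d → F, Cfsg.sympForm d F (a *ᵥ v) v = 0)
    (r : ℕ) [Fact r.Prime]
    (hΩ : r ∣ (Cfsg.Geo.subalgebraNormalizer K).relIndex (Cfsg.spGL d F)) :
    (∀ x ∈ Cfsg.spGL d F, (∃ z : F, ((x ^ r : GL (Fin d ⊕ Fin d) F) : Matrix (Fin d ⊕ Fin d) (Fin d ⊕ Fin d) F) = z • (1 : Matrix (Fin d ⊕ Fin d) (Fin d ⊕ Fin d) F)) →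
      (∀ z : F, (x : Matrix (Fin d ⊕ Fin d) (Fin d ⊕ Fin d) F) ≠ z • (1 : Matrix (Fin d ⊕ Fin d) (Fin d ⊕ Fin d) F)) →
      ∃ g ∈ Cfsg.spGL d F, g⁻¹ * x * g ∈ Cfsg.Geo.subalgebraNormalizer K) ↔
    (r = 2 ∧ d = 2 ∧ k = 2 ∧ Odd q) := by
  subst hq
  have hr : r.Prime := Fact.out
  have hB := H76.isEForm_jBilin (F := F) (Fin d)
  have hA := H27.jBilin_isAlt (l := Fin d) (F := F)
  have := nontrivial_sum_fun (F := F) (d := d) (by omega)
  have : Nonempty (Fin d ⊕ Fin d) := ⟨Sum.inl ⟨0, by omega⟩⟩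
  have h0 : Module.finrank F (Fin d ⊕ Fin d → F) = 2 * d := by simp [two_mul]
  obtain ⟨E, _, _, _, _, _, h1, h2, -, h3⟩ := exists_ext_of_isFieldSubalgebra hK
  have : FiniteDimensional E (Fin d ⊕ Fin d → F) := Module.Finite.of_restrictScalars_finite F E _
  rw [H27.sympForm_eq_fun] at hKf hKalt
  obtain ⟨h, lam, T⟩ := H27.exists_traceForm (K := E) hB.nondegenerate
    (fun a u v => by obtain ⟨m, hm, h⟩ := h2 a; rw [h, h]; exact hKf m hm u v)
    fun a v => by obtain ⟨m, hm, h⟩ := h2 a; rw [h]; exact hKalt m hm v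
  obtain ⟨m, hm⟩ := (H27.even_finrank_of_alt T.nd T.alt).two_dvd
  have h4 := Module.finrank_mul_finrank F E (Fin d ⊕ Fin d → F)
  rw [h0, h1, hm, mul_left_comm] at h4
  replace h4 := Nat.eq_of_mul_eq_mul_left two_pos h4
  have h5 := hk.two_le
  rw [forall_spGL_conj_iff h3]
  refine ⟨fun H => ?_, ?_⟩
  swap
  · rintro ⟨rfl, rfl, rfl, h6⟩
    have h7 := H30.two_ne_zero_iff_odd_card.mpr h6
    have h8 : 2 ≠ p := by rintro rfl; exact h7 (by exact_mod_cast CharP.cast_eq_zero F 2)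
    refine (forall_two_iff hB h7 fun _ h => h).mpr ⟨fun f h9 h10 h11 h12 => ?_, fun f h9 h10 => ?_⟩
    · obtain ⟨θ, h13, h14, h15, h16⟩ := exists_semi_invol T h1
      obtain ⟨⟨a, h17⟩, h18, h19⟩ := alt_finrank_fixK hB hA h7 h9 h10
      obtain ⟨⟨b, h20⟩, h21, h22⟩ := alt_finrank_fixK hB hA h7 h15 h16
      have := h21 (by rintro rfl; exact h14 fun _ _ => rfl)
      have := h22 (by rintro rfl; exact h14 fun _ _ => (smul_neg _ _).symm)
      exact iConj_of_sq_one hB hA h7 h9 h15 h10 h16 (by have := h18 h11; have := h19 h12; omega) h13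
    · obtain ⟨g, h11, h12, h13⟩ := exists_kLin_sq_eq_neg T h8
      exact iConj_of_sq_neg hB h8 h9 h12 h10 h13 h11.semi
  by_cases hrp : r = p
  · subst hrp
    obtain ⟨f, h6, h7, h8⟩ := alt_exists_tv (p := r) hB hA (by omega)
    obtain ⟨g, h9, h10, -, h11⟩ := (H f h6 ⟨1, by rwa [one_smul]⟩
      (ne_smul_of_finrank_fixK (by omega) (by omega))).exists_pow h6 h7
    have h12 := h9.dvd_or_le (hB.sep.isUnit_of_pres h10) 1
    rw [one_smul, h11, h8, h0, h1] at h12
    have h13 := (Nat.dvd_sub_iff_right (by omega) (h4 ▸ (dvd_mul_right k m).mul_left 2)).mp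
      (h12.resolve_right (by omega))
    exact absurd (Nat.le_of_dvd one_pos h13) (by omega)
  have key' : ∀ g c, Semi E g → H76.Pres (H27.jBilin (Fin d) F) g → g ^ r = 1 → c ≤ 2 * d →
      Module.finrank F (fixK g) = 2 * d - c → ¬ k * 2 ∣ c → ¬ KLin E g ∧ d ≤ c :=
    fun g c h6 h7 h8 h9 h10 h11 => by
      have h12 : ¬ KLin E g := fun h => h11 ((Nat.dvd_sub_iff_right h9 ⟨m, by rw [← h4]; ring⟩).mp
        (h1 ▸ h10 ▸ two_mul_dvd_finrank_fixK T h h7 hrp h8))
      have h13 := h6.two_mul_le h12 (hB.sep.isUnit_of_pres h7) 1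
      rw [one_smul, h10] at h13
      exact ⟨h12, by omega⟩
  by_cases hr2 : r = 2
  · subst hr2
    have h6 := (Int.odd_coe_nat _).mp (odd_card_cast (F := F) hrp)
    obtain ⟨f, h7, h8, h9⟩ := alt_exists_invol hB hA (H30.two_ne_zero_iff_odd_card.mpr h6)
      (a := 2 * d - 2) ⟨d - 1, by omega⟩ (by omega)
    obtain ⟨g, h10, h11, h12, h13⟩ := (H f h7 ⟨1, by rwa [one_smul]⟩
      (ne_smul_of_finrank_fixK (by omega) (by omega))).exists_pow h7 h8
    obtain rfl : d = 2 := le_antisymm (key' g 2 h10 h11 h12 (by omega) (h13.trans h9)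
      fun h => absurd (Nat.le_of_dvd two_pos h) (by omega)).2 hd
    exact ⟨rfl, rfl, (Nat.prime_dvd_prime_iff_eq hk Nat.prime_two).mp ⟨m, h4.symm⟩, h6⟩
  have := Fintype.ofFinite E
  have h6 := relIndex_mul_card_isom_dvd T.eq h3
  erw [H27.card_isomGroup T.nd T.alt hm] at h6
  rw [Module.card_eq_pow_finrank (K := F) (V := E), h1] at h6
  replace h6 := h6.trans (dvd_of_eq (congrArg _ h4.symm))
  obtain ⟨j, h7, h8, h9, h10⟩ := exists_dvd_of_spOrder hr (not_dvd_card_of_ne hrp)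
    Fintype.one_lt_card hk.pos h6 hΩ
  have h11 := cOf_dvd_of_dvd Fintype.card_pos h10
  have h12 := Nat.le_of_dvd (by omega) h11
  have h13 := cOf_le_sub_one (F := F) hrp hr2
  obtain ⟨f, h14, h15, h16⟩ := alt_exists_prime hB hA hrp hr2 (a := 1) (by omega)
  rw [mul_one, h0] at h16
  have := Nat.pos_of_dvd_of_pos h11 (by omega)
  obtain ⟨g, h17, h18, h19, h20⟩ := (H f h14 ⟨1, by rwa [one_smul]⟩
    (ne_smul_of_pow_odd hB h14 (hr.odd_of_ne_two hr2) h15 (by omega))).exists_pow h14 h15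
  obtain ⟨h21, h22⟩ := key' g _ h17 h18 h19 (by omega) (h20.trans h16) fun h =>
    h9 (Nat.dvd_of_mul_dvd_mul_right two_pos (mul_comm 2 j ▸ h.trans h11))
  refine (h21 (h17.kLin_of_pow (hB.sep.isUnit_of_pres h18) (z := 1) (by rwa [one_smul]) ?_)).elim
  rw [h1, Nat.coprime_primes hr hk]
  rintro rfl
  have := Nat.le_of_dvd (by omega) (⟨m, h4.symm⟩ : r ∣ d)
  omega

end Cfsg.Agent.S5975
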