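import Cfsg.Statements.S5976
import Cfsg.Agent.H77.ElusExtSp

set_option autoImplicit false
open scoped MatrixGroups
open Cfsg

namespace Cfsg.Agent.S5976

open Cfsg.Agent.H77

/-- Elements of prime order of PSp_n(q), q odd, and the subgroups of type GU_{n/2}(q). Here `T = PSp_{2d}(F)` for a field `F` with `q` elements, `q` odd, `d ≥ 2`, realised through the matrices preserving the standard alternating form `f`; `K` is a subalgebra of the `2d × 2d` matrices that is a field of degree 2 over `F`, closed under taking adjoints for `f` but not consisting of self-adjoint elements (so `F^{2d}` becomes a `d`-dimensional space over `K ≅ F_{q²}` on which `f` is the trace of a multiple of a non-degenerate hermitian form); `H` is the subgroup of `T` normalizing `K` — the symplectic maps that are `K`-linear or `K`-semilinear, a subgroup of type GU_d(q) (maximality is not assumed). Ω is the set of cosets of `H` in `T`, so an element of `T` of prime order `r` (`x ∈ T` with `x^r`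 scalar, `x` not scalar) fixes a point of Ω exactly when some `T`-conjugate of `x` normalizes `K`. Let `r` be a prime dividing the index of `H`. Then every element of `T` of order `r` fixes a point of Ω if and only if `r = 2`. -/
theorem result {F : Type*} [Field F] [Fintype F] {p : ℕ} [Fact p.Prime] [CharP F p] {q : ℕ} (hq : Fintype.card F = q)
    (hodd : Odd q) (d : ℕ) (hd : 2 ≤ d)
    (K : Subalgebra F (Matrix (Fin d ⊕ Fin d) (Fin d ⊕ Fin d) F)) (hK : Cfsg.Geo.IsFieldSubalgebra 2 K)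
    (hKf : Cfsg.Geo.IsAdjointClosedFor (Cfsg.sympForm d F) K) (hKns : ¬ Cfsg.Geo.IsSelfAdjointFor (Cfsg.sympForm d F) K)
    (r : ℕ) [Fact r.Prime]
    (hΩ : r ∣ (Cfsg.Geo.subalgebraNormalizer K).relIndex (Cfsg.spGL d F)) :
    (∀ x ∈ Cfsg.spGL d F, (∃ z : F, ((x ^ r : GL (Fin d ⊕ Fin d) F) : Matrix (Fin d ⊕ Fin d) (Fin d ⊕ Fin d) F) = z • (1 : Matrix (Fin d ⊕ Fin d) (Fin d ⊕ Fin d) F)) →
      (∀ z : F, (x : Matrix (Fin d ⊕ Fin d) (Fin d ⊕ Fin d) F) ≠ z • (1 : Matrix (Fin d ⊕ Fin d) (Fin d ⊕ Fin d) F)) →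
      ∃ g ∈ Cfsg.spGL d F, g⁻¹ * x * g ∈ Cfsg.Geo.subalgebraNormalizer K) ↔ r = 2 := by
  subst hq
  have hr : r.Prime := Fact.out
  have hB := H76.isEForm_jBilin (F := F) (Fin d)
  have hA := H27.jBilin_isAlt (l := Fin d) (F := F)
  have := nontrivial_sum_fun (F := F) (d := d) (by omega)
  have : Nonempty (Fin d ⊕ Fin d) := ⟨Sum.inl ⟨0, by omega⟩⟩
  have h0 : Module.finrank F (Fin d ⊕ Fin d → F) = 2 * d := by simp [two_mul]
  obtain ⟨E, _, _, _, _, _, h1, h2, h3, h4⟩ := exists_ext_of_isFieldSubalgebra hK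
  have : FiniteDimensional E (Fin d ⊕ Fin d → F) := Module.Finite.of_restrictScalars_finite F E _
  have := Fintype.ofFinite E
  have h5 : Fintype.card E = Fintype.card F ^ 2 := h1 ▸ Module.card_eq_pow_finrank
  rw [H27.sympForm_eq_fun] at hKf hKns
  obtain ⟨h, lam, h6, h7, h8, h9⟩ := exists_herm_trace h1 h5 hB
    (fun a => by
      obtain ⟨m, hm, h⟩ := h2 a
      obtain ⟨m', hm', h'⟩ := hKf m hm
      obtain ⟨a', ha'⟩ := h3 m' hm'
      exact ⟨a', fun u v => by rw [h, ha']; exact h' u v⟩)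
    fun h => hKns fun m hm u v => by obtain ⟨a, ha⟩ := h3 m hm; rw [← ha, ← ha]; exact h a u v
  have h10 := Module.finrank_mul_finrank F E (Fin d ⊕ Fin d → F)
  rw [h0, h1] at h10
  replace h10 := Nat.eq_of_mul_eq_mul_left two_pos h10
  have h11 := H30.two_ne_zero_iff_odd_card.mpr hodd
  have h12 : 2 ≠ p := by rintro rfl; exact h11 (by exact_mod_cast CharP.cast_eq_zero F 2)
  rw [forall_spGL_conj_iff h4]
  refine ⟨fun H => by_contra fun hr2 => ?_, ?_⟩
  swap
  · rintro rfl
    refine (forall_two_iff hB h11 fun _ h => h).mpr ⟨fun f h13 h14 _ _ => ?_, fun f h13 h14 => ?_⟩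
    · obtain ⟨a, ha⟩ := (alt_finrank_fixK hB hA h11 h13 h14).1.two_dvd
      have := (fixK f).finrank_le
      obtain ⟨g, h15, h16, h17, h18⟩ := exists_kLin_invol h6 h9 h11 (a := a) (by omega)
      exact iConj_of_sq_one hB hA h11 h13 h16 h14 h17 (by rw [h18, ha, h1]) h15.semi
    · obtain ⟨g, h15, h16, h17⟩ := exists_semi_sq_eq_neg h1 h6 h8 h9
      exact iConj_of_sq_neg hB h12 h13 h16 h14 h17 h15
  have key : ∀ f, H76.Pres (H27.jBilin (Fin d) F) f → f ^ r = 1 →
      Module.finrank F (fixK f) < 2 * d → ∃ g, KLin E g ∧ H76.Pres (H27.jBilin (Fin d) F) g ∧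
        g ^ r = 1 ∧ Module.finrank F (fixK g) = Module.finrank F (fixK f) := fun f h13 h14 h15 => by
    obtain ⟨g, h16, h17, h18, h19⟩ := (H f h13 ⟨1, by rwa [one_smul]⟩
      (ne_smul_of_pow_odd hB h13 (hr.odd_of_ne_two hr2) h14 (by omega))).exists_pow h13 h14
    exact ⟨g, h16.kLin_of_pow (hB.sep.isUnit_of_pres h17) (z := 1) (by rwa [one_smul])
      (h1 ▸ (Nat.coprime_primes hr Nat.prime_two).mpr hr2), h17, h18, h19⟩
  by_cases hrp : r = p
  · subst hrp
    obtain ⟨f, h13, h14, h15⟩ := alt_exists_tv (p := r) hB hA (by omega)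
    obtain ⟨g, h16, -, -, h17⟩ := key f h13 h14 (by omega)
    rw [h16.finrank_fixK, h1] at h17
    omega
  have h13 := relIndex_mul_card_isom_dvd h9 h4
  rw [h6.card_isom h5 fun _ => rfl, h10] at h13
  obtain ⟨j, h14, h15, h16⟩ := exists_dvd_of_ordGU hr (not_dvd_card_of_ne hrp)
    Fintype.one_lt_card h13 hΩ
  rw [← ZMod.intCast_zmod_eq_zero_iff_dvd, Int.cast_add, Int.cast_pow, Int.cast_one,
    add_eq_zero_iff_eq_neg] at h16
  obtain ⟨b, h17⟩ : cOf (orderOf (Fintype.card F : ZMod r)) ∣ 2 * j :=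
    cOf_dvd (orderOf_dvd_of_pow_eq_one (by
      rw [← (even_two_mul j).neg_pow, mul_comm, pow_mul, ← Int.cast_natCast, ← Int.cast_neg, h16,
        neg_one_sq])) (even_two_mul j)
  obtain ⟨c, h18⟩ := (even_cOf (orderOf (Fintype.card F : ZMod r))).two_dvd
  rw [h18, mul_assoc] at h17
  obtain rfl := Nat.eq_of_mul_eq_mul_left two_pos h17
  have h19 := Nat.le_of_dvd h14 (dvd_mul_right c b)
  have h20 := Nat.pos_of_mul_pos_right h14
  obtain ⟨f, h21, h22, h23⟩ := alt_exists_prime hB hA hrp hr2 (a := 1) (by omega)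
  obtain ⟨g, h24, h25, h26, h27⟩ := key f h21 h22 (by omega)
  have : CharP E p := charP_of_injective_algebraMap (algebraMap F E).injective p
  have h28 := herm_pow_eq_one h6 (h24.pres_toEnd h7 h9 h25) hr hrp (h24.toEnd_pow_eq_one h26)
  rw [h24.finrank_fixK, h1] at h27
  rw [h10, show d - Module.finrank E (fixK h24.toEnd) = c by omega] at h28
  rw [pow_mul, h28, one_pow] at h16
  exact zmod_two_ne_zero hr2 (by linear_combination h16)

end Cfsg.Agent.S5976
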