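import Cfsg.Statements.S5979
import Cfsg.Agent.H77.ElusTen

set_option autoImplicit false
open scoped MatrixGroups
open Cfsg

namespace Cfsg.Agent.S5979

open Cfsg.Agent.H77

/-- Elements of prime order of PSL_n(q) and the stabilizers of tensor decompositions with factors of different dimensions. Here `T = PSL_n(F)` for a field `F` with `q` elements and `n = a·b` with `2 ≤ a < b`; a tensor decomposition `F^n ≅ F^a ⊗ F^b` is given by a bijection `e` of index sets and a change of basis `P`, and `H` is the subgroup of matrices of determinant 1 in its stabilizer (the conjugate by `P` of the group of Kronecker products `g₁ ⊗ g₂`) — a subgroup of type GL_a(q) ⊗ GL_b(q) (maximality is not assumed); Ω is the set of cosets of `H` in `T`, so an element of `T` of prime order `r` (a matrix `x` of determinant 1 with `x^r` scalar, `x` not scalar) fixes a point of Ω exactly when some conjugate of `x` by a matrix of determinant 1 lies in `H`. Let `r` be a prime dividing the index of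 `H`. Then every element of `T` of order `r` fixes a point of Ω if and only if `r = 2`, `a = 2`, `q` is odd and `(q − 1)_2 ≤ (n)_2` (2-parts). -/
theorem result {F : Type*} [Field F] [Fintype F] {p : ℕ} [Fact p.Prime] [CharP F p] {q : ℕ} (hq : Fintype.card F = q)
    (n a b : ℕ) (hab : n = a * b) (ha : 2 ≤ a) (hlt : a < b) (e : Fin n ≃ Fin a × Fin b) (P : GL (Fin n) F)
    (r : ℕ) [Fact r.Prime]
    (hΩ : r ∣ (Cfsg.Geo.tensorProductSubgroup a b e P).relIndex (Cfsg.Geo.specialLinear (Fin n) F)) :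
    (∀ x ∈ Cfsg.Geo.specialLinear (Fin n) F, (∃ z : F, ((x ^ r : GL (Fin n) F) : Matrix (Fin n) (Fin n) F) = z • (1 : Matrix (Fin n) (Fin n) F)) →
      (∀ z : F, (x : Matrix (Fin n) (Fin n) F) ≠ z • (1 : Matrix (Fin n) (Fin n) F)) →
      ∃ g ∈ Cfsg.Geo.specialLinear (Fin n) F, g⁻¹ * x * g ∈ Cfsg.Geo.tensorProductSubgroup a b e P) ↔
    (r = 2 ∧ a = 2 ∧ Odd q ∧ padicValNat 2 (q - 1) ≤ padicValNat 2 n) := by
  classical
  subst hq
  have hr : r.Prime := Fact.out
  let L := AlgebraicClosure F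
  have h0 : 2 * b ≤ n := hab ▸ Nat.mul_le_mul_right b ha
  have : Nonempty (Fin n) := ⟨⟨0, by omega⟩⟩
  have hU := Module.finrank_fin_fun (n := a) F
  have hW := Module.finrank_fin_fun (n := b) F
  have hV : Module.finrank F (TensorProduct F (Fin a → F) (Fin b → F)) = n := by
    rw [Module.finrank_tensorProduct, hU, hW, hab]
  rw [forall_specialLinear_iff]
  have h1 := fun hp2 => exists_pow_eq_neg_one_iff (L := L) (p := p) (n := n) hp2
    (card_ne_one' (F := F)) (by omega)
  rw [H76.natAbs_sub_one Fintype.card_pos] at h1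
  refine ⟨fun H => ?_, ?_⟩
  swap
  · rintro ⟨rfl, rfl, h2, h3⟩
    have hp2 : 2 ≠ p := by
      rintro rfl
      exact h2.not_two_dvd_nat (Int.natCast_dvd_natCast.mp (H76.char_dvd_card F 2))
    have h4 : (2 : ℤ) ∣ Fintype.card F - 1 := ((odd_card_cast (F := F) hp2).sub_odd odd_one).two_dvd
    refine (forall_sl_conj_iff (p := p) L hr (Or.inl rfl) (R := fun s =>
      ∃ (α : Module.End F (Fin 2 → F)) (β : Module.End F (Fin b → F)),
      HasJ L (TensorProduct.map α β) s) fun x _ => exists_ten_ujord_iff e P).mpr fun s hs hd => ?_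
    rcases unif_of_pk Fact.out hr hp2 h4 hs.adm hs.pk with h5 | h5
    · obtain ⟨d, k, h6, h7, h8, rfl⟩ := hs.eq_refl hp2 h5
      obtain ⟨k, rfl⟩ : 2 ∣ k := (Nat.even_or_odd k).elim Even.two_dvd fun h9 => by
        rw [(pElt_refl hp2 h4 h6 h7 h8).2, h9.neg_one_pow, neg_one_mul, neg_eq_iff_eq_neg] at hd
        exact absurd ((h1 hp2).mp ⟨d, h6, hd⟩) h3.not_gt
      obtain ⟨β, h9⟩ := exists_hasJ_fin (F := F) (pElt_refl hp2 h4 h6 (a := k) (n := b) (by omega)
        (by omega)).1.adm
      have h10 := h9.lTensor 2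
      rw [nsmul_add, Multiset.nsmul_replicate, Multiset.nsmul_replicate, Nat.mul_sub, ← hab] at h10
      exact ⟨1, β, h10⟩
    · obtain ⟨y, hy, -⟩ := hs.exists_ne Fact.out hr hp2
      obtain ⟨z, hz⟩ := exists_algebraMap_eq (F := F) (pow_fixed_of_pk hs.adm hs.pk hy)
      obtain ⟨t, u, rfl, h6, -⟩ := h5.exists_add (a := 1) (by omega)
      obtain ⟨α, h7⟩ := exists_hasJ_fin (F := F) h6.adm
      have h8 : ∀ x ∈ t + u, (x.1 : L) ^ 2 = algebraMap F L z := fun x hx => by
        rw [hz, ← hs.pk.1 x hx y hy]; rfl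
      have h9 := (h7.pow_eq_smul_iff p 2 z).mpr fun x hx =>
        ⟨h8 x (Multiset.mem_add.mpr (Or.inl hx)), hs.pk.2 x (Multiset.mem_add.mpr (Or.inl hx))⟩
      exact ⟨α, 1, (h7.rTensor b).eq_of_unif hr hp2 h4 (z := z) (by
        rw [LinearMap.rTensor_pow, h9, LinearMap.rTensor_smul]; simp [Module.End.one_eq_id])
        (hV.symm ▸ h5) h8 ▸ h7.rTensor b⟩
  replace H := fun s hs hd => (exists_ten_ujord_iff (s := s) e P).mp
    (exists_mem_of_forall_sl (p := p) (L := L) H hs hd)
  by_cases hrp : r = p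
  · subst hrp
    obtain ⟨h2, h3⟩ := pElt_transvection (L := L) (p := r) (Q := Fintype.card F) (n := n) (by omega)
    obtain ⟨α, β, h4⟩ := H _ h2 h3
    have := add_min_le_of_finrank_ker h4.isUnit (h4.finrank_ker_tv (by omega))
    rw [hU, hW, ← hab] at this
    omega
  by_cases hr2 : r = 2
  · subst hr2
    have h2 := odd_card_cast (F := F) hrp
    have h3 : (2 : ℤ) ∣ Fintype.card F - 1 := (h2.sub_odd odd_one).two_dvd
    have h4 : ∀ (d : Lˣ) (k : ℕ), d ^ (Fintype.card F : ℤ) = d → 0 < k → k < n →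
        (-1) ^ k * d ^ n = 1 → a ≤ k := fun d k h4 h5 h6 h7 => by
      obtain ⟨h8, h9⟩ := pElt_refl hrp h3 h4 h5 h6
      obtain ⟨α, β, h10⟩ := H _ h8 (h9.trans h7)
      obtain ⟨c, hc⟩ := exists_algebraMap_eq (F := F) h4
      have := add_min_le_of_finrank_ker h10.isUnit (h10.finrank_ker_eq (fun x hx => by
        rw [Multiset.eq_of_mem_replicate hx]; exact units_neg_ne_self hrp d) hc)
      rw [hU, hW, ← hab] at this
      omega
    refine ⟨rfl, le_antisymm (h4 1 2 (one_zpow _) two_pos (by omega) (by simp)) ha,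
      (Int.odd_coe_nat _).mp h2, not_lt.mp fun h5 => ?_⟩
    obtain ⟨d, h6, h7⟩ := (h1 hrp).mpr h5
    have := h4 d 1 h6 one_pos (by omega) (by simp [h7])
    omega
  have h2 := not_dvd_card_of_ne (F := F) hrp
  have h3 := Nat.prime_iff_prime_int.mp hr
  obtain ⟨k, h4⟩ := card_GL_int (F := F) n
  have h5 := Int.natCast_dvd_natCast.mpr ((hΩ.mul_right 1).trans
    (relIndex_mul_dvd_card_GL (one_dvd _)))
  rw [h4] at h5
  obtain ⟨j, h6, h7⟩ := (h3.dvd_finsetProd_iff _).mp ((h3.dvd_or_dvd h5).resolve_left fun h =>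
    h2 (Int.natCast_dvd_natCast.mp (h3.dvd_of_dvd_pow h)))
  have h8 : orderOf ((Fintype.card F : ℤ) : ZMod r) ≤ j + 1 := orderOf_le_of_pow_eq_one j.succ_pos
    (by rw [← sub_eq_zero]; exact_mod_cast (ZMod.intCast_zmod_eq_zero_iff_dvd _ r).mpr h7)
  have := Finset.mem_range.mp h6
  obtain ⟨o, h9, h10, h11, h12, h13⟩ := exists_pElt_big (L := L) (n := n) hr hrp hr2
    (fun h => h2 (Int.natCast_dvd_natCast.mp h)) rfl (by omega)
  obtain ⟨α, β, h14⟩ := H _ h9 h10
  have := Module.nontrivial_of_finrank_pos (hU.symm ▸ (by omega : 0 < a))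
  have := Module.nontrivial_of_finrank_pos (hW.symm ▸ (by omega : 0 < b))
  by_cases h15 : ∀ z : F, α ≠ z • 1
  · have h16 := finrank_ker_tenMap_le' (isUnit_of_tenMap' h14.isUnit) h15 1
    rw [h14.finrank_ker_eq (fun x hx => (h13 x hx).2) (map_one _), hU, hW, ← hab] at h16
    obtain ⟨t, h17⟩ := exists_hasJ (L := L) (isUnit_of_tenMap h14.isUnit)
    have h18 := (h14.pow_eq_smul_iff p r 1).mpr fun x hx => ⟨by
      rcases Multiset.mem_add.mp hx with h | h
      · simpa using congrArg Units.val (h13 x h).1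
      · simp [Multiset.eq_of_mem_replicate h], h9.pk.2 x hx⟩
    rw [TensorProduct.map_pow] at h18
    obtain ⟨l, -, h19, -⟩ := exists_smul_of_tenMap one_ne_zero h18
    have := (h17.pElt h19 h15).le_of_not_dvd Fact.out hr hrp (by rw [dvd_sub_one_iff]; omega)
    omega
  obtain ⟨z, rfl⟩ := (not_forall.mp h15).imp fun _ => not_not.mp
  rw [tenMap_smul_left] at h14
  obtain ⟨t, h16⟩ := exists_hasJ (L := L) (isUnit_of_tenMap' (α := 1) h14.isUnit)
  obtain ⟨x, hx⟩ := Multiset.card_pos_iff_exists_mem.mp (show 0 < Multiset.card o by omega)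
  have h17 := congrArg (Multiset.count x) (h14.unique (h16.lTensor a))
  rw [Multiset.count_add, Multiset.count_eq_one_of_mem h11 hx, Multiset.count_nsmul,
    Multiset.count_eq_zero_of_notMem fun h => (h13 x hx).2 (by
      rw [Multiset.eq_of_mem_replicate h])] at h17
  exact absurd (Nat.le_of_dvd one_pos ⟨_, h17⟩) (by omega)

end Cfsg.Agent.S5979
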