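import Cfsg.Statements.S5980
import Cfsg.Agent.H77.ElusTen

set_option autoImplicit false
open scoped MatrixGroups
open Cfsg

namespace Cfsg.Agent.S5980

open Cfsg.Agent.H77

/-- Elements of prime order of PSp_n(q), q odd, and the stabilizers of tensor decompositions Sp_a(q) ⊗ O_b(q). Here `T = PSp_{2d}(F)` for a field `F` with `q` elements, `q` odd, `d ≥ 2`, realised through the matrices preserving the standard alternating form `f`; `2d = a·b` with `a` even, `b ≥ 3`, and the bijection `e` and change of basis `P` exhibit `f` as a non-zero scalar multiple of the tensor product of a non-degenerate alternating form `f₁` on `F^a` and a non-degenerate symmetric bilinear form `f₂` on `F^b`; `H` is the subgroup of `T` stabilizing this tensor decomposition (the elements of `T` in the conjugate by `P` of the group of Kronecker products) — a subgroup of type Sp_a(q) ⊗ O^ε_b(q) (maximality is not assumed). Ω is the set of cosets of `H` in `T`, so an element of `T` of prime order `r`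 (`x ∈ T` with `x^r` scalar, `x` not scalar) fixes a point of Ω exactly when some `T`-conjugate of `x` lies in `H`. Let `r` be a prime dividing the index of `H`. Then every element of `T` of order `r` fixes a point of Ω if and only if `r = 2` and `a = 2`. -/
theorem result {F : Type*} [Field F] [Fintype F] {p : ℕ} [Fact p.Prime] [CharP F p] {q : ℕ} (hq : Fintype.card F = q)
    (hodd : Odd q) (d : ℕ) (hd : 2 ≤ d) (a b : ℕ) (hab : 2 * d = a * b) (ha : Even a) (ha2 : 2 ≤ a) (hb : 3 ≤ b)
    (e : (Fin d ⊕ Fin d) ≃ Fin a × Fin b) (P : GL (Fin d ⊕ Fin d) F)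
    (f₁ : (Fin a → F) → (Fin a → F) → F) (f₂ : (Fin b → F) → (Fin b → F) → F)
    (hf₁ : Cfsg.Geo.IsSymplecticForm f₁) (hf₂ : Cfsg.Geo.IsSymmetricForm f₂)
    (hS : Cfsg.Geo.IsTensorFormStructure id (Cfsg.sympForm d F) f₁ f₂ e P)
    (r : ℕ) [Fact r.Prime]
    (hΩ : r ∣ (Cfsg.Geo.tensorProductSubgroup a b e P).relIndex (Cfsg.spGL d F)) :
    (∀ x ∈ Cfsg.spGL d F, (∃ z : F, ((x ^ r : GL (Fin d ⊕ Fin d) F) : Matrix (Fin d ⊕ Fin d) (Fin d ⊕ Fin d) F) = z • (1 : Matrix (Fin d ⊕ Fin d) (Fin d ⊕ Fin d) F)) →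
      (∀ z : F, (x : Matrix (Fin d ⊕ Fin d) (Fin d ⊕ Fin d) F) ≠ z • (1 : Matrix (Fin d ⊕ Fin d) (Fin d ⊕ Fin d) F)) →
      ∃ g ∈ Cfsg.spGL d F, g⁻¹ * x * g ∈ Cfsg.Geo.tensorProductSubgroup a b e P) ↔ (r = 2 ∧ a = 2) := by
  subst hq
  have hr : r.Prime := Fact.out
  have hB := H76.isEForm_jBilin (F := F) (Fin d)
  have hA := H27.jBilin_isAlt (l := Fin d) (F := F)
  have := nontrivial_sum_fun (F := F) (d := d) (by omega)
  have : Nonempty (Fin d ⊕ Fin d) := ⟨Sum.inl ⟨0, by omega⟩⟩
  have h0 : Module.finrank F (Fin d ⊕ Fin d → F) = 2 * d := by simp [two_mul]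
  have hU := Module.finrank_fin_fun (n := a) F
  have hW := Module.finrank_fin_fun (n := b) F
  have h1 := H30.two_ne_zero_iff_odd_card.mpr hodd
  have h2 : 2 ≠ p := by rintro rfl; exact h1 (by exact_mod_cast CharP.cast_eq_zero F 2)
  obtain ⟨c, h3, h4⟩ := H27.exists_tenFrame_form hf₁.bilinear hf₂.bilinear hS
  rw [H27.sympForm_eq_fun] at h4
  beta_reduce at h4
  set T := H27.tenFrame e P
  set A := c • H27.geoBilin hf₁.bilinear
  set B := H27.geoBilin hf₂.bilinear
  have h5 : A.IsAlt := fun v => by simp [A, H27.geoBilin_apply, hf₁.alternating]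
  have h6 : H76.IsEForm (-1) A := H76.isEForm_of_isAlt h5 ⟨fun v hv =>
    (H27.geoBilin_nondegenerate _ hf₁.nondegenerate).1 v fun w => by simpa [A, h3] using hv w,
    fun v hv => (H27.geoBilin_nondegenerate _ hf₁.nondegenerate).2 v fun w => by
      simpa [A, h3] using hv w⟩
  have h7 : H76.IsEForm 1 B := ⟨fun _ => rfl, one_mul _, fun v w =>
    (hf₂.symm w v).trans (one_mul _).symm, (H27.geoBilin_nondegenerate _ hf₂.nondegenerate).2⟩
  rw [forall_spGL_conj_iff (S := fun g => ∃ α β, ∀ v, g (T v) = T (TensorProduct.map α β v))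
    fun g => H27.mem_tensorProductSubgroup_iff e P g]
  have h8 : ∀ α β, H76.Pres A α → H76.Pres B β → H76.Pres (H27.jBilin (Fin d) F)
      (T.conj (TensorProduct.map α β)) := fun α β hα hβ u v => by
    obtain ⟨u, rfl⟩ := T.surjective u
    obtain ⟨v, rfl⟩ := T.surjective v
    simpa [h4] using pres_tenMap hα hβ u v
  have h9 : ∀ α β, H76.Sim (TensorProduct.map α β) (T.conj (TensorProduct.map α β)) :=
    fun α β => ⟨T, fun v => by simp⟩
  refine ⟨fun H => ?_, ?_⟩
  swap
  · rintro ⟨rfl, rfl⟩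
    refine (forall_two_iff hB h1 fun _ h => h).mpr ⟨fun f h10 h11 _ _ => ?_, fun f h10 h11 => ?_⟩
    · obtain ⟨k, hk⟩ := (alt_finrank_fixK hB hA h1 h10 h11).1.two_dvd
      have := (fixK f).finrank_le
      obtain ⟨E, -, h12, h13⟩ := sym_exists_nd_le h7 h1 (ef_nondegOn_top h7) (m := k)
        (by rw [finrank_top]; omega)
      obtain ⟨β, h14, h15, h16⟩ := exists_invol_of_nondegOn h7 h1 h12
      refine iConj_of_sq_one hB hA h1 h10 (h8 1 β H76.Pres.one h14) h11 ?_ ?_
        ⟨1, β, fun v => by simp⟩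
      · refine ((sim_pow_eq_smul_iff (h9 1 β) 2 1).mp ?_).trans (one_smul _ _)
        rw [TensorProduct.map_pow, h15, one_pow, TensorProduct.map_one, one_smul]
      · have h17 := (sim_finrank_ker' (h9 1 β) 1).symm.trans (finrank_ker_lTensor β 1)
        rw [one_smul, one_smul, hU] at h17
        rw [hk, ← h13, ← h16, h17]
    · obtain ⟨α, h12, h13⟩ := alt_exists_sq_eq_neg h6 h5 h2
      refine iConj_of_sq_neg hB h2 h10 (h8 α 1 h12 H76.Pres.one) h11 ?_ ⟨α, 1, fun v => by simp⟩
      rw [← sim_pow_eq_smul_iff (h9 α 1), TensorProduct.map_pow, h13, one_pow,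
        TensorProduct.map_smul_left, TensorProduct.map_one]
  have key : ∀ f, H76.Pres (H27.jBilin (Fin d) F) f → f ^ r = 1 → (∀ z : F, f ≠ z • 1) →
      ∃ α β, H76.Pres (H27.tB A B) (TensorProduct.map α β) ∧ TensorProduct.map α β ^ r = 1 ∧
        (∀ z : F, TensorProduct.map α β ≠ z • 1) ∧ Module.finrank F (fixK (TensorProduct.map α β)) =
          Module.finrank F (fixK f) ∧ Module.finrank F (fixK f) + min a b ≤ 2 * d :=
    fun f h10 h11 h12 => by
      obtain ⟨g, ⟨α, β, h13⟩, h14, h15⟩ := (H f h10 ⟨1, by rwa [one_smul]⟩ h12).exists h10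
      have h16 : H76.Sim (TensorProduct.map α β) f := H76.Sim.trans ⟨T, fun v => (h13 v).symm⟩ h15
      have h17 : ∀ z : F, TensorProduct.map α β ≠ z • 1 := fun z h => h12 z (by
        rwa [← pow_one f, ← sim_pow_eq_smul_iff h16, pow_one])
      have h18 := sim_finrank_ker' h16 1
      have h19 := finrank_ker_tenMap_le_min (by
        rw [LinearMap.isUnit_iff_isUnit_det, h16.det_eq, ← LinearMap.isUnit_iff_isUnit_det]
        exact hB.sep.isUnit_of_pres h10) h17 1
      rw [h18, hU, hW, ← hab, one_smul] at h19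
      rw [one_smul, one_smul] at h18
      exact ⟨α, β, fun u v => by rw [← h4, ← h4, ← h13, ← h13, h14], by
        rwa [← one_smul F 1, sim_pow_eq_smul_iff h16, one_smul], h17, h18, h19⟩
  by_cases hrp : r = p
  · subst hrp
    obtain ⟨f, h10, h11, h12⟩ := alt_exists_tv (p := r) hB hA (by omega)
    obtain ⟨-, -, -, -, -, -, h13⟩ := key f h10 h11 (ne_smul_of_finrank_fixK (by omega) (by omega))
    omega
  by_cases hr2 : r = 2
  · subst hr2
    obtain ⟨f, h10, h11, h12⟩ := alt_exists_invol hB hA h1 (a := 2 * d - 2) ⟨d - 1, by omega⟩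
      (by omega)
    obtain ⟨-, -, -, -, -, -, h13⟩ := key f h10 h11 (ne_smul_of_finrank_fixK (by omega) (by omega))
    omega
  have h10 := relIndex_mul_dvd_spOrder (H := Geo.tensorProductSubgroup a b e P) (⊥ : Subgroup _).subtype
    Subtype.val_injective fun g => by rw [Subsingleton.elim g 1, map_one, map_one]; exact one_mem _
  obtain ⟨j, h11, h12⟩ := (hr.prime.dvd_finsetProd_iff _).mp ((hr.prime.dvd_or_dvd
    ((hΩ.mul_right _).trans h10)).resolve_left fun h => not_dvd_card_of_ne hrp (hr.dvd_of_dvd_pow h))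
  have h13 := Nat.le_of_dvd (by omega) (cOf_dvd_of_dvd Fintype.card_pos h12)
  have := Finset.mem_range.mp h11
  obtain ⟨f, h14, h15, h16⟩ := alt_exists_prime hB hA hrp hr2 (a := 1) (by omega)
  have := cOf_pos (orderOf_zmod_pos (natCast_card_ne_zero' (F := F) hrp))
  obtain ⟨α, β, h17, h18, h19, h20, -⟩ := key f h14 h15
    (ne_smul_of_pow_odd hB h14 (hr.odd_of_ne_two hr2) h15 (by omega))
  have := finrank_fixK_tenMap_lt h6 h7 (by omega) (by omega) h17 hrp hr2 h18
    fun h => h19 1 (by rwa [one_smul])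
  rw [hU, hW, ← hab] at this
  omega

end Cfsg.Agent.S5980
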