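import Cfsg.Statements.S5981
import Cfsg.Agent.H28.EloSim

set_option autoImplicit false
open scoped MatrixGroups
open Cfsg

namespace Cfsg.Agent.S5981

open Cfsg.Agent.H77 Cfsg.Agent.H28 Cfsg.Agent.H30

/-- Elements of prime order of PSL_n(q), q odd, and the subgroups of orthogonal type. Here `T = PSL_n(F)` for a field `F` with `q` elements, `q` odd, `n ≥ 3`; `Q` is a non-degenerate quadratic form on `F^n` (of either type when `n` is even) and `H` is the subgroup of matrices of determinant 1 that preserve `Q` up to a scalar — a subgroup of type O^ε_n(q) (maximality is not assumed); Ω is the set of cosets of `H` in `T`, so an element of `T` of prime order `r` (a matrix `x` of determinant 1 with `x^r` scalar, `x` not scalar) fixes a point of Ω exactly when some conjugate of `x` by a matrix of determinant 1 preserves `Q` up to a scalar. Let `r` be a prime dividing the index of `H`, with `(n, r) ≠ (6, 3)`. Then every element of `T` of order `r` fixes a point of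 Ω if and only if `r = 2`, or `r ∈ {3, 5}`, `n = r` and `(q − 1)_r = r` (the `r`-part of `q − 1` is exactly `r`). The case `(n, r) = (6, 3)` is not covered by this statement. -/
theorem result {F : Type*} [Field F] [Fintype F] {p : ℕ} [Fact p.Prime] [CharP F p] {q : ℕ} (hq : Fintype.card F = q)
    (hodd : Odd q) (n : ℕ) (hn : 3 ≤ n) (Q : (Fin n → F) → F) (hQ : Cfsg.Geo.IsNondegenerateQuadraticForm Q)
    (r : ℕ) [Fact r.Prime] (hgap : ¬ (n = 6 ∧ r = 3))
    (hΩ : r ∣ (Cfsg.Geo.quadSimilarityGroup Q).relIndex (Cfsg.Geo.specialLinear (Fin n) F)) :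
    (∀ x ∈ Cfsg.Geo.specialLinear (Fin n) F, (∃ z : F, ((x ^ r : GL (Fin n) F) : Matrix (Fin n) (Fin n) F) = z • (1 : Matrix (Fin n) (Fin n) F)) →
      (∀ z : F, (x : Matrix (Fin n) (Fin n) F) ≠ z • (1 : Matrix (Fin n) (Fin n) F)) →
      ∃ g ∈ Cfsg.Geo.specialLinear (Fin n) F, g⁻¹ * x * g ∈ Cfsg.Geo.quadSimilarityGroup Q) ↔
    (r = 2 ∨ ((r = 3 ∨ r = 5) ∧ n = r ∧ padicValNat r (q - 1) = 1)) := by
  classical
  subst hq
  obtain ⟨Q, hQ', rfl⟩ := exists_quadraticForm_of_geo hQ
  replace hQ := hQ'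
  have hr : r.Prime := Fact.out
  let L := AlgebraicClosure F
  have h2 := two_ne_zero_iff_odd_card.mpr hodd
  have hp2 : 2 ≠ p := by rintro rfl; exact h2 (by exact_mod_cast CharP.cast_eq_zero F 2)
  have hB := H76.isEForm_polar hQ
  have hV := Module.finrank_fin_fun (n := n) F
  rw [forall_specialLinear_iff]
  refine ⟨fun h => ?_, fun h => ?_⟩
  · by_cases hr2 : r = 2
    · exact Or.inl hr2
    replace h := fun s => exists_mem_of_forall_sl (p := p) (L := L) (s := s) h
    by_cases hrp : r = p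
    · subst hrp
      obtain ⟨h1, h3⟩ := pElt_transvection (L := L) (p := r) (Q := Fintype.card F) (n := n) (by omega)
      obtain ⟨x, ⟨c, hc⟩, h4⟩ := h _ h1 h3
      have h5 := tw_of_sim (dualLaw_id L) hB.sep (polar_of_qsim hc)
      rw [h4] at h5
      have h6 : c = 1 := by
        have := (mem_udata.mp (mem_of_tw h5 (x := (1, 2)) (mem_udata.mpr (by simp)))).1
        rw [one_zpow, mul_one, map_inv, inv_inv] at this
        exact Units.ext ((algebraMap F L).injective ((congrArg Units.val this).trans (map_one _).symm))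
      have h7 := (HasJ.fadm_sym h2 hB (fun u v => by simpa [h6] using polar_of_qsim hc u v)
        (hasJ_ujord L x)).par' 1 (one_pow 2) 2 (by decide)
      rw [h4] at h7
      simp [udata, Multiset.count_replicate] at h7
    have h' : ∀ s : Multiset (Lˣ × ℕ), PElt p (Fintype.card F) n r s →
        H76.ddet s = 1 → Tw (Fintype.card F) (-1) s := fun s hs hd => by
      obtain ⟨x, ⟨c, hc⟩, rfl⟩ := h s hs hd
      exact ⟨_, units_map_zpow_card _, tw_of_sim (dualLaw_id _) hB.sep (polar_of_qsim hc)⟩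
    have h1 : ¬ (r : ℤ) ∣ -1 := fun h => hr.not_dvd_one (by exact_mod_cast dvd_neg.mp h)
    have h4 : ¬ (r : ℤ) ∣ -1 - 1 := fun h => hr2 ((Nat.prime_dvd_prime_iff_eq hr Nat.prime_two).mp
      (by exact_mod_cast (dvd_neg (b := (2 : ℤ))).mp h))
    by_cases h3 : (r : ℤ) ∣ Fintype.card F - 1
    · obtain ⟨-, h5, h6⟩ := necessary_of_forall_tw hr hrp hr2 h3 card_ne_one' h1 h4 (by omega)
        (by omega) h'
      obtain ⟨rfl, h7⟩ := h6.resolve_right hgap
      rw [H76.natAbs_sub_one Fintype.card_pos, padicValNat_self] at h5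
      have h8 : n ∣ Fintype.card F - 1 :=
        Int.natCast_dvd_natCast.mp (by rwa [Nat.cast_sub Fintype.card_pos])
      exact Or.inr ⟨h7, rfl, h5.antisymm (one_le_padicValNat_of_dvd
        (by have := Fintype.one_lt_card (α := F); omega) h8)⟩
    have key : ∀ i, Odd i → i ≤ n → ¬ (r : ℤ) ∣ (Fintype.card F : ℤ) ^ i - 1 := fun i h5 h6 h7 => by
      obtain ⟨s, h8, h9, h10⟩ := exists_not_tw_of_not_dvd (L := L) hr hrp h3 h1 h5.pos h6 h7
        (by rwa [h5.neg_one_pow])
      exact h10 (h' s h8 h9)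
    rcases exists_of_dvd_index_O hQ (by omega) hr (not_dvd_card_of_ne hrp) hΩ with
      ⟨i, h5, h6, h7⟩ | ⟨d, h5, h6⟩
    · exact absurd h7 (key i h5 h6)
    have h0 := orderOf_zmod_pos (natCast_card_ne_zero' (F := F) hrp)
    obtain ⟨⟨a, h7⟩, h8⟩ := fix_ne_bot hQ (hV.trans h5) hr2 h0 h6
    have h9 : (((Fintype.card F : ℤ) : ZMod r)) = Fintype.card F := Int.cast_natCast _
    have ha : a ≠ 0 := by rintro rfl; omega
    rcases cc_ss (orderOf (Fintype.card F : ZMod r)) with ⟨-, -, h10, -⟩ | ⟨-, h10, h11, -⟩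
    swap
    · refine absurd (H76.int_dvd_pow_sub_one_iff.2 (by rw [h9])) (key _ h10 ?_)
      rw [h11] at h7
      have := Nat.le_mul_of_pos_right (2 * orderOf (Fintype.card F : ZMod r)) (Nat.pos_of_ne_zero ha)
      omega
    obtain ⟨ζ, h11, -, -, h12, h13, h14⟩ := exists_pElt_of_not_dvd (L := L) (p := p) (n := n)
      (k := 0) hr hrp h3 (by rwa [h9]) ha (by rw [h9, ← h10]; omega)
    obtain ⟨x, ⟨c, hc⟩, h15⟩ := h _ h12 h13
    have h16 : ∀ y ∈ H76.ujord L x, y.1 ^ r = 1 ∧ y.2 = 1 := fun y hy => by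
      rw [h15, Multiset.replicate_zero, zero_add] at hy
      obtain ⟨i, -, rfl⟩ := H76.mem_orb.mp (Multiset.mem_of_mem_nsmul hy)
      exact ⟨by rw [H76.zpow_pow_comm, ← h11, pow_orderOf_eq_one, one_zpow], rfl⟩
    have h17 : Matrix.toLin' (x : Matrix (Fin n) (Fin n) F) ^ r = (1 : F) • 1 :=
      ((hasJ_ujord L x).pow_eq_smul_iff p r 1).2 fun y hy => by
        rw [(h16 y hy).2, ← Units.val_pow_eq_pow_val, (h16 y hy).1]; simp
    have h18 : c = 1 := by
      obtain ⟨y, hy, -⟩ := h12.exists_ne Fact.out hr hrp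
      rw [← h15] at hy
      have h19 := (h16 _ (mem_of_tw (tw_of_sim (dualLaw_id L) hB.sep (polar_of_qsim hc)) hy)).1
      rw [mul_pow, H76.zpow_pow_comm, (h16 y hy).1, one_zpow, mul_one, map_inv, inv_inv] at h19
      have h20 := eq_one_of_zpow_eq_one hr h3 h19
        (by rw [zpow_sub_one, units_map_zpow_card, mul_inv_cancel])
      exact Units.ext ((algebraMap F L).injective ((congrArg Units.val h20).trans (map_one _).symm))
    have hx : x ∈ isometryGroup F ⇑Q := mem_isometryGroup.2 fun v => by simpa [h18] using hc v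
    have h19 : ((isoEquiv Q ⟨x, hx⟩).1 : (Fin n → F) →ₗ[F] (Fin n → F)) =
      Matrix.toLin' (x : Matrix (Fin n) (Fin n) F) := LinearMap.ext fun v => rfl
    refine absurd (disjoint_top.1 ((hasJOn_ne_one_iff (g := isoEquiv Q ⟨x, hx⟩) (W := ⊤)
      (hasJOn_top.2 (h19 ▸ hasJ_ujord L x))).1 fun y hy h20 => ?_)) (h8 _ ?_)
    · rw [← h15, nf, Multiset.card_eq_zero] at h14
      exact (@Multiset.filter_eq_nil _ _ (_) _).1 h14 y hy (by rw [h20, one_zpow])
    · refine Subtype.ext (LinearEquiv.toLinearMap_injective ?_)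
      rw [coe_O_pow, h19, h17, one_smul]
      rfl
  have hrp : r ≠ p := by
    rintro rfl
    rcases h with h | ⟨-, -, h⟩
    · exact hp2 h.symm
    · have h1 := dvd_of_one_le_padicValNat h.ge
      have h3 := Int.natCast_dvd_natCast.mp (H76.char_dvd_card F r)
      have := Fintype.card_pos (α := F)
      have h4 := Nat.dvd_sub h3 h1
      rw [show Fintype.card F - (Fintype.card F - 1) = 1 by omega] at h4
      exact hr.not_dvd_one h4
  rw [forall_sl_conj_iff (p := p) L hr (Or.inr hrp)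
    (R := fun s => ∃ h ∈ Geo.quadSimilarityGroup ⇑Q, H76.ujord L h = s) fun _ _ => Iff.rfl]
  intro s hs hd
  rcases h with rfl | ⟨h3, rfl, h4⟩
  swap
  · obtain ⟨h5, c, h6, h7⟩ := exists_sym_twist h3 hrp
      (by rwa [H76.natAbs_sub_one Fintype.card_pos]) hs hd
    have h8 : c ^ (Fintype.card F : ℤ) = c := by
      have := zpow_eq_zpow_of_dvd_sub h6 (Q := Fintype.card F) (Q' := 1) (by
        have := Int.natCast_dvd_natCast.mpr (dvd_of_one_le_padicValNat h4.ge)
        rwa [Nat.cast_sub Fintype.card_pos] at this)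
      rwa [zpow_one] at this
    obtain ⟨g, h9, h10⟩ := exists_O_of_fadm_odd (L := L) hQ (s := H76.twist c s)
      (by rw [hV]; rcases h3 with rfl | rfl <;> decide)
      (H76.fadm_of_free ((hs.adm.twist h8).cast hV.symm) h7 fun x hx _ => by
        rw [(h5 _ (mem_twist_iff.mp hx)).1.symm.symm]; exact odd_one)
    exact exists_mem_qsim_twist (d := c⁻¹) (by rw [inv_zpow, h8]) h9 (by rwa [inv_inv])
  have h1 := odd_card_cast (F := F) hp2
  have h3 : (2 : ℤ) ∣ Fintype.card F - 1 := (h1.sub_odd odd_one).two_dvd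
  obtain ⟨y, hy, -⟩ := hs.exists_ne Fact.out Nat.prime_two hp2
  rcases unif_of_pk Fact.out Nat.prime_two hp2 h3 hs.adm hs.pk with h4 | h4
  · have h5 := per_one_iff.mp (h4.per y hy)
    have h6 : y.1⁻¹ ^ (Fintype.card F : ℤ) = y.1⁻¹ := by rw [inv_zpow, h5]
    have h7 := hs.adm.twist h6
    have h8 : ∀ x ∈ H76.twist y.1⁻¹ s, x = (1, 1) ∨ x = (-1, 1) := fun x hx => by
      obtain ⟨z, hz, rfl⟩ := Multiset.mem_map.mp hx
      rcases units_eq_or_eq_neg (hs.pk.1 z hz y hy) with h | h <;> simp [h, h4.one z hz]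
    obtain ⟨a, b, h9⟩ : ∃ a b, H76.twist y.1⁻¹ s =
        Multiset.replicate a (1, 1) + Multiset.replicate b (-1, 1) :=
      ⟨_, _, (Multiset.filter_add_not (· = (1, 1)) _).symm.trans (congrArg₂ _
        (Multiset.eq_replicate_card.mpr fun x hx => (Multiset.mem_filter.mp hx).2)
        (Multiset.eq_replicate_card.mpr fun x hx => (h8 x (Multiset.mem_filter.mp hx).1).resolve_left
          (Multiset.mem_filter.mp hx).2))⟩
    have h10 := h7.wt_eq
    simp only [h9, H76.wt_add, H76.wt_replicate, mul_one] at h10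
    obtain ⟨g, h11, h12⟩ := exists_O_pm (L := L) h2 hQ (h10.trans hV.symm)
    exact exists_mem_qsim_twist h5 h11 (h9 ▸ h12)
  obtain ⟨z, hz⟩ := exists_algebraMap_eq (F := F) (pow_fixed_of_pk hs.adm hs.pk hy)
  have h5 : z ≠ 0 := by rintro rfl; exact (y.1 ^ 2).ne_zero (by rw [← hz, map_zero])
  obtain ⟨m, hm⟩ := h4.dvd
  obtain ⟨g, h6, h7⟩ := exists_sim_sq h2 hQ (hV.trans hm) z
  obtain ⟨t, h8⟩ := exists_hasJ (L := L) (f := g) ((isUnit_pow_iff two_ne_zero).mp
    (h6 ▸ isUnit_one.smul (Units.mk0 z h5)))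
  have h9 : ∀ x ∈ t, x.1 ^ 2 = y.1 ^ 2 := fun x hx =>
    Units.ext (((h8.pow_eq_smul_iff p 2 z).mp h6 x hx).1.trans hz)
  have h10 : H76.PK p t 2 := ⟨fun x hx w hw => (h9 x hx).trans (h9 w hw).symm,
    fun x hx => ((h8.pow_eq_smul_iff p 2 z).mp h6 x hx).2⟩
  have h11 := h8.adm.cast (Module.finrank_fin_fun F)
  refine exists_mem_qsim h5 h7 (h4.eq_of_pow_eq two_pos hp2
    ((unif_of_pk Fact.out Nat.prime_two hp2 h3 h11 h10).resolve_left fun h12 => ?_)
    (fun x hx => hs.pk.1 x hx y hy) h9 ▸ h8)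
  rcases Multiset.empty_or_exists_mem t with rfl | ⟨x, hx⟩
  · have := h11.wt_eq; simp at this; omega
  · exact (h4.per y hy).ne (by omega) (fixed_of_pow_eq h3 (h9 x hx).symm
      (per_one_iff.mp (h12.per x hx)))

end Cfsg.Agent.S5981
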