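import Cfsg.Statements.S5982
import Cfsg.Agent.H77.ElusSub

set_option autoImplicit false
open scoped MatrixGroups
open Cfsg

namespace Cfsg.Agent.S5982

open Cfsg.Agent.H77

/-- Elements of prime order of PSL_n(q), q = q₀², and the subgroups of unitary type. Here `T = PSL_n(F)` for a field `F` with `q = q₀²` elements (`n ≥ 3`), `f` is a non-degenerate unitary form on `F^n` for the involutory automorphism `x ↦ x^{q₀}`, and `H` is the subgroup of matrices of determinant 1 that preserve `f` up to a scalar — a subgroup of type GU_n(q₀) (maximality is not assumed); Ω is the set of cosets of `H` in `T`, so an element of `T` of prime order `r` (a matrix `x` of determinant 1 with `x^r` scalar, `x` not scalar) fixes a point of Ω exactly when some conjugate of `x` by a matrix of determinant 1 preserves `f` up to a scalar. Let `r` be a prime dividing the index of `H`, with `r = 2` or `r` different from the characteristic `p`, and with `(n, r) ≠ (6, 3)`. Then every element of `T`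 of order `r` fixes a point of Ω if and only if either `r = 2` and (`p = 2` or `(n)_2 ≤ (q − 1)_2`), or `r ∈ {3, 5}`, `n = r` and `(q₀ − 1)_r = r`. (Odd `r = p` and the case `(n, r) = (6, 3)` are not covered by this statement.) -/
theorem result {F : Type*} [Field F] [Fintype F] {p : ℕ} [Fact p.Prime] [CharP F p] {q : ℕ} (hq : Fintype.card F = q)
    (q₀ : ℕ) (hq₀ : q = q₀ ^ 2) (n : ℕ) (hn : 3 ≤ n) (f : (Fin n → F) → (Fin n → F) → F) (hf : Cfsg.Geo.IsUnitaryFormPow q₀ f)
    (r : ℕ) [Fact r.Prime] (hr : r = 2 ∨ r ≠ p) (hgap : ¬ (n = 6 ∧ r = 3))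
    (hΩ : r ∣ (Cfsg.Geo.similarityGroup f).relIndex (Cfsg.Geo.specialLinear (Fin n) F)) :
    (∀ x ∈ Cfsg.Geo.specialLinear (Fin n) F, (∃ z : F, ((x ^ r : GL (Fin n) F) : Matrix (Fin n) (Fin n) F) = z • (1 : Matrix (Fin n) (Fin n) F)) →
      (∀ z : F, (x : Matrix (Fin n) (Fin n) F) ≠ z • (1 : Matrix (Fin n) (Fin n) F)) →
      ∃ g ∈ Cfsg.Geo.specialLinear (Fin n) F, g⁻¹ * x * g ∈ Cfsg.Geo.similarityGroup f) ↔
    ((r = 2 ∧ (p = 2 ∨ padicValNat 2 n ≤ padicValNat 2 (q - 1))) ∨ ((r = 3 ∨ r = 5) ∧ n = r ∧ padicValNat r (q₀ - 1) = 1)) := by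
  subst hq
  have hr' : r.Prime := Fact.out
  have : Nonempty (Fin n) := ⟨⟨0, by omega⟩⟩
  rw [forall_specialLinear_iff, forall_sl_conj_iff (p := p) (AlgebraicClosure F) hr' hr
    fun x _ => exists_mem_sim_herm_iff hq₀ hf x]
  have h0 := H31.two_le_of_card_sq hq₀
  by_cases hrp : r = p
  · subst hrp
    exact iff_of_true (fun s hs _ => hs.twA_char) (by omega)
  by_cases hr2 : r = 2
  · subst hr2
    have h1 := odd_card_cast (F := F) hrp
    rw [forall_twA_two_iff hrp (card_cast_eq hq₀)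
      ((Int.odd_pow' two_ne_zero).mp (card_cast_eq hq₀ ▸ h1)) card_ne_one' (by omega),
      H76.natAbs_sub_one Fintype.card_pos]
    omega
  have h2 : ¬ r ∣ q₀ := fun h => not_dvd_card_of_ne (F := F) hrp (hq₀ ▸ dvd_pow h two_ne_zero)
  obtain ⟨i, h3, h4, h5, h6⟩ := exists_of_dvd_index_herm hq₀ hf hr' h2 hΩ
  rw [forall_twA_odd_iff hr' hrp hr2 Nat.prime_two (card_cast_eq hq₀) card_ne_one'
    (by rw [dvd_neg]; exact_mod_cast h2) hgap h3 h4 (by omega) (by omega) h5
    fun h => hr2 ((Nat.prime_dvd_prime_iff_eq hr' Nat.prime_two).mp (h6 h)),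
    show (-(q₀ : ℤ) + 1).natAbs = q₀ - 1 by omega]
  omega

end Cfsg.Agent.S5982
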