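import Cfsg.Statements.S5983
import Cfsg.Agent.H28.EloSim
import Cfsg.Agent.H77.ElusConj

set_option autoImplicit false
open scoped MatrixGroups
open Cfsg

namespace Cfsg.Agent.S5983

open Cfsg.Agent.H77 Cfsg.Agent.H28 Cfsg.Agent.H30

/-- Elements of prime order of PSp_n(q), q even, and the subgroups of orthogonal type. Here `T = Sp_{2d}(F)` for a field `F` of characteristic 2 with `q` elements (`d ≥ 2`, `(d, q) ≠ (2, 2)`), realised as the invertible matrices preserving the standard alternating form; `Q` is a non-degenerate quadratic form on `F^{2d}` whose polar form is that alternating form, and `H` is the subgroup of `T` preserving `Q` up to a scalar (equivalently preserving `Q`) — a subgroup of type O^±_{2d}(q) (maximality is not assumed); `Q` is of plus type when `F^{2d}` contains a `d`-dimensional subspace on which `Q` vanishes, of minus type otherwise. Ω is the set of cosets of `H` in `T`, so an element of `T` of prime order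 `r` (`x ∈ T` with `x^r` scalar, `x` not scalar) fixes a point of Ω exactly when some `T`-conjugate of `x` preserves `Q`. Let `r` be a prime dividing the index of `H`. Then every element of `T` of order `r` fixes a point of Ω if and only if `r = 2` and either `Q` is of plus type or `d` is odd. -/
theorem result {F : Type*} [Field F] [Fintype F] {p : ℕ} [Fact p.Prime] [CharP F p] {q : ℕ} (hq : Fintype.card F = q)
    (hp : p = 2) (d : ℕ) (hd : 2 ≤ d) (hT : (d, q) ≠ (2, 2)) (Q : (Fin d ⊕ Fin d → F) → F) (hQ : Cfsg.Geo.IsNondegenerateQuadraticForm Q)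
    (hQf : ∀ u v, QuadraticMap.polar Q u v = Cfsg.sympForm d F u v)
    (r : ℕ) [Fact r.Prime]
    (hΩ : r ∣ (Cfsg.Geo.quadSimilarityGroup Q).relIndex (Cfsg.spGL d F)) :
    (∀ x ∈ Cfsg.spGL d F, (∃ z : F, ((x ^ r : GL (Fin d ⊕ Fin d) F) : Matrix (Fin d ⊕ Fin d) (Fin d ⊕ Fin d) F) = z • (1 : Matrix (Fin d ⊕ Fin d) (Fin d ⊕ Fin d) F)) →
      (∀ z : F, (x : Matrix (Fin d ⊕ Fin d) (Fin d ⊕ Fin d) F) ≠ z • (1 : Matrix (Fin d ⊕ Fin d) (Fin d ⊕ Fin d) F)) →
      ∃ g ∈ Cfsg.spGL d F, g⁻¹ * x * g ∈ Cfsg.Geo.quadSimilarityGroup Q) ↔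
    (r = 2 ∧ (Cfsg.Geo.IsPlusTypeOn Q ⊤ ∨ Odd d)) := by
  subst hq
  obtain ⟨Q, hQ', rfl⟩ := exists_quadraticForm_of_geo hQ
  replace hQ := hQ'
  have hr : r.Prime := Fact.out
  have h2 := (two_eq_zero_iff_char (F := F)).2 hp
  have hV := finrank_plus (F := F) d
  have hJ : H27.jBilin (Fin d) F = QuadraticMap.polarBilin Q := LinearMap.ext₂ fun u v =>
    (H27.sympForm_eq_jBilin d u v).symm.trans (hQf u v).symm
  have hB : H76.IsEForm (-1) (QuadraticMap.polarBilin Q) := hJ ▸ H76.isEForm_jBilin (Fin d)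
  have hA := H79.polar_isAlt (Q := Q) h2
  have := nontrivial_sum_fun (F := F) (d := d) (by omega)
  have hP : Geo.IsPlusTypeOn ⇑Q ⊤ ↔ tpw Q = 0 := by
    rw [tpw_eq_zero_iff hQ ⟨d, by omega⟩]
    exact exists_congr fun U => by rw [finrank_top]; exact ⟨fun h => ⟨h.2.2, h.2.1⟩,
      fun h => ⟨le_top, h.2, h.1⟩⟩
  rw [forall_spGL_conj_iff (S := fun g => ∃ c : Fˣ, ∀ v, Q (g v) = c * Q v) fun g => Iff.rfl, hP, hJ]
  have key : ∀ f, H76.Pres (QuadraticMap.polarBilin Q) f → (IConj (QuadraticMap.polarBilin Q)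
      (fun g => ∃ c : Fˣ, ∀ v, Q (g v) = c * Q v) f ↔ ∃ (g : O Q) (e : H27.isomGroup
        (QuadraticMap.polarBilin Q)), ∀ v, e.1 (g.1 v) = f (e.1 v)) := fun f hf => by
    refine ⟨fun ⟨e, g, h3, ⟨c, h4⟩, h5⟩ => ?_, fun ⟨g, e, h⟩ =>
      ⟨e.1, g.1, e.2, ⟨1, fun v => (g.2 v).trans (one_mul _).symm⟩, h⟩⟩
    have h6 : H76.Pres (QuadraticMap.polarBilin Q) g := fun u v => by rw [← h3, h5, h5, hf, h3]
    have h7 : (c : F) = 1 := by
      obtain ⟨u, hu⟩ := exists_ne (0 : Fin d ⊕ Fin d → F)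
      obtain ⟨v, hv⟩ := not_forall.1 (mt (hQ.1 u) hu)
      refine mul_right_cancel₀ hv ?_
      rw [one_mul]
      conv_rhs => rw [← h6]
      simp only [QuadraticMap.polarBilin_apply_apply, QuadraticMap.polar, ← map_add, h4]
      ring
    obtain ⟨g, rfl⟩ := hB.sep.isUnit_of_pres h6
    exact ⟨⟨LinearMap.GeneralLinearGroup.toLinearEquiv g, fun v => by simpa [h7] using h4 v⟩,
      ⟨e, h3⟩, h5⟩
  have ht := tpw_lt Q
  by_cases hr2 : r = 2
  · subst hr2
    rw [forall_two_char_iff hB h2 fun _ h => h]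
    refine ⟨fun h => ⟨rfl, by_contra fun h3 => ?_⟩, fun h f h1 h3 h4 => (key f h1).2 ?_⟩
    · rw [not_or, Nat.not_odd_iff_even] at h3
      obtain ⟨Q₀, h4, h5⟩ := exists_model (F := F) (2 * d) 0 (by simp) (by simp)
      obtain ⟨φ, hφ⟩ := H27.exists_equiv_of_finrank_eq h4 (H79.polar_isAlt h2) hQ hA
        (by rw [hV, Module.finrank_fin_fun])
      obtain ⟨U, -, h6, h7⟩ := (exists_ts_iff (nondegOn_top h4) (m := d)).2
        ⟨by simp, fun _ => by rwa [tp_top]⟩
      obtain ⟨t, h8, h9, h10, h11⟩ := H79.exists_invol_alt h2 hQ hA (U.map φ.toLinearMap) (by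
        rintro _ ⟨u, hu, rfl⟩ _ ⟨v, hv, rfl⟩
        exact (hφ u v).trans (mem_perp.1 (H79.le_perp_of_sing h7 hv) u hu))
        (by rw [LinearEquiv.finrank_map_eq, h6]; exact h3.2)
      have h12 : H79.rk t = d := by rw [H79.rk, h10, LinearEquiv.finrank_map_eq, h6]
      obtain ⟨g, e, h13⟩ := (key t h8).1 (h t h8 (LinearMap.ext fun v =>
        congrArg (fun x : _ ≃ₗ[F] _ => x v) h9) fun h => by
          rw [show t = 1 from LinearEquiv.toLinearMap_injective h] at h12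
          exact absurd (H79.rk_pos.1 (by omega : 0 < H79.rk (1 : _ ≃ₗ[F] _))) (by simp))
      have h14 : e.1 * g.1 = t * e.1 := LinearEquiv.ext h13
      have h15 : g * g = 1 := Subtype.ext (mul_left_cancel (a := e.1) (by
        change e.1 * (g.1 * g.1) = e.1 * 1
        rw [← mul_assoc, h14, mul_assoc, h14, ← mul_assoc, h9, one_mul, mul_one]))
      have := ((exists_alt_iff h2 hQ (k := d)).1 ⟨g, h15, (H79.rk_conj h14).trans h12,
        (H79.altType_iff_sing h2 g).1 ((H79.altType_conj e.2 h14).2 h11)⟩).2.2 hV.symm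
      omega
    obtain ⟨f, rfl⟩ := hB.sep.isUnit_of_pres h1
    let t : H27.isomGroup (QuadraticMap.polarBilin Q) :=
      ⟨LinearMap.GeneralLinearGroup.toLinearEquiv f, h1⟩
    have h5 : t.1 * t.1 = 1 := LinearEquiv.ext fun v => congrArg (fun x : Module.End F _ => x v) h3
    have h6 := H79.two_mul_rk_le h2 hQ t.2 h5
    have h7 := H79.rk_pos.2 (show t.1 ≠ 1 from fun h => h4 (congrArg LinearEquiv.toLinearMap h))
    obtain ⟨g, h8, h9, h10⟩ : ∃ g : O Q, g.1 * g.1 = 1 ∧ H79.rk g.1 = H79.rk t.1 ∧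
        (H79.AltType (QuadraticMap.polarBilin Q) g.1 ↔
          H79.AltType (QuadraticMap.polarBilin Q) t.1) := by
      by_cases h8 : H79.AltType (QuadraticMap.polarBilin Q) t.1
      · have h9 := Nat.even_iff.1 (H79.even_rk_of_altType h2 hQ hA t.2 h5 h8)
        obtain ⟨g, h10, h11, h12⟩ := (exists_alt_iff h2 hQ (k := H79.rk t.1)).2
          ⟨h9, h6, fun h10 => by have := h.2; rw [Nat.odd_iff] at this; omega⟩
        exact ⟨g, congrArg Subtype.val h10, h11,
          iff_of_true ((H79.altType_iff_sing h2 g).2 h12) h8⟩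
      · obtain ⟨g, h10, h11, h12⟩ := H79.exists_invol_O h2 hQ h7 h6
        exact ⟨g, h10, h11, iff_of_false h12 h8⟩
    obtain ⟨e, he⟩ := isConj_iff.1 ((H79.isConj_sp_iff h2 hQ hA ⟨g.1, H79.O_le_isom g.2⟩ t h8 h5).2
      ⟨h9, h10⟩)
    exact ⟨g, e, fun v => congrArg (fun x : H27.isomGroup _ => x.1 v) (mul_inv_eq_iff_eq_mul.1 he)⟩
  refine iff_of_false (fun h => ?_) fun h => hr2 h.1
  have hrp : r ≠ p := hp ▸ hr2
  have h0 := orderOf_zmod_pos (natCast_card_ne_zero' (F := F) hrp)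
  obtain ⟨m, rfl⟩ : ∃ m, d = m + 1 := ⟨d - 1, by omega⟩
  have h3 := Int.natCast_dvd_natCast.mpr (relIndex_mul_dvd_spOrder
    (H := Geo.quadSimilarityGroup ⇑Q) (Subgroup.inclusion (hJ ▸ H79.O_le_isom (Q := Q)))
    (Subgroup.inclusion_injective _) fun g => ⟨1, fun v => by
      rw [H27.isomToGL_mulVec]; exact (g.2 v).trans (one_mul _).symm⟩)
  have h4 : (Nat.card (O Q) : ℤ) = 2 * (Fintype.card F : ℤ) ^ ((m + 1) * m) *
      (((Fintype.card F : ℤ) ^ (m + 1) - (-1) ^ tpw Q) *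
        ∏ i ∈ Finset.range m, ((Fintype.card F : ℤ) ^ (2 * (i + 1)) - 1)) := by
    have h5 := tpw_eq_zero_iff hQ ⟨m + 1, by omega⟩
    by_cases hp : H79.IsPlus (F := F) Q
    · rw [card_O_plus_int hQ hV hp, h5.2 hp, Nat.card_eq_fintype_card]; ring
    · rw [card_O_minus_int hQ hV hp, show tpw Q = 1 by have := mt h5.1 hp; omega,
        Nat.card_eq_fintype_card]; ring
  have h5 : (Fintype.card F : ℤ) ^ (2 * (m + 1)) - 1 =
      ((Fintype.card F : ℤ) ^ (m + 1) + (-1) ^ tpw Q) *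
        ((Fintype.card F : ℤ) ^ (m + 1) - (-1) ^ tpw Q) := by
    have : ((-1 : ℤ) ^ tpw Q) ^ 2 = 1 := by rw [← pow_mul, mul_comm, pow_mul]; simp
    linear_combination this
  have h6 : ∀ i, i ≠ 0 → (Fintype.card F : ℤ) ^ i - 1 ≠ 0 := fun i hi => sub_ne_zero.mpr
    (pow_ne_one_of_two_le (Q := Fintype.card F) Fintype.one_lt_card hi)
  rw [Nat.cast_mul, h4, H27.spOrder, Nat.cast_mul, cast_prod_pow_sub_one _ _ Fintype.card_pos,
    Finset.prod_range_succ, h5, mul_comm (∏ i ∈ _, _) (_ * _), mul_assoc (_ + _), ← mul_assoc,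
    ← mul_assoc (((_ ^ _ : ℕ) : ℤ)), mul_dvd_mul_iff_right (mul_ne_zero
      (right_ne_zero_of_mul (h5 ▸ h6 _ (by omega)))
      (Finset.prod_ne_zero_iff.mpr fun i _ => h6 _ (by omega)))] at h3
  obtain ⟨⟨a, h7⟩, h8⟩ := fix_ne_bot hQ hV hr2 h0 (((Nat.prime_iff_prime_int.mp hr).dvd_or_dvd
    (((Int.natCast_dvd_natCast.mpr hΩ).mul_right _).trans h3)).resolve_left fun h =>
      not_dvd_card_of_ne hrp (hr.dvd_of_dvd_pow (Int.natCast_dvd_natCast.mp h)))
  obtain ⟨f, h9, h10, h11⟩ := alt_exists_prime hB hA hrp hr2 (a := a) (hV.trans h7).ge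
  rw [show cOf (orderOf (Fintype.card F : ZMod r)) * a = _ from (hV.trans h7).symm,
    Nat.sub_self] at h11
  obtain ⟨g, e, h12⟩ := (key f h9).1 (h f h9 ⟨1, by rwa [one_smul]⟩
    (ne_smul_of_pow_odd hB h9 (hr.odd_of_ne_two hr2) h10 (by omega)))
  have h13 : H76.Sim (g.1 : Module.End F _) f := ⟨e.1, h12⟩
  refine h8 g (Subtype.ext (LinearEquiv.toLinearMap_injective ?_))
    (Submodule.finrank_eq_zero.1 ((sim_finrank_fixK h13).trans h11))
  rw [coe_O_pow]
  exact ((sim_pow_eq_smul_iff h13 r 1).2 (by rwa [one_smul])).trans (one_smul _ _)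

end Cfsg.Agent.S5983
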