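import Cfsg.Statements.S5984
import Cfsg.Agent.H77.ElusPol

set_option autoImplicit false
open scoped MatrixGroups
open Cfsg

namespace Cfsg.Agent.S5984

open Cfsg.Agent.H77

open Module H76 in
theorem index_cond {F : Type*} [Field F] [Fintype F] {p : ℕ} [Fact p.Prime] [CharP F p] {q : ℕ}
    (hq : Fintype.card F = q ^ 2) {m : ℕ} {D : Fin 2 → Submodule F (Fin (2 * m) → F)}
    (h0 : H31.TotIso (H31.hermB hq _) (D 0)) (h1 : H31.TotIso (H31.hermB hq _) (D 1))
    (h2 : D 0 ⊔ D 1 = ⊤) {r : ℕ} [hr : Fact r.Prime] (hrp : r ≠ p)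
    (hΩ : r ∣ (Geo.decompositionStabilizer D).relIndex
      (GU (2 * m) F q ⊓ Geo.specialLinear (Fin (2 * m)) F)) :
    Odd (orderOf ((-(q : ℤ) : ℤ) : ZMod r)) ∧ orderOf ((-(q : ℤ) : ℤ) : ZMod r) ≤ 2 * m := by
  have hB := isEForm_hermB hq (2 * m)
  let S := (H31.stab (D 0) ⊓ (H31.stab (D 1) ⊓ H31.isom (H31.hermB hq _))).comap
    (H31.glEquiv (Fin (2 * m)) F).toMonoidHom
  have h3 : S ≤ GU (2 * m) F q := fun g hg => (H31.mem_GU_iff hq).mp hg.2.2
  have h4 : S ≤ Geo.decompositionStabilizer D := fun g hg => ⟨1, Fin.forall_fin_two.mpr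
    ⟨H31.mem_stab_iff_map_eq.mp hg.1, H31.mem_stab_iff_map_eq.mp hg.2.1⟩⟩
  have : (Geo.specialLinear (Fin (2 * m)) F).Normal := MonoidHom.normal_ker _
  have h5 := hΩ.trans ((Subgroup.relIndex_dvd_of_le_left _ h4).trans (relIndex_inf_dvd _ h3))
  have h6 := card_linearEquiv_dvd hB h0 h1 h2
  rw [← Nat.card_congr (H31.subgroupEquivOfIff (H := S) (H31.glEquiv (Fin (2 * m)) F)
    fun _ => Iff.rfl).toEquiv] at h6
  have h7 := Nat.mul_dvd_mul_left (S.relIndex (GU (2 * m) F q)) h6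
  have h8 := (lagr_of_sup hB h0 h1 h2).2.1
  rw [finrank_fin_fun] at h8
  rw [relIndex_mul_card h3, H31.card_GU hq, ordGU_two_mul,
    H27.card_linearEquiv (k := m) (by omega), hq] at h7
  obtain ⟨i, hi, h9⟩ := exists_dvd_of_mul_dvd hr.out (fun h => not_dvd_card_of_ne (F := F) hrp
    (hq ▸ dvd_pow h two_ne_zero)) (hq ▸ Fintype.one_lt_card) h7 h5
  have h10 := orderOf_neg_dvd_of_dvd (odd_two_mul_add_one i) h9
  exact ⟨(odd_two_mul_add_one i).of_dvd_nat h10, (Nat.le_of_dvd (by omega) h10).trans (by omega)⟩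

/-- Elements of prime order of PSU_n(q) and the stabilizers of pairs of complementary totally singular subspaces. Here `T = PSU_n(q)` is realised through `SU_n(q)`, the matrices of determinant 1 over the field `F` with `q²` elements preserving the hermitian form `Σ uᵢ vᵢ^q`, with `n ≥ 4` even; `D` is a pair of complementary subspaces of dimension `n/2` on each of which the form vanishes identically, and `H` is the subgroup of `SU_n(q)` fixing or interchanging the two members — a subgroup of type GL_{n/2}(q²).2 (maximality is not assumed). Ω is the set of cosets of `H`, so an element of `T` of prime order `r` (`x ∈ SU_n(q)` with `x^r` scalar, `x` not scalar) fixes a point of Ω exactly when some `SU_n(q)`-conjugate of `x` lies in `H`. Let `r` be a prime dividing the index of `H`. Then every element of `T` of order `r` fixes a point of Ω if and only if `r = 2`, `q` is odd and `(q + 1)_2 ≤ (n)_2` (2-parts). -/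
theorem result {F : Type*} [Field F] [Fintype F] {p : ℕ} [Fact p.Prime] [CharP F p] {q : ℕ} (hq : Fintype.card F = q ^ 2)
    (n : ℕ) (hn : 4 ≤ n) (he : Even n) (D : Fin 2 → Submodule F (Fin n → F)) (hD : Cfsg.Geo.IsMDecomposition (n / 2) D)
    (hDs : ∀ i, Cfsg.Geo.IsTotallySingularFor (Cfsg.hermForm n F q) (D i))
    (r : ℕ) [Fact r.Prime]
    (hΩ : r ∣ (Cfsg.Geo.decompositionStabilizer D).relIndex (Cfsg.GU n F q ⊓ Cfsg.Geo.specialLinear (Fin n) F)) :
    (∀ x ∈ Cfsg.GU n F q ⊓ Cfsg.Geo.specialLinear (Fin n) F, (∃ z : F, ((x ^ r : GL (Fin n) F) : Matrix (Fin n) (Fin n) F) = z • (1 : Matrix (Fin n) (Fin n) F)) →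
      (∀ z : F, (x : Matrix (Fin n) (Fin n) F) ≠ z • (1 : Matrix (Fin n) (Fin n) F)) →
      ∃ g ∈ Cfsg.GU n F q ⊓ Cfsg.Geo.specialLinear (Fin n) F, g⁻¹ * x * g ∈ Cfsg.Geo.decompositionStabilizer D) ↔
    (r = 2 ∧ Odd q ∧ padicValNat 2 (q + 1) ≤ padicValNat 2 n) := by
  classical
  have hr : r.Prime := Fact.out
  have hB := H76.isEForm_hermB hq n
  have hq2 := H31.two_le_of_card_sq hq
  have hL := dualLaw_frobQ (AlgebraicClosure F) hq
  obtain ⟨m, rfl⟩ := even_iff_two_dvd.mp he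
  have h0 : H31.TotIso (H31.hermB hq _) (D 0) := (H31.totIso_hermB_iff hq).mpr (hDs 0)
  have h1 : H31.TotIso (H31.hermB hq _) (D 1) := (H31.totIso_hermB_iff hq).mpr (hDs 1)
  have h2 : D 0 ⊔ D 1 = ⊤ := top_le_iff.mp (hD.iSup_eq_top ▸ iSup_le
    (Fin.forall_fin_two.mpr ⟨le_sup_left, le_sup_right⟩))
  have hG := sadm_gu_inf (L := AlgebraicClosure F) (n := 2 * m) hq
  have nec : (∀ x ∈ Cfsg.GU (2 * m) F q ⊓ Cfsg.Geo.specialLinear (Fin (2 * m)) F,
      (∃ z : F, ((x ^ r : GL (Fin (2 * m)) F) : Matrix (Fin (2 * m)) (Fin (2 * m)) F) =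
        z • (1 : Matrix (Fin (2 * m)) (Fin (2 * m)) F)) →
      (∀ z : F, (x : Matrix (Fin (2 * m)) (Fin (2 * m)) F) ≠
        z • (1 : Matrix (Fin (2 * m)) (Fin (2 * m)) F)) →
      ∃ g ∈ Cfsg.GU (2 * m) F q ⊓ Cfsg.Geo.specialLinear (Fin (2 * m)) F,
        g⁻¹ * x * g ∈ Cfsg.Geo.decompositionStabilizer D) →
      ∀ s : Multiset ((AlgebraicClosure F)ˣ × ℕ), PElt p (-(q : ℤ)) (2 * m) r s → H76.ddet s = 1 →
      (∃ t, t + t.map (H76.frob (-(q : ℤ))) ≤ s ∧ H76.Adm ((-(q : ℤ)) ^ 2) m t) ∨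
        (r = 2 ∧ ∀ c : F, Multiset.card (s.filter fun x => (x.1 : AlgebraicClosure F) =
          algebraMap F _ c) ≤ m) := by
    intro h s hs hd
    obtain ⟨x, hx, rfl, ⟨z, hz⟩, h3⟩ := exists_mem_of_pElt hG hs hd
    obtain ⟨g, hg, σ, h4⟩ := h x hx ⟨z, hz⟩ h3
    simp only [map_conj_eq_iff] at h4
    have h5 := (H76.mem_GU_iff_pres hq).mp hg.1
    have h6 := totIso_map_of_isom h5 h0
    have h7 := totIso_map_of_isom h5 h1
    have h8 := h2
    apply_fun Submodule.map (Matrix.toLin' (g : Matrix (Fin (2 * m)) (Fin (2 * m)) F)) at h8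
    rw [Submodule.map_sup, Submodule.map_top, LinearMap.range_eq_top (f := Matrix.toLin' _).mpr
      (H31.glEquiv _ F g).surjective] at h8
    obtain ⟨h9, h10, -⟩ := lagr_of_sup hB h6 h7 h8
    rw [Module.finrank_fin_fun] at h10
    replace h10 := Nat.eq_of_mul_eq_mul_left two_pos h10
    have h11 := hasJ_ujord (AlgebraicClosure F) x
    have h12 := h4 0
    have h13 := h4 1
    obtain ⟨h14, h15⟩ | ⟨h14, h15⟩ : (σ 0 = 0 ∧ σ 1 = 1) ∨ (σ 0 = 1 ∧ σ 1 = 0) := by
      clear h4 h12 h13; revert σ; decide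
    all_goals rw [h14] at h12; rw [h15] at h13
    · obtain ⟨t, h16, h17⟩ := h11.eq_add_dual hL hB ((H76.mem_GU_iff_pres hq).mp hx.1) h6 h7 h8
        h12 h13
      exact Or.inl ⟨t, h17.ge, by rwa [h10, card_cast_eq hq] at h16⟩
    refine Or.inr ⟨by_contra fun hr2 => ?_, fun c => ?_⟩
    · have : Nontrivial (Fin (2 * m) → F) := Module.nontrivial_of_finrank_pos (R := F) (by
        rw [Module.finrank_fin_fun]; omega)
      replace hz := (toLin'_pow_eq_smul_iff _ r z).mpr hz
      rw [eq_of_swap_of_odd (hr.odd_of_ne_two hr2) (by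
        rintro rfl; exact (h11.isUnit.pow r).ne_zero (by rw [hz, zero_smul])) hz h12 h13] at h9
      exact bot_ne_top ((disjoint_self.mp h9.1).symm.trans (codisjoint_self.mp h9.2))
    · have := finrank_ker_add_le_of_swap h11.isUnit h9.disjoint h12 c
      rw [h11.finrank_ker h11.pos, Module.finrank_fin_fun] at this
      omega
  by_cases hrp : r = p
  · subst hrp
    refine iff_of_false (fun h => ?_) fun ⟨h3, h4, _⟩ => h4.not_two_dvd_nat (Nat.Prime.dvd_of_dvd_pow
      Nat.prime_two (hq ▸ h3 ▸ Nat.card_eq_fintype_card (α := F) ▸ char_dvd_natCard F r))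
    obtain ⟨h3, h4⟩ := pElt_transvection (L := AlgebraicClosure F) (p := r) (Q := -(q : ℤ))
      (n := 2 * m) (by omega)
    rcases nec h _ h3 h4 with ⟨t, h5, h6⟩ | ⟨-, h5⟩
    · rw [map_frob_congr (Q' := 1) fun x hx => by
        rw [(mem_udata.mp (Multiset.mem_of_le h5 (Multiset.mem_add.mpr (Or.inl hx)))).1, one_zpow,
          one_zpow], map_frob_one, udata, Multiset.map_cons, Multiset.map_replicate,
        ← Multiset.singleton_add] at h5
      have h7 := wt_le_of_le (le_replicate_of_add_self_le (by simp) (by simp) h5)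
      rw [h6.wt_eq, H76.wt_replicate] at h7
      omega
    · have h6 := h5 1
      rw [Multiset.filter_eq_self.mpr fun x hx => by simp [(mem_udata.mp hx).1]] at h6
      simp [udata] at h6
      omega
  rcases eq_or_ne r 2 with rfl | hr2
  · have h3 : Odd q := by
      have := odd_card_cast (F := F) hrp
      rw [hq, Int.odd_coe_nat, Nat.odd_pow_iff two_ne_zero] at this
      exact this
    have h4 : (2 : ℤ) ∣ -(q : ℤ) - 1 := by obtain ⟨k, rfl⟩ := h3; exact ⟨-k - 1, by push_cast; ring⟩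
    have h5 : (-(q : ℤ) - 1).natAbs = q + 1 := by omega
    simp only [h3, true_and]
    refine ⟨fun h => le_of_not_gt fun h6 => ?_, fun h x hx h6 h7 => ?_⟩
    · obtain ⟨d, h7, h8⟩ := (exists_pow_eq_neg_one_iff (L := AlgebraicClosure F) (Q := -(q : ℤ))
        hrp (by omega) (by omega)).mpr (h5 ▸ h6)
      obtain ⟨h9, h10⟩ := pElt_refl hrp h4 h7 one_pos (n := 2 * m) (by omega)
      rcases nec h _ h9 (by rw [h10, h8]; simp) with ⟨t, h11, h12⟩ | ⟨-, h11⟩
      · rw [(unif_one_of_le ((unif_replicate (neg_zpow_eq h4 h7) 1).add (unif_replicate h7 _))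
          ((Multiset.le_add_right _ _).trans h11)).adm.stab] at h11
        have h13 := wt_le_of_le (le_replicate_of_add_self_le (o := Multiset.replicate 1 (-d, 1))
          (a := (d, 1)) (by simp) (by simp [(units_neg_ne_self hrp d).symm]) h11)
        rw [h12.wt_eq, H76.wt_replicate] at h13
        omega
      · obtain ⟨c, hc⟩ := exists_algebraMap_eq (F := F) (d := d) (by
          rw [card_cast_eq hq, zpow_pow_eq_self h7])
        have h12 := h11 c
        rw [Multiset.filter_add, Multiset.card_add, (Multiset.filter_eq_self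
          (s := Multiset.replicate (2 * m - 1) (d, 1))).mpr fun x hx => by
            rw [Multiset.eq_of_mem_replicate hx, hc], Multiset.card_replicate] at h12
        omega
    · obtain ⟨h8, h9⟩ := pElt_of_mem hG hx h6 h7
      obtain ⟨t, h10, h11⟩ := (forall_pElt_ti_two hrp h4 (by omega) (by omega) le_rfl).mpr
        (Or.inr (h5 ▸ h)) _ h8 h9
      obtain ⟨u, h12⟩ := Multiset.le_iff_exists_add.mp h10
      have h13 := congrArg H76.wt h12
      rw [h8.adm.wt_eq, H76.wt_add, H76.wt_add, wt_map_frob, h11.wt_eq] at h13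
      rw [H76.eq_zero_of_wt_eq_zero (s := u) (fun y hy => h8.adm.pos y
        (h12 ▸ Multiset.mem_add.mpr (Or.inr hy))) (by omega), add_zero] at h12
      obtain ⟨U, W, -, h14, h15, h16, h17, h18⟩ := (hasJOn_top.mpr (h12 ▸ hasJ_ujord _ x)).exists_hyp
        hL hB ((H76.mem_GU_iff_pres hq).mp hx.1) (ef_nondegOn_top hB) (freeD_frobQ hq _)
        (card_cast_eq hq ▸ h11)
      obtain ⟨e, h19, h20, h21⟩ := exists_isom_pair' hB h0 h1 h2 h15 h16 h14
      obtain ⟨g, rfl⟩ := (H31.glEquiv _ F).surjective e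
      obtain ⟨y, hy, -⟩ := h8.exists_ne Fact.out hr hrp
      obtain ⟨k, h22, h23⟩ := exists_gu_inf_conj p hq hx ((H31.mem_GU_iff hq).mp h19) hy
        (h8.one Fact.out hr hrp y hy)
      have hu := (hasJ_ujord (AlgebraicClosure F) x).isUnit
      rw [H31.coe_glEquiv] at h20 h21
      exact ⟨k, h22, 1, h23 ▸ Fin.forall_fin_two.mpr ⟨map_conj_eq_iff.mpr (by
        simpa [h20] using map_eq_of_inv hu h17.inv), map_conj_eq_iff.mpr (by
        simpa [h21] using map_eq_of_inv hu h18.inv)⟩⟩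
  refine iff_of_false (fun h => ?_) fun h => hr2 h.1
  replace h := fun s hs hd => (nec h s hs hd).resolve_right fun h => hr2 h.1
  obtain ⟨h3, h4⟩ := index_cond hq h0 h1 h2 hrp hΩ
  have h5 := orderOf_zmod_lt (neg_q_ne_zero hq hrp)
  have h6 := hr.two_le
  by_cases h7 : orderOf ((-(q : ℤ) : ℤ) : ZMod r) = 1
  · have := ((forall_pElt_ti_one hr hrp hr2 (dvd_sub_one_iff.mpr h7) (by omega) (by omega)
      le_rfl).mp h).1
    omega
  rw [forall_pElt_ti_odd hr hrp rfl h3 h7 le_rfl] at h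
  generalize orderOf ((-(q : ℤ) : ℤ) : ZMod r) = c at *
  have h8 := Nat.mod_lt (2 * m) h3.pos
  obtain h | ⟨h9, h | h⟩ := h
  · omega
  · rw [Nat.mod_eq_of_lt h] at h9
    omega
  have h10 := (eq_mod_div (i := c) (e := 2 * (m % c)) (b := 2 * (m / c)) (m := 2 * m) (by omega) (by
    rw [mul_left_comm, ← mul_add, Nat.mod_add_div])).2
  have := Nat.div_pos (show c ≤ r - 1 by omega) h3.pos
  omega

end Cfsg.Agent.S5984
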