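import Cfsg.Statements.S5987
import Cfsg.Agent.H28.EloAr2

set_option autoImplicit false
open scoped MatrixGroups
open Cfsg

namespace Cfsg.Agent.S5987

open Cfsg.Agent.H28 in
theorem ar₃ {h d m : ℕ} (h1 : h ≤ 1) (h2 : m < d) : AT2 h (2 * d) 1 m := by
  unfold AT2 TSx
  obtain rfl | rfl : h = 0 ∨ h = 1 := by omega
  · exact fun k _ _ => ⟨m - min m k, min m k, by omega⟩
  · exact fun k _ _ => ⟨m - min m (k - k % 2), min m (k - k % 2), by omega⟩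

/-- Elements of prime order of PΩ⁻_n(q) with no fixed totally singular `m`-space. Here `T = PΩ⁻_n(F)`, `n = 2d ≥ 8`, realised through `Ω⁻_n(q)`, the commutator subgroup of the isometry group of `Q = Σ_{i<d−1} xᵢyᵢ + z₁² + a z₁z₂ + b z₂²` with `z₁² + a z₁z₂ + b z₂²` anisotropic, over the field `F` with `q` elements; an element of `T` of prime order `r` is an element `x` of `Ω⁻_n(q)` with `x^r` scalar and `x` not scalar. Let `1 ≤ m ≤ d − 1` and let `r` be a prime dividing the number of totally singular `m`-spaces (subspaces of dimension `m` on which `Q` vanishes); for `r ≠ p` let `i` be the multiplicative order of `q` modulo `r`, `c = i` for `i` even and `c = 2i` for `i` odd, and write `k = n mod c`, `ℓ = m mod i`, `n' = ⌊n/i⌋`, `m' = ⌊m/i⌋`, `t = (r−1)/i`. Then every element of `T` of order `r` fixes some totally singular `m`-space if and only if one of: (i)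 `r = 2 ≠ p` and (`n ≡ 0 (mod 4)`, or `m` is even, or `q ≢ 7 (mod 8)`); (ii) `r ≠ p` odd, `i` odd, `i ≤ m` and (`k = 0` or `k > 2ℓ`); (iii) `r ≠ p` odd, `i` even, `i ≤ m`, `n' − 2m' ≥ t`, and one of: (a) `i ≥ 2ℓ`, `k = 0`, `n/i` even and `n' − 2m' > t` (all four); (b) `k ≥ 2ℓ` and `n'` odd; (c) `k > 2ℓ` and `n'` even. -/
theorem result {F : Type*} [Field F] [Fintype F] {p : ℕ} [Fact p.Prime] [CharP F p] {q : ℕ} (hq : Fintype.card F = q)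
    (d m : ℕ) (hd : 4 ≤ d) (hm : 1 ≤ m) (hmd : m + 1 ≤ d) (a b : F) (hab : ∀ x y : F, x ^ 2 + a * x * y + b * y ^ 2 = 0 → x = 0 ∧ y = 0)
    (r : ℕ) [Fact r.Prime]
    (hrΩ : r ∣ Nat.card {W : Submodule F ((Fin (d - 1) ⊕ Fin (d - 1)) ⊕ Fin 2 → F) // Module.finrank F ↥W = m ∧ Cfsg.Geo.IsTotallySingularQuad (Cfsg.quadFormMinus (d - 1) F a b) W})
    (i c : ℕ) (hi : i = orderOf (q : ZMod r)) (hc : c = if Even i then i else 2 * i) :
    (∀ x : GL ((Fin (d - 1) ⊕ Fin (d - 1)) ⊕ Fin 2) F, x ∈ Cfsg.Geo.omegaGL (Cfsg.quadFormMinus (d - 1) F a b) →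
      (∃ z : F, ((x ^ r : GL ((Fin (d - 1) ⊕ Fin (d - 1)) ⊕ Fin 2) F) : Matrix ((Fin (d - 1) ⊕ Fin (d - 1)) ⊕ Fin 2) ((Fin (d - 1) ⊕ Fin (d - 1)) ⊕ Fin 2) F) = z • (1 : Matrix ((Fin (d - 1) ⊕ Fin (d - 1)) ⊕ Fin 2) ((Fin (d - 1) ⊕ Fin (d - 1)) ⊕ Fin 2) F)) →
      (∀ z : F, (x : Matrix ((Fin (d - 1) ⊕ Fin (d - 1)) ⊕ Fin 2) ((Fin (d - 1) ⊕ Fin (d - 1)) ⊕ Fin 2) F) ≠ z • (1 : Matrix ((Fin (d - 1) ⊕ Fin (d - 1)) ⊕ Fin 2) ((Fin (d - 1) ⊕ Fin (d - 1)) ⊕ Fin 2) F)) →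
      ∃ W : Submodule F ((Fin (d - 1) ⊕ Fin (d - 1)) ⊕ Fin 2 → F), (Module.finrank F ↥W = m ∧ Cfsg.Geo.IsTotallySingularQuad (Cfsg.quadFormMinus (d - 1) F a b) W) ∧ W.map (Matrix.toLin' (x : Matrix ((Fin (d - 1) ⊕ Fin (d - 1)) ⊕ Fin 2) ((Fin (d - 1) ⊕ Fin (d - 1)) ⊕ Fin 2) F)) ≤ W) ↔
    ((r = 2 ∧ p ≠ 2 ∧ (Even d ∨ Even m ∨ q % 8 ≠ 7)) ∨
     (r ≠ p ∧ 2 < r ∧ Odd i ∧ i ≤ m ∧ ((2 * d) % c = 0 ∨ 2 * (m % i) < (2 * d) % c)) ∨
     (r ≠ p ∧ 2 < r ∧ Even i ∧ i ≤ m ∧ (r - 1) / i + 2 * (m / i) ≤ (2 * d) / i ∧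
       ((2 * (m % i) ≤ i ∧ (2 * d) % c = 0 ∧ Even ((2 * d) / i) ∧ (r - 1) / i + 2 * (m / i) < (2 * d) / i) ∨
        (2 * (m % i) ≤ (2 * d) % c ∧ Odd ((2 * d) / i)) ∨
        (2 * (m % i) < (2 * d) % c ∧ Even ((2 * d) / i))))) := by
  open Cfsg.Agent.H28 Cfsg.Agent.H30 in
  subst hq hc
  have hQ := qMinus_nondegenerate (F := F) (d - 1) hab
  rw [← coe_qMinus] at hrΩ ⊢
  unfold Geo.IsTotallySingularQuad at *
  rw [el_iff hQ (by simp; omega)]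
  have hn := finrank_minus (F := F) (d := d) (by omega)
  have h0 := hn ▸ (show 2 * m < 2 * d by omega)
  obtain ⟨hrp, h5⟩ := ht_of_dvd (p := p) hQ hi.symm h0 hrΩ
  by_cases hr2 : r = 2
  · subst hr2
    have h1 := (odd_card_iff_char (F := F)).2 hrp.symm
    rw [two_ts ((two_eq_zero_iff_char (p := p)).not.2 hrp.symm) hQ h0, hn, E2, tpw_qMinus _ hab,
      and_iff_right (ar₃ hh_le_one hmd), Nat.even_iff, Nat.even_iff]
    simp only [lt_self_iff_false, false_and, and_false, or_false, true_and]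
    rcases hh_cases F with ⟨h, h'⟩ | ⟨h, h'⟩ <;> rw [h] <;> omega
  obtain ⟨h3, h4, h7, h6⟩ := el_ts_odd hQ hr2 hrp (m := m) hi.symm
  replace h5 := h5 hr2
  rw [hn] at h0 h5 h6
  rw [tpw_qMinus _ hab] at h5 h6
  rw [h6, ← cc, TT]
  rcases cc_ss i with ⟨h8, h9, h10, h11⟩ | ⟨h8, h9, h10, h11⟩ <;> rw [h10, h11] at h5 <;>
    rw [h10] <;> simp only [hr2, hrp, h3, h8, h9, ne_eq, not_false_eq_true, false_and,
      true_and, false_or, or_false, and_true, if_true, if_false, Nat.even_iff (n := _ / i),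
      Nat.odd_iff (n := _ / i)]
  · rw [at_iff₃ h4 (h7 h8) h5 h0]
    omega
  · rw [at_iff₃' h4 h5 h0]
    omega

end Cfsg.Agent.S5987
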