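import Cfsg.Statements.S5988
import Cfsg.Agent.H28.EloInv

set_option autoImplicit false
open scoped MatrixGroups
open Cfsg

namespace Cfsg.Agent.S5988

/-- Elements of prime order of PΩ⁺_n(q) with no fixed elliptic `m`-space. Here `T = PΩ⁺_n(F)`, `n = 2d ≥ 8`, realised through `Ω⁺_n(q)`, the commutator subgroup of the isometry group of `Q = Σ xᵢyᵢ` over the field `F` with `q` elements; an element of `T` of prime order `r` is an element `x` of `Ω⁺_n(q)` with `x^r` scalar and `x` not scalar; a nondegenerate `m`-space (even `m`) is a subspace on which the polar form of `Q` is nondegenerate; it is hyperbolic if it contains an `m/2`-dimensional subspace on which `Q` vanishes, elliptic otherwise. Let `m` be even with `2 ≤ m < n/2` and let `r` be a prime dividing the number of elliptic `m`-spaces; for `r ≠ p` let `i` be the multiplicative order of `q` modulo `r`, `c = i` for `i` even and `c = 2i` for `i` odd, and write `k =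 n mod c`, `ℓ = m mod i`, `ℓ' = m mod c`, `n' = ⌊n/i⌋`, `m' = ⌊m/i⌋`, `t = (r−1)/i`. Then every element of `T` of order `r` fixes some elliptic `m`-space if and only if one of: (i) `r = 2 ≠ p` and either `n ≡ 0 (mod 4)`, `q ≡ 3 (mod 4)` and `m ≡ 2 (mod 4)`, or `n ≡ 2 (mod 4)` and `q ≢ 1 (mod 8)`; (ii) `r ≠ p` odd, `i` odd, `c ≤ m` and `k > ℓ' > 0`; (iii) `r ≠ p` odd, `i` even, and either `k = 0` and (`n/i` odd, or `ℓ' = 0` and `m/i` odd), or `i ≤ m` and (`k > ℓ' > 0`, or `k = ℓ' > 0` and `(n + m − 2k)/i` odd, or `k > ℓ' = 0` and `m/i` odd). (For `r = p` there is always an element of order `p` fixing no elliptic `m`-space.) -/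
theorem result {F : Type*} [Field F] [Fintype F] {p : ℕ} [Fact p.Prime] [CharP F p] {q : ℕ} (hq : Fintype.card F = q)
    (d m : ℕ) (hd : 4 ≤ d) (hm : 2 ≤ m) (hme : Even m) (hmd : m < d)
    (r : ℕ) [Fact r.Prime]
    (hrΩ : r ∣ Nat.card {W : Submodule F (Fin d ⊕ Fin d → F) // Module.finrank F ↥W = m ∧ Cfsg.Geo.IsNondegenerateOn (QuadraticMap.polar (Cfsg.quadFormPlus d F)) W ∧ ¬ Cfsg.Geo.IsPlusTypeOn (Cfsg.quadFormPlus d F) W})
    (i c : ℕ) (hi : i = orderOf (q : ZMod r)) (hc : c = if Even i then i else 2 * i) :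
    (∀ x : GL (Fin d ⊕ Fin d) F, x ∈ Cfsg.Geo.omegaGL (Cfsg.quadFormPlus d F) →
      (∃ z : F, ((x ^ r : GL (Fin d ⊕ Fin d) F) : Matrix (Fin d ⊕ Fin d) (Fin d ⊕ Fin d) F) = z • (1 : Matrix (Fin d ⊕ Fin d) (Fin d ⊕ Fin d) F)) →
      (∀ z : F, (x : Matrix (Fin d ⊕ Fin d) (Fin d ⊕ Fin d) F) ≠ z • (1 : Matrix (Fin d ⊕ Fin d) (Fin d ⊕ Fin d) F)) →
      ∃ W : Submodule F (Fin d ⊕ Fin d → F), (Module.finrank F ↥W = m ∧ Cfsg.Geo.IsNondegenerateOn (QuadraticMap.polar (Cfsg.quadFormPlus d F)) W ∧ ¬ Cfsg.Geo.IsPlusTypeOn (Cfsg.quadFormPlus d F) W) ∧ W.map (Matrix.toLin' (x : Matrix (Fin d ⊕ Fin d) (Fin d ⊕ Fin d) F)) ≤ W) ↔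
    ((r = 2 ∧ p ≠ 2 ∧ ((Even d ∧ q % 4 = 3 ∧ m % 4 = 2) ∨ (Odd d ∧ q % 8 ≠ 1))) ∨
     (r ≠ p ∧ 2 < r ∧ Odd i ∧ c ≤ m ∧ 0 < m % c ∧ m % c < (2 * d) % c) ∨
     (r ≠ p ∧ 2 < r ∧ Even i ∧
       (((2 * d) % c = 0 ∧ (Odd ((2 * d) / i) ∨ (m % c = 0 ∧ Odd (m / i)))) ∨
        (i ≤ m ∧ ((0 < m % c ∧ m % c < (2 * d) % c) ∨
                  (0 < m % c ∧ m % c = (2 * d) % c ∧ Odd ((2 * d + m - 2 * ((2 * d) % c)) / i)) ∨
                  (m % c = 0 ∧ 0 < (2 * d) % c ∧ Odd (m / i))))))) := by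
  open Cfsg.Agent.H28 Cfsg.Agent.H30 in
  subst hq hc
  have hQ := qPlus_nondegenerate (F := F) d
  have hn := finrank_plus (F := F) d
  rw [← coe_qPlus] at hrΩ ⊢
  simp only [minus_iff_ndt hme] at hrΩ ⊢
  rw [el_iff hQ (by simp; omega)]
  have h0 := Nat.even_iff.1 hme
  by_cases hr2 : r = 2
  · subst hr2
    simp only [lt_self_iff_false, false_and, and_false, or_false, true_and]
    have h1 := odd_card_iff_char (F := F) (p := p)
    rw [Nat.even_iff, Nat.odd_iff]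
    by_cases h2 : (2 : F) = 0
    · rw [char_two_nd h2 hQ h0 (by omega) (by omega), hn, tpw_qPlus,
        ai_iff hd h0 (by omega) (by omega) (by omega) (by omega)]
      have := two_eq_zero_iff_char (p := p).1 h2
      omega
    · rw [two_nd h2 hQ (by omega) (by omega), hn, E2, tpw_qPlus]
      have := two_eq_zero_iff_char (p := p).not.1 h2
      rcases hh_cases F with ⟨h, h'⟩ | ⟨h, h'⟩ <;> rw [h] <;> omega
  by_cases hrp : r = p
  · subst hrp
    refine iff_of_false (fun H => ?_) (by simp [hr2])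
    obtain ⟨o₁, o₂, j₁, j₂, h6, h7, -, h8, h9⟩ := H.two hr2 (μ := {1, 3 - 2 * (d % 2)})
      (k := (d - 1) / 2) (by simp; omega) (by simp) (by omega) (by simp; omega)
    rw [tpw_qPlus] at h9
    rcases add_eq_pair h6 with ⟨rfl, rfl⟩ | ⟨rfl, rfl⟩ | ⟨rfl, rfl⟩ | ⟨rfl, rfl⟩ <;>
      simp at h7 h8 h9 <;> omega
  obtain ⟨h3, h4, h5, h6⟩ := el_nd_odd hQ hr2 hrp hi.symm (fun _ => hme) hrΩ
  rw [hn, tpw_qPlus] at h5 h6
  rw [h6, an_iff₃ (cc_pos h4) (ss_cases i) h5 (by omega) (by omega), ← cc]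
  have h15 : m % i = 0 → i ≤ m := fun h => Nat.le_of_dvd (by omega) (Nat.dvd_of_mod_eq_zero h)
  have h14 := add_sub_div (n := 2 * d) (m := m) h4
  rcases cc_ss i with ⟨h8, h9, h10, h11⟩ | ⟨h8, h9, h10, h11⟩ <;>
    simp only [hr2, hrp, h3, h8, h9, h10, h11, ne_eq, not_false_eq_true, false_and,
      true_and, false_or, or_false, Nat.odd_iff (n := _ / i), Nat.even_iff (n := _ / i)]
  · generalize (2 * d + m - 2 * (2 * d % i)) / i = X at *
    generalize 2 * d / i = N at *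
    generalize m / i = M at *
    generalize 2 * d % i = k at *
    generalize m % i = l at *
    omega
  · generalize 2 * d % (2 * i) = k at *
    generalize m % (2 * i) = l at *
    omega

end Cfsg.Agent.S5988
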