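import Cfsg.Statements.S5992
import Cfsg.Agent.H28.EloAr

set_option autoImplicit false
open scoped MatrixGroups
open Cfsg

namespace Cfsg.Agent.S5992

open Cfsg.Agent.H28 in
theorem ar {c s n ε m : ℕ} (hc : 0 < c) (he : Even c) (hn : n % 2 = 1) (hm : m % 2 = 0)
    (h1 : 0 < m) (h2 : m < n) (hs : s = 0 ∨ s = 1) (h : HN c s n ε m 0) :
    AN c s n ε m 0 ↔ c ≤ m ∧ m % c < n % c ∧ (0 < m % c ∨ s = 0 ∨ m / c % 2 = 0) := by
  rw [hn_iff hc] at h
  rw [an_iff hc, le_iff_div_pos hc]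
  rw [lt_iff_div hc] at h2
  rw [pos_iff_div hc] at h1
  rw [← mod_mod_two he] at hn hm
  obtain ⟨a, h⟩ := h
  generalize n / c = N at *
  generalize m / c = M at *
  generalize n % c = k at *
  generalize m % c = l at *
  unfold SubL at *
  rcases hs with rfl | rfl
  · exact ⟨fun H => by have := H N; omega, fun H a => by omega⟩
  · exact ⟨fun H => by have := H N; omega, fun H a => by omega⟩

/-- Elements of prime order r ≠ p of Ω_n(q), nq odd, with no fixed hyperbolic `m`-space. Here `T = Ω_n(F)`, `n = 2d+1 ≥ 7`, `q` odd, realised as the commutator subgroup of the isometry group of `Q = x₀² + Σ xᵢyᵢ` over the field `F` with `q` elements (trivial centre, so its elements of prime order `r` are used directly); a nondegenerate `m`-space (even `m`) is a subspace on which the polar form of `Q` is nondegenerate; it is hyperbolic if it contains an `m/2`-dimensional subspace on which `Q` vanishes, elliptic otherwise. Let `m` be even with `2 ≤ m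 ≤ n − 1` (no restriction `m < n/2`) and let `r ≠ p` be a prime dividing the number of hyperbolic `m`-spaces; for `r ≠ p` let `i` be the multiplicative order of `q` modulo `r`, `c = i` for `i` even and `c = 2i` for `i` odd, and write `k = n mod c`, `ℓ' = m mod c`. Then every element of `T` of order `r` fixes some hyperbolic `m`-space if and only if `r = 2`, or `r` is odd and one of: (i) `i` odd, `c ≤ m` and either `k > ℓ' > 0` or `ℓ' = 0`; (ii) `i` even, `i ≤ m`, `k > ℓ'`, and `m/i` even whenever `ℓ' = 0`. (`r = p` is not covered by this statement.) -/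
theorem result {F : Type*} [Field F] [Fintype F] {p : ℕ} [Fact p.Prime] [CharP F p] {q : ℕ} (hq : Fintype.card F = q) (hqodd : Odd q)
    (d m : ℕ) (hd : 3 ≤ d) (hm : 2 ≤ m) (hme : Even m) (hmn : m ≤ 2 * d)
    (r : ℕ) [Fact r.Prime] (hrp : r ≠ p)
    (hrΩ : r ∣ Nat.card {W : Submodule F (Unit ⊕ (Fin d ⊕ Fin d) → F) // Module.finrank F ↥W = m ∧ Cfsg.Geo.IsNondegenerateOn (QuadraticMap.polar (Cfsg.quadFormOdd d F)) W ∧ Cfsg.Geo.IsPlusTypeOn (Cfsg.quadFormOdd d F) W})
    (i c : ℕ) (hi : i = orderOf (q : ZMod r)) (hc : c = if Even i then i else 2 * i) :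
    (∀ x : GL (Unit ⊕ (Fin d ⊕ Fin d)) F, x ∈ Cfsg.Geo.omegaGL (Cfsg.quadFormOdd d F) → orderOf x = r →
      ∃ W : Submodule F (Unit ⊕ (Fin d ⊕ Fin d) → F), (Module.finrank F ↥W = m ∧ Cfsg.Geo.IsNondegenerateOn (QuadraticMap.polar (Cfsg.quadFormOdd d F)) W ∧ Cfsg.Geo.IsPlusTypeOn (Cfsg.quadFormOdd d F) W) ∧ W.map (Matrix.toLin' (x : Matrix (Unit ⊕ (Fin d ⊕ Fin d)) (Unit ⊕ (Fin d ⊕ Fin d)) F)) ≤ W) ↔
    (r = 2 ∨
     (2 < r ∧ Odd i ∧ c ≤ m ∧ (m % c = 0 ∨ (0 < m % c ∧ m % c < (2 * d + 1) % c))) ∨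
     (2 < r ∧ Even i ∧ i ≤ m ∧ m % c < (2 * d + 1) % c ∧ (0 < m % c ∨ Even (m / i)))) := by
  open Cfsg.Agent.H28 Cfsg.Agent.H30 in
  subst hq hc
  have h2 := two_ne_zero_iff_odd_card.2 hqodd
  have hQ := qOdd_nondegenerate h2 d
  rw [← coe_qOdd] at hrΩ ⊢
  simp only [plus_iff_ndt hme] at hrΩ ⊢
  rw [el_iff' hQ (by simp; omega) h2 (by simp [parity_simps])]
  by_cases hr2 : r = 2
  · subst hr2
    rw [two_nd h2 hQ (by omega) (by rw [finrank_odd]; omega), finrank_odd, E2]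
    omega
  obtain ⟨h3, h4, h5, h6⟩ := el_nd_odd hQ hr2 hrp hi.symm (fun _ => hme) hrΩ
  rw [finrank_odd] at h5 h6
  rw [h6, ar (cc_pos h4) (even_cc i) (by omega) (Nat.even_iff.1 hme) (by omega) (by omega)
    (by unfold ss; split_ifs <;> simp) h5, ← cc]
  have h7 := mod_mod_two (even_cc i) (2 * d + 1)
  rcases cc_ss i with ⟨h8, h9, h10, h11⟩ | ⟨h8, h9, h10, h11⟩ <;>
    simp only [h8, h9, h10, h11, Nat.even_iff, hr2, h3] at h7 ⊢ <;> simp
  omega

end Cfsg.Agent.S5992
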