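import Cfsg.Statements.S5993
import Cfsg.Agent.H28.EloUni

set_option autoImplicit false
open scoped MatrixGroups
open Cfsg

namespace Cfsg.Agent.S5993

/-- Elements of prime order of Ω_n(q), nq odd, with no fixed elliptic `m`-space. Here `T = Ω_n(F)`, `n = 2d+1 ≥ 7`, `q` odd, realised as the commutator subgroup of the isometry group of `Q = x₀² + Σ xᵢyᵢ` over the field `F` with `q` elements (trivial centre, so its elements of prime order `r` are used directly); a nondegenerate `m`-space (even `m`) is a subspace on which the polar form of `Q` is nondegenerate; it is hyperbolic if it contains an `m/2`-dimensional subspace on which `Q` vanishes, elliptic otherwise. Let `m` be even with `2 ≤ m ≤ n − 1` (no restriction `m < n/2`) and let `r` be a prime dividing the number of elliptic `m`-spaces; for `r ≠ p` let `i` be the multiplicative order of `q` modulo `r`, `c = i` for `i` even and `c = 2i` for `i` odd, and write `k = n mod c`, `ℓ' = m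 mod c`. Then every element of `T` of order `r` fixes some elliptic `m`-space if and only if `r = 2`, or `r ≠ p` is odd and one of: (i) `i` odd, `c ≤ m` and `k > ℓ' > 0`; (ii) `i` even, `i ≤ m`, `k > ℓ'`, and `m/i` odd whenever `ℓ' = 0`. (For `r = p` there is always an element of order `p` fixing no elliptic `m`-space.) -/
theorem result {F : Type*} [Field F] [Fintype F] {p : ℕ} [Fact p.Prime] [CharP F p] {q : ℕ} (hq : Fintype.card F = q) (hqodd : Odd q)
    (d m : ℕ) (hd : 3 ≤ d) (hm : 2 ≤ m) (hme : Even m) (hmn : m ≤ 2 * d)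
    (r : ℕ) [Fact r.Prime]
    (hrΩ : r ∣ Nat.card {W : Submodule F (Unit ⊕ (Fin d ⊕ Fin d) → F) // Module.finrank F ↥W = m ∧ Cfsg.Geo.IsNondegenerateOn (QuadraticMap.polar (Cfsg.quadFormOdd d F)) W ∧ ¬ Cfsg.Geo.IsPlusTypeOn (Cfsg.quadFormOdd d F) W})
    (i c : ℕ) (hi : i = orderOf (q : ZMod r)) (hc : c = if Even i then i else 2 * i) :
    (∀ x : GL (Unit ⊕ (Fin d ⊕ Fin d)) F, x ∈ Cfsg.Geo.omegaGL (Cfsg.quadFormOdd d F) → orderOf x = r →
      ∃ W : Submodule F (Unit ⊕ (Fin d ⊕ Fin d) → F), (Module.finrank F ↥W = m ∧ Cfsg.Geo.IsNondegenerateOn (QuadraticMap.polar (Cfsg.quadFormOdd d F)) W ∧ ¬ Cfsg.Geo.IsPlusTypeOn (Cfsg.quadFormOdd d F) W) ∧ W.map (Matrix.toLin' (x : Matrix (Unit ⊕ (Fin d ⊕ Fin d)) (Unit ⊕ (Fin d ⊕ Fin d)) F)) ≤ W) ↔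
    (r = 2 ∨
     (r ≠ p ∧ 2 < r ∧ Odd i ∧ c ≤ m ∧ 0 < m % c ∧ m % c < (2 * d + 1) % c) ∨
     (r ≠ p ∧ 2 < r ∧ Even i ∧ i ≤ m ∧ m % c < (2 * d + 1) % c ∧ (0 < m % c ∨ Odd (m / i)))) := by
  open Cfsg.Agent.H28 Cfsg.Agent.H30 in
  subst hq hc
  have h2 := two_ne_zero_iff_odd_card.2 hqodd
  have hp2 : p ≠ 2 := odd_card_iff_char.1 (Nat.odd_iff.1 hqodd)
  have hQ := qOdd_nondegenerate h2 d
  rw [← coe_qOdd] at hrΩ ⊢
  simp only [minus_iff_ndt hme] at hrΩ ⊢
  rw [el_iff' hQ (by simp; omega) h2 (by simp [parity_simps])]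
  by_cases hr2 : r = 2
  · subst hr2
    rw [two_nd h2 hQ (by omega) (by rw [finrank_odd]; omega), finrank_odd, E2]
    exact iff_of_true (by omega) (Or.inl rfl)
  have h0 := Nat.even_iff.1 hme
  by_cases hrp : r = p
  · subst hrp
    refine iff_of_false (fun H => ?_) (by simp [hr2])
    obtain ⟨o₁, o₂, j₁, j₂, h6, h7, -, h8, -⟩ := H.two hp2 (μ := {2 * (d % 2) + 1}) (k := d / 2)
      (by simp; omega) (by simp) (by omega) (by rw [finrank_odd]; simp; omega)
    rcases add_eq_single h6 with ⟨rfl, rfl⟩ | ⟨rfl, rfl⟩ <;> simp at h7 h8 <;> omega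
  obtain ⟨h3, h4, h5, h6⟩ := el_nd_odd hQ hr2 hrp hi.symm (fun _ => hme) hrΩ
  rw [finrank_odd] at h5 h6
  rw [h6, an_iff₃ (cc_pos h4) (ss_cases i) h5 (by omega) (by omega), ← cc]
  have h7 := mod_mod_two (even_cc i) (2 * d + 1)
  have h12 := mod_mod_two (even_cc i) m
  rcases cc_ss i with ⟨h8, h9, h10, h11⟩ | ⟨h8, h9, h10, h11⟩ <;> rw [h10] at h7 h12 ⊢ <;>
    simp only [hr2, hrp, h3, h8, h9, h11, ne_eq, not_false_eq_true, false_and,
      true_and, false_or, or_false, Nat.odd_iff (n := _ / i)] <;> omega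

end Cfsg.Agent.S5993
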