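import Cfsg.Statements.S5997
import Cfsg.Agent.H29.Solvable

set_option autoImplicit false
open scoped MatrixGroups
open Cfsg

namespace Cfsg.Agent.S5997

/-- Elements of prime order of PSL_2(p) and the normalizer of a quaternion subgroup. Here `T = PSL_2(F)` for the field `F` with `p` elements, `p ≥ 5` prime; `R` is a subgroup of GL_2(F) isomorphic to the quaternion group of order 8 (an absolutely irreducible 2-group of symplectic type), and `H` is the subgroup of matrices of determinant 1 normalizing `R` — a subgroup of type 2^{1+2}.O₂⁻(2), isomorphic modulo scalars to A₄ or S₄ (maximality is not assumed). Ω is the set of cosets of `H` in `T`, so an element of `T` of prime order `r` (a matrix `x` of determinant 1 with `x^r` scalar, `x` not scalar) fixes a point of Ω exactly when some conjugate of `x` by a matrix of determinant 1 normalizes `R`. Let `r` be a prime dividing the index of `H`. Then every element of `T` of order `r` fixes a point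 of Ω if and only if `r = 2` or `r = 3`. -/
theorem result {F : Type*} [Field F] [Fintype F] {p : ℕ} [Fact p.Prime] [CharP F p] (hF : Fintype.card F = p) (hp : 5 ≤ p)
    (R : Subgroup (GL (Fin 2) F)) (hR : Nonempty (↥R ≃* QuaternionGroup 2))
    (r : ℕ) [Fact r.Prime]
    (hΩ : r ∣ (Cfsg.Geo.subgroupNormalizer R).relIndex (Cfsg.Geo.specialLinear (Fin 2) F)) :
    (∀ x ∈ Cfsg.Geo.specialLinear (Fin 2) F, (∃ z : F, ((x ^ r : GL (Fin 2) F) : Matrix (Fin 2) (Fin 2) F) = z • (1 : Matrix (Fin 2) (Fin 2) F)) →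
      (∀ z : F, (x : Matrix (Fin 2) (Fin 2) F) ≠ z • (1 : Matrix (Fin 2) (Fin 2) F)) →
      ∃ g ∈ Cfsg.Geo.specialLinear (Fin 2) F, g⁻¹ * x * g ∈ Cfsg.Geo.subgroupNormalizer R) ↔ (r = 2 ∨ r = 3) := by
  have := H29.finite_PGL2 (F := F)
  rw [← Nat.card_eq_fintype_card] at hF
  have hodd : Odd (Nat.card F) := hF ▸ (Fact.out : p.Prime).odd_of_ne_two (by omega)
  obtain ⟨a, b, hab, ha, hb, hN⟩ := H29.Q8_data (H29.odd_card_iff.1 hodd) hR.some
  have hc := hab.card_normalizer hodd ha hb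
  have hS : Cfsg.Geo.specialLinear (Fin 2) F = Matrix.SpecialLinearGroup.toGL.range :=
    SetLike.coe_injective Matrix.SpecialLinearGroup.range_toGL.symm
  have hz : ∀ x : GL (Fin 2) F, (∃ z : F, (x : Matrix (Fin 2) (Fin 2) F) =
      z • (1 : Matrix (Fin 2) (Fin 2) F)) ↔ H29.pmk x = 1 := by
    intro x
    rw [H29.pmk_eq_one_iff]
    constructor
    · rintro ⟨z, hz⟩
      simp [hz]
    · rintro ⟨h1, h2, h3⟩
      refine ⟨x 0 0, ?_⟩
      ext i j
      fin_cases i <;> fin_cases j <;> simp [h1, h2, h3]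
  have h1 : (∀ x ∈ Cfsg.Geo.specialLinear (Fin 2) F, (∃ z : F, ((x ^ r : GL (Fin 2) F) : Matrix (Fin 2) (Fin 2) F) = z • (1 : Matrix (Fin 2) (Fin 2) F)) →
      (∀ z : F, (x : Matrix (Fin 2) (Fin 2) F) ≠ z • (1 : Matrix (Fin 2) (Fin 2) F)) →
      ∃ g ∈ Cfsg.Geo.specialLinear (Fin 2) F, g⁻¹ * x * g ∈ Cfsg.Geo.subgroupNormalizer R) ↔
      ∀ t ∈ H29.Lsub F, t ^ r = 1 → t ≠ 1 → ∃ c ∈ H29.Lsub F,
        c * t * c⁻¹ ∈ Subgroup.normalizer (H29.klein a b : Set PGL(2, F)) := by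
    rw [Cfsg.Geo.subgroupNormalizer, hN, hS]
    constructor
    · rintro h _ ⟨x, rfl⟩ h1 h2
      obtain ⟨_, ⟨g, rfl⟩, hg⟩ := h _ ⟨x, rfl⟩ ((hz _).2 (by rw [map_pow]; exact h1))
        (fun z e => h2 ((hz _).1 ⟨z, e⟩))
      refine ⟨(H29.slp g)⁻¹, inv_mem ⟨g, rfl⟩, ?_⟩
      rw [Subgroup.mem_comap, map_mul, map_mul, map_inv] at hg
      rw [inv_inv]
      exact hg
    · rintro h _ ⟨x, rfl⟩ h1 h2
      obtain ⟨_, ⟨g, rfl⟩, hg⟩ := h _ ⟨x, rfl⟩ (by rw [hz, map_pow] at h1; exact h1)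
        (fun e => by obtain ⟨z, e⟩ := (hz _).2 e; exact h2 z e)
      refine ⟨_, inv_mem ⟨g, rfl⟩, ?_⟩
      rw [Subgroup.mem_comap, map_mul, map_mul, inv_inv, map_inv]
      exact hg
  rw [h1]
  have hr : r.Prime := Fact.out
  constructor
  · intro h
    by_cases h2 : r = 2
    · exact Or.inl h2
    have h3 := hΩ.trans (Subgroup.relIndex_dvd_card _ _)
    rw [hS, ← Nat.card_congr (MonoidHom.ofInjective Matrix.SpecialLinearGroup.toGL_injective).toEquiv,
      H29.card_SL2, ← H29.card_L_of_odd hodd] at h3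
    obtain ⟨t, ht, e⟩ := H29.exists_mem_orderOf_eq_prime _ hr
      (((Nat.coprime_primes hr Nat.prime_two).2 h2).dvd_of_dvd_mul_left h3)
    obtain ⟨c, -, hc'⟩ := h t ht (orderOf_dvd_iff_pow_eq_one.1 e.dvd)
      (by rintro rfl; exact hr.ne_one (by simpa using e.symm))
    have h4 := Subgroup.orderOf_dvd_natCard _ hc'
    rw [hc, show orderOf (c * t * c⁻¹) = orderOf t from (MulAut.conj c).orderOf_eq t, e,
      show 24 = 2 ^ 3 * 3 from rfl, hr.dvd_mul] at h4
    exact h4.imp (fun h => (Nat.prime_dvd_prime_iff_eq hr Nat.prime_two).1 (hr.dvd_of_dvd_pow h))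
      (Nat.prime_dvd_prime_iff_eq hr Nat.prime_three).1
  · rintro (rfl | rfl) t ht h2 h3
    · obtain ⟨c, hc', e⟩ := H29.invol_conj_L hodd ht ha h3 hab.a1 (by rw [← sq, h2]) hab.aa
      exact ⟨c, hc', e ▸ Subgroup.le_normalizer (H29.left_mem_klein _ _)⟩
    · obtain ⟨s, hs, e⟩ := H29.exists_mem_orderOf_eq_prime
        (Subgroup.normalizer (H29.klein a b : Set PGL(2, F))) Nat.prime_three (by rw [hc]; norm_num)
      obtain ⟨c, hc', e'⟩ := H29.order_three_conj_L (F := F) (fun h => by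
          have := Nat.le_of_dvd (by norm_num) ((CharP.cast_eq_zero_iff F p 3).1 (by exact_mod_cast h))
          omega) h3 (t' := s) (by rintro rfl; simp at e) h2 (orderOf_dvd_iff_pow_eq_one.1 e.dvd)
      exact ⟨c, hc', e' ▸ hs⟩

end Cfsg.Agent.S5997
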